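import Cfsg.Agent.H8.C6N
import Cfsg.Agent.H7.FormInSL2
import Cfsg.Agent.H7.Inst
import Cfsg.Agent.H2.SympType

/-!
Maximality of normalisers of extraspecial 2-groups in orthogonal, symplectic and linear groups.
-/

set_option autoImplicit false
set_option linter.unusedSectionVars false

namespace Cfsg.Agent.H8.C6

open Module H7 H7.Polar H7.Fr Tens QuadraticMap

variable {F : Type*} [Field F]

theorem max_of {A : Type*} [Ring A] {R K : Subgroup Aˣ} (h : ¬ K ≤ NR R)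
    (h' : ∀ X, K ⊓ NR R ≤ X → X ≤ K → ¬ X ≤ NR R → K ≤ X) : Geo.IsMaximalIn K (NR R ⊓ K) := by
  obtain ⟨g, h1, h2⟩ := SetLike.not_le_iff_exists.1 h
  exact isMaximalIn_of inf_le_right ⟨g, h1, fun h => h2 h.1⟩ fun X h3 h4 x hx h5 =>
    h' X (inf_comm K _ ▸ h3) h4 fun e => h5 ⟨e hx, h4 hx⟩

variable {V : Type*} [AddCommGroup V] [Module F V] {R X : Subgroup (End F V)ˣ}

/-- groups of automorphisms as groups of units -/
def GE (G : Subgroup (V ≃ₗ[F] V)) : Subgroup (End F V)ˣ := G.comap UE.symm.toMonoidHom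

theorem GE_le {G : Subgroup (V ≃ₗ[F] V)} (h : G ≤ X.comap UE.toMonoidHom) : GE G ≤ X :=
  fun g hg => by simpa using h hg

theorem le_GE {G : Subgroup (V ≃ₗ[F] V)} (h : X ≤ GE G) : X.comap UE.toMonoidHom ≤ G :=
  fun g hg => by simpa [GE] using h hg

theorem GE_le_UP (P : Polar F V) : GE P.E ≤ UP P := fun _ hg => (E_le_Iso hg).1

theorem B_neg_sq {P : Polar F V} {d : (End F V)ˣ} (hd : d ∈ UP P) (h : d * d = -1) (x y : V) :
    P.B (d.1 x) y = -P.B x (d.1 y) := by
  rw [← hd x, ← mul_app d d, h]; simp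

variable [Fintype F] [FiniteDimensional F V]

theorem comm_mem_GE {P : Polar F V} (hI : ∀ g, UE g ∈ UP P → g ∈ P.Iso) {d : ℕ} (hw : P.Wild d)
    (hn : d + 4 ≤ finrank F V) : ∀ a ∈ UP P, ∀ b ∈ UP P, a * b * a⁻¹ * b⁻¹ ∈ GE P.E :=
  fun a ha b hb => by
    simpa [GE] using comm_mem_E hw hn (hI (UE.symm a) (by simpa)) (hI (UE.symm b) (by simpa))

namespace Fm

variable {κ : Type} [AddCommGroup κ] [Module K2 κ] [Fintype κ] [DecidableEq κ] (f : Fm R κ)
  (h2 : (2 : F) ≠ 0)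

theorem exists_eqv (h : finrank F f.V0 = 1) : ∃ (v : f.V0) (φ : (κ → F) ≃ₗ[F] V), v ≠ 0 ∧
    (∀ u, φ u = (f.ts h2).tp u v) ∧ ∀ a u, f.Θ h2 a (φ u) = φ (a u) := by
  obtain ⟨v, hv, -⟩ := finrank_eq_one_iff'.1 h
  exact ⟨v, LinearMap.linearEquivOfInjective ((f.ts h2).flip.tp v) ((f.ts h2).flip.tp_inj hv)
    (by rw [f.finrank_eq h2, h, mul_one, finrank_fintype_fun_eq_card, card_k]), hv, fun _ => rfl,
    fun a u => Tens.TS.K_tp _ _ _ _ _⟩

theorem B_ne [Nontrivial V] (hR : Pauli F R) {P : Polar F V} (hP : R ≤ UP P) (h : finrank F f.V0 = 1)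
    {v : f.V0} (hv : v ≠ 0) : P.B v v ≠ 0 := fun e => hv (f.nondeg hR P hP v fun w => by
  obtain ⟨c, rfl⟩ := (finrank_eq_one_iff_of_nonzero' v hv).1 h w
  simp [e])

include h2 in
theorem nontrivial [Nontrivial V] : Nontrivial f.V0 := by
  have := f.finrank_eq h2
  have := finrank_pos (R := F) (M := V)
  refine nontrivial_of_finrank_pos (R := F) (Nat.pos_of_ne_zero fun h => ?_)
  simp_all

end Fm

theorem um_eq_cE {κ : Type} {Θ : End F (κ → F) →+* End F V} {φ : (κ → F) ≃ₗ[F] V}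
    (h : ∀ a u, Θ a (φ u) = φ (a u)) (g : (κ → F) ≃ₗ[F] (κ → F)) : um Θ (UE g) = UE (cE φ g) :=
  Units.ext (LinearMap.ext fun x => by
    obtain ⟨x, rfl⟩ := φ.surjective x
    simp [h])

theorem maximal_O {Q : QuadraticForm F V} (hQ : ND Q) (hp : (Fintype.card F).Prime) (hR : Pauli F R)
    (hP : R ≤ UP (qP hQ)) (hn : 13 ≤ finrank F V) :
    Geo.IsMaximalIn (GE (qP hQ).E) (NR R ⊓ GE (qP hQ).E) := by
  have h2 := hR.two
  have : Nontrivial V := nontrivial_of_finrank_pos (R := F) (by omega)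
  have : Finite (End F V) := Module.finite_of_finite F
  obtain ⟨κ, _, _, _, _, f, hf⟩ := hR.exists_frame
  have h1 : finrank F f.V0 = 1 := f.finrank_V0 h2 hR fun d hd hd' => by
    by_contra h0
    obtain ⟨d', h3, h4, h5, h6, h7, h8⟩ := hf.quat hR hd hd' h0
    have h9 : ∀ d ∈ UP (qP hQ), d * d = -1 → ∀ x, polar Q (d.1 x) x = 0 := fun d hd e x =>
      mul_left_cancel₀ h2 (by
        have := B_neg_sq hd e x x
        rw [qP_B, qP_B, polar_comm Q x] at this
        linear_combination this)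
    have key : ∀ v : f.V0, Q v = 0 := fun v => by
      obtain ⟨a, b, c, c', h⟩ := h8 _ (f.cm_K h2 ((Q.polarBilin.flip v ∘ₗ f.V0.subtype).smulRight v))
      have h10 : ∀ x : f.V0, polar Q x v * polar Q v x = a * polar Q x x := fun x => by
        have := congrArg (fun m : End F V => polar Q (m ((f.ts h2).tp (e 0) x)) x) h
        have e3 : polar Q (d.1 (d'.1 x)) x = 0 :=
          h9 _ (mul_mem (hP hd) (hP h3)) (by simp [h5.mul_sq, h6, h7]) x
        rw [Tens.TS.K_tp] at this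
        simpa [f.ts_e, f.β_zero, h9 d (hP hd) h6, h9 d' (hP h3) h7, e3] using this
      have e1 := h10 v
      have e2 := h10 (f.res hd'.val v)
      change polar Q (d.1 v) v * _ = a * (qP hQ).B (d.1 v) (d.1 v) at e2
      rw [h9 d (hP hd) h6, hP hd, qP_B, ← e1, polar_self'] at e2
      simpa [h2] using e2
    obtain ⟨v, hv⟩ := @exists_ne _ (f.nontrivial h2) 0
    exact hv (f.nondeg hR _ hP v fun w => by simpa [polar, key] using key (w + v))
  have h3 := f.finrank_eq h2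
  have h4 := f.rk_ge hR
  have hk : 4 ≤ finrank K2 κ := by
    by_contra! h
    have := Nat.pow_le_pow_right two_pos (Nat.le_of_lt_succ h)
    rw [h1] at h3; omega
  obtain ⟨h5, h6⟩ := main_tau hR (cl_UP h2 _) hP (GE_le_UP _)
    (comm_mem_GE (fun g => (mem_UP_qP h2 hQ).1) (qP_wild hQ) (by omega)) (tau_UP _ fun _ => rfl)
    (j := finrank K2 κ - 3) (by omega) (by omega)
  refine max_of h5 fun X e1 e2 e3 => GE_le fun g hg => ?_
  obtain ⟨v, φ, hv, h7, h8⟩ := f.exists_eqv h2 h1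
  have h9 := f.B_ne hR hP h1 hv
  rw [qP_B, polar_self'] at h9
  obtain ⟨g, rfl⟩ := (cE φ).surjective g
  have := stdB h2 (f.Zs_mem h2 hR.neg) (f.Xs_mem h2) hp hk (by omega)
    ((h6 X e1 e2 e3).2.comap (f.Θ h2) h2 h2) ((cE_mem_E_iff hQ (nd0 h2) (right_ne_zero_of_mul h9)
      (fun x => mul_left_cancel₀ h2 (by
        rw [← polar_self', h7, ← qP_B hQ, f.B_tp hR _ hP, qP_B, polar_self', Q0_apply, dotProduct]
        simp; ring)) g).2 hg)
  change UE _ ∈ X
  rwa [← um_eq_cE h8]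

theorem maximal_Sp {P : Polar F V} (hσ : ∀ a, P.σ a = a) (hε : P.ε = -1) (hV : ∀ x c, P.Val x c)
    (hp : (Fintype.card F).Prime) (hR : Pauli F R) (hP : R ≤ UP P) (hn : 13 ≤ finrank F V) :
    Geo.IsMaximalIn (GE P.E) (NR R ⊓ GE P.E) := by
  have h2 := hR.two
  have : Nontrivial V := nontrivial_of_finrank_pos (R := F) (by omega)
  have : Finite (End F V) := Module.finite_of_finite F
  obtain ⟨κ, _, _, _, _, f, hf⟩ := hR.exists_frame
  have := f.nontrivial h2
  obtain ⟨d, hd, hd', h0⟩ : ∃ d ∈ R, f.Cm id d ∧ ¬ Sc F d := by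
    by_contra! h
    obtain ⟨v, hv⟩ := exists_ne (0 : f.V0)
    exact f.B_ne hR hP (f.finrank_V0 h2 hR h) hv (sing_B (hV _ _))
  obtain ⟨d', h3, h4, h5, -, -, h8⟩ := hf.quat hR hd hd' h0
  have h9 : ∀ b : End F f.V0, ∃ a₁ a₂ a₃ a₄ : F, b = a₁ • 1 + a₂ • f.res hd'.val + a₃ • f.res h4.val +
      a₄ • (f.res hd'.val * f.res h4.val) := fun b => by
    obtain ⟨a₁, a₂, a₃, a₄, h⟩ := h8 _ (f.cm_K h2 b)
    refine ⟨a₁, a₂, a₃, a₄, f.K_inj h2 ?_⟩
    have := (f.ts h2).K_mul 1 1 (f.res hd'.val) (f.res h4.val)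
    rw [mul_one, f.K_res, f.K_res] at this
    simp [h, f.K_res, Algebra.algebraMap_eq_smul_one, this]
  have h10 := f.finrank_le (k := 2) ![1, f.res hd'.val, f.res h4.val, f.res hd'.val * f.res h4.val]
    fun b _ => by
      obtain ⟨a₁, a₂, a₃, a₄, rfl⟩ := h9 b
      refine add_mem (add_mem (add_mem ?_ ?_) ?_) ?_ <;>
        exact Submodule.smul_mem _ _ (Submodule.subset_span (by simp))
  have h11 := f.finrank_eq h2
  have h12 := f.rk_ge' hR hd h3 hd' h4 h5
  have hk : 3 ≤ finrank K2 κ := by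
    by_contra! h
    have := Nat.mul_le_mul (Nat.pow_le_pow_right two_pos (Nat.le_of_lt_succ h)) h10
    omega
  have hI : ∀ g, UE g ∈ UP P → g ∈ P.Iso := fun g hg => ⟨hg, fun _ _ _ => hV _ _⟩
  obtain ⟨h13, h14⟩ := main_tau hR (cl_UP h2 _) hP (GE_le_UP _)
    (comm_mem_GE hI (wild_one_of_sp fun x => hV x 0) (by omega)) (tau_UP _ hσ)
    (j := finrank K2 κ - 2) (by omega) (by omega)
  refine max_of h13 fun X e1 e2 e3 => GE_le ?_
  obtain ⟨hC, hG⟩ := h14 X e1 e2 e3
  let PW : Polar F f.V0 :=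
    { σ := RingHom.id F
      ε := -1
      B := LinearMap.mk₂ F (fun x y => 2⁻¹ * P.B x y) (by simp [mul_add]) (by simp [mul_left_comm])
        (by simp [mul_add]) (by simp [hσ, mul_left_comm])
      Val _ _ := True
      σσ _ := rfl
      εε := Or.inr rfl
      herm x y := by simp [P.herm x y, hε, hσ]
      nondeg y h := f.nondeg hR P hP y fun w => by simpa [h2] using h w
      val_ex _ := ⟨0, trivial⟩
      val_add _ _ := trivial
      val_smul _ _ := trivial
      val_self _ := by simp [sing_B (hV _ _)]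
      val_min _ := trivial }
  have hc := seven_le_card hk
  have S : Setup (f.ts h2) (qP (nd0 h2)) PW P (X.comap UE.toMonoidHom) :=
    ⟨⟨fun _ => rfl, hσ, by simp [hε, PW], fun u x u' x' => by
      simp [f.B_tp hR P hP, PW, hσ, polar_Q0, dotProduct]; field_simp, fun _ _ _ => hV _ _,
      fun _ _ _ => hV _ _⟩, (le_GE e2).trans E_le_Iso,
      stdA h2 (f.Zs_mem h2 hR.neg) (f.Xs_mem h2) hp hk (by omega) (hG.ga.comap (f.Θ h2) h2 h2),
      (qP_wild _).w2 (by simp; omega)⟩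
  have hr : (qP (nd0 (κ := κ) h2)).Rng := Or.inl (by simp; omega)
  let b := finBasis K2 κ
  let v : Fin 3 → κ := fun i => b (i.castLE hk)
  let φ : Dual K2 κ := b.coord ((0 : Fin 3).castLE hk)
  have hv : ∀ j, φ (v j) = if j = 0 then 1 else 0 := fun j => by simp [φ, v, Finsupp.single_apply]
  have hl : LinearIndependent K2 v := b.linearIndependent.comp _ (Fin.castLE_injective hk)
  obtain ⟨u, hu, hu0, hus⟩ := qP_wild (nd0 h2) (Submodule.span F (Set.range (e ∘ ![0, v 1, v 2]))) (by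
    rw [finrank_span_eq_card, Fintype.card_fin]
    refine (show LinearIndependent F (e : κ → κ → F) from Pi.linearIndependent_single_one κ F).comp _ ?_
    have := hl.ne_zero
    have := hl.injective.ne (show (1 : Fin 3) ≠ 2 by decide)
    intro i j h
    fin_cases i <;> fin_cases j <;> simp_all [eq_comm])
  replace hu : (Zs F φ 0).1 u = u := (Submodule.span_le (p := LinearMap.eqLocus (Zs F φ 0).1 1)).2 (by
    rintro _ ⟨i, rfl⟩
    fin_cases i <;> simp [hv]) hu
  have hy : (qP (nd0 h2)).B (e (v 0)) u = 0 := by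
    have := congrFun hu (v 0)
    rw [Zs_apply, hv] at this
    rw [qP_B, polar_Q0, e_dot]
    simp at this
    linear_combination -this
  have key : ∀ d ∈ R, ∀ hd : f.Cm id d, f.res hd.val ∈ S.MM := fun d hd hd' => by
    have hα : ∀ u x, (f.α φ).1 ((f.ts h2).tp u x) = (f.ts h2).tp ((Zs F φ 0).1 u) x := fun u x =>
      f.Θ_Zs h2 φ ▸ Tens.TS.K_tp _ _ _ _ _
    have h15 : f.α φ * f.α φ = 1 := by rw [← f.Θ_Zs h2, ← map_mul, Zs_sq, map_one]
    have := S.CC.smul_mem 2⁻¹ (S.slice_mem_CC hr.reg hus hu0 (S.lv_conj ((Tens.TS.lev_iff hy).1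
      (S.lev_one hus hy)) (g := UE.symm (ctl F (f.α φ) d))
      (by simpa using hC.gate _ (f.α_mem φ) h15 d hd (hd'.1 φ))
      fun x => ctl_apply_pos h2 h15 (hd'.1 φ) (by rw [hα, hu])) hy)
    refine S.mem_MM_of_CC hr (by
      convert this using 1
      ext x
      have : d.1 ((f.ts h2).tp (e (v 0)) x) = (f.ts h2).tp (e (v 0)) (f.res hd'.val x) :=
        (LinearMap.congr_fun (f.K_res h2 hd'.val) _).symm.trans (Tens.TS.K_tp _ _ _ _ _)
      simp [ctl_apply_neg h2 h15 (hd'.1 φ) (v := (f.ts h2).tp (e (v 0)) x) (by simp [hα, hv]), this,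
        Q0_apply, h2])
  refine S.E_le_of_MM (eq_top_iff.2 fun b _ => ?_) fun c _ => ⟨c / 2, by rw [hε, hσ]; field_simp; ring⟩
  obtain ⟨a₁, a₂, a₃, a₄, rfl⟩ := h9 b
  exact add_mem (add_mem (add_mem (S.MM.smul_mem (one_mem _) _) (S.MM.smul_mem (key d hd hd') _))
    (S.MM.smul_mem (key d' h3 h4) _)) (S.MM.smul_mem (mul_mem (key d hd hd') (key d' h3 h4)) _)

section mat

variable {n : Type} [Fintype n] [DecidableEq n] {R : Subgroup (GL n F)}

/-- matrices as endomorphisms -/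
noncomputable abbrev mE : Matrix n n F →+* End F (n → F) := Matrix.toLinAlgEquiv'.toRingEquiv.toRingHom

theorem mE_bij : Function.Bijective (mE : Matrix n n F →+* _) := Matrix.toLinAlgEquiv'.bijective

theorem pauli_mat [Nonempty n] (h2 : (2 : F) ≠ 0) (hs : Geo.IsSymplecticTypeGroup 2 R)
    (h : Geo.ActsAbsolutelyIrreducibly (Geo.matrixSet R)) : Pauli F R := by
  have h1 := H2.SympType.pauli_of hs h
  refine ⟨h2, fun m hm => by simpa [Algebra.algebraMap_eq_smul_one] using h1.irr m hm, h1.sq, h1.comm, ?_⟩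
  by_contra h3
  have := Monoid.exponent_dvd_of_forall_pow_eq_one (G := R) (n := 2) fun g => Subtype.ext (by
    simpa [pow_two] using (h1.sq g g.2).resolve_right fun e => h3 (e ▸ mul_mem g.2 g.2))
  rw [hs.exponent_eq] at this
  exact absurd this (by decide)

theorem Pauli.mE (hR : Pauli F R) : Pauli F (R.map (um mE)) :=
  hR.map hR.two fun m hm => by
    obtain ⟨m, rfl⟩ := Matrix.toLinAlgEquiv'.surjective m
    obtain ⟨c, rfl⟩ := hR.irr m fun a ha => Matrix.toLinAlgEquiv'.injective (by simpa using hm a ha)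
    exact ⟨c, AlgEquiv.commutes _ c⟩

theorem hasI_mat [Nonempty n] (hR : Pauli F R) (h : Nat.card (Subgroup.center R) = 4) :
    HasI F (R.map (um mE)) := by
  by_contra h1
  have h3 : ∀ z : Subgroup.center R, z.1.1 = 1 ∨ z.1.1 = -1 := fun z => by
    have h4 := hR.sc_of_comm fun b hb =>
      (congrArg Subtype.val (Subgroup.mem_center_iff.1 z.2 ⟨b, hb⟩)).symm
    refine h4.eq_one_or ((hR.sq _ z.1.2).resolve_right fun e => h1 ⟨_, ⟨_, z.1.2, rfl⟩, ?_, by
      rw [← map_mul, e, um_neg, map_one]⟩)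
    obtain ⟨c, hc⟩ := h4
    exact ⟨c, by rw [um_val, hc]; exact AlgEquiv.commutes _ c⟩
  have := Nat.card_le_card_of_injective (β := ({1, -1} : Set (GL n F))) (fun z => ⟨z.1.1, h3 z⟩)
    fun z w e => Subtype.ext (Subtype.ext (congrArg (fun x : ({1, -1} : Set (GL n F)) => x.1) e))
  have h5 := Set.ncard_insert_le (1 : GL n F) {-1}
  rw [Nat.card_coe_set_eq] at this
  simp at h5
  omega

theorem mem_NR_map {A B : Type*} [Ring A] [Ring B] {φ : A →+* B} (hφ : Function.Bijective φ)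
    {R : Subgroup Aˣ} (g : Aˣ) : g ∈ NR R ↔ um φ g ∈ NR (R.map (um φ)) :=
  ⟨fun hg => Subgroup.le_normalizer_map (um φ) (Subgroup.mem_map_of_mem _ hg), mem_NR_of_map hφ.1⟩

theorem mem_NR_mat (g : GL n F) : g ∈ Geo.subgroupNormalizer R ↔ um mE g ∈ NR (R.map (um mE)) := by
  rw [show Geo.subgroupNormalizer R = NR R from rfl]
  exact mem_NR_map mE_bij g

theorem UE_toLE (g : GL n F) : UE (toLE g) = um mE g := Units.ext (toLE_coe g)

theorem max_mat {K : Subgroup (GL n F)} {G : Subgroup ((n → F) ≃ₗ[F] (n → F))}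
    (hK : ∀ g, g ∈ K ↔ toLE g ∈ G) (h : Geo.IsMaximalIn (GE G) (NR (R.map (um mE)) ⊓ GE G)) :
    Geo.IsMaximalIn K (Geo.subgroupNormalizer R ⊓ K) :=
  isMaximalIn_of_equiv (toLE.trans UE) (fun g => by simp [GE, hK]) (fun g => by
    rw [Subgroup.mem_inf, Subgroup.mem_inf, hK, mem_NR_mat, ← UE_toLE]
    simp [GE]) h

theorem le_UP {P : Polar F (n → F)} (h : ∀ g ∈ R, toLE g ∈ P.Iso) : R.map (um mE) ≤ UP P := by
  rintro _ ⟨g, hg, rfl⟩
  exact (h g hg).1

end mat

end Cfsg.Agent.H8.C6
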