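import Cfsg.Agent.H8.ODecomp

/-!
Tensor decompositions of quadratic spaces over small fields.
-/

set_option autoImplicit false

namespace Cfsg.Agent.H8

open Module Cfsg.Agent.H7 Cfsg.Agent.H7.Polar QuadraticMap
open scoped MatrixGroups Matrix Kronecker

variable {F : Type*} [Field F] {ι : Type} [Fintype ι] [DecidableEq ι]

theorem bilin_eq_sum {κ : Type} [Fintype κ] [DecidableEq κ] {f : (κ → F) → (κ → F) → F}
    (hf : Geo.IsBilinearForm f) (x y : κ → F) :
    f x y = ∑ a, ∑ b, x a * Geo.gramMatrix f a b * y b := by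
  conv_lhs => rw [(Asch.sesq_of_bilinear hf).eq_gf, ← Asch.formOfGram_eq_gf]
  rfl

section tensor

variable {n₁ n₂ : ℕ} {f : (ι → F) → (ι → F) → F} {f₁ : (Fin n₁ → F) → (Fin n₁ → F) → F}
  {f₂ : (Fin n₂ → F) → (Fin n₂ → F) → F} {e : ι ≃ Fin n₁ × Fin n₂} {P : GL ι F}

theorem tensorForm_pv (hT : Geo.IsTensorFormStructure id f f₁ f₂ e P) (h₁ : Geo.IsBilinearForm f₁)
    (h₂ : Geo.IsBilinearForm f₂) : ∃ c : F, c ≠ 0 ∧ ∀ x x' y y',
      f (Asch.trv e P (pv x y)) (Asch.trv e P (pv x' y')) = c * (f₁ x x' * f₂ y y') := by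
  obtain ⟨c, hc, h⟩ := hT
  refine ⟨c, hc, fun x x' y y' => (h _ _).trans ?_⟩
  congr 1
  rw [bilin_eq_sum h₁, bilin_eq_sum h₂, Geo.formOfGram, Fintype.sum_prod_type, Finset.sum_mul_sum]
  refine Finset.sum_congr rfl fun a _ => Finset.sum_congr rfl fun b _ => ?_
  rw [Fintype.sum_prod_type, Finset.sum_mul_sum]
  refine Finset.sum_congr rfl fun a' _ => Finset.sum_congr rfl fun b' _ => ?_
  simp only [pv, Matrix.kroneckerMap_apply, id]
  ring

theorem exists_ne_zero_of_nondeg {κ : Type} [Fintype κ] [DecidableEq κ] [Nonempty κ]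
    {f : (κ → F) → (κ → F) → F} (hf : Geo.IsNondegenerateForm f) : ∃ x y, f x y ≠ 0 := by
  obtain ⟨x, hx⟩ := (hf 1 one_ne_zero).1
  exact ⟨x, 1, hx⟩

/-- The factors of an isometry of a tensor product form are similarities. -/
theorem exists_multiplier {c : F} (hc : c ≠ 0) (h : ∀ x x' y y',
      f (Asch.trv e P (pv x y)) (Asch.trv e P (pv x' y')) = c * (f₁ x x' * f₂ y y'))
    (h₁ : ∃ x x', f₁ x x' ≠ 0) (h₂ : ∃ y y', f₂ y y' ≠ 0) {A : Matrix (Fin n₁) (Fin n₁) F}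
    {B : Matrix (Fin n₂) (Fin n₂) F}
    (hg : ∀ u v, f (Asch.tr e P (A ⊗ₖ B) *ᵥ u) (Asch.tr e P (A ⊗ₖ B) *ᵥ v) = f u v) :
    ∃ l : F, l ≠ 0 ∧ (∀ x x', f₁ (A *ᵥ x) (A *ᵥ x') = l * f₁ x x') ∧
      ∀ y y', l * f₂ (B *ᵥ y) (B *ᵥ y') = f₂ y y' := by
  have key : ∀ x x' y y', f₁ (A *ᵥ x) (A *ᵥ x') * f₂ (B *ᵥ y) (B *ᵥ y') = f₁ x x' * f₂ y y' :=
    fun x x' y y' => mul_left_cancel₀ hc (by
      rw [← h, ← h, ← hg (Asch.trv e P (pv x y)), Asch.tr_mulVec, Asch.tr_mulVec,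
        kronecker_mulVec_pv, kronecker_mulVec_pv])
  obtain ⟨x₀, x₀', hx⟩ := h₁
  obtain ⟨y₀, y₀', hy⟩ := h₂
  have h3 : f₂ (B *ᵥ y₀) (B *ᵥ y₀') ≠ 0 := fun h0 => by
    have := key x₀ x₀' y₀ y₀'
    rw [h0, mul_zero] at this
    exact mul_ne_zero hx hy this.symm
  have h4 : ∀ x x', f₁ (A *ᵥ x) (A *ᵥ x') = f₂ y₀ y₀' / f₂ (B *ᵥ y₀) (B *ᵥ y₀') * f₁ x x' :=
    fun x x' => by
      field_simp
      linear_combination key x x' y₀ y₀'
  refine ⟨_, div_ne_zero hy h3, h4, fun y y' => mul_left_cancel₀ hx ?_⟩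
  rw [← key, h4]; ring

/-- The subspace `x ⊗ F^{n₂}`. -/
noncomputable def slice (e : ι ≃ Fin n₁ × Fin n₂) (P : GL ι F) (x : Fin n₁ → F) :
    Submodule F (ι → F) := LinearMap.range ((trvE e P).toLinearMap ∘ₗ pvR x)

theorem mem_slice {x : Fin n₁ → F} {v : ι → F} :
    v ∈ slice e P x ↔ ∃ y, Asch.trv e P (pv x y) = v := Iff.rfl

theorem slice_injective {x : Fin n₁ → F} (hx : x ≠ 0) :
    Function.Injective ((trvE e P).toLinearMap ∘ₗ pvR (β := Fin n₂) x) := by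
  rw [injective_iff_map_eq_zero]
  intro w hw
  simpa [pv_eq_zero, hx, -trvE_apply] using hw

theorem finrank_slice {x : Fin n₁ → F} (hx : x ≠ 0) : finrank F (slice e P x) = n₂ := by
  rw [slice, LinearMap.finrank_range_of_inj (slice_injective hx)]; simp

theorem pv_smul_left {κ β : Type} (c : F) (x : κ → F) (y : β → F) :
    pv (c • x) y = pv x (c • y) := by ext; simp [pv]; ring

theorem mulVec_mem_slice {A : Matrix (Fin n₁) (Fin n₁) F} {B : Matrix (Fin n₂) (Fin n₂) F}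
    {x x' : Fin n₁ → F} (h : A *ᵥ x ∈ F ∙ x') {v : ι → F} (hv : v ∈ slice e P x) :
    Asch.tr e P (A ⊗ₖ B) *ᵥ v ∈ slice e P x' := by
  obtain ⟨y, rfl⟩ := hv
  obtain ⟨c, hc⟩ := Submodule.mem_span_singleton.1 h
  refine ⟨c • B *ᵥ y, ?_⟩
  change Asch.trv e P (pv x' _) = _ *ᵥ Asch.trv e P (pv x y)
  rw [Asch.tr_mulVec, kronecker_mulVec_pv, ← hc, pv_smul_left]

end tensor

/-- The quadratic form `v ↦ f v v`. -/
noncomputable def symQF {κ : Type} [Fintype κ] [DecidableEq κ] {f : (κ → F) → (κ → F) → F}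
    (hf : Geo.IsBilinearForm f) : QuadraticForm F (κ → F) :=
  LinearMap.BilinMap.toQuadraticMap (bilinOf hf)

theorem symQF_apply {κ : Type} [Fintype κ] [DecidableEq κ] {f : (κ → F) → (κ → F) → F}
    (hf : Geo.IsBilinearForm f) (v : κ → F) : symQF hf v = f v v := rfl

theorem polar_symQF {κ : Type} [Fintype κ] [DecidableEq κ] {f : (κ → F) → (κ → F) → F}
    (hf : Geo.IsSymmetricForm f) (u v : κ → F) : polar (symQF hf.bilinear) u v = 2 * f u v := by
  rw [symQF, LinearMap.BilinMap.polar_toQuadraticMap, bilinOf_apply, bilinOf_apply, hf.symm v u,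
    two_mul]

theorem nd_symQF {κ : Type} [Fintype κ] [DecidableEq κ] {f : (κ → F) → (κ → F) → F}
    (hf : Geo.IsSymmetricForm f) (h2 : (2 : F) ≠ 0) : ND (symQF hf.bilinear) := fun y hy => by
  by_contra h0
  obtain ⟨x, hx⟩ := (hf.nondegenerate y h0).1
  exact mul_ne_zero h2 hx (by rw [← polar_symQF hf, hy])

/-- The multiplier of a similarity of an odd-dimensional space is a square. -/
theorem isSquare_multiplier [Finite F] {V : Type*} [AddCommGroup V] [Module F V]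
    [FiniteDimensional F V] {Q : QuadraticForm F V} (hQ : ND Q) (hodd : Odd (finrank F V))
    {g : V ≃ₗ[F] V} {l : F} (hl : l ≠ 0) (hg : ∀ x, Q (g x) = l * Q x) : IsSquare l := by
  obtain ⟨δ, hδ⟩ := hQ.ndOn_top.exists_core hQ (by simpa using hodd)
  have h1 : Core Q ⊤ (l * δ) := by
    obtain ⟨U, -, h2, h3, v, -, h5, h6, h7⟩ := hδ
    refine ⟨U.map (g : V →ₗ[F] V), le_top, ?_, by rwa [LinearEquiv.finrank_map_eq], g v, trivial,
      ?_, by rw [hg, h6], mul_ne_zero hl h7⟩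
    · rintro _ ⟨x, hx, rfl⟩
      rw [LinearEquiv.coe_coe, hg, h2 x hx, mul_zero]
    · rintro _ ⟨x, hx, rfl⟩
      have := h5 x hx
      simp only [polar, LinearEquiv.coe_coe, ← map_add, hg] at this ⊢
      linear_combination l * this
  obtain ⟨s, hs⟩ := h1.isSquare_mul hQ hQ.ndOn_top hδ
  have := hδ.ne_zero
  exact ⟨s / δ, by field_simp; linear_combination hs⟩

theorem exists_eq_smul_of_frame_three [Fintype F] (hq : Fintype.card F = 3) {V : Type*}
    [AddCommGroup V] [Module F V] [FiniteDimensional F V] {Q : QuadraticForm F V}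
    {W : Submodule F V} (hd : finrank F W = 3) {δ : F} (hδ : δ ≠ 0) {b : Fin 3 → V}
    (hb : ∀ a, b a ∈ W) (hQb : ∀ a, Q (b a) = δ) (ho : ∀ a a', a ≠ a' → polar Q (b a) (b a') = 0)
    {v : V} (hv : v ∈ W) (hQv : Q v = δ) : ∃ a, v ∈ F ∙ b a := by
  obtain ⟨x, rfl⟩ := exists_sum_of_orth hb (fun a => by
    rw [polar_self', hQb]; exact mul_ne_zero (two_ne_zero_of_card_three hq) hδ) ho (by simp [hd]) hv
  rw [Q_sum_of_orth _ fun a a' h => by simp [ho a a' h]] at hQv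
  simp only [Q_smul, hQb, ← Finset.sum_mul] at hQv
  obtain ⟨a, ha⟩ := exists_fin_three hq (mul_right_cancel₀ hδ (by rw [hQv, one_mul]))
  refine ⟨a, ?_⟩
  rw [Finset.sum_eq_single a (fun c _ hc => by rw [ha c hc, zero_smul]) (by simp)]
  exact Submodule.smul_mem _ _ (Submodule.mem_span_singleton_self _)

/-- The similarity group of a symmetric form on `F₃³` preserves a frame. -/
theorem exists_frame_similarity_three [Fintype F] (hq : Fintype.card F = 3)
    {f₁ : (Fin 3 → F) → (Fin 3 → F) → F} (hf₁ : Geo.IsSymmetricForm f₁) :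
    ∃ (δ : F) (b : Fin 3 → Fin 3 → F), δ ≠ 0 ∧ (∀ a, f₁ (b a) (b a) = δ) ∧
      (∀ a a', a ≠ a' → f₁ (b a) (b a') = 0) ∧
      ∀ (A : GL (Fin 3) F) (l : F), l ≠ 0 →
        (∀ x x', f₁ ((A : Matrix _ _ F) *ᵥ x) ((A : Matrix _ _ F) *ᵥ x') = l * f₁ x x') →
        ∀ a, ∃ a', (A : Matrix _ _ F) *ᵥ b a ∈ F ∙ b a' := by
  have h2 := two_ne_zero_of_card_three hq
  have hQ := nd_symQF hf₁ h2
  obtain ⟨δ, hδ⟩ := hQ.ndOn_top.exists_core hQ (by simp; decide)
  obtain ⟨b, hb, hQb, ho⟩ := exists_frame_of_core_three hQ hq hQ.ndOn_top (by simp) hδ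
  refine ⟨-δ, b, neg_ne_zero.2 hδ.ne_zero, hQb, fun a a' h => ?_, fun A l hl hA a => ?_⟩
  · have := ho a a' h
    rw [polar_symQF hf₁] at this
    exact (mul_eq_zero.1 this).resolve_left h2
  · obtain ⟨s, hs⟩ := isSquare_multiplier hQ (by simp; decide) (g := toLE A) hl fun x => hA x x
    rw [mul_self_eq_one_of_card_le_three hq.le (by rintro rfl; simp [hl] at hs)] at hs
    refine exists_eq_smul_of_frame_three hq (W := ⊤) (by simp) (neg_ne_zero.2 hδ.ne_zero) hb hQb ho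
      trivial ?_
    rw [symQF_apply, hA, hs, one_mul]
    exact hQb a

variable {Q : QuadraticForm F (ι → F)}

/-- An orthogonal frame of the first factor gives an orthogonal decomposition. -/
theorem isOrthogonalMDecomposition_slice (h2 : (2 : F) ≠ 0) {n₁ n₂ : ℕ} (h₁ : 2 ≤ n₁) (h₂ : 0 < n₂)
    {f₁ : (Fin n₁ → F) → (Fin n₁ → F) → F} {f₂ : (Fin n₂ → F) → (Fin n₂ → F) → F}
    {e : ι ≃ Fin n₁ × Fin n₂} {P : GL ι F} {c : F} (hc : c ≠ 0) (h : ∀ x x' y y',
      polar Q (Asch.trv e P (pv x y)) (Asch.trv e P (pv x' y')) = c * (f₁ x x' * f₂ y y'))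
    (hf₂ : Geo.IsNondegenerateForm f₂) {δ : F} (hδ : δ ≠ 0) {b : Fin n₁ → Fin n₁ → F}
    (hb0 : ∀ a, b a ≠ 0) (hb : ∀ a, f₁ (b a) (b a) = δ) (ho : ∀ a a', a ≠ a' → f₁ (b a) (b a') = 0) :
    Geo.IsOrthogonalMDecomposition Q n₂ fun a => slice e P (b a) := by
  refine isOrthogonalMDecomposition_of (D := fun a => slice e P (b a)) (fun a => ?_)
    (fun a a' haa' => ?_) (fun a a' => ?_) (fun a => finrank_slice (hb0 a)) h₂ (Equiv.refl _) h₁
    (Asch.card_eq_of_equiv_prod e).symm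
  · rintro _ ⟨y, rfl⟩ hy
    by_contra h0
    obtain ⟨y', hy'⟩ := (hf₂ y (by rintro rfl; exact h0 (map_zero _))).1
    refine mul_ne_zero hc (mul_ne_zero hδ hy') ?_
    rw [← hb a, ← h]
    exact hy _ ⟨y', rfl⟩
  · rintro _ ⟨y, rfl⟩ _ ⟨y', rfl⟩
    exact (h _ _ _ _).trans (by rw [ho a a' haa']; simp)
  · let E : ∀ a, (Fin n₂ → F) ≃ₗ[F] slice e P (b a) := fun a =>
      LinearEquiv.ofInjective _ (slice_injective (hb0 a))
    refine ⟨(E a).symm.trans (E a'), fun w => ?_⟩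
    obtain ⟨y, rfl⟩ := (E a).surjective w
    rw [LinearEquiv.trans_apply, LinearEquiv.symm_apply_apply]
    apply mul_left_cancel₀ h2
    rw [← polar_self', ← polar_self']
    exact (h _ _ _ _).trans ((by rw [hb, hb] : _ = c * (f₁ (b a) (b a) * f₂ y y)).trans (h _ _ _ _).symm)

/-- `O₃(3) ⊗ O_m(3)` preserves an orthogonal decomposition into three subspaces. -/
theorem exists_decomp_tensor_three [Fintype F] (hQ : ND Q) (hq : Fintype.card F = 3) {n₂ : ℕ}
    (h₂ : 0 < n₂) {f₁ : (Fin 3 → F) → (Fin 3 → F) → F} {f₂ : (Fin n₂ → F) → (Fin n₂ → F) → F}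
    {e : ι ≃ Fin 3 × Fin n₂} {P : GL ι F} (hf₁ : Geo.IsSymmetricForm f₁)
    (hf₂ : Geo.IsSymmetricForm f₂) (hT : Geo.IsTensorFormStructure id (polar Q) f₁ f₂ e P) :
    ∃ D : Fin 3 → Submodule F (ι → F), Geo.IsOrthogonalMDecomposition Q n₂ D ∧
      Geo.tensorProductSubgroup 3 n₂ e P ⊓ isometryGroup F Q ≤ Geo.decompositionStabilizer D ∧
      (3 ≤ n₂ → ∃ g ∈ Geo.omegaGL Q, g ∈ Geo.decompositionStabilizer D ∧
        g ∉ Geo.tensorProductSubgroup 3 n₂ e P) := by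
  obtain ⟨c, hc, h⟩ := tensorForm_pv hT hf₁.bilinear hf₂.bilinear
  obtain ⟨δ, b, hδ, hb, ho, hA⟩ := exists_frame_similarity_three hq hf₁
  have hb0 : ∀ a, b a ≠ 0 := fun a h0 => hδ (by
    rw [← hb a, h0]; exact (Asch.sesq_of_bilinear hf₁.bilinear).zero_left _)
  have hD := isOrthogonalMDecomposition_slice (two_ne_zero_of_card_three hq) (by norm_num) h₂ hc h
    hf₂.nondegenerate hδ hb0 hb ho
  haveI : Nonempty (Fin n₂) := ⟨⟨0, h₂⟩⟩
  refine ⟨_, hD, ?_, fun h3 => ?_⟩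
  · rintro g ⟨hg, hg'⟩
    obtain ⟨A, B, hAB⟩ := (Asch.mem_tensorProductSubgroup e P g).1 hg
    obtain ⟨l, hl, h4, -⟩ := exists_multiplier hc h (exists_ne_zero_of_nondeg hf₁.nondegenerate)
      (exists_ne_zero_of_nondeg hf₂.nondegenerate) (A := A) (B := B) (hAB ▸ polar_mulVec hg')
    refine mem_decompositionStabilizer_of_le (OD.md hD) fun a => ?_
    obtain ⟨a', ha'⟩ := hA A l hl h4 a
    exact ⟨a', fun v hv => hAB ▸ mulVec_mem_slice ha' hv⟩
  · have hn := Asch.card_eq_of_equiv_prod e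
    obtain ⟨u, hu, u0, hQu⟩ := exists_sing_ne_zero hQ (W := slice e P (b 0))
      (by rwa [finrank_slice (hb0 0)])
    obtain ⟨w, hw, hwu⟩ := exists_notMem_of_finrank_lt (U := F ∙ u)
      (W := slice e P (b 0) ⊓ (qP hQ).pp u) (by
        have := (OD.nd hD 0).finrank_inf_pp hQ hu u0
        have := finrank_span_singleton_le (F := F) u
        have := OD.dim hD 0
        omega)
    obtain ⟨g, hg, hg'⟩ := exists_eich hQ (by omega) hQu hw.2
    have hfix : ∀ x, polar Q x u = 0 → polar Q x w = 0 → (g : Matrix ι ι F) *ᵥ x = x :=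
      fun x h1 h2 => by simp [hg', h1, h2]
    have hfix' : ∀ a, a ≠ 0 → ∀ x ∈ slice e P (b a), (g : Matrix ι ι F) *ᵥ x = x :=
      fun a ha x hx => hfix x (OD.orth hD a 0 ha x hx u hu) (OD.orth hD a 0 ha x hx w hw.1)
    refine ⟨g, hg, mem_decompositionStabilizer_of_le (OD.md hD) fun a => ⟨a, fun v hv => ?_⟩,
      fun hgT => ?_⟩
    · by_cases ha : a = 0
      · subst ha
        rw [hg']
        exact Submodule.sub_mem _ (Submodule.add_mem _ hv (Submodule.smul_mem _ _ hw.1))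
          (Submodule.smul_mem _ _ hu)
      · rwa [hfix' a ha v hv]
    · obtain ⟨A, B, hAB⟩ := (Asch.mem_tensorProductSubgroup e P g).1 hgT
      obtain ⟨s, hs⟩ := scalar_of_fix_kronecker e P A B (C := (qP hQ).pp u ⊓ (qP hQ).pp w)
        (by have := finrank_le_fix_eich (P := qP hQ) u w; simp at this ⊢; omega)
        (fun v hv => hAB ▸ hfix v hv.1 hv.2)
      have key : ∀ x y, (g : Matrix ι ι F) *ᵥ Asch.trv e P (pv x y) =
          Asch.trv e P (pv x (s • (B : Matrix _ _ F) *ᵥ y)) := fun x y => by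
        rw [hAB, Asch.tr_mulVec, kronecker_mulVec_pv, hs, ← pv_smul_left]
        simp [Matrix.smul_mulVec]
      obtain ⟨_, ⟨y, rfl⟩, hy⟩ := (OD.nd hD 0).exists_ne hu u0
      have h5 : s • (B : Matrix _ _ F) *ᵥ y = y :=
        slice_injective (e := e) (P := P) (hb0 1) ((key _ _).symm.trans (hfix' 1 (by simp) _ ⟨y, rfl⟩))
      have h6 := key (b 0) y
      rw [h5, hg', add_sub_assoc, add_eq_left, sub_eq_zero] at h6
      apply hwu
      rw [← (F ∙ u).smul_mem_iff hy]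
      exact h6 ▸ Submodule.smul_mem _ _ (Submodule.mem_span_singleton_self u)

theorem tensor_three_between [Fintype F] (hQ : ND Q) (hq : Fintype.card F = 3) {n₂ : ℕ}
    (h₂ : 3 ≤ n₂) {f₁ : (Fin 3 → F) → (Fin 3 → F) → F} {f₂ : (Fin n₂ → F) → (Fin n₂ → F) → F}
    {e : ι ≃ Fin 3 × Fin n₂} {P : GL ι F} (hf₁ : Geo.IsSymmetricForm f₁)
    (hf₂ : Geo.IsSymmetricForm f₂) (hT : Geo.IsTensorFormStructure id (polar Q) f₁ f₂ e P) :
    ∃ K, Geo.tensorProductSubgroup 3 n₂ e P ⊓ Geo.omegaGL Q < K ∧ K < Geo.omegaGL Q := by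
  obtain ⟨D, h1, h2, h3⟩ := exists_decomp_tensor_three hQ hq (by omega) hf₁ hf₂ hT
  exact exists_between_of ((inf_le_inf_left _ omegaGL_le_isometryGroup).trans h2) (h3 h₂)
    ((hQ.hasE (by have := Asch.card_eq_of_equiv_prod e; omega)).not_le_decompositionStabilizer
      (OD.md h1))

/-! ### Quadratic extension fields in the matrix algebra -/

theorem mem_subalgebraNormalizer_of_forall {K : Subalgebra F (Matrix ι ι F)} {g : GL ι F}
    (h : ∀ k ∈ K, Asch.cj g k ∈ K) : g ∈ Geo.subalgebraNormalizer K := by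
  have h1 : K.toSubmodule.map (Asch.cj g).toLinearEquiv.toLinearMap = K.toSubmodule :=
    Submodule.eq_of_le_of_finrank_eq (by rintro _ ⟨k, hk, rfl⟩; exact h k hk)
      (LinearEquiv.finrank_map_eq _ _)
  refine fun k => ⟨h k, fun hk => ?_⟩
  have : Asch.cj g k ∈ K.toSubmodule.map (Asch.cj g).toLinearEquiv.toLinearMap := by
    rw [h1]; exact hk
  obtain ⟨k', hk', h2⟩ := this
  exact (Asch.cj g).injective h2 ▸ hk'

/-- The algebra spanned by `1` and a quadratic element `θ`. -/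
def quadAlg (θ : Matrix ι ι F) {s n : F} (h : θ * θ = s • θ - n • 1) :
    Subalgebra F (Matrix ι ι F) where
  carrier := {z | ∃ a b : F, z = a • 1 + b • θ}
  mul_mem' := by
    rintro _ _ ⟨a, b, rfl⟩ ⟨a', b', rfl⟩
    refine ⟨a * a' - b * b' * n, a * b' + b * a' + b * b' * s, ?_⟩
    simp only [add_mul, mul_add, smul_mul_assoc, mul_smul_comm, one_mul, mul_one, h]
    module
  add_mem' := by
    rintro _ _ ⟨a, b, rfl⟩ ⟨a', b', rfl⟩
    exact ⟨a + a', b + b', by module⟩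
  algebraMap_mem' c := ⟨c, 0, by simp [Algebra.algebraMap_eq_smul_one]⟩

section quadAlg

variable {θ : Matrix ι ι F} {s n : F} (h : θ * θ = s • θ - n • 1)

theorem mem_quadAlg {z : Matrix ι ι F} : z ∈ quadAlg θ h ↔ ∃ a b : F, z = a • 1 + b • θ := Iff.rfl

theorem self_mem_quadAlg : θ ∈ quadAlg θ h := ⟨0, 1, by simp⟩

theorem isFieldSubalgebra_quadAlg [Nonempty ι] (hirr : ∀ x : F, x * x - s * x + n ≠ 0) :
    Geo.IsFieldSubalgebra 2 (quadAlg θ h) where
  comm := by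
    rintro _ ⟨a, b, rfl⟩ _ ⟨a', b', rfl⟩
    simp only [add_mul, mul_add, smul_mul_assoc, mul_smul_comm, one_mul, mul_one]
    module
  inv := by
    rintro _ ⟨a, b, rfl⟩ h0
    have hN : a * a + a * b * s + b * b * n ≠ 0 := fun hN => by
      by_cases hb : b = 0
      · rw [hb] at hN h0
        exact h0 (by simp [show a = 0 by simpa using hN])
      · refine hirr (-a / b) ?_
        field_simp
        linear_combination hN
    obtain ⟨N, hN'⟩ := (⟨_, mul_inv_cancel₀ hN⟩ : ∃ N, (a * a + a * b * s + b * b * n) * N = 1)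
    refine ⟨_, ⟨(a + b * s) * N, -b * N, rfl⟩, ?_⟩
    simp only [add_mul, mul_add, smul_mul_assoc, mul_smul_comm, one_mul, mul_one, h]
    match_scalars
    · linear_combination hN'
    · ring
  finrank_eq := by
    have h1 : θ ∉ F ∙ (1 : Matrix ι ι F) := fun hm => by
      obtain ⟨c, rfl⟩ := Submodule.mem_span_singleton.1 hm
      refine hirr c ?_
      have := congrFun (congrFun h (Classical.arbitrary ι)) (Classical.arbitrary ι)
      simp at this
      linear_combination this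
    have h2 : (quadAlg θ h).toSubmodule = (F ∙ (1 : Matrix ι ι F)) ⊔ (F ∙ θ) := by
      ext z; exact mem_span_pair'.symm
    change finrank F (quadAlg θ h).toSubmodule = 2
    rw [h2, finrank_pair one_ne_zero h1]

theorem mem_subalgebraNormalizer_quadAlg {g : GL ι F} (hg : Asch.cj g θ ∈ quadAlg θ h) :
    g ∈ Geo.subalgebraNormalizer (quadAlg θ h) :=
  mem_subalgebraNormalizer_of_forall (by
    rintro _ ⟨a, b, rfl⟩
    rw [map_add, map_smul, map_smul, map_one]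
    exact add_mem (Subalgebra.smul_mem _ (one_mem _) _) (Subalgebra.smul_mem _ hg _))

end quadAlg

theorem cj_tr_lk {n₁ n₂ : ℕ} (e : ι ≃ Fin n₁ × Fin n₂) (P : GL ι F) {g : GL ι F}
    {A : GL (Fin n₁) F} {B : GL (Fin n₂) F}
    (h : (g : Matrix ι ι F) = Asch.tr e P ((A : Matrix _ _ F) ⊗ₖ (B : Matrix _ _ F)))
    (x : Matrix (Fin n₁) (Fin n₁) F) :
    Asch.cj g (Asch.tr e P (Asch.lk (Fin n₂) x)) = Asch.tr e P (Asch.lk (Fin n₂) (Asch.cj A x)) := by
  rw [← g.mul_left_inj, Asch.cj_mul_self, h, ← map_mul, ← map_mul, Asch.lk_apply, Asch.lk_apply,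
    ← Matrix.mul_kronecker_mul, ← Matrix.mul_kronecker_mul, Asch.cj_mul_self, mul_one, one_mul]

theorem eq_of_sq_add_of_card_two [Fintype F] (hq : Fintype.card F = 2)
    {z : Matrix (Fin 2) (Fin 2) F} (hz : z * z = (1 : F) • z - (1 : F) • 1) :
    z = !![0, 1; 1, 1] ∨ z = (1 : F) • 1 + (1 : F) • !![0, 1; 1, 1] := by
  have h2 : (2 : F) = 0 := by exact_mod_cast cast_eq_zero_of_card hq
  have h11 : (1 : F) + 1 = 0 := by rw [← h2]; norm_num
  have hc : ∀ x : F, x = 0 ∨ x = 1 := fun x => (eq_or_ne x 0).imp id (eq_one_of_card_two hq)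
  have e00 := congrFun (congrFun hz 0) 0
  have e01 := congrFun (congrFun hz 0) 1
  have e11 := congrFun (congrFun hz 1) 1
  simp only [Matrix.mul_apply, Fin.sum_univ_two, one_smul, Matrix.sub_apply, Matrix.one_apply_eq,
    Matrix.one_apply_ne (by decide : (0 : Fin 2) ≠ 1)] at e00 e01 e11
  rw [Matrix.eta_fin_two z]
  rcases hc (z 0 0) with a | a <;> rcases hc (z 0 1) with b | b <;> rcases hc (z 1 0) with c | c <;>
    rcases hc (z 1 1) with d | d <;> simp [a, b, c, d, h11] at e00 e01 e11 <;>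
    simp [a, b, c, d, Matrix.one_fin_two, h11]

/-- `GL₂(2) ⊗ GL_m(2)` normalises a field with four elements. -/
theorem exists_field_tensor_two [Fintype F] (hq : Fintype.card F = 2) {n₂ : ℕ} (h₂ : 0 < n₂)
    (e : ι ≃ Fin 2 × Fin n₂) (P : GL ι F) :
    ∃ h : Asch.tr e P (Asch.lk (Fin n₂) !![0, 1; 1, 1]) * Asch.tr e P (Asch.lk (Fin n₂) !![0, 1; 1, 1]) =
      (1 : F) • Asch.tr e P (Asch.lk (Fin n₂) !![0, 1; 1, 1]) - (1 : F) • 1,
      Geo.IsFieldSubalgebra 2 (quadAlg _ h) ∧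
      Geo.tensorProductSubgroup 2 n₂ e P ≤ Geo.subalgebraNormalizer (quadAlg _ h) := by
  have h2 : (2 : F) = 0 := by exact_mod_cast cast_eq_zero_of_card hq
  have h11 : (1 : F) + 1 = 0 := by rw [← h2]; norm_num
  have hω : (!![0, 1; 1, 1] : Matrix (Fin 2) (Fin 2) F) * !![0, 1; 1, 1] =
      (1 : F) • !![0, 1; 1, 1] - (1 : F) • 1 := by
    ext i j
    fin_cases i <;> fin_cases j <;> simp [h11, eq_neg_iff_add_eq_zero]
  haveI : Nonempty ι := ⟨e.symm (0, ⟨0, h₂⟩)⟩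
  refine ⟨by rw [← map_mul, ← map_mul, hω]; simp only [map_sub, map_smul, map_one],
    isFieldSubalgebra_quadAlg _ fun x => ?_, fun g hg => mem_subalgebraNormalizer_quadAlg _ ?_⟩
  · by_cases hx : x = 0
    · simp [hx]
    · simp [eq_one_of_card_two hq hx]
  · obtain ⟨A, B, hAB⟩ := (Asch.mem_tensorProductSubgroup e P g).1 hg
    rw [cj_tr_lk e P hAB]
    rcases eq_of_sq_add_of_card_two hq (z := Asch.cj A !![0, 1; 1, 1]) (by
      rw [← map_mul, hω]; simp only [map_sub, map_smul, map_one]) with h | h <;> rw [h]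
    · exact self_mem_quadAlg _
    · exact ⟨1, 1, by simp only [map_add, map_smul, map_one]⟩

theorem exists_pv_add_pv {β : Type} (z : Fin 2 × β → F) :
    ∃ z₀ z₁ : β → F, z = pv (Pi.single 0 1) z₀ + pv (Pi.single 1 1) z₁ :=
  ⟨fun b => z (0, b), fun b => z (1, b), by
    ext ⟨a, b⟩; fin_cases a <;> simp [pv]⟩

theorem tensor_two_between [Fintype F] (hQ : ND Q) (hq : Fintype.card F = 2)
    (hn : 7 ≤ Fintype.card ι) {n₂ : ℕ}
    {f₁ : (Fin 2 → F) → (Fin 2 → F) → F} {f₂ : (Fin n₂ → F) → (Fin n₂ → F) → F}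
    {e : ι ≃ Fin 2 × Fin n₂} {P : GL ι F} (hf₁ : Geo.IsSymplecticForm f₁)
    (hf₂ : Geo.IsSymplecticForm f₂) (hT : Geo.IsTensorFormStructure id (polar Q) f₁ f₂ e P)
    (hpure : ∀ x y, Q (Asch.trv e P (pv x y)) = 0) :
    ∃ K, Geo.tensorProductSubgroup 2 n₂ e P ⊓ Geo.omegaGL Q < K ∧ K < Geo.omegaGL Q := by
  have hcard := Asch.card_eq_of_equiv_prod e
  obtain ⟨hθ, hK, hle⟩ := exists_field_tensor_two hq (by omega) e P
  refine exists_between_of (inf_le_left.trans hle) ?_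
    ((hQ.hasE hn).not_le_subalgebraNormalizer le_rfl hK)
  have h2 : (2 : F) = 0 := by exact_mod_cast cast_eq_zero_of_card hq
  obtain ⟨c, hc, h⟩ := tensorForm_pv hT hf₁.bilinear hf₂.bilinear
  obtain rfl := eq_one_of_card_two hq hc
  set θ := Asch.tr e P (Asch.lk (Fin n₂) !![0, 1; 1, 1]) with hθdef
  let T : (Fin n₂ → F) → (Fin n₂ → F) → ι → F := fun z₀ z₁ =>
    Asch.trv e P (pv (Pi.single 0 1) z₀) + Asch.trv e P (pv (Pi.single 1 1) z₁)
  have hT' : ∀ z₀ z₁, T z₀ z₁ = Asch.trv e P (pv (Pi.single 0 1) z₀ + pv (Pi.single 1 1) z₁) :=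
    fun _ _ => (Asch.trv_add ..).symm
  have hsurj : ∀ v, ∃ z₀ z₁, v = T z₀ z₁ := fun v => by
    obtain ⟨z, rfl⟩ := Asch.trv_surjective e P v
    obtain ⟨z₀, z₁, rfl⟩ := exists_pv_add_pv z
    exact ⟨z₀, z₁, (hT' _ _).symm⟩
  have hinj : ∀ {z₀ z₁ z₀' z₁'}, T z₀ z₁ = T z₀' z₁' → z₀ = z₀' ∧ z₁ = z₁' := fun h => by
    rw [hT', hT'] at h
    have := Asch.trv_injective e P h
    constructor <;> ext b
    · simpa [pv] using congrFun this (0, b)
    · simpa [pv] using congrFun this (1, b)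
  have f01 : f₁ (Pi.single 0 1) (Pi.single 1 1) = 1 := eq_one_of_card_two hq fun h0 => by
    obtain ⟨x, hx⟩ := (hf₁.nondegenerate (Pi.single 0 1) (by simp)).2
    apply hx
    rw [show x = x 0 • Pi.single 0 1 + x 1 • Pi.single 1 1 by ext i; fin_cases i <;> simp,
      hf₁.bilinear.add_right, hf₁.bilinear.smul_right, hf₁.bilinear.smul_right, h0,
      hf₁.alternating]
    simp
  have f10 : f₁ (Pi.single 1 1) (Pi.single 0 1) = 1 := by
    rw [hf₁.skew, f01]; linear_combination -h2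
  have hB : ∀ z₀ z₁ z₀' z₁', polar Q (T z₀ z₁) (T z₀' z₁') = f₂ z₀ z₁' + f₂ z₁ z₀' :=
    fun _ _ _ _ => by simp [T, h, f01, f10, hf₁.alternating, add_comm]
  have hQT : ∀ z₀ z₁, Q (T z₀ z₁) = f₂ z₀ z₁ := fun _ _ => by simp [T, Q_add, hpure, h, f01]
  have hθT : ∀ z₀ z₁, θ *ᵥ T z₀ z₁ = T z₁ (z₀ + z₁) := fun z₀ z₁ => by
    rw [hT', hT', hθdef, Asch.tr_mulVec, Matrix.mulVec_add, Asch.lk_apply, kronecker_mulVec_pv,
      kronecker_mulVec_pv]
    congr 1
    ext ⟨a, b⟩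
    fin_cases a <;> simp [pv]
  clear_value T
  let S := spPolar hf₂
  haveI : Nonempty (Fin n₂) := ⟨⟨0, by omega⟩⟩
  obtain ⟨x, x0⟩ := exists_ne (0 : Fin n₂ → F)
  obtain ⟨y, hy, hyx⟩ := exists_notMem_of_finrank_lt (U := F ∙ x) (W := S.pp x) (by
    have := finrank_pp (P := S) x0
    have := finrank_span_singleton_le (F := F) x
    simp at *; omega)
  have hxy : x ∉ F ∙ y := by
    simpa using notMem_sup_span_swap (U := ⊥) (v := x) (z := y) (by simpa using x0)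
      (by simpa using hyx)
  obtain ⟨z, hz, hzx⟩ := exists_sep' (P := S) hxy 1
  rw [perp_span_singleton, mem_pp] at hz
  have e1 : f₂ y x = 0 := hy
  have e2 : f₂ x y = 0 := by rw [hf₂.skew, e1, neg_zero]
  have e3 : f₂ z y = 0 := hz
  have e4 : f₂ z x = 1 := hzx
  have hb := hf₂.bilinear
  have hw : Q (T y (x + y)) = 0 := by rw [hQT, hb.add_right, e1, hf₂.alternating, add_zero]
  obtain ⟨g, hg, hg'⟩ := exists_eich hQ hn (u := T x y) (w := T y (x + y)) (by rw [hQT, e2])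
    (by simp [hB, hb.add_left, hf₂.alternating, e1])
  simp only [hw, zero_mul, add_zero] at hg'
  refine ⟨g, hg, mem_subalgebraNormalizer_quadAlg _ ?_, fun hgT => ?_⟩
  · have : (g : Matrix ι ι F) * θ = θ * g := Matrix.ext_iff_mulVec.2 fun v => by
      obtain ⟨z₀, z₁, rfl⟩ := hsurj v
      have h3 : θ *ᵥ T y (x + y) = T y (x + y) + T x y := by
        rw [← hθT x y, Matrix.mulVec_mulVec, hθ, Matrix.sub_mulVec, one_smul, one_smul,
          Matrix.one_mulVec]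
        linear_combination (norm := module) (-h2) • T x y
      rw [← Matrix.mulVec_mulVec, ← Matrix.mulVec_mulVec, hg', hg', Matrix.mulVec_sub,
        Matrix.mulVec_add, Matrix.mulVec_smul, Matrix.mulVec_smul, h3, hθT x y, hθT z₀ z₁]
      simp only [hB, hb.add_left, hb.add_right]
      linear_combination (norm := module) (f₂ z₁ y + f₂ z₀ x) • h2 • T y (x + y) -
        (f₂ z₁ y + f₂ z₀ y + f₂ z₁ x) • h2 • T x y
    rw [(Asch.cj_eq_self_iff g θ).2 this]
    exact self_mem_quadAlg _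
  · obtain ⟨A, B, hAB⟩ := (Asch.mem_tensorProductSubgroup e P g).1 hgT
    have h3 := hg' (T z 0)
    have h0 : ∀ v, f₂ 0 v = 0 := (Asch.sesq_of_bilinear hb).zero_left
    simp only [hB, hb.add_right, e3, e4, h0, add_zero, zero_smul, one_smul] at h3
    have h4 : T z 0 - T x y = T (z - x) (-y) := by
      rw [hT', hT', hT', ← trvE_apply, ← trvE_apply, ← trvE_apply, ← map_sub]
      congr 1
      ext ⟨a, b⟩
      fin_cases a <;> simp [pv]
    have h5 : (g : Matrix ι ι F) *ᵥ T z 0 = 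
        T (((A : Matrix (Fin 2) (Fin 2) F) 0 0) • (B : Matrix (Fin n₂) (Fin n₂) F) *ᵥ z)
        (((A : Matrix (Fin 2) (Fin 2) F) 1 0) • (B : Matrix (Fin n₂) (Fin n₂) F) *ᵥ z) := by
      rw [hT', hT', hAB, Asch.tr_mulVec, Matrix.mulVec_add, kronecker_mulVec_pv, kronecker_mulVec_pv]
      congr 1
      ext ⟨a, b⟩
      fin_cases a <;> simp [pv]
    rw [h4, h5] at h3
    obtain ⟨h6, h7⟩ := hinj h3
    have h8 := congrArg (f₂ · x) h6
    have h9 := congrArg (f₂ · x) h7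
    simp only [hb.smul_left, (Asch.sesq_of_bilinear hb).sub_left, e4, hf₂.alternating, sub_zero,
      ← neg_one_smul F y, e1, mul_zero] at h8 h9
    rw [(mul_eq_zero.1 h9).resolve_right (right_ne_zero_of_mul_eq_one h8), zero_smul, eq_comm,
      neg_eq_zero] at h7
    simp [h7] at hyx

end Cfsg.Agent.H8
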