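import Cfsg.Agent.H8.ODecomp

/-! Counting lemmas in finite fields. -/

set_option autoImplicit false

namespace Cfsg.Agent.H8

open Polynomial

variable {F : Type*} [Field F] [Fintype F]

open Classical in
theorem card_quad_le {a b c : F} (h : ¬ (a = 0 ∧ b = 0 ∧ c = 0)) :
    (Finset.univ.filter fun x => a * x * x + b * x + c = 0).card ≤ 2 := by
  have h0 : (C a * X ^ 2 + C b * X + C c : F[X]) ≠ 0 := fun h0 => h
    ⟨by simpa using congrArg (coeff · 2) h0, by simpa using congrArg (coeff · 1) h0,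
      by simpa using congrArg (coeff · 0) h0⟩
  refine le_trans (card_le_degree_of_subset_roots (p := C a * X ^ 2 + C b * X + C c) fun x hx => ?_)
    (by compute_degree)
  rw [mem_roots h0]
  simp only [Finset.filter_val, Multiset.mem_filter] at hx
  simp [← hx.2]; ring

open Classical in
theorem card_lin_le {b c : F} (h : ¬ (b = 0 ∧ c = 0)) :
    (Finset.univ.filter fun x => b * x + c = 0).card ≤ 1 := by
  refine Finset.card_le_one.2 fun x hx y hy => ?_
  simp only [Finset.mem_filter, Finset.mem_univ, true_and] at hx hy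
  by_contra hne
  have hb : b = 0 := by
    have : b * (x - y) = 0 := by linear_combination hx - hy
    simpa [sub_ne_zero.2 hne] using this
  exact h ⟨hb, by simpa [hb] using hx⟩

theorem exists_avoid {S : Finset F} (h : S.card < Fintype.card F) : ∃ x, x ∉ S := by
  obtain ⟨x, -, hx⟩ := Finset.exists_mem_notMem_of_card_lt_card (s := S) (t := Finset.univ) h
  exact ⟨x, hx⟩

theorem avoid2 (hq : 2 < Fintype.card F) {a b c : F} (h : ¬ (a = 0 ∧ b = 0 ∧ c = 0)) :
    ∃ x, a * x * x + b * x + c ≠ 0 := by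
  obtain ⟨x, hx⟩ := exists_avoid ((card_quad_le h).trans_lt hq)
  exact ⟨x, by simpa using hx⟩

theorem avoid21 (hq : 3 < Fintype.card F) {a b c d e : F} (h : ¬ (a = 0 ∧ b = 0 ∧ c = 0))
    (h' : ¬ (d = 0 ∧ e = 0)) : ∃ x, a * x * x + b * x + c ≠ 0 ∧ d * x + e ≠ 0 := by
  classical
  obtain ⟨x, hx⟩ := exists_avoid ((Finset.card_union_le _ _).trans_lt
    ((add_le_add (card_quad_le h) (card_lin_le h')).trans_lt hq))
  exact ⟨x, by simpa using hx⟩

theorem avoid22 (hq : 4 < Fintype.card F) {a b c a' b' c' : F} (h : ¬ (a = 0 ∧ b = 0 ∧ c = 0))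
    (h' : ¬ (a' = 0 ∧ b' = 0 ∧ c' = 0)) :
    ∃ x, a * x * x + b * x + c ≠ 0 ∧ a' * x * x + b' * x + c' ≠ 0 := by
  classical
  obtain ⟨x, hx⟩ := exists_avoid ((Finset.card_union_le _ _).trans_lt
    ((add_le_add (card_quad_le h) (card_quad_le h')).trans_lt hq))
  exact ⟨x, by simpa using hx⟩

theorem avoid221 (hq : 5 < Fintype.card F) {a b c a' b' c' d e : F}
    (h : ¬ (a = 0 ∧ b = 0 ∧ c = 0)) (h' : ¬ (a' = 0 ∧ b' = 0 ∧ c' = 0)) (h'' : ¬ (d = 0 ∧ e = 0)) :
    ∃ x, a * x * x + b * x + c ≠ 0 ∧ a' * x * x + b' * x + c' ≠ 0 ∧ d * x + e ≠ 0 := by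
  classical
  obtain ⟨x, hx⟩ := exists_avoid ((Finset.card_union_le _ _).trans_lt
    ((add_le_add (card_quad_le h) ((Finset.card_union_le _ _).trans
      (add_le_add (card_quad_le h') (card_lin_le h'')))).trans_lt hq))
  exact ⟨x, by simpa using hx⟩

theorem avoid222 (hq : 6 < Fintype.card F) {a b c a' b' c' a'' b'' c'' : F}
    (h : ¬ (a = 0 ∧ b = 0 ∧ c = 0)) (h' : ¬ (a' = 0 ∧ b' = 0 ∧ c' = 0))
    (h'' : ¬ (a'' = 0 ∧ b'' = 0 ∧ c'' = 0)) :
    ∃ x, a * x * x + b * x + c ≠ 0 ∧ a' * x * x + b' * x + c' ≠ 0 ∧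
      a'' * x * x + b'' * x + c'' ≠ 0 := by
  classical
  obtain ⟨x, hx⟩ := exists_avoid ((Finset.card_union_le _ _).trans_lt
    ((add_le_add (card_quad_le h) ((Finset.card_union_le _ _).trans
      (add_le_add (card_quad_le h') (card_quad_le h'')))).trans_lt hq))
  exact ⟨x, by simpa using hx⟩

theorem exists_ne_zero_one (hq : 2 < Fintype.card F) : ∃ a : F, a ≠ 0 ∧ a ≠ 1 := by
  obtain ⟨x, hx⟩ := avoid2 hq (a := 1) (b := -1) (c := 0) (by simp)
  exact ⟨x, by rintro rfl; simp at hx, by rintro rfl; simp at hx⟩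

theorem exists_quad_add_quad (h2 : (2 : F) ≠ 0) {a b : F} (ha : a ≠ 0) (hb : b ≠ 0) (c : F) :
    ∃ x y : F, a * x * x + b * y * y = c := by
  obtain ⟨x, y, h⟩ := FiniteField.exists_root_sum_quadratic
    (f := C a * X ^ 2 - C c) (g := C b * X ^ 2) (R := F)
    (by rw [degree_sub_C (by rw [degree_C_mul_X_pow _ ha]; simp), degree_C_mul_X_pow _ ha]; rfl)
    (by rw [degree_C_mul_X_pow _ hb]; rfl)
    (FiniteField.odd_card_of_char_ne_two fun h => h2 (by
      have := (ringChar.spec F 2).2 (by rw [h]); exact_mod_cast this))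
  refine ⟨x, y, ?_⟩
  simp at h
  linear_combination h

/-- two subsets with more than `q` elements in total meet -/
theorem exists_mem_of_card {S T U : Finset F} (hS : S ⊆ U) (hT : T ⊆ U)
    (h : U.card < S.card + T.card) : ∃ x ∈ S, x ∈ T := by
  classical
  by_contra! h'
  have := Finset.card_le_card (Finset.union_subset hS hT)
  rw [Finset.card_union_of_disjoint (Finset.disjoint_left.2 h')] at this
  omega

end Cfsg.Agent.H8
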