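import Cfsg.Agent.H8.SLLine

/-!
The monomial group is maximal in `SL_n(q)` for `n ≥ 5`, `q ≥ 5`; stabilisers of direct sum
decompositions in `SL_n(q)`.
-/

set_option autoImplicit false
set_option linter.unusedSectionVars false

namespace Cfsg.Agent.H8

open Module H7

variable {F : Type*} [Field F] {V : Type*} [AddCommGroup V] [Module F V] [FiniteDimensional F V]
variable {κ : Type} [Fintype κ] [DecidableEq κ]

/-- the permutation matrices of a basis -/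
noncomputable def permLE (b : Basis κ F V) : Equiv.Perm κ →* (V ≃ₗ[F] V) :=
  MonoidHom.mk' (fun σ => b.equiv b σ) fun σ τ => LinearEquiv.toLinearMap_injective
    (b.ext fun i => by simp)

theorem permLE_apply (b : Basis κ F V) (σ : Equiv.Perm κ) (i : κ) : permLE b σ (b i) = b (σ i) :=
  b.equiv_apply ..

theorem repr_permLE (b : Basis κ F V) (σ : Equiv.Perm κ) (x : V) (i : κ) :
    b.repr (permLE b σ x) (σ i) = b.repr x i := by
  have : b.coord (σ i) ∘ₗ permLE b σ = b.coord i := b.ext fun j => by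
    simp [permLE_apply, Finsupp.single_apply]
  exact congrArg (· x) this

theorem det_permLE (b : Basis κ F V) (σ : Equiv.Perm κ) :
    LinearMap.det (permLE b σ : V →ₗ[F] V) = Equiv.Perm.sign σ • 1 := by
  have := b.det_comp (permLE b σ) b
  rw [show (permLE b σ : V →ₗ[F] V) ∘ b = b ∘ σ from funext (permLE_apply b σ),
    AlternatingMap.map_perm, Basis.det_self, mul_one] at this
  exact this.symm

/-- the action on the summands -/
noncomputable def Dec.permHom {k : ℕ} {D : κ → Submodule F V} (hD : Dec k D) :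
    decStab D →* Equiv.Perm κ :=
  MonoidHom.mk' (fun g => g.2.choose) fun g h => Equiv.ext fun i => hD.inj (by
    rw [← (g * h).2.choose_spec, Equiv.Perm.mul_apply, ← g.2.choose_spec, ← h.2.choose_spec,
      ← Submodule.map_comp]
    rfl)

theorem Dec.permHom_mem {k : ℕ} {D : κ → Submodule F V} (hD : Dec k D) (g : decStab D) {i : κ}
    {x : V} (hx : x ∈ D i) : g.1 x ∈ D (hD.permHom g i) :=
  (g.2.choose_spec i).le (Submodule.mem_map_of_mem hx)

theorem Dec.false_of_three {k : ℕ} {D : κ → Submodule F V} (hD : Dec k D) {x y : V} {r s u : κ}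
    (hx : x ∈ D r) (hy : y ∈ D s) {α β : F} (h : α • x + β • y ∈ D u) (hα : α ≠ 0) (hβ : β ≠ 0)
    (x0 : x ≠ 0) (hy' : y ∉ D r) : False := by
  have hrs : r ≠ s := by rintro rfl; exact hy' hy
  refine hD.notMem_of_two hrs ?_ ?_ u h
  · simp [hD.pr_self hx, hD.pr_ne hrs.symm hy, hα, x0]
  · simpa [hD.pr_self hy, hD.pr_ne hrs hx, hβ] using fun h : y = 0 => hy' (h ▸ zero_mem _)

theorem Dec.exists_moved {k : ℕ} {D : κ → Submodule F V} (hD : Dec k D) {t : V ≃ₗ[F] V} {y : V}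
    (h : t y ≠ y) : ∃ r, ∃ x ∈ D r, t x ≠ x := by
  by_contra! h1
  exact h (congrArg (· y) (hD.hom_ext (f := (t : V →ₗ[F] V)) (g := LinearMap.id) h1))

/-- a frame all of whose point stabilisers in `X` are monomial -/
structure Fr (X : Subgroup (V ≃ₗ[F] V)) (D : κ → Submodule F V) : Prop where
  dec : Dec 1 D
  le : decStab D ⊓ SLV F V ≤ X
  fix : ∀ g ∈ X, ∀ i j, ∀ v ∈ D i, v ≠ 0 → g v ∈ D j → g ∈ decStab D

namespace Fr

variable {X : Subgroup (V ≃ₗ[F] V)} {D D' : κ → Submodule F V}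

theorem map (h : Fr X D) {g : V ≃ₗ[F] V} (hg : g ∈ X) :
    Fr X fun i => (D i).map (g : V →ₗ[F] V) := by
  refine ⟨h.dec.map g, fun t ⟨h1, h2⟩ => ?_, fun t ht i j v hv v0 h1 => ?_⟩
  · have := h.le (x := g⁻¹ * t * g) ⟨h.dec.mem_decStab fun i => ?_,
      (MonoidHom.normal_ker _).conj_mem' t h2 g⟩
    · simpa [mul_assoc] using mul_mem (mul_mem hg this) (inv_mem hg)
    · obtain ⟨σ, hσ⟩ := Dec.exists_perm h1
      exact ⟨σ i, fun v hv => by simpa using hσ i (g v) (Submodule.mem_map_of_mem hv)⟩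
  · obtain ⟨σ, hσ⟩ := Dec.exists_perm (h.fix (g⁻¹ * t * g) (mul_mem (mul_mem (inv_mem hg) ht) hg)
      i j (g.symm v) (by simpa using hv) (by simpa using v0) (by simpa using h1))
    refine (h.dec.map g).mem_decStab fun i => ⟨σ i, ?_⟩
    rintro _ ⟨v, hv, rfl⟩
    simpa using hσ i v hv

theorem dis (h : Fr X D) {g : V ≃ₗ[F] V} (hg : g ∈ X) (hg' : g ∉ decStab D) (i j : κ) (v : V)
    (h1 : v ∈ D i) (h2 : v ∈ (D j).map (g : V →ₗ[F] V)) : v = 0 := by
  obtain ⟨v, hv, rfl⟩ := h2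
  by_contra h3
  exact hg' (h.fix g hg j i v hv (by rintro rfl; simp at h3) h1)

variable [Fintype F] (hq : 5 ≤ Fintype.card F) (hn : 5 ≤ Fintype.card κ) (h : Fr X D)
  (h' : Fr X D') (hd : ∀ i j v, v ∈ D i → v ∈ D' j → v = 0)
include hq hn h h' hd

omit hq hn in
theorem exists_two {k l : κ} (hkl : k ≠ l) {a : F} (a0 : a ≠ 0) (a1 : a - 1 ≠ 0) (a2 : a + 1 ≠ 0)
    (a3 : a + a⁻¹ + 1 ≠ 0) {t : V ≃ₗ[F] V} (ht : t ∈ decStab D')
    (h1 : ∀ x, t x = x + (a - 1) • h.dec.pr k x + (a⁻¹ - 1) • h.dec.pr l x) :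
    ∃ r, ∃ x ∈ D' r, h.dec.pr k x ≠ 0 ∧ h.dec.pr l x ≠ 0 ∧
      ∀ m, m ≠ k → m ≠ l → h.dec.pr m x = 0 := by
  suffices ∃ r, ∃ x ∈ D' r, x ≠ 0 ∧ ∀ m, m ≠ k → m ≠ l → h.dec.pr m x = 0 by
    obtain ⟨r, x, hx, x0, h2⟩ := this
    refine ⟨r, x, hx, fun h3 => x0 (hd l r x (h.dec.mem_iff.2 fun m hm => ?_) hx),
      fun h3 => x0 (hd k r x (h.dec.mem_iff.2 fun m hm => ?_) hx), h2⟩
    · exact if h4 : m = k then h4 ▸ h3 else h2 m h4 hm
    · exact if h4 : m = l then h4 ▸ h3 else h2 m hm h4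
  have h2 : ∀ m, m ≠ k → m ≠ l → ∀ x, h.dec.pr m (t x) = h.dec.pr m x := fun m h2 h3 x => by
    simp [h1, h.dec.pr_pr_ne h2.symm, h.dec.pr_pr_ne h3.symm]
  obtain ⟨u, hu, u0⟩ := h.dec.exists_ne_zero k
  obtain ⟨r, x, hx, h3⟩ := h'.dec.exists_moved (t := t) (y := u) (by
    simp [h1, h.dec.pr_self hu, h.dec.pr_ne hkl hu, a1, u0, add_assoc])
  obtain ⟨σ, hσ⟩ := Dec.exists_perm ht
  by_cases h4 : σ r = r
  · exact ⟨r, t x - x, sub_mem (h4 ▸ hσ r x hx) hx, sub_ne_zero.2 h3,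
      fun m h5 h6 => by rw [map_sub, h2 m h5 h6, sub_self]⟩
  have x0 : x ≠ 0 := by rintro rfl; simp at h3
  refine ⟨r, x, hx, x0, fun m h5 h6 => ?_⟩
  have h7 : t (t (t x)) = (a + a⁻¹ + 1) • t (t x) - (a + a⁻¹ + 1) • t x + x := by
    simp only [h1, map_add, map_smul, Dec.pr_pr, h.dec.pr_pr_ne hkl, h.dec.pr_pr_ne hkl.symm,
      smul_zero, add_zero]
    match_scalars <;> field_simp <;> ring
  have h8 := congrArg (h'.dec.pr (σ r)) h7
  rw [map_add, map_sub, map_smul, map_smul, h'.dec.pr_ne (Ne.symm h4) hx,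
    h'.dec.pr_self (hσ r x hx), h'.dec.pr_ne (σ.injective.ne h4) (hσ _ _ (hσ r x hx)),
    h'.dec.pr_of_mem (hσ _ _ (hσ _ _ (hσ r x hx)))] at h8
  split_ifs at h8
  · have h9 : t (t x) = -(a + a⁻¹ + 1) • x := t.injective (by
      rw [h8, map_smul]; module)
    have h10 := congrArg (h.dec.pr m) h9
    rw [h2 m h5 h6, h2 m h5 h6, map_smul] at h10
    refine (smul_eq_zero.1 (show ((a + 1) ^ 2 / a) • h.dec.pr m x = 0 by
      linear_combination (norm := skip) h10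
      match_scalars
      field_simp; ring)).resolve_left (div_ne_zero (pow_ne_zero _ a2) a0)
  · simp [a3, x0] at h8

theorem one_zero {w : V} {i : κ} (hw : w ∈ D' i) (w0 : w ≠ 0) {k l : κ} (hkl : k ≠ l)
    (hk : h.dec.pr k w = 0) (hl : h.dec.pr l w = 0) : False := by
  obtain ⟨a, a0, ha⟩ := exists_gen (F := F)
  have a1 : a - 1 ≠ 0 := fun h => ha 1 (by omega) (by omega) (by linear_combination h)
  have a2 : a + 1 ≠ 0 := fun h => ha 2 (by omega) (by omega) (by linear_combination (a - 1) * h)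
  have a3 : a + a⁻¹ + 1 ≠ 0 := fun h => ha 3 (by omega) (by omega) (by
    field_simp at h; linear_combination (a - 1) * h)
  have key : ∀ {w i}, w ∈ D' i → w ≠ 0 → ∀ {k l}, k ≠ l → h.dec.pr k w = 0 → h.dec.pr l w = 0 →
      ∃ t ∈ decStab D', ∀ x, t x = x + (a - 1) • h.dec.pr k x + (a⁻¹ - 1) • h.dec.pr l x :=
    fun {w i} hw w0 {k l} hkl hk hl => by
      obtain ⟨t, h1, h2⟩ := h.dec.exists_diag hkl a0
      exact ⟨t, h'.fix t (h.le h1) i i w hw w0 (by simpa [h2, hk, hl] using hw), h2⟩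
  obtain ⟨t, h1, h2⟩ := key hw w0 hkl hk hl
  obtain ⟨r, x, hx, h3, -, h4⟩ := h.exists_two h' hd hkl a0 a1 a2 a3 h1 h2
  have x0 : x ≠ 0 := by rintro rfl; simp at h3
  obtain ⟨m₁, hm₁⟩ := exists_notMem_of_card_lt (s := {k, l}) (Finset.card_le_two.trans_lt (by omega))
  obtain ⟨m₂, hm₂⟩ := exists_notMem_of_card_lt (s := {k, l, m₁})
    (Finset.card_le_three.trans_lt (by omega))
  obtain ⟨m₃, hm₃⟩ := exists_notMem_of_card_lt (s := {k, l, m₁, m₂})
    (Finset.card_le_four.trans_lt hn)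
  simp only [Finset.mem_insert, Finset.mem_singleton, not_or] at hm₁ hm₂ hm₃
  obtain ⟨t, h5, h6⟩ := key hx x0 (Ne.symm hm₂.2.2) (h4 _ hm₁.1 hm₁.2) (h4 _ hm₂.1 hm₂.2.1)
  obtain ⟨s, y, hy, h7, -, h8⟩ := h.exists_two h' hd (Ne.symm hm₂.2.2) a0 a1 a2 a3 h5 h6
  obtain ⟨t, h9, h10⟩ := key hx x0 (Ne.symm hm₃.2.2.1) (h4 _ hm₁.1 hm₁.2) (h4 _ hm₃.1 hm₃.2.1)
  have h11 := h8 _ hm₃.2.2.1 hm₃.2.2.2
  obtain ⟨s', hs'⟩ := Dec.exists_mem h9 hy
  obtain ⟨s'', hs''⟩ := Dec.exists_mem h9 hs'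
  refine h'.dec.false_of_three hy hs' (u := s'') (α := -a) (β := a + 1) ?_ (neg_ne_zero.2 a0) a2
    (by rintro rfl; simp at h7) fun h12 => ?_
  · convert hs'' using 1
    simp [h10, h11, h.dec.pr_pr_ne (Ne.symm hm₃.2.2.1)]
    module
  · refine smul_ne_zero a1 h7 (hd m₁ s _ ((D m₁).smul_mem _ (h.dec.pr_mem _ _)) ?_)
    simpa [h10, h11, add_sub_cancel_left] using sub_mem h12 hy

theorem exists_move {t : V ≃ₗ[F] V} {y : V} (hy : t y ≠ y) {k l : κ} (hkl : k ≠ l)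
    (hk : ∀ x, h.dec.pr k (t x) = h.dec.pr k x) (hl : ∀ x, h.dec.pr l (t x) = h.dec.pr l x) :
    ∃ r, ∃ x ∈ D' r, t x ∉ D' r := by
  obtain ⟨r, x, hx, h1⟩ := h'.dec.exists_moved hy
  exact ⟨r, x, hx, fun h2 => h.one_zero hq hn h' hd (sub_mem h2 hx) (sub_ne_zero.2 h1) hkl
    (by simp [hk]) (by simp [hl])⟩

theorem pr_ne_zero {w : V} {i : κ} (hw : w ∈ D' i) (w0 : w ≠ 0) (z : κ) : h.dec.pr z w ≠ 0 := by
  intro hz
  obtain ⟨b, hb, h1⟩ := h.dec.exists_basis w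
  have h2 : ∀ m, m ≠ z → b.repr w m = 1 := fun m hm =>
    h1 m fun h2 => h.one_zero hq hn h' hd hw w0 hm h2 hz
  have h3 : b.repr w z = 0 := by simpa [h.dec.pr_eq hb, b.ne_zero] using hz
  obtain ⟨i₁, k₁⟩ := exists_notMem_of_card_lt (s := {z}) (by simp; omega)
  obtain ⟨i₂, k₂⟩ := exists_notMem_of_card_lt (s := {z, i₁}) (Finset.card_le_two.trans_lt (by omega))
  obtain ⟨i₃, k₃⟩ := exists_notMem_of_card_lt (s := {z, i₁, i₂})
    (Finset.card_le_three.trans_lt (by omega))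
  obtain ⟨i₄, k₄⟩ := exists_notMem_of_card_lt (s := {z, i₁, i₂, i₃})
    (Finset.card_le_four.trans_lt hn)
  simp only [Finset.mem_insert, Finset.mem_singleton, not_or] at k₁ k₂ k₃ k₄
  obtain ⟨t, -, h4, h5⟩ := h.dec.exists_fix_det z (h.dec.equiv_mem hb (Equiv.swap i₁ i₂))
  change t * permLE b (Equiv.swap i₁ i₂) ∈ _ at h4
  set τ := t * permLE b (Equiv.swap i₁ i₂) with hτ
  have h6 : ∀ m, m ≠ z → τ (b m) = b (Equiv.swap i₁ i₂ m) := fun m hm => by
    rw [hτ, LinearEquiv.mul_apply, permLE_apply]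
    refine (h5 _).2 (h.dec.pr_ne (fun h6 => hm ?_) (hb _))
    rw [Equiv.swap_apply_eq_iff.1 h6, Equiv.swap_apply_of_ne_of_ne (Ne.symm k₁) (Ne.symm k₂.1)]
  have h7 : ∀ m, m ≠ z → m ≠ i₁ → m ≠ i₂ → ∀ x, h.dec.pr m (τ x) = h.dec.pr m x :=
    fun m k1 k2 k3 x => by
      rw [hτ, LinearEquiv.mul_apply, ← sub_add_cancel (t _) (permLE b (Equiv.swap i₁ i₂) x),
        map_add, h.dec.pr_ne k1.symm (h5 _).1, zero_add, h.dec.pr_eq hb, h.dec.pr_eq hb,
        ← repr_permLE b (Equiv.swap i₁ i₂) x, Equiv.swap_apply_of_ne_of_ne k2 k3]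
  have h8 : τ w = w := by
    have : permLE b (Equiv.swap i₁ i₂) w = w := b.ext_elem fun m => by
      obtain ⟨m, rfl⟩ := (Equiv.swap i₁ i₂).surjective m
      rw [repr_permLE, Equiv.swap_apply_def]
      split_ifs with k1 k2
      · rw [k1, h2 _ k₁, h2 _ k₂.1]
      · rw [k2, h2 _ k₁, h2 _ k₂.1]
      · rfl
    rw [hτ, LinearEquiv.mul_apply, this, (h5 w).2 hz]
  have h9 := h'.fix τ (h.le h4) i i w hw w0 (h8.symm ▸ hw)
  obtain ⟨r, x, hx, h10⟩ := h.exists_move hq hn h' hd (t := τ) (y := b i₁)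
    (by simpa [h6 _ k₁] using b.injective.ne k₂.2) k₄.2.2.2 (h7 _ k₄.1 k₄.2.1 k₄.2.2.1)
    (h7 _ k₃.1 k₃.2.1 k₃.2.2)
  obtain ⟨σ, hσ⟩ := Dec.exists_perm h9
  have h11 : σ r ≠ r := fun h11 => h10 (h11 ▸ hσ r x hx)
  have h12 : ∀ y, τ y = y → h'.dec.pr r y = 0 → h'.dec.pr (σ r) y = 0 := fun y k1 k2 => by
    have := h'.dec.pr_apply (g := (τ : V →ₗ[F] V)) σ.injective hσ r y
    rwa [LinearEquiv.coe_coe, k1, k2, map_zero] at this
  have h13 : ∀ m, m ≠ z → m ≠ i₁ → m ≠ i₂ → τ (b m) = b m := fun m k1 k2 k3 => by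
    rw [h6 m k1, Equiv.swap_apply_of_ne_of_ne k2 k3]
  have h14 : ∀ m, τ (b m) = b m → h'.dec.pr r (b m) ≠ 0 := fun m k1 k2 =>
    h'.one_zero hq hn h (fun i j v k3 k4 => hd j i v k4 k3) (hb m) (b.ne_zero m) h11
      (h12 _ k1 k2) k2
  have k3 := h13 _ k₃.1 k₃.2.1 k₃.2.2
  have k4 := h13 _ k₄.1 k₄.2.1 k₄.2.2.1
  obtain ⟨c, hc⟩ := h'.dec.exists_smul (h'.dec.pr_mem r _) (h14 _ k4) (h'.dec.pr_mem r (b i₃))
  have h15 : h'.dec.pr r w = 0 := h'.dec.pr_ne (fun k1 => h11 (h'.dec.eq_of_mem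
    (h8 ▸ hσ r w (k1 ▸ hw)) (k1 ▸ hw) w0)) hw
  have key : ∀ ε : F, ε ≠ -1 → ε ≠ c⁻¹ → ∃ s, w + ε • (b i₃ - c • b i₄) ∈ D' s := fun ε e1 e2 => by
    obtain ⟨d, k1, k2⟩ := h.dec.exists_diag k₃.1 (a := 1 + ε) fun k => e1 (by linear_combination k)
    obtain ⟨d', k1', k2'⟩ := h.dec.exists_diag k₄.1 (a := 1 - c * ε) fun k =>
      e2 (eq_inv_of_mul_eq_one_right (by linear_combination -k))
    have k5 : (d * d') w = w + ε • (b i₃ - c • b i₄) := by
      simp [k2, k2', h.dec.pr_eq hb, h2 _ k₃.1, h2 _ k₄.1, h3, k₄.1, k₄.2.2.2]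
      module
    have k6 := h.le (mul_mem k1 k1')
    by_contra k7
    have k8 : h'.dec.pr r ((d * d') w) = 0 := by simp [k5, h15, hc]
    exact h'.one_zero hq hn (h'.map k6) (h'.dis k6 fun k9 => k7 (k5 ▸ Dec.exists_mem k9 hw))
      (Submodule.mem_map_of_mem hw) (by simpa using w0) h11
      (h12 _ (by rw [LinearEquiv.coe_coe, k5]; simp [h8, k3, k4]) k8) k8
  classical
  obtain ⟨ε, e1⟩ := exists_avoid (S := {0, -1, c⁻¹}) (Finset.card_le_three.trans_lt (by omega))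
  obtain ⟨ε', e2⟩ := exists_avoid (S := {0, -1, c⁻¹, ε}) (Finset.card_le_four.trans_lt hq)
  simp only [Finset.mem_insert, Finset.mem_singleton, not_or] at e1 e2
  obtain ⟨s, hs⟩ := key ε e1.2.1 e1.2.2
  obtain ⟨s', hs'⟩ := key ε' e2.2.1 e2.2.2.1
  have e0 := e1.1
  refine h'.dec.false_of_three hw hs (u := s') (α := 1 - ε' / ε) (β := ε' / ε) ?_
    (fun k => e2.2.2.2 ?_) (div_ne_zero e2.1 e0) w0 fun k => ?_
  · convert hs' using 1
    match_scalars <;> field_simp <;> ring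
  · field_simp at k; linear_combination -k
  · refine h.one_zero hq hn h' hd (((D' i).add_mem_iff_right hw).1 k) (fun k1 => ?_) k₂.2 ?_ ?_
    · simpa [e0, k₄.2.2.2] using congrArg (b.repr · i₃) k1
    · simp [h.dec.pr_ne k₃.2.2 (hb _), h.dec.pr_ne k₄.2.2.1 (hb _)]
    · simp [h.dec.pr_ne k₃.2.1 (hb _), h.dec.pr_ne k₄.2.1 (hb _)]

theorem false : False := by
  haveI : Nontrivial κ := Fintype.one_lt_card_iff_nontrivial.1 (by omega)
  obtain ⟨i⟩ : Nonempty κ := inferInstance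
  obtain ⟨w, hw, w0⟩ := h'.dec.exists_ne_zero i
  obtain ⟨b, hb, h1⟩ := h.dec.exists_basis w
  have h2 : ∀ σ, permLE b σ w = w := fun σ => b.ext_elem fun m => by
    obtain ⟨m, rfl⟩ := σ.surjective m
    rw [repr_permLE, h1 _ (h.pr_ne_zero hq hn h' hd hw w0 _), h1 _ (h.pr_ne_zero hq hn h' hd hw w0 _)]
  let P : alternatingGroup κ →* decStab D' := ((permLE b).comp (alternatingGroup κ).subtype).codRestrict
    _ fun σ => h'.fix _ (h.le ⟨h.dec.equiv_mem hb σ, mem_SLV.2 ((det_permLE b σ).trans (by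
      simp [Equiv.Perm.mem_alternatingGroup.1 σ.2]))⟩) i i w hw w0 ((h2 σ).symm ▸ hw)
  let ρ := h'.dec.permHom.comp P
  have h3 : ∀ σ r, ∀ x ∈ D' r, permLE b σ.1 x ∈ D' (ρ σ r) := fun σ r x hx =>
    h'.dec.permHom_mem (P σ) hx
  haveI := alternatingGroup.isSimpleGroup (α := κ) (by simpa using hn)
  rcases (MonoidHom.normal_ker ρ).eq_bot_or_eq_top with h4 | h4
  · have h5 := Subgroup.card_le_of_le (show ρ.range ≤ MulAction.stabilizer _ i by
      rintro _ ⟨σ, rfl⟩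
      exact h'.dec.eq_of_mem (h2 σ ▸ h3 σ i w hw) hw w0)
    rw [← Nat.card_congr (MonoidHom.ofInjective ((MonoidHom.ker_eq_bot_iff ρ).1 h4)).toEquiv] at h5
    have h6 := (alternatingGroup κ).card_mul_index
    have h7 := (MulAction.stabilizer (Equiv.Perm κ) i).card_mul_index
    rw [alternatingGroup.index_eq_two] at h6
    rw [MulAction.index_stabilizer_of_transitive, Nat.card_eq_fintype_card (α := κ)] at h7
    have := Nat.card_pos (α := alternatingGroup κ)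
    nlinarith
  · obtain ⟨i₂, k₂⟩ := exists_notMem_of_card_lt (s := {i}) (by simp; omega)
    obtain ⟨i₃, k₃⟩ := exists_notMem_of_card_lt (s := {i, i₂}) (Finset.card_le_two.trans_lt (by omega))
    obtain ⟨i₄, k₄⟩ := exists_notMem_of_card_lt (s := {i, i₂, i₃})
      (Finset.card_le_three.trans_lt (by omega))
    obtain ⟨i₅, k₅⟩ := exists_notMem_of_card_lt (s := {i, i₂, i₃, i₄})
      (Finset.card_le_four.trans_lt hn)
    simp only [Finset.mem_insert, Finset.mem_singleton, not_or] at k₂ k₃ k₄ k₅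
    let σ : alternatingGroup κ := ⟨Equiv.swap i i₂ * Equiv.swap i i₃, by
      simp [Ne.symm k₂, Ne.symm k₃.1]⟩
    have h5 : ∀ m, m ≠ i → m ≠ i₂ → m ≠ i₃ → ∀ x, h.dec.pr m (permLE b σ.1 x) = h.dec.pr m x :=
      fun m k1 k2 k3 x => by
        rw [h.dec.pr_eq hb, h.dec.pr_eq hb, ← repr_permLE b σ.1 x]
        simp [σ, Equiv.swap_apply_of_ne_of_ne, k1, k2, k3]
    obtain ⟨r, x, hx, h6⟩ := h.exists_move hq hn h' hd (t := permLE b σ.1) (y := b i₃)
      (by simpa [permLE_apply, σ] using b.injective.ne (Ne.symm k₃.2)) k₅.2.2.2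
      (h5 _ k₅.1 k₅.2.1 k₅.2.2.1) (h5 _ k₄.1 k₄.2.1 k₄.2.2)
    have h7 : ρ σ = 1 := by rw [← MonoidHom.mem_ker, h4]; trivial
    simpa [h7, h6] using h3 σ r x hx

end Fr

/-- The monomial group is maximal in `SL_n(q)` for `n, q ≥ 5`. -/
theorem Dec.maximal_sl_one [Fintype F] {D : κ → Submodule F V} (hD : Dec 1 D)
    (hq : 5 ≤ Fintype.card F) (hn : 5 ≤ Fintype.card κ) :
    Geo.IsMaximalIn (SLV F V) (decStab D ⊓ SLV F V) := by
  refine isMaximalIn_of inf_le_right ?_ fun X hX hX' g hg hgH => ?_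
  · obtain ⟨g, h1, h2⟩ := hD.exists_notMem_decStab (by omega)
    exact ⟨g, h1, fun h => h2 h.1⟩
  by_contra hne
  have h : Fr X D := ⟨hD, hX, fun g hg i j v hv v0 h1 => by
    by_contra h2
    by_cases hij : j = i
    · exact hne (hD.SLV_le_of_fix hX hq (by omega) hg (hD.apply_mem hv v0 (hij ▸ h1)) h2)
    obtain ⟨s, h3, h4, -⟩ := hD.exists_swap_sl hij
    exact hne (hD.SLV_le_of_fix hX hq (by omega) (mul_mem (hX h3) hg)
      (hD.apply_mem hv v0 (h4 _ h1)) fun h5 => h2 ((Subgroup.mul_mem_cancel_left _ h3.1).1 h5))⟩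
  exact h.false hq hn (h.map hg) (h.dis hg fun h1 => hgH ⟨h1, hX' hg⟩)

/-- Stabilisers of decompositions in `SL_n(q)`, `n ≥ 5`. -/
theorem maximal_sl_dec [Fintype F] {ι : Type} [Fintype ι] [DecidableEq ι]
    (hn : 5 ≤ Fintype.card ι) {t m : ℕ} {D : Fin t → Submodule F (ι → F)}
    (hD : Geo.IsMDecomposition m D) (h1 : m = 1 → 5 ≤ Fintype.card F)
    (h2 : m = 2 → 3 ≤ Fintype.card F) :
    Geo.IsMaximalIn (Geo.specialLinear ι F)
      (Geo.decompositionStabilizer D ⊓ Geo.specialLinear ι F) := by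
  refine isMaximalIn_of_equiv toLE mem_specialLinear_iff (H' := decStab D ⊓ SLV F _) (fun g => by
    simp only [Subgroup.mem_inf, mem_specialLinear_iff, mem_decompositionStabilizer_iff]) ?_
  have h3 := IsMDecomposition.mul_eq hD
  have h4 := hD.pos
  by_cases hm : m = 1
  · subst hm
    exact (IsMDecomposition.dec hD).maximal_sl_one (h1 rfl) (by simp; omega)
  refine (IsMDecomposition.dec hD).maximal_sl_two (by omega) (by simpa using hD.two_le) ?_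
  by_cases hm' : m = 2
  · subst hm'
    exact Or.inr (Or.inl ⟨h2 rfl, by simp; omega⟩)
  · omega

end Cfsg.Agent.H8
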