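import Cfsg.Agent.H8.T2tv

/-!
A linear group that is doubly transitive on points is transitive on antiflags.
-/

set_option autoImplicit false

namespace Cfsg.Agent.H8.T2tv

open Module Cfsg.Agent.H7

variable {F : Type*} [Field F] {V : Type*} [AddCommGroup V] [Module F V]

/-- doubly transitive on points -/
def T2 (X : Subgroup (V ≃ₗ[F] V)) : Prop :=
  ∀ u w u' w' : V, u ≠ 0 → w ∉ F ∙ u → u' ≠ 0 → w' ∉ F ∙ u' →
    ∃ g ∈ X, ∃ a b : F, g u = a • u' ∧ g w = b • w'

theorem eq_smul_of_ker {φ ψ : Dual F V} (h0 : φ ≠ 0) (h : ∀ y, φ y = 0 → ψ y = 0) :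
    ∃ c : F, ψ = c • φ := by
  obtain ⟨w, hw⟩ := LinearMap.surjective_of_ne_zero h0 1
  refine ⟨ψ w, LinearMap.ext fun y => ?_⟩
  have := h (y - φ y • w) (by simp [hw])
  rw [map_sub, map_smul, sub_eq_zero] at this
  rw [this]; simp [mul_comm]

open Classical in
theorem radon [Fintype F] [FiniteDimensional F V] [Fintype V] [Fintype (Dual F V)]
    (hn : 2 ≤ finrank F V) (d : Dual F V → ℤ) (h0 : d 0 = 0)
    (hs : ∀ (c : F) ψ, c ≠ 0 → d (c • ψ) = d ψ)
    (h : ∀ y : V, y ≠ 0 → ∑ ψ with ψ y = 0, d ψ = 0) (φ : Dual F V) : d φ = 0 := by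
  set q := Nat.card F with hq
  have hq2 : 2 ≤ q := Finite.one_lt_card
  obtain ⟨m, hm⟩ := Nat.exists_eq_add_of_le hn
  have hV : Nat.card V = q * q * q ^ m := by
    rw [Module.natCard_eq_pow_finrank (K := F), hm]; ring
  set P := q ^ m with hP
  have hP1 : 0 < P := by positivity
  have hk : ∀ ψ : Dual F V, ψ ≠ 0 → Nat.card {w : V // ψ w = 0} = q * P := by
    intro ψ hψ
    have h1 := card_ker_dual hψ
    apply Nat.eq_of_mul_eq_mul_right (show 0 < q by omega)
    rw [h1, hV]; ring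
  have T : ∀ χ : Dual F V,
      ∑ ψ, d ψ = ∑ ψ, d ψ * (Nat.card {w : V // χ w = 0 ∧ ψ w = 0} : ℤ) := by
    intro χ
    have e1 : ∀ ψ : Dual F V, d ψ * (Nat.card {w : V // χ w = 0 ∧ ψ w = 0} : ℤ) =
        ∑ w : V, if χ w = 0 then (if ψ w = 0 then d ψ else 0) else 0 := by
      intro ψ
      simp only [← ite_and]
      rw [← Finset.sum_filter, Finset.sum_const, Nat.card_eq_fintype_card, Fintype.card_subtype]
      simp [mul_comm]
    simp only [e1]
    rw [Finset.sum_comm, Finset.sum_eq_single (0 : V)]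
    · simp
    · intro y _ hy
      by_cases hc : χ y = 0
      · simp only [if_pos hc]
        rw [← Finset.sum_filter]
        exact h y hy
      · simp [hc]
    · simp
  have hS : ∑ ψ, d ψ = 0 := by
    have h1 := T 0
    have e : ∀ ψ : Dual F V, d ψ * (Nat.card {w : V // (0 : Dual F V) w = 0 ∧ ψ w = 0} : ℤ) =
        d ψ * ((q * P : ℕ) : ℤ) := by
      intro ψ
      by_cases hψ : ψ = 0
      · rw [hψ, h0]; simp
      · rw [← hk ψ hψ]; simp
    simp only [e] at h1
    rw [← Finset.sum_mul] at h1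
    have : (1 : ℤ) < ((q * P : ℕ) : ℤ) := by
      have : 2 * 1 ≤ q * P := Nat.mul_le_mul hq2 hP1
      omega
    have h2 : (∑ ψ, d ψ) * (((q * P : ℕ) : ℤ) - 1) = 0 := by linarith
    rcases mul_eq_zero.1 h2 with h3 | h3
    · exact h3
    · omega
  by_cases hφ : φ = 0
  · rw [hφ, h0]
  have h1 := T φ
  have e : ∀ ψ : Dual F V, d ψ * (Nat.card {w : V // φ w = 0 ∧ ψ w = 0} : ℤ) =
      d ψ * P + (if ψ ∈ F ∙ φ then d ψ else 0) * (((q : ℤ) - 1) * P) := by
    intro ψ
    by_cases hψ : ψ ∈ F ∙ φ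
    · rw [if_pos hψ]
      obtain ⟨c, rfl⟩ := Submodule.mem_span_singleton.1 hψ
      have : Nat.card {w : V // φ w = 0 ∧ (c • φ) w = 0} = q * P := by
        rw [← hk φ hφ]
        exact Nat.card_congr (Equiv.subtypeEquivRight fun w => by
          constructor
          · exact fun h => h.1
          · exact fun h => ⟨h, by simp [h]⟩)
      rw [this]; push_cast; ring
    · rw [if_neg hψ]
      have hne : ψ.domRestrict (LinearMap.ker φ) ≠ 0 := by
        intro e0
        obtain ⟨c, hc⟩ := eq_smul_of_ker (ψ := ψ) hφ (fun y hy => by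
          exact congrArg (fun f : Dual F (LinearMap.ker φ) => f ⟨y, hy⟩) e0)
        exact hψ (Submodule.mem_span_singleton.2 ⟨c, hc.symm⟩)
      have h2 := card_ker_dual hne
      have h3 : Nat.card (LinearMap.ker φ) = q * P := hk φ hφ
      have h4 : Nat.card {w : V // φ w = 0 ∧ ψ w = 0} = P := by
        apply Nat.eq_of_mul_eq_mul_right (show 0 < q by omega)
        rw [mul_comm P q, ← h3, ← h2]
        congr 1
        exact Nat.card_congr (Equiv.subtypeSubtypeEquivSubtypeInter (fun w => φ w = 0)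
          (fun w => ψ w = 0)).symm
      rw [h4]; simp
  simp only [e] at h1
  rw [Finset.sum_add_distrib, ← Finset.sum_mul, ← Finset.sum_mul, hS, ← Finset.sum_filter] at h1
  have e2 : ∑ ψ with ψ ∈ F ∙ φ, d ψ = ∑ c : F, d (c • φ) := by
    symm
    refine Finset.sum_bij (fun c _ => c • φ) ?_ ?_ ?_ ?_
    · intro c _
      simpa using Submodule.smul_mem _ c (Submodule.mem_span_singleton_self φ)
    · intro a _ b _ hab
      exact smul_left_injective F hφ hab
    · intro ψ hψ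
      obtain ⟨c, hc⟩ := Submodule.mem_span_singleton.1 (Finset.mem_filter.1 hψ).2
      exact ⟨c, Finset.mem_univ _, hc⟩
    · intro c _; rfl
  have e3 : ∑ c : F, d (c • φ) + d φ = q * d φ := by
    have : ∀ c : F, d (c • φ) + (if c = 0 then d φ else 0) = d φ := by
      intro c
      by_cases hc : c = 0
      · simp [hc, h0]
      · simp [hc, hs c φ hc]
    have h5 := Finset.sum_congr rfl (fun c (_ : c ∈ Finset.univ) => this c)
    rw [Finset.sum_add_distrib, Finset.sum_ite_eq', Finset.sum_const, Finset.card_univ,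
      ← Nat.card_eq_fintype_card, ← hq] at h5
    simpa using h5
  rw [e2] at h1
  have hq1 : (0 : ℤ) < (q : ℤ) - 1 := by omega
  have h6 : ∑ c : F, d (c • φ) = 0 := by
    have : (∑ c : F, d (c • φ)) * (((q : ℤ) - 1) * P) = 0 := by linarith
    rcases mul_eq_zero.1 this with h7 | h7
    · exact h7
    · have : (0 : ℤ) < ((q : ℤ) - 1) * P := mul_pos hq1 (by exact_mod_cast hP1)
      omega
  have : ((q : ℤ) - 1) * d φ = 0 := by linarith
  rcases mul_eq_zero.1 this with h7 | h7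
  · omega
  · exact h7

theorem ne_zero_of_eq_smul {g : V ≃ₗ[F] V} {u u' : V} {a : F} (hu : u ≠ 0) (e : g u = a • u') :
    a ≠ 0 := by
  rintro rfl
  rw [zero_smul, g.map_eq_zero_iff] at e
  exact hu e

/-- the stabiliser of a point is transitive on the hyperplanes missing it -/
theorem T2.hyp [Finite F] [FiniteDimensional F V] {X : Subgroup (V ≃ₗ[F] V)} (ht : T2 X)
    (hn : 2 ≤ finrank F V) {x : V} {φ ψ : Dual F V} (hφ : φ x ≠ 0) (hψ : ψ x ≠ 0) :
    ∃ g ∈ X, ∃ a b : F, g x = a • x ∧ ∀ z, ψ (g z) = b * φ z := by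
  classical
  haveI : Finite V := Module.finite_of_finite F
  haveI : Finite (Dual F V) := Module.finite_of_finite F
  letI := Fintype.ofFinite V
  letI := Fintype.ofFinite F
  letI := Fintype.ofFinite (Dual F V)
  have hx : x ≠ 0 := by rintro rfl; simp at hφ
  let S : Dual F V → Prop := fun χ =>
    ∃ g ∈ X, ∃ a b : F, b ≠ 0 ∧ g x = a • x ∧ ∀ z, χ (g z) = b * φ z
  let S' : Dual F V → Prop := fun χ => χ x ≠ 0
  have hSS : ∀ χ, S χ → S' χ := by
    rintro χ ⟨g, -, a, b, hb, e1, e2⟩ hc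
    have := e2 x
    rw [e1, map_smul, hc, smul_zero] at this
    exact mul_ne_zero hb hφ this.symm
  have cst : ∀ R : Dual F V → Prop,
      (∀ χ, R χ → ∀ h ∈ X, ∀ a : F, h x = a • x → R (χ ∘ₗ (h.symm : V →ₗ[F] V))) →
      ∀ y y' : V, y ∉ F ∙ x → y' ∉ F ∙ x →
      (Finset.univ.filter fun χ : Dual F V => χ y = 0 ∧ R χ).card ≤
        (Finset.univ.filter fun χ : Dual F V => χ y' = 0 ∧ R χ).card := by
    intro R hR y y' hy hy'
    obtain ⟨h, hh, a, b, e1, e2⟩ := ht x y x y' hx hy hx hy'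
    have hb : b ≠ 0 := ne_zero_of_eq_smul (by rintro rfl; exact hy (Submodule.zero_mem _)) e2
    refine Finset.card_le_card_of_injOn (fun χ => χ ∘ₗ (h.symm : V →ₗ[F] V)) ?_ ?_
    · intro χ hχ
      simp only [Finset.coe_filter, Finset.mem_univ, true_and, Set.mem_setOf_eq] at hχ ⊢
      refine ⟨?_, hR χ hχ.2 h hh a e1⟩
      have : h.symm y' = b⁻¹ • y := by
        rw [LinearEquiv.symm_apply_eq, map_smul, e2, smul_smul]; simp [hb]
      simp [this, hχ.1]
    · intro χ _ χ' _ e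
      ext z
      simpa using congrArg (fun f : Dual F V => f (h z)) e
  have iS : ∀ χ, S χ → ∀ h ∈ X, ∀ a : F, h x = a • x → S (χ ∘ₗ (h.symm : V →ₗ[F] V)) := by
    rintro χ ⟨g, hg, a, b, hb, e1, e2⟩ h hh a' e
    refine ⟨h * g, X.mul_mem hh hg, a * a', b, hb, ?_, fun z => ?_⟩
    · rw [LinearEquiv.mul_apply, e1, map_smul, e, smul_smul]
    · simp [e2]
  have iS' : ∀ χ, S' χ → ∀ h ∈ X, ∀ a : F, h x = a • x → S' (χ ∘ₗ (h.symm : V →ₗ[F] V)) := by
    intro χ hχ h _ a e
    have ha := ne_zero_of_eq_smul hx e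
    have : h.symm x = a⁻¹ • x := by
      rw [LinearEquiv.symm_apply_eq, map_smul, e, smul_smul]; simp [ha]
    simp only [S'] at hχ ⊢
    simp [this, ha, hχ]
  obtain ⟨y0, -, hy0⟩ := exists_notMem_of_finrank_lt (U := F ∙ x) (W := ⊤)
    (by rw [finrank_top]; have := finrank_span_singleton_le (F := F) x; omega)
  set β := (Finset.univ.filter fun χ : Dual F V => χ y0 = 0 ∧ S χ).card with hβ
  set M := (Finset.univ.filter fun χ : Dual F V => χ y0 = 0 ∧ S' χ).card with hM
  have hMpos : 0 < M := by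
    have hx0 : x ∉ F ∙ y0 := by
      intro hm
      obtain ⟨c, hc⟩ := Submodule.mem_span_singleton.1 hm
      have hc0 : c ≠ 0 := by rintro rfl; exact hx (by simpa using hc.symm)
      exact hy0 (Submodule.mem_span_singleton.2 ⟨c⁻¹, by rw [← hc, smul_smul]; simp [hc0]⟩)
    obtain ⟨χ, h1, h2⟩ := exists_dual_one hx0
    exact Finset.card_pos.2 ⟨χ, by
      simp only [Finset.mem_filter, Finset.mem_univ, true_and, S']
      exact ⟨h2 _ (Submodule.mem_span_singleton_self _), by simp [h1]⟩⟩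
  let d : Dual F V → ℤ := fun χ => (if S χ then (M : ℤ) else 0) - (if S' χ then (β : ℤ) else 0)
  have hd : ∀ χ, d χ = 0 := by
    refine radon hn d ?_ ?_ ?_
    · have h1 : ¬ S' 0 := by simp [S']
      simp only [d, if_neg h1, if_neg (fun h => h1 (hSS _ h)), sub_zero]
    · intro c χ hc
      have h1 : S' (c • χ) ↔ S' χ := by simp [S', hc]
      have h2 : S (c • χ) ↔ S χ := by
        constructor
        · rintro ⟨g, hg, a, b, hb, e1, e2⟩
          refine ⟨g, hg, a, c⁻¹ * b, mul_ne_zero (inv_ne_zero hc) hb, e1, fun z => ?_⟩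
          rw [mul_assoc, ← e2 z]; simp [hc]
        · rintro ⟨g, hg, a, b, hb, e1, e2⟩
          refine ⟨g, hg, a, c * b, mul_ne_zero hc hb, e1, fun z => ?_⟩
          rw [mul_assoc, ← e2 z]; simp
      simp only [d, h1, h2]
    · intro y hy
      simp only [d]
      rw [Finset.sum_sub_distrib, ← Finset.sum_filter, ← Finset.sum_filter, Finset.filter_filter,
        Finset.filter_filter, Finset.sum_const, Finset.sum_const]
      by_cases hm : y ∈ F ∙ x
      · obtain ⟨c, rfl⟩ := Submodule.mem_span_singleton.1 hm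
        have hc : c ≠ 0 := by rintro rfl; simp at hy
        have h1 : ∀ χ : Dual F V, ¬ (χ (c • x) = 0 ∧ S' χ) := by
          intro χ hχ
          simp only [S', map_smul, smul_eq_mul, mul_eq_zero, hc, false_or] at hχ
          exact hχ.2 hχ.1
        rw [Finset.filter_false_of_mem (fun χ _ => h1 χ),
          Finset.filter_false_of_mem (fun χ _ hχ => h1 χ ⟨hχ.1, hSS _ hχ.2⟩)]
        simp
      · have a1 : (Finset.univ.filter fun χ : Dual F V => χ y = 0 ∧ S χ).card = β := by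
          convert le_antisymm (cst S iS y y0 hm hy0) (cst S iS y0 y hy0 hm)
        have a2 : (Finset.univ.filter fun χ : Dual F V => χ y = 0 ∧ S' χ).card = M := by
          convert le_antisymm (cst S' iS' y y0 hm hy0) (cst S' iS' y0 y hy0 hm)
        rw [a1, a2]
        simp [mul_comm]
  have h1 := hd φ
  have hSφ : S φ := ⟨1, X.one_mem, 1, 1, one_ne_zero, by simp, by simp⟩
  simp only [d, if_pos hSφ, if_pos (hSS _ hSφ)] at h1
  have h2 := hd ψ
  have hS' : S' ψ := hψ
  simp only [d, if_pos hS'] at h2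
  by_cases hS : S ψ
  · obtain ⟨g, hg, a, b, -, e1, e2⟩ := hS
    exact ⟨g, hg, a, b, e1, e2⟩
  · rw [if_neg hS] at h2
    omega

theorem T2.pt [FiniteDimensional F V] {X : Subgroup (V ≃ₗ[F] V)} (ht : T2 X)
    (hn : 2 ≤ finrank F V) {x y : V} (hx : x ≠ 0) (hy : y ≠ 0) :
    ∃ g ∈ X, ∃ a : F, g x = a • y := by
  have ex : ∀ x : V, ∃ y, y ∉ F ∙ x := fun x => by
    obtain ⟨y, -, hy⟩ := exists_notMem_of_finrank_lt (U := F ∙ x) (W := ⊤)
      (by rw [finrank_top]; have := finrank_span_singleton_le (F := F) x; omega)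
    exact ⟨y, hy⟩
  obtain ⟨w, hw⟩ := ex x
  obtain ⟨w', hw'⟩ := ex y
  obtain ⟨g, hg, a, b, e1, -⟩ := ht x w y w' hx hw hy hw'
  exact ⟨g, hg, a, e1⟩

/-- transitivity on antiflags -/
theorem T2.anti [Finite F] [FiniteDimensional F V] {X : Subgroup (V ≃ₗ[F] V)} (ht : T2 X)
    (hn : 2 ≤ finrank F V) {x y : V} {φ ψ : Dual F V} (hφ : φ x ≠ 0) (hψ : ψ y ≠ 0) :
    ∃ g ∈ X, ∃ a b : F, g x = a • y ∧ ∀ z, ψ (g z) = b * φ z := by
  have hx : x ≠ 0 := by rintro rfl; simp at hφ
  have hy : y ≠ 0 := by rintro rfl; simp at hψ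
  obtain ⟨g, hg, a, e⟩ := ht.pt hn hx hy
  have ha := ne_zero_of_eq_smul hx e
  have : g.symm y = a⁻¹ • x := by
    rw [LinearEquiv.symm_apply_eq, map_smul, e, smul_smul]; simp [ha]
  obtain ⟨h, hh, a', b, e1, e2⟩ := ht.hyp hn (x := y) (φ := φ ∘ₗ (g.symm : V →ₗ[F] V))
    (by simp [this, ha, hφ]) hψ
  refine ⟨h * g, X.mul_mem hh hg, a * a', b, ?_, fun z => ?_⟩
  · rw [LinearEquiv.mul_apply, e, map_smul, e1, smul_smul]
  · simp [e2]

end Cfsg.Agent.H8.T2tv
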