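import Cfsg.Agent.H7.Parabolic

/-!
Pauli groups in an algebra: the symplectic space, controlled gates.
-/

set_option autoImplicit false
set_option linter.unusedSectionVars false

namespace Cfsg.Agent.H8.C6

open Module H7 H7.Polar

variable (F : Type*) [Field F] {A : Type*} [Ring A] [Algebra F A]

/-- scalar units -/
def Sc (a : Aˣ) : Prop := ∃ c : F, (a : A) = algebraMap F A c

/-- anticommuting units -/
def Anti (a b : Aˣ) : Prop := a * b = -(b * a)

/-- the projection to the `-1` eigenspace -/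
def pe (a : Aˣ) : A := (2 : F)⁻¹ • (1 - (a : A))

/-- groups whose squares and commutators are `±1`, with scalar centraliser -/
structure Pauli (R : Subgroup Aˣ) : Prop where
  two : (2 : F) ≠ 0
  irr : ∀ m : A, (∀ a ∈ R, m * a = a * m) → ∃ c : F, m = algebraMap F A c
  sq : ∀ a ∈ R, a * a = 1 ∨ a * a = -1
  comm : ∀ a ∈ R, ∀ b ∈ R, Commute a b ∨ Anti a b
  neg : (-1 : Aˣ) ∈ R

variable {F}

theorem Sc.comm {a : Aˣ} (h : Sc F a) (b : Aˣ) : Commute a b := by
  obtain ⟨c, hc⟩ := h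
  exact Units.ext (by simp [hc, Algebra.commutes])

theorem Sc.mul {a b : Aˣ} (h : Sc F a) (h' : Sc F b) : Sc F (a * b) := by
  obtain ⟨c, hc⟩ := h
  obtain ⟨d, hd⟩ := h'
  exact ⟨c * d, by simp [hc, hd]⟩

theorem Sc.neg {a : Aˣ} (h : Sc F a) : Sc F (-a) := by
  obtain ⟨c, hc⟩ := h
  exact ⟨-c, by simp [hc]⟩

theorem sc_one : Sc F (1 : Aˣ) := ⟨1, by simp⟩

theorem sc_neg_iff {a : Aˣ} : Sc F (-a) ↔ Sc F a := ⟨fun h => by simpa using h.neg, Sc.neg⟩

theorem Sc.conj {a : Aˣ} (h : Sc F a) (g : Aˣ) : g * a * g⁻¹ = a := by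
  rw [← (h.comm g).eq, mul_inv_cancel_right]

theorem sc_conj_iff {a g : Aˣ} : Sc F (g * a * g⁻¹) ↔ Sc F a :=
  ⟨fun h => by rwa [← h.conj g⁻¹, show g⁻¹ * (g * a * g⁻¹) * g⁻¹⁻¹ = a by group] at h,
    fun h => by rwa [h.conj]⟩

theorem Sc.inv {a : Aˣ} (h : Sc F a) : Sc F a⁻¹ := by
  obtain ⟨c, hc⟩ := h
  by_cases h0 : c = 0
  · refine ⟨0, ?_⟩
    have := a.inv_mul
    rw [hc, h0, map_zero, mul_zero] at this
    rw [← mul_one (a⁻¹).val, ← this, mul_zero, map_zero]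
  · exact ⟨c⁻¹, Units.inv_eq_of_mul_eq_one_right (by rw [hc, ← map_mul, mul_inv_cancel₀ h0, map_one])⟩

variable (F A) in
/-- the group of scalars -/
def ScG : Subgroup Aˣ where
  carrier := {a | Sc F a}
  mul_mem' := Sc.mul
  one_mem' := sc_one
  inv_mem' := Sc.inv

theorem mem_ScG {a : Aˣ} : a ∈ ScG F A ↔ Sc F a := Iff.rfl

theorem ScG_normal : (ScG F A).Normal := ⟨fun _ h _ => sc_conj_iff.2 h⟩

theorem Anti.symm {a b : Aˣ} (h : Anti a b) : Anti b a := by rw [Anti, h, neg_neg]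

theorem Anti.eq {a b : Aˣ} (h : Anti a b) : a * b = -(b * a) := h

theorem Anti.neg_left {a b : Aˣ} (h : Anti a b) : Anti (-a) b := by simp [Anti, h.eq]

theorem Anti.neg_right {a b : Aˣ} (h : Anti a b) : Anti a (-b) := h.symm.neg_left.symm

theorem Anti.mul_comm {a b c : Aˣ} (h : Anti a b) (h' : Commute a c) : Anti a (b * c) := by
  rw [Anti, ← mul_assoc, h, neg_mul, mul_assoc, h'.eq, mul_assoc]

theorem Anti.comm_mul {a b c : Aˣ} (h : Anti a c) (h' : Commute a b) : Anti a (b * c) := by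
  rw [Anti, ← mul_assoc, h'.eq, mul_assoc, h, mul_neg, mul_assoc]

theorem Anti.mul_anti {a b c : Aˣ} (h : Anti a b) (h' : Anti a c) : Commute a (b * c) := by
  rw [Commute, SemiconjBy, ← mul_assoc, h, neg_mul, mul_assoc, h', mul_neg, neg_neg, mul_assoc]

theorem Anti.inv_right {a b : Aˣ} (h : Anti a b) : Anti a b⁻¹ := by
  rw [Anti, mul_inv_eq_iff_eq_mul, neg_mul, mul_assoc, h]; simp

theorem Anti.conj_eq {a b : Aˣ} (h : Anti a b) : a * b * a⁻¹ = -b := by simp [h.eq]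

theorem Anti.conj {a b : Aˣ} (h : Anti a b) (g : Aˣ) : Anti (g * a * g⁻¹) (g * b * g⁻¹) := by
  rw [Anti, conj_mul, conj_mul, h]; simp

theorem anti_of_conj {a b g : Aˣ} (h : Anti (g * a * g⁻¹) (g * b * g⁻¹)) : Anti a b := by
  simpa [mul_assoc] using h.conj g⁻¹

theorem comm_conj {a b : Aˣ} (h : Commute a b) (g : Aˣ) : Commute (g * a * g⁻¹) (g * b * g⁻¹) := by
  rw [Commute, SemiconjBy, conj_mul, conj_mul, h.eq]

theorem comm_of_conj {a b g : Aˣ} (h : Commute (g * a * g⁻¹) (g * b * g⁻¹)) : Commute a b := by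
  simpa [mul_assoc] using comm_conj h g⁻¹

theorem Anti.mul_sq {a b : Aˣ} (h : Anti a b) : a * b * (a * b) = -(a * a * (b * b)) := by
  rw [mul_assoc, ← mul_assoc b, h.symm]; simp [mul_assoc]

theorem comm_mul_sq {a b : Aˣ} (h : Commute a b) : a * b * (a * b) = a * a * (b * b) := by
  rw [mul_assoc, ← mul_assoc b, ← h.eq]; simp [mul_assoc]

theorem conj_sq {a s : Aˣ} (h : a * a = s) (hs : s = 1 ∨ s = -1) (g : Aˣ) :
    g * a * g⁻¹ * (g * a * g⁻¹) = s := by
  rw [conj_mul, h]; rcases hs with rfl | rfl <;> simp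

section pe

variable (h2 : (2 : F) ≠ 0)

theorem pe_neg (a : Aˣ) : pe F (-a) = (2 : F)⁻¹ • (1 + (a : A)) := by simp [pe]

theorem pe_one : pe F (1 : Aˣ) = 0 := by simp [pe]

include h2

theorem half_two (m : A) : (2 : F)⁻¹ • (m + m) = m := by
  rw [← two_smul F, smul_smul, inv_mul_cancel₀ h2, one_smul]

theorem pe_add (a : Aˣ) : pe F a + pe F (-a) = 1 := by
  rw [pe_neg, pe, ← smul_add, show 1 - (a : A) + (1 + a) = 1 + 1 by abel, half_two h2]

theorem pe_neg' (a : Aˣ) : pe F (-a) = 1 - pe F a := by rw [← pe_add h2 a]; abel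

theorem pe_neg_one : pe F (-1 : Aˣ) = 1 := by rw [pe_neg' h2, pe_one, sub_zero]

theorem eq_pe (a : Aˣ) : (a : A) = 1 - (pe F a + pe F a) := by
  rw [pe, ← smul_add, half_two h2]; abel

omit h2 in
theorem mul_pe {a : Aˣ} (ha : a * a = 1) : a * pe F a = -pe F a := by
  rw [pe, mul_smul_comm, mul_sub, ← Units.val_mul, ha, ← smul_neg]; simp

omit h2 in
theorem pe_comm {a : Aˣ} {m : A} (h : Commute m a) : Commute m (pe F a) :=
  ((Commute.one_right m).sub_right h).smul_right _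

omit h2 in
theorem pe_mul {a : Aˣ} (ha : a * a = 1) : pe F a * a = -pe F a := by
  rw [← (pe_comm (Commute.refl (a : A))).eq, mul_pe ha]

theorem pe_idem {a : Aˣ} (ha : a * a = 1) : IsIdempotentElem (pe F a) := by
  rw [IsIdempotentElem]
  nth_rewrite 1 [pe]
  rw [smul_mul_assoc, sub_mul, mul_pe ha, one_mul, sub_neg_eq_add, half_two h2]

theorem pe_mul_pe_neg {a : Aˣ} (ha : a * a = 1) : pe F a * pe F (-a) = 0 := by
  rw [pe_neg' h2, mul_sub, (pe_idem h2 ha).eq, mul_one, sub_self]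

theorem pe_neg_mul_pe {a : Aˣ} (ha : a * a = 1) : pe F (-a) * pe F a = 0 := by
  rw [pe_neg' h2, sub_mul, (pe_idem h2 ha).eq, one_mul, sub_self]

omit h2 in
theorem conj_pe (g a : Aˣ) : g * pe F a * (g⁻¹ : Aˣ) = pe F (g * a * g⁻¹) := by
  simp [pe, mul_sub, sub_mul]

omit h2 in
theorem Anti.mul_pe {y a : Aˣ} (h : Anti y a) : y * pe F a = pe F (-a) * y := by
  rw [← h.conj_eq, ← conj_pe]; simp

theorem pe_eq_of {a : Aˣ} {m : A} (h : a * m = -m) : pe F a * m = m := by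
  rw [pe, smul_mul_assoc, sub_mul, h, one_mul, sub_neg_eq_add, half_two h2]

theorem ext_pe (a : Aˣ) {m m' : A} (h : pe F a * m = pe F a * m')
    (h' : pe F (-a) * m = pe F (-a) * m') : m = m' := by
  rw [← one_mul m, ← one_mul m', ← pe_add h2 a, add_mul, add_mul, h, h']

end pe

section ctl

theorem gate_mul {e x y : A} (he : IsIdempotentElem e) (hx : Commute x e) :
    (1 + e * (x - 1)) * (1 + e * (y - 1)) = 1 + e * (x * y - 1) := by
  have h1 : e * (x - 1) * (e * (y - 1)) = e * ((x - 1) * (y - 1)) := by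
    rw [mul_assoc, ← mul_assoc _ e, (hx.sub_left (Commute.one_left e)).eq, mul_assoc,
      ← mul_assoc e e, he.eq]
  rw [mul_add, add_mul, add_mul, h1]
  noncomm_ring

open Classical in
variable (F) in
/-- the controlled gate: `x` on the `-1` eigenspace of `u` -/
noncomputable def ctl (u x : Aˣ) : Aˣ :=
  if h : IsIdempotentElem (pe F u) ∧ Commute x u then
    ⟨1 + pe F u * (x - 1), 1 + pe F u * ((x⁻¹ : Aˣ) - 1),
      by rw [gate_mul h.1 (pe_comm h.2.units_val)]; simp,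
      by rw [gate_mul h.1 (pe_comm h.2.inv_left.units_val)]; simp⟩
  else 1

variable (h2 : (2 : F) ≠ 0) {u x y g : Aˣ} (hu : u * u = 1)
include h2 hu

theorem ctl_val (hx : Commute x u) : (ctl F u x : A) = 1 + pe F u * (x - 1) := by
  rw [ctl, dif_pos ⟨pe_idem h2 hu, hx⟩]

theorem pe_mul_ctl (hx : Commute x u) : pe F u * ctl F u x = pe F u * x := by
  rw [ctl_val h2 hu hx, mul_add, ← mul_assoc, (pe_idem h2 hu).eq]; noncomm_ring

theorem pe_neg_mul_ctl (hx : Commute x u) : pe F (-u) * ctl F u x = pe F (-u) := by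
  rw [ctl_val h2 hu hx, mul_add, ← mul_assoc, pe_neg_mul_pe h2 hu]; simp

theorem eq_ctl (hx : Commute x u) (h : pe F u * g = pe F u * x) (h' : pe F (-u) * g = pe F (-u)) :
    g = ctl F u x :=
  Units.ext (ext_pe h2 u (by rw [h, pe_mul_ctl h2 hu hx]) (by rw [h', pe_neg_mul_ctl h2 hu hx]))

theorem ctl_mul (hx : Commute x u) (hy : Commute y u) :
    ctl F u x * ctl F u y = ctl F u (x * y) := Units.ext (by
  rw [Units.val_mul, ctl_val h2 hu hx, ctl_val h2 hu hy, ctl_val h2 hu (hx.mul_left hy),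
    gate_mul (pe_idem h2 hu) (pe_comm hx.units_val), Units.val_mul])

theorem ctl_one : ctl F u 1 = 1 := Units.ext (by simp [ctl_val h2 hu (Commute.one_left u)])

theorem ctl_inv (hx : Commute x u) : (ctl F u x)⁻¹ = ctl F u x⁻¹ :=
  inv_eq_of_mul_eq_one_right (by rw [ctl_mul h2 hu hx hx.inv_left, mul_inv_cancel, ctl_one h2 hu])

theorem ctl_neg_one : ctl F u (-1) = u := Units.ext (by
  rw [ctl_val h2 hu (Commute.neg_one_left u)]
  conv_rhs => rw [eq_pe h2 u]
  simp only [Units.val_neg, Units.val_one]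
  noncomm_ring)

theorem ctl_self : ctl F u u = u := by
  refine (eq_ctl h2 hu (Commute.refl u) rfl ?_).symm
  simpa using pe_mul (F := F) (a := -u) (by simpa)

theorem conj_ctl (hx : Commute x u) (g : Aˣ) :
    g * ctl F u x * g⁻¹ = ctl F (g * u * g⁻¹) (g * x * g⁻¹) := Units.ext (by
  rw [ctl_val h2 (conj_sq hu (Or.inl rfl) g) (comm_conj hx g), ← conj_pe]
  simp [ctl_val h2 hu hx, mul_add, add_mul, mul_sub, sub_mul, mul_assoc])

theorem comm_ctl (hx : Commute x u) (h : Commute g u) (h' : Commute g x) : Commute g (ctl F u x) := by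
  rw [Commute, SemiconjBy, ← mul_inv_eq_iff_eq_mul, conj_ctl h2 hu hx, h.eq, h'.eq]; simp

theorem ctl_comm (hx : Commute x u) : Commute (ctl F u x) u :=
  (comm_ctl h2 hu hx (Commute.refl u) hx.symm).symm

theorem ctl_mul_ctl_neg (hx : Commute x u) : ctl F u x * ctl F (-u) x = x := by
  have hu' : -u * -u = 1 := by simpa
  have h1 := pe_neg_mul_ctl h2 hu' hx.neg_right
  rw [neg_neg] at h1
  refine Units.ext (ext_pe h2 u ?_ ?_)
  · rw [Units.val_mul, ← mul_assoc, pe_mul_ctl h2 hu hx, ← (pe_comm hx.units_val).eq, mul_assoc, h1]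
  · rw [Units.val_mul, ← mul_assoc, pe_neg_mul_ctl h2 hu hx, pe_mul_ctl h2 hu' hx.neg_right]

theorem ctl_conj_comm (hx : Commute x u) (hy : Commute y u) (h : Commute y x) :
    ctl F u x * y * (ctl F u x)⁻¹ = y := by
  rw [← (comm_ctl h2 hu hx hy h).eq, mul_inv_cancel_right]

theorem ctl_conj_anti (hx : Commute x u) (hy : Commute y u) (h : Anti y x) :
    ctl F u x * y * (ctl F u x)⁻¹ = u * y := by
  have h1 := conj_ctl h2 hu hx.inv_left y
  rw [hy.eq, h.inv_right.conj_eq, mul_inv_cancel_right, mul_inv_eq_iff_eq_mul] at h1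
  rw [ctl_inv h2 hu hx, mul_assoc, h1, ← mul_assoc, ctl_mul h2 hu hx hx.inv_left.neg_left]
  simp [ctl_neg_one h2 hu]

theorem ctl_conj_pos (hx : Commute x u) (hy : Anti y u) (h : y * x⁻¹ * y⁻¹ = x) :
    ctl F u x * y * (ctl F u x)⁻¹ = x * y := by
  have h1 := conj_ctl h2 hu hx.inv_left y
  rw [hy.conj_eq, h, mul_inv_eq_iff_eq_mul] at h1
  rw [ctl_inv h2 hu hx, mul_assoc, h1, ← mul_assoc, ctl_mul_ctl_neg h2 hu hx]

theorem ctl_conj_neg (hx : Commute x u) (hy : Anti y u) (h : y * x⁻¹ * y⁻¹ = -x) :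
    ctl F u x * y * (ctl F u x)⁻¹ = -(x * u) * y := by
  have hu' : -u * -u = 1 := by simpa
  have h1 := conj_ctl h2 hu hx.inv_left y
  rw [hy.conj_eq, h, mul_inv_eq_iff_eq_mul, ← mul_neg_one x,
    ← ctl_mul h2 hu' hx.neg_right (Commute.neg_one_left _), ctl_neg_one h2 hu'] at h1
  rw [ctl_inv h2 hu hx, mul_assoc, h1, ← mul_assoc, ← mul_assoc, ctl_mul_ctl_neg h2 hu hx, mul_neg]

end ctl

variable [Nontrivial A]

theorem ne_neg (h2 : (2 : F) ≠ 0) (a : Aˣ) : a ≠ -a := fun e => by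
  have h1 := half_two h2 (a : A)
  nth_rewrite 1 [e] at h1
  simp only [Units.val_neg, neg_add_cancel, smul_zero] at h1
  exact a.ne_zero h1.symm

theorem Anti.not_comm (h2 : (2 : F) ≠ 0) {a b : Aˣ} (h : Anti a b) : ¬ Commute a b :=
  fun h' => ne_neg h2 _ (h'.eq.symm.trans h)

theorem Anti.not_sc (h2 : (2 : F) ≠ 0) {a b : Aˣ} (h : Anti a b) : ¬ Sc F a :=
  fun h' => h.not_comm h2 (h'.comm b)

theorem Sc.eq_or {a b : Aˣ} (h : Sc F a) (h' : Sc F b) (h1 : a * a = b * b) : a = b ∨ a = -b := by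
  obtain ⟨c, hc⟩ := h
  obtain ⟨d, hd⟩ := h'
  have h2 := congrArg Units.val h1
  rw [Units.val_mul, Units.val_mul, hc, hd, ← map_mul, ← map_mul] at h2
  rcases mul_self_eq_mul_self_iff.1 ((algebraMap F A).injective h2) with e | e
  · left; exact Units.ext (by simp [hc, hd, e])
  · right; exact Units.ext (by simp [hc, hd, e])

theorem Sc.eq_one_or {a : Aˣ} (h : Sc F a) (h1 : a * a = 1) : a = 1 ∨ a = -1 :=
  h.eq_or sc_one (by simpa)

theorem Anti.pe_ne_zero (h2 : (2 : F) ≠ 0) {y a : Aˣ} (h : Anti y a) : pe F a ≠ 0 := fun h0 => by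
  have h1 := h.mul_pe (F := F)
  rw [h0, mul_zero, pe_neg' h2, h0, sub_zero, one_mul] at h1
  exact y.ne_zero h1.symm

end Cfsg.Agent.H8.C6
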