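import Cfsg.Agent.H8.C6A

/-!
The symplectic space over the field with two elements attached to a Pauli group.
-/

set_option autoImplicit false
set_option linter.unusedSectionVars false

namespace Cfsg.Agent.H8.C6

open Module H7 H7.Polar

variable {F : Type*} [Field F] {A : Type*} [Ring A] [Algebra F A]

/-- the field with two elements -/
abbrev K2 : Type := ZMod 2

theorem K2.eq_one {c : K2} (h : c ≠ 0) : c = 1 := by revert c; decide

theorem K2.add_self (c : K2) : c + c = 0 := by revert c; decide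

open Classical in
/-- the commutation character -/
noncomputable def chi (R : Subgroup Aˣ) (a : Aˣ) : Aˣ → K2 :=
  fun x => if x ∈ R ∧ Anti a x then 1 else 0

/-- the group modulo scalars as a vector space -/
def Wsp (R : Subgroup Aˣ) : Submodule K2 (Aˣ → K2) := Submodule.span K2 (chi R '' R)

open Classical in
/-- the class of an element -/
noncomputable def cl (R : Subgroup Aˣ) (a : Aˣ) : Wsp R :=
  if h : a ∈ R then ⟨chi R a, Submodule.subset_span ⟨a, h, rfl⟩⟩ else 0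

/-- the dimension of the symplectic space -/
noncomputable def rk (R : Subgroup Aˣ) : ℕ := finrank K2 (Wsp R)

/-- the span of the classes of finitely many elements -/
def sp (R : Subgroup Aˣ) {k : ℕ} (v : Fin k → Aˣ) : Submodule K2 (Wsp R) :=
  Submodule.span K2 (Set.range fun i => cl R (v i))

open Classical in
/-- the type of the square -/
noncomputable def qq (a : Aˣ) : K2 := if a * a = 1 then 0 else 1

variable (F) in
/-- the group contains a scalar of order four -/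
def HasI (R : Subgroup Aˣ) : Prop := ∃ j ∈ R, Sc F j ∧ j * j = -1

variable {R : Subgroup Aˣ}

theorem cl_val {a : Aˣ} (ha : a ∈ R) : (cl R a : Aˣ → K2) = chi R a := by rw [cl, dif_pos ha]

theorem finrank_sp_le {k : ℕ} (v : Fin k → Aˣ) : finrank K2 (sp R v) ≤ k :=
  (finrank_range_le_card (R := K2) fun i => cl R (v i)).trans (by simp)

theorem mem_sp {k : ℕ} (v : Fin k → Aˣ) (i : Fin k) : cl R (v i) ∈ sp R v :=
  Submodule.subset_span ⟨i, rfl⟩

theorem qq_eq_zero {a : Aˣ} : qq a = 0 ↔ a * a = 1 := by simp [qq]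

variable [Nontrivial A]

namespace Pauli

variable (hR : Pauli F R)
include hR

theorem anti_iff {a b : Aˣ} (ha : a ∈ R) (hb : b ∈ R) : Anti a b ↔ ¬ Commute a b :=
  ⟨Anti.not_comm hR.two, (hR.comm a ha b hb).resolve_left⟩

theorem neg_mem {a : Aˣ} (ha : a ∈ R) : -a ∈ R := by simpa using R.mul_mem hR.neg ha

theorem sc_of_comm {a : Aˣ} (h : ∀ b ∈ R, Commute a b) : Sc F a :=
  hR.irr _ fun b hb => congrArg Units.val (h b hb).eq

theorem exists_anti {a : Aˣ} (ha : a ∈ R) (h : ¬ Sc F a) : ∃ b ∈ R, Anti a b := by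
  by_contra! hn
  exact h (hR.sc_of_comm fun b hb => (hR.comm a ha b hb).resolve_right (hn b hb))

theorem pe_ne_zero {a : Aˣ} (ha : a ∈ R) (h : ¬ Sc F a) : pe F a ≠ 0 := by
  obtain ⟨b, -, hb⟩ := hR.exists_anti ha h
  exact hb.symm.pe_ne_zero hR.two

omit hR in
theorem chi_pos {a x : Aˣ} (hx : x ∈ R) (h : Anti a x) : chi R a x = 1 := if_pos ⟨hx, h⟩

theorem chi_neg {a x : Aˣ} (h : Commute a x) : chi R a x = 0 :=
  if_neg fun h' => h'.2.not_comm hR.two h

theorem chi_symm {a b : Aˣ} (ha : a ∈ R) (hb : b ∈ R) : chi R a b = chi R b a := by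
  rcases hR.comm a ha b hb with h | h
  · rw [hR.chi_neg h, hR.chi_neg h.symm]
  · rw [chi_pos hb h, chi_pos ha h.symm]

theorem chi_mul {a b : Aˣ} (ha : a ∈ R) (hb : b ∈ R) : chi R (a * b) = chi R a + chi R b := by
  funext x
  by_cases hx : x ∈ R
  · rw [Pi.add_apply]
    rcases hR.comm a ha x hx with h1 | h1 <;> rcases hR.comm b hb x hx with h2 | h2
    · rw [hR.chi_neg (h1.mul_left h2), hR.chi_neg h1, hR.chi_neg h2, add_zero]
    · rw [chi_pos hx (h2.symm.comm_mul h1.symm).symm, hR.chi_neg h1, chi_pos hx h2, zero_add]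
    · rw [chi_pos hx (h1.symm.mul_comm h2.symm).symm, hR.chi_neg h2, chi_pos hx h1, add_zero]
    · rw [hR.chi_neg (h1.symm.mul_anti h2.symm).symm, chi_pos hx h1, chi_pos hx h2]
      rfl
  · simp [chi, hx]

theorem cl_mul {a b : Aˣ} (ha : a ∈ R) (hb : b ∈ R) : cl R (a * b) = cl R a + cl R b :=
  Subtype.ext (by simp [cl_val, ha, hb, R.mul_mem ha hb, hR.chi_mul])

theorem cl_eq_zero {a : Aˣ} (ha : a ∈ R) : cl R a = 0 ↔ Sc F a := by
  rw [Subtype.ext_iff, cl_val ha]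
  refine ⟨fun h => hR.sc_of_comm fun b hb => (hR.comm a ha b hb).resolve_right fun h' => ?_,
    fun h => funext fun x => if_neg fun h' => h'.2.not_sc hR.two h⟩
  simpa [chi, hb, h'] using congrFun h b

theorem cl_one : cl R 1 = 0 := (hR.cl_eq_zero R.one_mem).2 sc_one

theorem add_self (w : Wsp R) : w + w = 0 := by
  rw [← two_smul K2, show (2 : K2) = 0 from rfl, zero_smul]

theorem cl_inv {a : Aˣ} (ha : a ∈ R) : cl R a⁻¹ = cl R a := by
  have := hR.cl_mul (R.inv_mem ha) ha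
  rw [inv_mul_cancel, hR.cl_one, ← hR.add_self (cl R a)] at this
  exact (add_right_cancel this).symm

theorem cl_neg {a : Aˣ} (ha : a ∈ R) : cl R (-a) = cl R a := by
  rw [← neg_one_mul, hR.cl_mul hR.neg ha, (hR.cl_eq_zero hR.neg).2 sc_one.neg, zero_add]

theorem cl_eq_iff {a b : Aˣ} (ha : a ∈ R) (hb : b ∈ R) : cl R a = cl R b ↔ Sc F (a * b⁻¹) := by
  rw [← hR.cl_eq_zero (R.mul_mem ha (R.inv_mem hb)), hR.cl_mul ha (R.inv_mem hb), hR.cl_inv hb]
  exact ⟨fun h => by rw [h, hR.add_self], fun h => add_right_cancel (h.trans (hR.add_self _).symm)⟩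

theorem exists_cl (w : Wsp R) : ∃ a ∈ R, cl R a = w := by
  obtain ⟨w, hw⟩ := w
  induction hw using Submodule.span_induction with
  | mem _ h => obtain ⟨a, ha, rfl⟩ := h; exact ⟨a, ha, Subtype.ext (cl_val ha)⟩
  | zero => exact ⟨1, R.one_mem, hR.cl_one⟩
  | add _ _ _ _ h h' =>
    obtain ⟨a, ha, h⟩ := h
    obtain ⟨b, hb, h'⟩ := h'
    exact ⟨_, R.mul_mem ha hb, by rw [hR.cl_mul ha hb, h, h']; rfl⟩
  | smul c _ _ h =>
    by_cases hc : c = 0
    · exact ⟨1, R.one_mem, by rw [hR.cl_one]; exact Subtype.ext (by simp [hc])⟩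
    · simpa [K2.eq_one hc] using h

theorem apply_choose (w : Wsp R) {b : Aˣ} (hb : b ∈ R) :
    w.1 (hR.exists_cl (cl R b)).choose = w.1 b := by
  obtain ⟨a, ha, rfl⟩ := hR.exists_cl w
  obtain ⟨h1, h2⟩ := (hR.exists_cl (cl R b)).choose_spec
  rw [cl_val ha, hR.chi_symm ha h1, ← cl_val h1, h2, cl_val hb, hR.chi_symm ha hb]

/-- the commutator form -/
noncomputable def pol : Polar K2 (Wsp R) where
  σ := RingHom.id _
  ε := 1
  B := LinearMap.mk₂ K2 (fun w w' => w.1 (hR.exists_cl w').choose) (fun _ _ _ => rfl)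
    (fun _ _ _ => rfl) (fun w x y => by
      obtain ⟨a, ha, rfl⟩ := hR.exists_cl w
      obtain ⟨b, hb, rfl⟩ := hR.exists_cl x
      obtain ⟨c, hc, rfl⟩ := hR.exists_cl y
      simp only [← hR.cl_mul hb hc, hR.apply_choose _ hb, hR.apply_choose _ hc,
        hR.apply_choose _ (R.mul_mem hb hc), cl_val ha, hR.chi_symm ha (R.mul_mem hb hc),
        hR.chi_mul hb hc, Pi.add_apply, hR.chi_symm ha hb, hR.chi_symm ha hc])
    (fun c w x => by
      by_cases hc : c = 0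
      · simp only [hc, zero_smul, ← hR.cl_one, hR.apply_choose _ R.one_mem]
        obtain ⟨a, ha, rfl⟩ := hR.exists_cl w
        rw [cl_val ha, chi, if_neg fun h => h.2.not_comm hR.two (Commute.one_right a)]
      · simp [K2.eq_one hc])
  Val _ _ := True
  σσ _ := rfl
  εε := Or.inl rfl
  herm x y := by
    obtain ⟨a, ha, rfl⟩ := hR.exists_cl x
    obtain ⟨b, hb, rfl⟩ := hR.exists_cl y
    simp [hR.apply_choose _ ha, hR.apply_choose _ hb, cl_val, ha, hb, hR.chi_symm ha hb]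
  nondeg y h := by
    obtain ⟨b, hb, rfl⟩ := hR.exists_cl y
    refine (hR.cl_eq_zero hb).2 (hR.sc_of_comm fun a ha => (hR.comm b hb a ha).resolve_right
      fun h' => ?_)
    simpa [hR.apply_choose _ hb, cl_val ha, chi, hb, h'.symm] using h (cl R a)
  val_ex _ := ⟨0, trivial⟩
  val_add _ _ := trivial
  val_smul _ _ := trivial
  val_self {x c} _ := by
    obtain ⟨a, ha, rfl⟩ := hR.exists_cl x
    simp [hR.apply_choose _ ha, cl_val ha, chi, K2.add_self,
      show ¬ Anti a a from fun h => h.not_comm hR.two (Commute.refl a)]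
  val_min _ := trivial

theorem B_cl {a b : Aˣ} (ha : a ∈ R) (hb : b ∈ R) : hR.pol.B (cl R a) (cl R b) = chi R a b := by
  rw [← cl_val ha]; exact hR.apply_choose _ hb

theorem B_eq_zero {a b : Aˣ} (ha : a ∈ R) (hb : b ∈ R) :
    hR.pol.B (cl R a) (cl R b) = 0 ↔ Commute a b := by
  simp [hR.B_cl ha hb, chi, hb, hR.anti_iff ha hb]

theorem B_eq_one {a b : Aˣ} (ha : a ∈ R) (hb : b ∈ R) :
    hR.pol.B (cl R a) (cl R b) = 1 ↔ Anti a b := by
  simp [hR.B_cl ha hb, chi, hb]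

theorem B_symm' (x y : Wsp R) : hR.pol.B x y = hR.pol.B y x := (hR.pol.herm y x).trans (one_mul _)

theorem B_self (x : Wsp R) : hR.pol.B x x = 0 := hR.pol.sing_B trivial

theorem comm_of_cl_eq {a b x : Aˣ} (ha : a ∈ R) (hb : b ∈ R) (hx : x ∈ R) (h : cl R a = cl R b)
    (h' : Commute a x) : Commute b x := by
  rwa [← hR.B_eq_zero hb hx, ← h, hR.B_eq_zero ha hx]

theorem mem_perp_sp {k : ℕ} {v : Fin k → Aˣ} (hv : ∀ i, v i ∈ R) {x : Aˣ} (hx : x ∈ R) :
    cl R x ∈ hR.pol.perp (sp R v) ↔ ∀ i, Commute x (v i) := by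
  refine ⟨fun h i => (hR.B_eq_zero hx (hv i)).1 (h _ (mem_sp v i)), fun h u hu => ?_⟩
  refine (Submodule.span_le (p := hR.pol.pp (cl R x))).2 ?_ hu |> hR.pol.B_symm
  rintro _ ⟨i, rfl⟩
  exact (hR.B_eq_zero (hv i) hx).2 (h i).symm

theorem notMem_sp {k : ℕ} {v : Fin k → Aˣ} (hv : ∀ i, v i ∈ R) {a y : Aˣ} (ha : a ∈ R) (hy : y ∈ R)
    (h : Anti a y) (h' : ∀ i, Commute y (v i)) : cl R a ∉ sp R v := fun hm =>
  h.symm.not_comm hR.two ((hR.B_eq_zero hy ha).1 ((hR.mem_perp_sp hv hy).2 h' _ hm))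

theorem qq_eq_one {a : Aˣ} (ha : a ∈ R) : qq a = 1 ↔ a * a = -1 := by
  rcases hR.sq a ha with h | h <;> simp [qq, h, ne_neg hR.two, (ne_neg hR.two _).symm]

theorem qq_mul {a b : Aˣ} (ha : a ∈ R) (hb : b ∈ R) :
    qq (a * b) = qq a + qq b + hR.pol.B (cl R a) (cl R b) := by
  have h0 := (ne_neg hR.two (1 : Aˣ)).symm
  rcases hR.comm a ha b hb with h | h
  · rw [(hR.B_eq_zero ha hb).2 h]
    rcases hR.sq a ha with h1 | h1 <;> rcases hR.sq b hb with h2 | h2 <;>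
      simp [qq, comm_mul_sq h, h1, h2, h0, K2.add_self]
  · rw [(hR.B_eq_one ha hb).2 h]
    rcases hR.sq a ha with h1 | h1 <;> rcases hR.sq b hb with h2 | h2 <;>
      simp [qq, h.mul_sq, h1, h2, h0, K2.add_self]

theorem conj_inv_or {x y : Aˣ} (hx : x ∈ R) (hy : y ∈ R) : y * x⁻¹ * y⁻¹ = x ∨ y * x⁻¹ * y⁻¹ = -x := by
  have h : x⁻¹ = x ∨ x⁻¹ = -x := (hR.sq x hx).imp inv_eq_of_mul_eq_one_right fun h =>
    inv_eq_of_mul_eq_one_right (by simp [h])
  rcases hR.comm y hy x hx with h1 | h1 <;> rcases h with h | h <;> simp [h, h1.eq]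

theorem eq_or_of_cl_eq {a b : Aˣ} (ha : a ∈ R) (hb : b ∈ R) (h : cl R a = cl R b)
    (h' : a * a = b * b) : a = b ∨ a = -b := by
  have h1 := (hR.cl_eq_iff ha hb).1 h
  have h2 : Commute a b⁻¹ := hR.comm_of_cl_eq hb ha (R.inv_mem hb) h.symm (Commute.refl b).inv_right
  simpa [mul_inv_eq_iff_eq_mul] using h1.eq_one_or (by rw [comm_mul_sq h2, h']; simp)

variable [Finite A]

theorem ctl_mem_normalizer {u x : Aˣ} (hu : u ∈ R) (hu' : u * u = 1) (hx : x ∈ R) (h : Commute x u) :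
    ctl F u x ∈ Subgroup.normalizer (R : Set Aˣ) := by
  refine Subgroup.mem_normalizer_fintype fun y hy => ?_
  rcases hR.comm y hy u hu with h1 | h1
  · rcases hR.comm y hy x hx with h2 | h2
    · rwa [ctl_conj_comm hR.two hu' h h1 h2]
    · rw [ctl_conj_anti hR.two hu' h h1 h2]; exact R.mul_mem hu hy
  · rcases hR.conj_inv_or hx hy with h2 | h2
    · rw [ctl_conj_pos hR.two hu' h h1 h2]; exact R.mul_mem hx hy
    · rw [ctl_conj_neg hR.two hu' h h1 h2]; exact R.mul_mem (hR.neg_mem (R.mul_mem hx hu)) hy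

theorem exists_anti_of_notMem {U : Submodule K2 (Wsp R)} {a : Aˣ} (ha : a ∈ R) (h : cl R a ∉ U) :
    ∃ y ∈ R, Anti a y ∧ cl R y ∈ hR.pol.perp U := by
  obtain ⟨y, h1, h2⟩ := exists_sep (P := hR.pol) h 1
  obtain ⟨y, hy, rfl⟩ := hR.exists_cl y
  exact ⟨y, hy, (hR.B_eq_one ha hy).1 h2, h1⟩

theorem exists_anti_comm {k : ℕ} {v : Fin k → Aˣ} (hv : ∀ i, v i ∈ R) {a : Aˣ} (ha : a ∈ R)
    (h : cl R a ∉ sp R v) : ∃ y ∈ R, Anti a y ∧ ∀ i, Commute y (v i) := by
  obtain ⟨y, hy, h1, h2⟩ := hR.exists_anti_of_notMem ha h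
  exact ⟨y, hy, h1, (hR.mem_perp_sp hv hy).1 h2⟩

theorem finrank_perp_sp {k : ℕ} (v : Fin k → Aˣ) : rk R ≤ finrank K2 (hR.pol.perp (sp R v)) + k := by
  have := hR.pol.finrank_perp (sp R v)
  have := finrank_sp_le (R := R) v
  rw [rk]; omega

theorem exists_comm_notMem {k : ℕ} {v : Fin k → Aˣ} (hv : ∀ i, v i ∈ R) {U U' : Submodule K2 (Wsp R)}
    (h : finrank K2 U + k < rk R) (h' : finrank K2 U' + k < rk R) :
    ∃ x ∈ R, (∀ i, Commute x (v i)) ∧ cl R x ∉ U ∧ cl R x ∉ U' := by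
  have := hR.finrank_perp_sp v
  obtain ⟨x, hx, hx'⟩ := exists_notMem_of_finrank_lt (U := U) (W := hR.pol.perp (sp R v)) (by omega)
  obtain ⟨y, hy, hy'⟩ := exists_notMem_of_finrank_lt (U := U') (W := hR.pol.perp (sp R v)) (by omega)
  obtain ⟨z, h1, h2, h3⟩ := exists_notMem_two _ hx hy hx' hy'
  obtain ⟨z, hz, rfl⟩ := hR.exists_cl z
  exact ⟨z, hz, (hR.mem_perp_sp hv hz).1 h1, h2, h3⟩

theorem exists_sing {M U : Submodule K2 (Wsp R)} (hU : U ≤ hR.pol.perp M)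
    (h : finrank K2 U + 3 ≤ finrank K2 M) :
    ∃ u ∈ R, u * u = 1 ∧ cl R u ∈ M ∧ cl R u ∉ U := by
  by_contra! hn
  have key : ∀ a ∈ R, ∀ b ∈ R, cl R a ∈ M → cl R b ∈ M → cl R a ∉ U → cl R b ∉ U ⊔ K2 ∙ cl R a →
      hR.pol.B (cl R a) (cl R b) = 1 := fun a ha b hb h1 h2 h3 h4 => by
    have q : ∀ a ∈ R, cl R a ∈ M → cl R a ∉ U → qq a = 1 := fun a ha h1 h2 =>
      K2.eq_one fun h => h2 (hn a ha (qq_eq_zero.1 h) h1)
    have h5 := hR.qq_mul ha hb
    rw [q a ha h1 h3, q b hb h2 fun h => h4 (Submodule.mem_sup_left h), q _ (R.mul_mem ha hb)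
      (by rw [hR.cl_mul ha hb]; exact add_mem h1 h2) fun h => h4 ?_, K2.add_self, zero_add] at h5
    · exact h5.symm
    · rw [hR.cl_mul ha hb] at h
      simpa [add_assoc, add_comm (cl R b), ← add_assoc (cl R a), hR.add_self] using
        Submodule.add_mem_sup h (Submodule.mem_span_singleton_self (cl R a))
  obtain ⟨a, h1, h1'⟩ := exists_notMem_of_finrank_lt (U := U) (W := M) (by omega)
  have d1 := finrank_sup_span_le U a
  obtain ⟨b, h2, h2'⟩ := exists_notMem_of_finrank_lt (U := U ⊔ K2 ∙ a) (W := M) (by omega)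
  have d2 := finrank_sup_span_le (U ⊔ K2 ∙ a) b
  obtain ⟨c, h3, h3'⟩ := exists_notMem_of_finrank_lt (U := (U ⊔ K2 ∙ a) ⊔ K2 ∙ b) (W := M) (by omega)
  obtain ⟨a, ha, rfl⟩ := hR.exists_cl a
  obtain ⟨b, hb, rfl⟩ := hR.exists_cl b
  obtain ⟨c, hc, rfl⟩ := hR.exists_cl c
  have e1 := key a ha b hb h1 h2 h1' h2'
  have e2 := key a ha c hc h1 h3 h1' fun h => h3' (Submodule.mem_sup_left h)
  have e3 := key a ha _ (R.mul_mem hb hc) h1 (by rw [hR.cl_mul hb hc]; exact add_mem h2 h3) h1'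
    fun h => h3' (by
      rw [hR.cl_mul hb hc] at h
      simpa [add_assoc, add_comm (cl R c), ← add_assoc (cl R b), hR.add_self] using
        Submodule.add_mem_sup h (Submodule.mem_span_singleton_self (cl R b)))
  rw [hR.cl_mul hb hc, map_add, e1, e2] at e3
  exact absurd e3 (by decide)

theorem exists_pair {k : ℕ} {v : Fin k → Aˣ} (hv : ∀ i, v i ∈ R) (h : 2 * k < rk R) :
    ∃ y ∈ R, ∃ z ∈ R, Anti y z ∧ (∀ i, Commute y (v i)) ∧ ∀ i, Commute z (v i) := by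
  by_contra! hn
  have h1 := hR.finrank_perp_sp v
  have h2 := two_mul_finrank_le_of_le_perp (P := hR.pol) (W := hR.pol.perp (sp R v))
    fun y hy z hz => by
      obtain ⟨y, hy', rfl⟩ := hR.exists_cl y
      obtain ⟨z, hz', rfl⟩ := hR.exists_cl z
      refine (hR.B_eq_zero hy' hz').2 ((hR.comm y hy' z hz').resolve_right fun h => ?_)
      obtain ⟨i, hi⟩ := hn y hy' z hz' h ((hR.mem_perp_sp hv hy').1 hy)
      exact hi ((hR.mem_perp_sp hv hz').1 hz i)
  rw [rk] at h h1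
  omega

theorem exists_adj {k : ℕ} {v : Fin k → Aˣ} (hv : ∀ i, v i ∈ R) (h : HasI F R ∨ 2 * k < rk R)
    {w : Aˣ} (hw : w ∈ R) : ∃ y ∈ R, (∀ i, Commute y (v i)) ∧ w * y * (w * y) = 1 := by
  rcases hR.sq w hw with h1 | h1
  · exact ⟨1, R.one_mem, fun i => Commute.one_left _, by simpa⟩
  rcases h with ⟨j, hj, h2, h3⟩ | h
  · exact ⟨j, hj, fun i => h2.comm _, by rw [comm_mul_sq (h2.comm w).symm, h1, h3]; simp⟩
  obtain ⟨y, hy, z, hz, h2, h3, h4⟩ := hR.exists_pair hv h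
  by_contra! hn
  have e1 := K2.eq_one (qq_eq_zero.not.2 (hn y hy h3))
  have e2 := K2.eq_one (qq_eq_zero.not.2 (hn z hz h4))
  have e3 := K2.eq_one (qq_eq_zero.not.2 (hn _ (R.mul_mem hy hz) fun i => (h3 i).mul_left (h4 i)))
  rw [hR.qq_mul hw (R.mul_mem hy hz), hR.qq_mul hy hz, hR.cl_mul hy hz, map_add,
    (hR.B_eq_one hy hz).2 h2] at e3
  rw [hR.qq_mul hw hy] at e1
  rw [hR.qq_mul hw hz] at e2
  rw [(hR.qq_eq_one hw).2 h1] at e1 e2 e3
  generalize qq y = a at *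
  generalize qq z = b at *
  generalize hR.pol.B (cl R w) (cl R y) = c at *
  generalize hR.pol.B (cl R w) (cl R z) = d at *
  revert a b c d
  decide

theorem exists_sing_anti_comm (h : HasI F R ∨ 4 < rk R) {a b : Aˣ} (ha : a ∈ R) (hb : b ∈ R)
    (hab : cl R a ∉ sp R ![b]) : ∃ w ∈ R, w * w = 1 ∧ Anti a w ∧ Commute b w := by
  obtain ⟨w, hw, h1, h2⟩ := hR.exists_anti_comm (v := ![b]) (by simp [hb]) ha hab
  obtain ⟨y, hy, h3, h4⟩ := hR.exists_adj (v := ![a, b]) (by simp [ha, hb, Fin.forall_fin_succ]) h hw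
  exact ⟨_, R.mul_mem hw hy, h4, h1.mul_comm (h3 0).symm, (h2 0).symm.mul_right (h3 1).symm⟩

theorem exists_sing_anti (h : HasI F R ∨ 4 < rk R) {a b : Aˣ} (ha : a ∈ R) (hb : b ∈ R)
    (ha' : ¬ Sc F a) (hb' : ¬ Sc F b) : ∃ w ∈ R, w * w = 1 ∧ Anti a w ∧ Anti b w := by
  obtain ⟨w, hw, h1, h2⟩ : ∃ w ∈ R, Anti a w ∧ Anti b w := by
    obtain ⟨x, hx, h1⟩ := hR.exists_anti ha ha'
    obtain ⟨y, hy, h2⟩ := hR.exists_anti hb hb'
    rcases hR.comm b hb x hx with h3 | h3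
    · rcases hR.comm a ha y hy with h4 | h4
      · exact ⟨_, R.mul_mem hx hy, h1.mul_comm h4, h2.comm_mul h3⟩
      · exact ⟨y, hy, h4, h2⟩
    · exact ⟨x, hx, h1, h3⟩
  obtain ⟨y, hy, h3, h4⟩ := hR.exists_adj (v := ![a, b]) (by simp [ha, hb, Fin.forall_fin_succ]) h hw
  exact ⟨_, R.mul_mem hw hy, h4, h1.mul_comm (h3 0).symm, h2.mul_comm (h3 1).symm⟩

theorem notMem_sp_one {a b : Aˣ} (ha : a ∈ R) (ha' : ¬ Sc F a) (h : cl R a ≠ cl R b) :
    cl R a ∉ sp R ![b] := fun hm => by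
  rw [sp, show (Set.range fun i => cl R (![b] i)) = {cl R b} by simp] at hm
  obtain ⟨c, hc⟩ := Submodule.mem_span_singleton.1 hm
  by_cases h0 : c = 0
  · exact ha' ((hR.cl_eq_zero ha).1 (by simpa [h0] using hc.symm))
  · exact h (by simpa [K2.eq_one h0] using hc.symm)

/-- An element normalising every element of the group up to sign is a scalar multiple of an
element of the group. -/
theorem exists_sc {g : Aˣ} (h : ∀ x ∈ R, Commute g x ∨ Anti g x) : ∃ r ∈ R, Sc F (g * r⁻¹) := by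
  by_cases h0 : ∀ x ∈ R, Commute g x
  · exact ⟨1, R.one_mem, by simpa using hR.sc_of_comm h0⟩
  push Not at h0
  obtain ⟨x₀, hx₀, h0⟩ := h0
  let U : Submodule K2 (Wsp R) :=
    { carrier := {w | ∃ x ∈ R, cl R x = w ∧ Commute g x}
      add_mem' := by
        rintro _ _ ⟨x, hx, rfl, h1⟩ ⟨y, hy, rfl, h2⟩
        exact ⟨_, R.mul_mem hx hy, hR.cl_mul hx hy, h1.mul_right h2⟩
      zero_mem' := ⟨1, R.one_mem, hR.cl_one, Commute.one_right g⟩
      smul_mem' := fun c w hw => by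
        by_cases hc : c = 0
        · exact ⟨1, R.one_mem, by simp [hR.cl_one, hc], Commute.one_right g⟩
        · simpa [K2.eq_one hc] using hw }
  obtain ⟨r, hr, h1, h2⟩ := hR.exists_anti_of_notMem (U := U) hx₀ fun ⟨x, hx, e, h1⟩ => h0 (by
    simpa using (((hR.cl_eq_iff hx₀ hx).1 e.symm).comm g).symm.mul_right h1)
  have h3 : ∀ x ∈ R, Commute g x → Commute r x := fun x hx h =>
    (hR.B_eq_zero hr hx).1 (h2 _ ⟨x, hx, rfl, h⟩)
  refine ⟨r, hr, hR.sc_of_comm fun x hx => ?_⟩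
  rcases h x hx with h4 | h4
  · exact h4.mul_left (h3 x hx h4).inv_left
  · have h5 := h3 _ (R.mul_mem hx hx₀) (h4.mul_anti ((h x₀ hx₀).resolve_left h0))
    have h6 : Anti r x := by simpa using h1.symm.inv_right.comm_mul h5
    exact (h4.symm.mul_anti h6.symm.inv_right).symm

end Pauli

end Cfsg.Agent.H8.C6
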