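import Cfsg.Agent.H8.C6B

/-!
The action of the normaliser of a Pauli group on its symplectic space.
-/

set_option autoImplicit false
set_option linter.unusedSectionVars false

namespace Cfsg.Agent.H8.C6

open Module H7 H7.Polar

variable {F : Type*} [Field F] {A : Type*} [Ring A] [Algebra F A] {R R' Y : Subgroup Aˣ}

/-- the normaliser -/
abbrev NR (R : Subgroup Aˣ) : Subgroup Aˣ := Subgroup.normalizer (R : Set Aˣ)

/-- commuting up to sign -/
def Pm (a b : Aˣ) : Prop := Commute a b ∨ Anti a b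

theorem Pm.symm {a b : Aˣ} (h : Pm a b) : Pm b a := h.imp Commute.symm Anti.symm

theorem Pm.conj {a b : Aˣ} (h : Pm a b) (g : Aˣ) : Pm (g * a * g⁻¹) (g * b * g⁻¹) :=
  h.imp (comm_conj · g) (·.conj g)

theorem conj_mem {g a : Aˣ} (hg : g ∈ NR R) (ha : a ∈ R) : g * a * g⁻¹ ∈ R :=
  (Subgroup.mem_normalizer_iff.1 hg a).1 ha

theorem conj_mem' {g a : Aˣ} (hg : g ∈ NR R) (ha : a ∈ R) : g⁻¹ * a * g ∈ R := by
  simpa using conj_mem (inv_mem hg) ha

theorem Sc.mem_NR {c : Aˣ} (h : Sc F c) : c ∈ NR R :=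
  Subgroup.mem_normalizer_iff.2 fun a => by rw [(h.comm a).eq, mul_inv_cancel_right]

theorem mem_NR {a : Aˣ} (h : a ∈ R) : a ∈ NR R := Subgroup.le_normalizer h

theorem chi_conj {g : Aˣ} (hg : g ∈ NR R) (a x : Aˣ) :
    chi R a (g⁻¹ * x * g) = chi R (g * a * g⁻¹) x := by
  classical
  refine if_congr (and_congr ⟨fun h => by simpa [mul_assoc] using conj_mem hg h, conj_mem' hg⟩
    ⟨fun h => by simpa [mul_assoc] using h.conj g, fun h => by simpa [mul_assoc] using h.conj g⁻¹⟩)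
    rfl rfl

open Classical in
variable (R) in
/-- the action of the normaliser -/
noncomputable def act (g : Aˣ) : Wsp R →ₗ[K2] Wsp R :=
  if h : g ∈ NR R then (LinearMap.funLeft K2 K2 fun x => g⁻¹ * x * g).restrict fun w hw =>
    (Submodule.span_le (p := (Wsp R).comap (LinearMap.funLeft K2 K2 fun x => g⁻¹ * x * g))).2 (by
      rintro _ ⟨a, ha, rfl⟩
      exact Submodule.subset_span ⟨_, conj_mem h ha, funext fun x => (chi_conj h a x).symm⟩) hw
  else LinearMap.id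

theorem act_cl {g a : Aˣ} (hg : g ∈ NR R) (ha : a ∈ R) : act R g (cl R a) = cl R (g * a * g⁻¹) :=
  Subtype.ext (funext fun x => by
    rw [act, dif_pos hg, cl_val (conj_mem hg ha), ← chi_conj hg, ← cl_val ha]; rfl)

variable (R) in
/-- the fixed space -/
noncomputable def Fx (g : Aˣ) : Submodule K2 (Wsp R) := LinearMap.ker (act R g + LinearMap.id)

variable [Nontrivial A]

namespace Pauli

variable (hR : Pauli F R)
include hR

theorem add_eq_zero {w w' : Wsp R} : w + w' = 0 ↔ w = w' :=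
  ⟨fun h => add_right_cancel (h.trans (hR.add_self _).symm), fun h => by rw [h, hR.add_self]⟩

theorem mem_Fx {g : Aˣ} {w : Wsp R} : w ∈ Fx R g ↔ act R g w = w := hR.add_eq_zero

theorem conj_sq' {a : Aˣ} (ha : a ∈ R) (g : Aˣ) : g * a * g⁻¹ * (g * a * g⁻¹) = a * a :=
  conj_sq rfl (hR.sq a ha) g

theorem cl_mem_Fx {g a : Aˣ} (hg : g ∈ NR R) (ha : a ∈ R) : cl R a ∈ Fx R g ↔ Pm g a := by
  rw [hR.mem_Fx, act_cl hg ha]
  refine ⟨fun h => ?_, ?_⟩
  · simpa [mul_inv_eq_iff_eq_mul, Pm, Anti, commute_iff_eq] using hR.eq_or_of_cl_eq (conj_mem hg ha) ha h (hR.conj_sq' ha g)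
  · rintro (h | h)
    · rw [h.eq, mul_inv_cancel_right]
    · rw [h.conj_eq, hR.cl_neg ha]

theorem act_mul {g h : Aˣ} (hg : g ∈ NR R) (hh : h ∈ NR R) (w : Wsp R) :
    act R (g * h) w = act R g (act R h w) := by
  obtain ⟨a, ha, rfl⟩ := hR.exists_cl w
  rw [act_cl hh ha, act_cl hg (conj_mem hh ha), act_cl (mul_mem hg hh) ha]
  congr 1; group

theorem act_sc {c : Aˣ} (h : Sc F c) (w : Wsp R) : act R c w = w := by
  obtain ⟨a, ha, rfl⟩ := hR.exists_cl w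
  exact hR.mem_Fx.1 ((hR.cl_mem_Fx h.mem_NR ha).2 (Or.inl (h.comm a)))

theorem act_B {g : Aˣ} (hg : g ∈ NR R) (w w' : Wsp R) :
    hR.pol.B (act R g w) (act R g w') = hR.pol.B w w' := by
  obtain ⟨a, ha, rfl⟩ := hR.exists_cl w
  obtain ⟨b, hb, rfl⟩ := hR.exists_cl w'
  rw [act_cl hg ha, act_cl hg hb]
  rcases hR.comm a ha b hb with h | h
  · rw [(hR.B_eq_zero ha hb).2 h, (hR.B_eq_zero (conj_mem hg ha) (conj_mem hg hb)).2 (comm_conj h g)]
  · rw [(hR.B_eq_one ha hb).2 h, (hR.B_eq_one (conj_mem hg ha) (conj_mem hg hb)).2 (h.conj g)]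

theorem sc_sq {a : Aˣ} (ha : a ∈ R) : Sc F (a * a) := by
  rcases hR.sq a ha with h | h <;> rw [h]
  exacts [sc_one, sc_one.neg]

theorem sq_eq_of_cl_eq (hI : ¬ HasI F R) {a b : Aˣ} (ha : a ∈ R) (hb : b ∈ R) (h : cl R a = cl R b) :
    a * a = b * b := by
  have h1 := (hR.cl_eq_iff ha hb).1 h
  have h2 := R.mul_mem ha (R.inv_mem hb)
  have h3 := (hR.sq _ h2).resolve_right fun h => hI ⟨_, h2, h1, h⟩
  calc a * a = a * b⁻¹ * b * (a * b⁻¹ * b) := by simp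
    _ = _ := by rw [comm_mul_sq (h1.comm b), h3, one_mul]

theorem conj (g : Aˣ) : Pauli F (R.map (MulAut.conj g).toMonoidHom) where
  two := hR.two
  irr m h := by
    obtain ⟨c, hc⟩ := hR.irr ((g⁻¹ : Aˣ) * m * g) fun a ha => by
      have := h _ ⟨a, ha, rfl⟩
      simp only [MulEquiv.coe_toMonoidHom, MulAut.conj_apply, Units.val_mul] at this
      calc _ = (g⁻¹ : Aˣ) * (m * (g * a * (g⁻¹ : Aˣ))) * g := by simp [mul_assoc]
        _ = _ := by rw [this]; simp [mul_assoc]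
    refine ⟨c, ?_⟩
    calc m = g * ((g⁻¹ : Aˣ) * m * g) * (g⁻¹ : Aˣ) := by simp [mul_assoc]
      _ = _ := by rw [hc, ← Algebra.commutes]; simp
  sq := by
    rintro _ ⟨a, ha, rfl⟩
    exact (hR.sq a ha).imp (hR.conj_sq' ha g).trans (hR.conj_sq' ha g).trans
  comm := by
    rintro _ ⟨a, ha, rfl⟩ _ ⟨b, hb, rfl⟩
    exact Pm.conj (hR.comm a ha b hb) g
  neg := ⟨-1, hR.neg, by simp⟩

variable [Finite A]

theorem finrank_Fx {g : Aˣ} (hg : g ∈ NR R) (h : Sc F (g * g)) : rk R ≤ 2 * finrank K2 (Fx R g) := by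
  have h1 := (act R g + LinearMap.id).finrank_range_add_finrank_ker
  have h2 : LinearMap.range (act R g + LinearMap.id) ≤ Fx R g := by
    rintro _ ⟨w, rfl⟩
    simp [hR.mem_Fx, ← hR.act_mul hg hg, hR.act_sc h, add_comm]
  have := Submodule.finrank_mono h2
  rw [rk, Fx] at *
  omega

theorem act_sq_eq {s : Aˣ} (hs : s ∈ NR R) (h4 : Sc F (s * s * (s * s)))
    (h : ∀ w, act R (s * s) w = w → act R s w = w) (w : Wsp R) : act R (s * s) w = w := by
  have h2 := mul_mem hs hs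
  have h1 : ∀ f, act R s f = f → hR.pol.B (act R s w + w) f = 0 := fun f hf => by
    rw [map_add, LinearMap.add_apply, ← hR.act_B hs w f, hf, K2.add_self]
  have h3 : act R (s * s) (act R s w + w) = act R s w + w := by
    refine hR.add_eq_zero.1 (hR.pol.nondeg _ fun y => hR.pol.B_symm ?_)
    rw [map_add hR.pol.B, LinearMap.add_apply, ← hR.act_B h2 _ y, ← hR.act_mul h2 h2, hR.act_sc h4,
      ← map_add]
    exact h1 _ (h _ (by rw [map_add, ← hR.act_mul h2 h2, hR.act_sc h4, add_comm]))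
  have h5 := h _ h3
  rw [map_add, ← hR.act_mul hs hs, add_comm _ w] at h5
  exact add_right_cancel h5

end Pauli

variable (F) in
/-- elements centralising a nonscalar element up to sign normalise the group -/
def Cen (R Y : Subgroup Aˣ) : Prop := ∀ a ∈ R, ¬ Sc F a → ∀ y ∈ Y, Pm y a → y ∈ NR R

variable (F) in
/-- two Pauli groups intersecting trivially -/
structure Pair (R R' Y : Subgroup Aˣ) : Prop where
  p : Pauli F R
  p' : Pauli F R'
  le : R ≤ Y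
  le' : R' ≤ Y
  cen : Cen F R Y
  cen' : Cen F R' Y
  ti : ∀ a ∈ R, ∀ a' ∈ R', Sc F (a * a'⁻¹) → Sc F a

namespace Pair

variable (h : Pair F R R' Y)
include h

theorem symm : Pair F R' R Y :=
  ⟨h.p', h.p, h.le', h.le, h.cen', h.cen, fun a' ha' a ha h1 => by
    simpa using h1.mul (h.ti a ha a' ha' (by simpa using h1.inv))⟩

theorem sc {a : Aˣ} (ha : a ∈ R) (ha' : a ∈ R') : Sc F a := h.ti a ha a ha' (by simpa using sc_one)

theorem pm {a t : Aˣ} (ha : a ∈ R) (ha' : a ∈ NR R') (ht : t ∈ R') (ht' : t ∈ NR R) : Pm t a := by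
  rw [← h.p.cl_mem_Fx ht' ha, h.p.mem_Fx, act_cl ht' ha, h.p.cl_eq_iff (conj_mem ht' ha) ha]
  exact h.sc (mul_mem (conj_mem ht' ha) (inv_mem ha))
    (by simpa [mul_assoc] using mul_mem ht (conj_mem ha' (inv_mem ht)))

theorem mem_Fx {a t : Aˣ} (ha : a ∈ R) (ht : t ∈ R') (ht' : t ∈ NR R) (h0 : ¬ Sc F t) :
    cl R a ∈ Fx R t ↔ a ∈ NR R' := by
  rw [h.p.cl_mem_Fx ht' ha]
  exact ⟨fun h1 => h.cen' t ht h0 a (h.le ha) h1.symm, fun h1 => h.pm ha h1 ht ht'⟩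

variable [Finite A]

theorem false_of_hasI {j t : Aˣ} (hj : j ∈ R) (hj' : Sc F j) (hj2 : j * j = -1) (hr : 2 < rk R)
    (hc : ∀ u ∈ R, u * u = 1 → ctl F u j ∈ Y) (ht : t ∈ R') (ht' : t ∈ NR R) (h0 : ¬ Sc F t) :
    False := by
  have h2 := h.p.two
  obtain ⟨u, hu, hu', htu⟩ : ∃ u ∈ R, ¬ Sc F u ∧ Commute t u := by
    have := h.p.finrank_Fx ht' (h.p'.sc_sq ht)
    obtain ⟨x, hx, hx'⟩ := exists_notMem_of_finrank_lt (U := ⊥) (W := Fx R t) (by simp; omega)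
    obtain ⟨a, ha, rfl⟩ := h.p.exists_cl x
    have := finrank_sp_le (R := R) ![a]
    obtain ⟨y, hy, hy'⟩ := exists_notMem_of_finrank_lt (U := sp R ![a]) (W := Fx R t) (by omega)
    obtain ⟨b, hb, rfl⟩ := h.p.exists_cl y
    rcases (h.p.cl_mem_Fx ht' ha).1 hx with h1 | h1
    · exact ⟨a, ha, fun e => hx' ((h.p.cl_eq_zero ha).2 e), h1⟩
    rcases (h.p.cl_mem_Fx ht' hb).1 hy with h3 | h3
    · exact ⟨b, hb, fun e => hy' ((h.p.cl_eq_zero hb).2 e ▸ zero_mem _), h3⟩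
    refine ⟨_, mul_mem ha hb, fun e => hy' ?_, h1.mul_anti h3⟩
    rw [← h.p.cl_eq_zero (mul_mem ha hb), h.p.cl_mul ha hb, h.p.add_eq_zero] at e
    exact e ▸ mem_sp ![a] 0
  obtain ⟨u, hu, hu', htu, hu2⟩ : ∃ u ∈ R, ¬ Sc F u ∧ Commute t u ∧ u * u = 1 := by
    rcases h.p.sq u hu with e | e
    · exact ⟨u, hu, hu', htu, e⟩
    · exact ⟨_, mul_mem hj hu, fun e => hu' (by simpa using hj'.inv.mul e),
        (hj'.comm t).symm.mul_right htu, by rw [comm_mul_sq (hj'.comm u), hj2, e]; simp⟩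
  have hs : ctl F u j ∈ NR R' := h.cen' t ht h0 _ (hc u hu hu2)
    (Or.inl (comm_ctl h2 hu2 (hj'.comm u) htu (hj'.comm t).symm).symm)
  have hss : ctl F u j * ctl F u j = u := by
    rw [ctl_mul h2 hu2 (hj'.comm u) (hj'.comm u), hj2, ctl_neg_one h2 hu2]
  have hun : u ∈ NR R' := hss ▸ mul_mem hs hs
  have key : ∀ b ∈ R', cl R' b ∈ Fx R' u → Commute b u := fun b hb hb' => by
    refine ((h.p'.cl_mem_Fx hun hb).1 hb').symm.resolve_right fun h1 => hu' ?_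
    have h3 := mul_mem (conj_mem hs hb) (inv_mem hb)
    rw [ctl_conj_neg h2 hu2 (hj'.comm u) h1 (by
      rw [← (hj'.inv.comm b).eq, mul_inv_cancel_right, inv_eq_iff_mul_eq_one]; simp [hj2]),
      mul_inv_cancel_right] at h3
    simpa using hj'.inv.mul (h.sc (h.p.neg_mem (mul_mem hj hu)) h3).neg
  refine hu' (h.p'.sc_of_comm fun b hb => (key b hb (h.p'.mem_Fx.2 ?_)).symm)
  rw [← hss]
  refine h.p'.act_sq_eq hs (by rw [hss, hu2]; exact sc_one) (fun w hw => ?_) _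
  obtain ⟨c, hc, rfl⟩ := h.p'.exists_cl w
  rw [hss, ← h.p'.mem_Fx] at hw
  exact h.p'.mem_Fx.1 ((h.p'.cl_mem_Fx hs hc).2
    (Or.inl (comm_ctl h2 hu2 (hj'.comm u) (key c hc hw) (hj'.comm c).symm).symm))

theorem exists_notMem_Fx {t : Aˣ} (ht : t ∈ R') (ht' : t ∈ NR R) (h0 : ¬ Sc F t) :
    ∃ a ∈ R, cl R a ∉ Fx R t := by
  by_contra! hn
  obtain ⟨r, hr, h1⟩ := h.p.exists_sc fun x hx => (h.p.cl_mem_Fx ht' hx).1 (hn x hx)
  exact h0 (h.symm.ti t ht r hr h1)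

theorem exists_inj {a t b : Aˣ} (ht : t ∈ R') (ht' : t ∈ NR R) (h0 : ¬ Sc F t) (hb : b ∈ R)
    (hb' : b ∈ NR R') (hb0 : ¬ Sc F b) (ha : a ∈ R) (ha' : cl R a ∉ Fx R t) :
    ∃ φ : Fx R' b → h.p.pol.perp (Fx R t), Function.Injective φ ∧
      ∀ w, ∃ g ∈ NR R, (φ w).1 = act R g (cl R a) + cl R a := by
  choose r hr hr' using h.p'.exists_cl
  have h1 : ∀ w : Fx R' b, r w ∈ NR R := fun w =>
    (h.symm.mem_Fx (hr w) hb hb' hb0).1 (by rw [hr']; exact w.2)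
  refine ⟨fun w => ⟨act R (r w) (cl R a) + cl R a, fun z hz => ?_⟩, fun w w' e => ?_,
    fun w => ⟨_, h1 w, rfl⟩⟩
  · obtain ⟨c, hc, rfl⟩ := h.p.exists_cl z
    have h2 := h.p.mem_Fx.1 ((h.p.cl_mem_Fx (h1 w) hc).2
      (h.pm hc ((h.mem_Fx hc ht ht' h0).1 hz) (hr w) (h1 w)))
    rw [map_add, LinearMap.add_apply, ← h.p.act_B (h1 w) (cl R a), h2, K2.add_self]
  · have h2 := add_right_cancel (congrArg Subtype.val e)
    have h3 := mul_mem (inv_mem (h1 w')) (h1 w)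
    have h4 := mul_mem (inv_mem (hr w')) (hr w)
    have h5 : Sc F ((r w')⁻¹ * r w) := by
      by_contra h5
      refine ha' ((h.mem_Fx ha ht ht' h0).2 ((h.mem_Fx ha h4 h3 h5).1 (h.p.mem_Fx.2 ?_)))
      rw [h.p.act_mul (inv_mem (h1 w')) (h1 w), h2, ← h.p.act_mul (inv_mem (h1 w')) (h1 w'),
        inv_mul_cancel, h.p.act_sc sc_one]
    rw [← h.p'.cl_eq_zero h4, h.p'.cl_mul (inv_mem (hr w')) (hr w), h.p'.cl_inv (hr w'),
      h.p'.add_eq_zero, hr', hr'] at h5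
    exact Subtype.ext h5.symm

theorem false_of_not_hasI (hI : ¬ HasI F R) (hr : 2 < rk R) {t : Aˣ} (ht : t ∈ R') (ht' : t ∈ NR R)
    (h0 : ¬ Sc F t) : False := by
  have d1 := h.p.finrank_Fx ht' (h.p'.sc_sq ht)
  obtain ⟨x, hx, hx'⟩ := exists_notMem_of_finrank_lt (U := ⊥) (W := Fx R t) (by simp; omega)
  obtain ⟨b, hb, rfl⟩ := h.p.exists_cl x
  have hb' := (h.mem_Fx hb ht ht' h0).1 hx
  have hb0 : ¬ Sc F b := fun e => hx' ((h.p.cl_eq_zero hb).2 e)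
  have d2 := h.p'.finrank_Fx hb' (h.p.sc_sq hb)
  have d3 := h.p.pol.finrank_perp (Fx R t)
  have d4 := h.p'.pol.finrank_perp (Fx R' b)
  have hc : ∀ {V W : Type _} [AddCommGroup V] [Module K2 V] [AddCommGroup W] [Module K2 W]
      [Finite V] [Finite W], Nat.card V ≤ Nat.card W ↔ finrank K2 V ≤ finrank K2 W := by
    intro V W _ _ _ _ _ _
    rw [Module.natCard_eq_pow_finrank (K := K2) (V := V),
      Module.natCard_eq_pow_finrank (K := K2) (V := W)]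
    simp [Nat.pow_le_pow_iff_right]
  obtain ⟨a, ha, ha'⟩ := h.exists_notMem_Fx ht ht' h0
  obtain ⟨a', ha1, ha1'⟩ := h.symm.exists_notMem_Fx hb hb' hb0
  obtain ⟨φ, hφ, -⟩ := h.exists_inj ht ht' h0 hb hb' hb0 ha ha'
  obtain ⟨ψ, hψ, -⟩ := h.symm.exists_inj hb hb' hb0 ht ht' h0 ha1 ha1'
  have d5 := hc.1 (Nat.card_le_card_of_injective φ hφ)
  have d6 := hc.1 (Nat.card_le_card_of_injective ψ hψ)
  rw [rk] at hr d1 d2
  obtain ⟨z, hz, hz'⟩ := exists_notMem_of_finrank_lt (U := ⊥) (W := h.p.pol.perp (Fx R t))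
    (by simp; omega)
  obtain ⟨c, hc1, rfl⟩ := h.p.exists_cl z
  have key : ∀ a ∈ R, cl R a ∉ Fx R t → qq c = h.p.pol.B (cl R a) (cl R c) := fun a ha ha' => by
    obtain ⟨φ, hφ, hφ'⟩ := h.exists_inj ht ht' h0 hb hb' hb0 ha ha'
    obtain ⟨w, hw⟩ := (hφ.bijective_of_nat_card_le (hc.2 (by omega))).2 ⟨_, hz⟩
    obtain ⟨g, hg, e⟩ := hφ' w
    rw [hw, act_cl hg ha] at e
    have h1 : cl R (a * c) = cl R (g * a * g⁻¹) := by
      rw [h.p.cl_mul ha hc1, show cl R c = _ from e, add_comm, add_assoc, h.p.add_self, add_zero]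
    have h2 := h.p.qq_mul ha hc1
    rw [qq, h.p.sq_eq_of_cl_eq hI (mul_mem ha hc1) (conj_mem hg ha) h1, h.p.conj_sq' ha, ← qq,
      add_assoc, left_eq_add] at h2
    rw [← add_zero (qq c), ← K2.add_self (h.p.pol.B (cl R a) (cl R c)), ← add_assoc, h2, zero_add]
  obtain ⟨y, hy, h1⟩ := h.p.exists_anti hc1 fun e => hz' ((h.p.cl_eq_zero hc1).2 e)
  obtain ⟨y', hy', h2, h3, -⟩ := h.p.exists_comm_notMem (v := ![c]) (by simp [hc1]) (U := Fx R t)
    (U' := Fx R t) (by rw [rk]; omega) (by rw [rk]; omega)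
  have e1 := key y hy fun e => h1.not_comm h.p.two ((h.p.B_eq_zero hc1 hy).1 (hz _ e))
  rw [key y' hy' h3, (h.p.B_eq_zero hy' hc1).2 (h2 0), (h.p.B_eq_one hy hc1).2 h1.symm] at e1
  exact zero_ne_one e1

end Pair

end Cfsg.Agent.H8.C6
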