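import Cfsg.Agent.H8.C6C
import Cfsg.Agent.H7.C2Odd

/-!
If the centraliser of every nonscalar element of a Pauli group normalises it, so does everything.
-/

set_option autoImplicit false
set_option linter.unusedSectionVars false

namespace Cfsg.Agent.H8.C6

open Module H7 H7.Polar

/-- The parity argument of Müller and Nagy. -/
theorem no_sharp {W : Type*} [AddCommGroup W] [Module K2 W] [Finite W] (B : W →ₗ[K2] W →ₗ[K2] K2)
    (hs : ∀ x y, B x y = B y x) (ha : ∀ x, B x x = 0) {v₁ v₂ x y : W} (h1 : v₁ ≠ 0) (h2 : v₂ ≠ 0)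
    (h3 : v₁ + v₂ ≠ 0) (hv : B v₁ v₂ = 0) (hxy : B x y = 1) (σ : W → W →ₗ[K2] W)
    (hσ : ∀ w ≠ 0, ∀ x y, B (σ w x) (σ w y) = B x y) (h0 : ∀ w ≠ 0, ∀ x ≠ 0, σ w x ≠ 0)
    (hi : ∀ x ≠ 0, ∀ w ≠ 0, ∀ w' ≠ 0, σ w x = σ w' x → w = w') : False := by
  classical
  have := Fintype.ofFinite W
  have hw : ∀ w : W, w + w = 0 := fun w => by
    rw [← two_smul K2, show (2 : K2) = 0 from rfl, zero_smul]
  obtain ⟨Q, hQ⟩ : ∃ Q : W → K2, ∀ x y, Q (x + y) = Q x + Q y + B x y := by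
    let b := Module.finBasis K2 W
    let β : W →ₗ[K2] W →ₗ[K2] K2 :=
      b.constr K2 fun i => b.constr K2 fun j => if i < j then B (b i) (b j) else 0
    have hβ : β + β.flip = B := LinearMap.ext_basis b b fun i j => by
      simp only [β, LinearMap.add_apply, LinearMap.flip_apply, Basis.constr_basis]
      rcases lt_trichotomy i j with h | rfl | h
      · simp [h, h.not_gt]
      · simp [ha]
      · simp [h, h.not_gt, hs (b i)]
    refine ⟨fun w => β w w, fun x y => ?_⟩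
    simp only [← hβ, map_add, LinearMap.add_apply, LinearMap.flip_apply]
    abel
  have Q0 : Q 0 = 0 := by simpa using hQ 0 0
  have hS : ∑ w, Q w = 0 := by
    refine Finset.sum_ninvolution (fun w => w + if B w v₁ = Q v₁ then v₁ else if B w v₂ = Q v₂
      then v₂ else v₁ + v₂) (fun w => ?_) (fun w _ => ?_) (fun _ => Finset.mem_univ _) fun w => ?_
    · split_ifs with e1 e2 <;> simp only [hQ, map_add, hv] <;>
        generalize Q w = a, Q v₁ = b, Q v₂ = c, B w v₁ = d, B w v₂ = e at * <;>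
        revert a b c d e <;> decide
    · split_ifs <;> simpa
    · split_ifs <;> simp_all [add_assoc, hs v₂ v₁]
  have key : ∀ x ≠ 0, ∑ w, Q (if w = 0 then 0 else σ w x) = 0 := fun x hx =>
    (Function.Bijective.sum_comp (Finite.injective_iff_bijective.1 fun w w' e => by
      by_cases e1 : w = 0 <;> by_cases e2 : w' = 0
      · rw [e1, e2]
      · exact (h0 w' e2 x hx (by simpa [e1, e2] using e.symm)).elim
      · exact (h0 w e1 x hx (by simpa [e1, e2] using e)).elim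
      · exact hi x hx w e1 w' e2 (by simpa [e1, e2] using e)) Q).trans hS
  have hx : x ≠ 0 := fun e => by simp [e] at hxy
  have e1 := key (x + y) fun e => by
    have := congrArg (B x) e
    simp [ha, hxy] at this
  have e2 : ∑ w : W, (1 : K2) = 0 := Finset.sum_ninvolution (· + x) (fun _ => rfl)
    (fun w _ => by simpa) (fun _ => Finset.mem_univ _) fun w => by rw [add_assoc, hw, add_zero]
  have e3 : ∀ w, Q (if w = 0 then 0 else σ w (x + y)) = Q (if w = 0 then 0 else σ w x) +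
      Q (if w = 0 then 0 else σ w y) + (1 + if w = 0 then 1 else 0) := fun w => by
    split_ifs with e
    · rw [Q0]; rfl
    · rw [map_add, hQ, hσ w e, hxy, add_zero]
  simp only [e3, Finset.sum_add_distrib, key x hx, key y fun e => by simp [e] at hxy, e2] at e1
  simp at e1

variable {F : Type*} [Field F] {A : Type*} [Ring A] [Algebra F A] {R R' Y : Subgroup Aˣ}

theorem ctl_neg_one_left (h2 : (2 : F) ≠ 0) (x : Aˣ) : ctl F (-1) x = x :=
  Units.ext (by rw [ctl_val h2 (by simp) (Commute.neg_one_right x), pe_neg_one h2]; simp)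

theorem ctl_one_left (h2 : (2 : F) ≠ 0) (x : Aˣ) : ctl F 1 x = 1 :=
  Units.ext (by rw [ctl_val h2 (by simp) (Commute.one_right x), pe_one]; simp)

instance ScG.normal : (ScG F A).Normal := ScG_normal

variable (F) in
/-- the projection modulo scalars -/
abbrev pr : Aˣ →* Aˣ ⧸ ScG F A := QuotientGroup.mk' (ScG F A)

theorem pr_eq {a b : Aˣ} : pr F a = pr F b ↔ Sc F (a * b⁻¹) := by
  simpa [div_eq_mul_inv, mem_ScG] using QuotientGroup.eq_iff_div_mem (N := ScG F A) (x := a) (y := b)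

theorem pr_eq_one {a : Aˣ} : pr F a = 1 ↔ Sc F a := QuotientGroup.eq_one_iff a

theorem mem_NR_of_pr {y : Aˣ} (h : pr F y ∈ (Y ⊓ NR R).map (pr F)) : y ∈ NR R := by
  obtain ⟨z, hz, e⟩ := h
  simpa using mul_mem (pr_eq.1 e.symm).mem_NR hz.2

variable (F) in
/-- a group containing all controlled gates -/
structure Ctx (R Y : Subgroup Aˣ) : Prop where
  p : Pauli F R
  gate : ∀ u ∈ R, u * u = 1 → ∀ x ∈ R, Commute x u → ctl F u x ∈ Y

variable (F) in
/-- scalars of order four belong to the Pauli group -/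
def SC (R Y : Subgroup Aˣ) : Prop := ∀ c ∈ Y, Sc F c → c * c = -1 → HasI F R

variable [Nontrivial A]

theorem SC.mem (h : SC F R Y) (hR : Pauli F R) {c : Aˣ} (hc : c ∈ Y) (hc' : Sc F c)
    (h2 : c * c = 1 ∨ c * c = -1) : c ∈ R := by
  rcases h2 with e | e
  · rcases hc'.eq_one_or e with rfl | rfl
    exacts [one_mem R, hR.neg]
  · obtain ⟨j, hj, h3, h4⟩ := h c hc hc' e
    rcases hc'.eq_or h3 (e.trans h4.symm) with rfl | rfl
    exacts [hj, hR.neg_mem hj]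

theorem SC.mem_of_sc (h : SC F R Y) (hR : Pauli F R) (hY : R ≤ Y) {a b : Aˣ} (ha : a ∈ Y)
    (h2 : a * a = 1 ∨ a * a = -1) (hb : b ∈ R) (hc : Sc F (a * b⁻¹)) : a ∈ R := by
  have h3 : Commute a b⁻¹ := by simpa using ((hc.comm b⁻¹).mul_left (Commute.refl b).inv_right)
  have := h.mem hR (mul_mem ha (inv_mem (hY hb))) hc (by
    rw [comm_mul_sq h3]
    rcases h2 with e | e <;> rcases hR.sq _ (inv_mem hb) with e' | e' <;> simp [e, e'])
  simpa using mul_mem this hb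

namespace Ctx

variable [Finite A] (hC : Ctx F R Y)
include hC

theorem le : R ≤ Y := fun x hx =>
  ctl_neg_one_left hC.p.two x ▸ hC.gate _ hC.p.neg (by simp) x hx (Commute.neg_one_right x)

theorem exists_conj (h : HasI F R ∨ 4 < rk R) {u v : Aˣ} (hu : u ∈ R) (hv : v ∈ R) (hu' : ¬ Sc F u)
    (hv' : ¬ Sc F v) (e : u * u = v * v) : ∃ g ∈ Y, g ∈ NR R ∧ g * u * g⁻¹ = v := by
  obtain ⟨w, hw, h1, h2, h3⟩ := hC.p.exists_sing_anti h hu hv hu' hv'
  have h4 : Commute (v * u⁻¹) w := (h3.symm.mul_anti h2.symm.inv_right).symm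
  have h5 := mul_mem hv (inv_mem hu)
  refine ⟨_, hC.gate w hw h1 _ h5 h4, hC.p.ctl_mem_normalizer hw h1 h5 h4, ?_⟩
  rw [ctl_conj_pos hC.p.two h1 h4 h2 (by simp [← mul_assoc, e]), inv_mul_cancel_right]

theorem mem_of_conj_mem (hS : SC F R Y) (hc : Cen F R Y) (hr : HasI F R ∧ 2 < rk R ∨ 4 < rk R)
    {g t : Aˣ} (hg : g ∈ Y) (ht : t ∈ R) (h0 : ¬ Sc F t) (h : g * t * g⁻¹ ∈ NR R) : g ∈ NR R := by
  by_contra hn
  have hP : Pair F R (R.map (MulAut.conj g).toMonoidHom) Y := by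
    refine ⟨hC.p, hC.p.conj g, hC.le, ?_, hc, ?_, ?_⟩
    · rintro _ ⟨a, ha, rfl⟩
      exact mul_mem (mul_mem hg (hC.le ha)) (inv_mem hg)
    · rintro _ ⟨a, ha, rfl⟩ h1 y hy h2
      have h3 := hc a ha (fun e => h1 (sc_conj_iff.2 e)) _ (mul_mem (mul_mem (inv_mem hg) hy) hg)
        (by simpa [mul_assoc] using h2.conj g⁻¹)
      refine Subgroup.mem_normalizer_fintype ?_
      rintro _ ⟨b, hb, rfl⟩
      exact ⟨_, conj_mem h3 hb, by simp [mul_assoc]⟩
    · rintro a ha _ ⟨b, hb, rfl⟩ h1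
      by_contra h2
      have h3 : g⁻¹ * a * g⁻¹⁻¹ ∈ R := hS.mem_of_sc hC.p hC.le
        (mul_mem (mul_mem (inv_mem hg) (hC.le ha)) (inv_mem (inv_mem hg)))
        (by rw [hC.p.conj_sq' ha]; exact hC.p.sq a ha) hb
        (by simpa [mul_assoc] using (sc_conj_iff (g := g⁻¹)).2 h1)
      obtain ⟨k, hk, hk', e⟩ := hC.exists_conj (hr.imp_left And.left) ha h3 h2
        (fun e => h2 (sc_conj_iff.1 e)) (hC.p.conj_sq' ha _).symm
      have h4 := hc a ha h2 _ (mul_mem hg hk) (Or.inl (by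
        rw [commute_iff_eq, mul_assoc, mul_inv_eq_iff_eq_mul.1 e]; group))
      exact hn (by simpa using mul_mem h4 (inv_mem hk'))
  by_cases hI : HasI F R
  · obtain ⟨j, hj, h1, h2⟩ := hI
    exact hP.false_of_hasI hj h1 h2 (by omega) (fun u hu hu' => hC.gate u hu hu' j hj (h1.comm u))
      ⟨t, ht, rfl⟩ h fun e => h0 (sc_conj_iff.1 e)
  · exact hP.false_of_not_hasI hI (by omega) ⟨t, ht, rfl⟩ h fun e => h0 (sc_conj_iff.1 e)

/-- The global step. -/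
theorem le_NR (hS : SC F R Y) (hc : Cen F R Y) (hr : HasI F R ∧ 2 < rk R ∨ 4 < rk R) :
    Y ≤ NR R := by
  have hR := hC.p
  have hD : ∀ g ∈ Y.map (pr F), ∀ t ∈ {t | ∃ a ∈ R, ¬ Sc F a ∧ pr F a = t},
      g * t * g⁻¹ ∈ (Y ⊓ NR R).map (pr F) → g ∈ (Y ⊓ NR R).map (pr F) := by
    rintro _ ⟨g, hg, rfl⟩ _ ⟨t, ht, h0, rfl⟩ h
    exact ⟨g, ⟨hg, hC.mem_of_conj_mem hS hc hr hg ht h0 (mem_NR_of_pr (by simpa using h))⟩, rfl⟩
  have hO : OddCtx (Y.map (pr F)) ((Y ⊓ NR R).map (pr F)) {t | ∃ a ∈ R, ¬ Sc F a ∧ pr F a = t} := by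
    refine ⟨Subgroup.map_mono inf_le_left, ?_, ?_, ?_, hD, ?_⟩
    · rintro _ ⟨a, ha, -, rfl⟩
      exact ⟨a, ⟨hC.le ha, mem_NR ha⟩, rfl⟩
    · rintro _ ⟨a, ha, -, rfl⟩
      rw [← map_mul, pr_eq_one]
      exact hR.sc_sq ha
    · rintro _ ⟨g, hg, rfl⟩ _ ⟨a, ha, h0, rfl⟩
      exact ⟨_, conj_mem hg.2 ha, fun e => h0 (sc_conj_iff.1 e), by simp⟩
    · rintro g hg _ ⟨a, ha, -, rfl⟩ _ ⟨b, hb, -, rfl⟩ _ ⟨c, hc, -, rfl⟩ _ ⟨d, hd, -, rfl⟩ h1 - h2
      refine hD g hg _ ⟨_, mul_mem hc hd, fun e => h1 ?_, map_mul _ _ _⟩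
        (h2 ▸ ⟨_, ⟨hC.le (mul_mem ha hb), mem_NR (mul_mem ha hb)⟩, map_mul _ _ _⟩)
      rw [← map_mul _ c, pr_eq_one.2 e, mul_one, mul_inv_cancel, ← map_mul, pr_eq_one] at h2
      exact pr_eq.2 (by simpa [mul_assoc] using h2.mul (hR.sc_sq hb).inv)
  intro g hg
  by_contra hn
  obtain ⟨x, hx, -, hx', -⟩ := hR.exists_comm_notMem (v := ![]) (by simp) (U := ⊥) (U' := ⊥)
    (by simp; omega) (by simp; omega)
  have hx0 : ¬ Sc F x := fun e => hx' ((hR.cl_eq_zero hx).2 e)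
  obtain ⟨s, hs', hs⟩ := hO.exists_swaps ⟨g, hg, rfl⟩ (fun h => hn (mem_NR_of_pr h)) ⟨x, hx, hx0, rfl⟩
  by_cases hI : HasI F R
  · obtain ⟨y, hy, h1⟩ := hR.exists_anti hx hx0
    have := finrank_sp_le (R := R) ![x]
    obtain ⟨z, hz, h2, h3, -⟩ := hR.exists_comm_notMem (v := ![x]) (by simp [hx]) (U := sp R ![x])
      (U' := ⊥) (by omega) (by simp; omega)
    choose r hr1 hr2 using hR.exists_cl
    have hr0 : ∀ w ≠ 0, ¬ Sc F (r w) := fun w hw e => hw (by rw [← hr2 w, hR.cl_eq_zero (hr1 w)]; exact e)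
    choose! n hn1 hn2 using fun w (hw : w ≠ 0) =>
      Subgroup.mem_map.1 (hs _ ⟨x, hx, hx0, rfl⟩ _ ⟨_, hr1 w, hr0 w hw, rfl⟩).1
    refine no_sharp hR.pol.B hR.B_symm' hR.B_self (v₁ := cl R x) (v₂ := cl R z) hx'
      (fun e => h3 (e ▸ zero_mem _)) (fun e => h3 (hR.add_eq_zero.1 e ▸ mem_sp ![x] 0))
      ((hR.B_eq_zero hx hz).2 (h2 0).symm) ((hR.B_eq_one hx hy).2 h1) (fun w => act R (n w))
      (fun w hw => hR.act_B (hn1 w hw).2) (fun w hw v hv e => hv ?_) fun v hv w hw w' hw' e => ?_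
    · rw [← hR.act_sc sc_one v, ← inv_mul_cancel (n w), hR.act_mul (inv_mem (hn1 w hw).2) (hn1 w hw).2,
        e, map_zero]
    by_contra hne
    have h4 : (n w')⁻¹ * n w ∈ NR R := mul_mem (inv_mem (hn1 w' hw').2) (hn1 w hw).2
    have h5 : Pm ((n w')⁻¹ * n w) (r v) := by
      rw [← hR.cl_mem_Fx h4 (hr1 v), hR.mem_Fx, hr2, hR.act_mul (inv_mem (hn1 w' hw').2) (hn1 w hw).2,
        e, ← hR.act_mul (inv_mem (hn1 w' hw').2) (hn1 w' hw').2, inv_mul_cancel, hR.act_sc sc_one]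
    have h6 := (hs _ ⟨_, hr1 w', hr0 w' hw', rfl⟩ _ ⟨_, hr1 w, hr0 w hw, rfl⟩).2.2
      (fun e => hne (by rw [← hr2 w, ← hr2 w', eq_comm, hR.cl_eq_iff (hr1 _) (hr1 _), ← pr_eq, e]))
      _ ⟨_, hr1 v, hr0 v hv, rfl⟩
    have h7 : pr F ((n w')⁻¹ * n w) = (s (pr F (r w')))⁻¹ * s (pr F (r w)) := by
      rw [map_mul, map_inv, hn2 w hw, hn2 w' hw']; group
    rw [inv_eq_of_mul_eq_one_right (hO.cjs_sq (hs' _ ⟨_, hr1 w', hr0 w' hw', rfl⟩).1)] at h7
    rw [← h7, ← map_mul, ← map_mul, ne_eq, pr_eq] at h6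
    rcases h5 with h5 | h5 <;> rw [h5.eq] at h6
    · exact h6 (by rw [mul_inv_cancel]; exact sc_one)
    · exact h6 (by rw [neg_mul, mul_inv_cancel]; exact sc_one.neg)
  · have hr' : 4 < rk R := hr.resolve_left fun h => hI h.1
    obtain ⟨u, hu, h1, h2, -⟩ := hR.exists_sing_anti (Or.inr hr') hx hx hx0 hx0
    obtain ⟨v, hv, h3, h4, -⟩ := hR.exists_sing_anti (Or.inr hr') hu hu (h2.symm.not_sc hR.two)
      (h2.symm.not_sc hR.two)
    have h5 := mul_mem hu hv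
    obtain ⟨⟨n, hn, e⟩, h6, -⟩ := hs _ ⟨u, hu, h4.not_sc hR.two, rfl⟩ _
      ⟨_, h5, (h4.mul_comm (Commute.refl u) |>.symm |> fun h => by
        simpa using (h4.comm_mul (Commute.refl u)).symm.not_sc hR.two), rfl⟩
    rw [← e, ← mul_inv_eq_iff_eq_mul, ← map_mul, ← map_inv, ← map_mul, pr_eq,
      ← hR.cl_eq_iff (conj_mem hn.2 h5) hu] at h6
    have h7 := hR.sq_eq_of_cl_eq hI (conj_mem hn.2 h5) hu h6
    rw [hR.conj_sq' h5, h4.mul_sq, h1, h3, one_mul] at h7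
    exact ne_neg hR.two 1 h7.symm

end Ctx

end Cfsg.Agent.H8.C6
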