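import Cfsg.Agent.H8.C6D

/-!
Normal subgroups containing a Pauli group contain controlled gates.
-/

set_option autoImplicit false
set_option linter.unusedSectionVars false

namespace Cfsg.Agent.H8.C6

open Module H7 H7.Polar

section grp

variable {G : Type*} [Group G] [Finite G]

theorem sylow_conj_in {p : ℕ} [Fact p.Prime] {P Q : Sylow p G} {N : Subgroup G} (hP : P ≤ N)
    (hQ : Q ≤ N) : ∃ n : N, n • P = Q := by
  obtain ⟨n, hn⟩ := MulAction.exists_smul_eq N (P.subtype hP) (Q.subtype hQ)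
  rw [Sylow.smul_subtype] at hn
  exact ⟨n, Sylow.subtype_injective hn⟩

/-- A self-normalising elementary abelian `2`-subgroup normalises a canonical abelian subgroup of
odd order. -/
theorem exists_odd_center (P : Subgroup G) (h2 : ∀ a ∈ P, a * a = 1)
    (hN : ∀ g ∈ Subgroup.normalizer (P : Set G), g ∈ P) (hne : P ≠ ⊤) :
    ∃ z : G, z ≠ 1 ∧ Odd (orderOf z) ∧ (∀ a ∈ P, a * z * a⁻¹ = z ∨ a * z * a⁻¹ = z⁻¹) ∧
      ∀ φ : MulAut G, (∀ a ∈ P, φ⁻¹ a ∈ P) → Commute z (φ z) := by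
  classical
  have hP : IsPGroup 2 P := fun a => ⟨1, Subtype.ext (by simpa [sq] using h2 a a.2)⟩
  have hc : ∀ a ∈ P, ∀ b ∈ P, a * b = b * a := fun a ha b hb => by
    rw [← inv_eq_of_mul_eq_one_right (h2 _ (mul_mem ha hb)), mul_inv_rev,
      inv_eq_of_mul_eq_one_right (h2 a ha), inv_eq_of_mul_eq_one_right (h2 b hb)]
  have hi : ¬ 2 ∣ P.index := fun h => by
    obtain ⟨n, hn⟩ := IsPGroup.iff_card.1 hP
    have h1 := Sylow.prime_pow_dvd_card_normalizer (n := n) (H := P)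
      (by rw [← P.card_mul_index, hn, pow_succ]; exact mul_dvd_mul_left _ h) hn
    rw [le_antisymm hN Subgroup.le_normalizer, hn, Nat.pow_dvd_pow_iff_le_right one_lt_two] at h1
    omega
  let S := hP.toSylow hi
  have hS : Subgroup.normalizer (S : Set G) ≤ Subgroup.centralizer S := fun g hg a ha =>
    hc a ha g (hN g hg)
  have hO := (MonoidHom.ker_transferSylow_isComplement' S hS).index_eq_card
  obtain ⟨r, hr, hr'⟩ := Nat.exists_prime_and_dvd fun h : P.index = 1 => hne (Subgroup.index_eq_one.1 h)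
  have := Fact.mk hr
  have hr2 : r ≠ 2 := fun h => hi (h ▸ hr')
  have hle : ∀ Q : Sylow r G, (Q : Subgroup G) ≤ (MonoidHom.transferSylow S hS).ker := fun Q q hq => by
    obtain ⟨k, hk⟩ := Q.2 ⟨q, hq⟩
    have h3 : orderOf (MonoidHom.transferSylow S hS q) ∣ r ^ k := by
      rw [orderOf_dvd_iff_pow_eq_one, ← map_pow, show q ^ r ^ k = 1 from congrArg Subtype.val hk, map_one]
    have h4 : orderOf (MonoidHom.transferSylow S hS q) ∣ 2 := by
      rw [orderOf_dvd_iff_pow_eq_one, sq]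
      exact Subtype.ext (h2 _ (MonoidHom.transferSylow S hS q).2)
    exact orderOf_eq_one_iff.1 (Nat.eq_one_of_dvd_coprimes
      (((Nat.coprime_primes hr Nat.prime_two).2 hr2).pow_left k) h3 h4)
  obtain ⟨Q, hQ⟩ : (MulAction.fixedPoints P (Sylow r G)).Nonempty := by
    have : MulAction.IsPretransitive (MonoidHom.transferSylow S hS).ker (Sylow r G) :=
      ⟨fun Q Q' => sylow_conj_in (hle Q) (hle Q')⟩
    refine hP.nonempty_fixed_point_of_prime_not_dvd_card _ fun h => hi ?_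
    rw [← MulAction.index_stabilizer_of_transitive (MonoidHom.transferSylow S hS).ker
      (Classical.arbitrary _)] at h
    exact h.trans ((Subgroup.index_dvd_card _).trans (dvd_of_eq hO.symm))
  have huniq : ∀ Q' ∈ MulAction.fixedPoints P (Sylow r G), Q' = Q := fun Q' hQ' => by
    obtain ⟨g, rfl⟩ := MulAction.exists_smul_eq G Q Q'
    obtain ⟨n, hn⟩ := sylow_conj_in (P := S) (Q := g⁻¹ • S)
      (N := Subgroup.normalizer (Q : Set G)) ((Subgroup.sylow_mem_fixedPoints_iff P).1 hQ)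
      fun x hx => Sylow.smul_eq_iff_mem_normalizer.1 (by
        have h3 : g * x * g⁻¹ ∈ (S : Subgroup G) := by
          simpa using Subgroup.mem_pointwise_smul_iff_inv_smul_mem.1 hx
        have h4 : (g * x * g⁻¹) • g • Q = g • Q := hQ' ⟨_, h3⟩
        rwa [smul_smul, inv_mul_cancel_right, mul_smul, smul_left_cancel_iff] at h4)
    have h3 : g * n ∈ P := hN _ (Sylow.smul_eq_iff_mem_normalizer (P := S).1 (by
      rw [mul_smul, show (n : G) • S = _ from hn, smul_inv_smul]))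
    rw [← Sylow.smul_eq_iff_mem_normalizer.2 n.2, ← mul_smul, Sylow.smul_eq_iff_mem_normalizer.2 n.2]
    exact hQ ⟨_, h3⟩
  have hQn : ∀ a ∈ P, ∀ q ∈ Q, a * q * a⁻¹ ∈ Q := fun a ha q hq =>
    (Subgroup.mem_normalizer_iff.1 ((Subgroup.sylow_mem_fixedPoints_iff P).1 hQ ha) q).1 hq
  have hodd : ∀ q ∈ Q, Odd (orderOf q) := fun q hq => by
    obtain ⟨k, hk⟩ := Q.2.exists_orderOf_eq_pow ⟨q, hq⟩
    rw [Subgroup.orderOf_mk] at hk
    rw [hk]
    exact (hr.odd_of_ne_two hr2).pow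
  have key : ∀ s : Finset G, (∀ a ∈ s, a ∈ P) → ∃ z ∈ Q, (∀ q ∈ Q, Commute z q) ∧ z ≠ 1 ∧
      ∀ a ∈ s, a * z * a⁻¹ = z ∨ a * z * a⁻¹ = z⁻¹ := fun s hs => by
    induction s using Finset.induction_on with
    | empty =>
      have : Nontrivial Q := (Subgroup.nontrivial_iff_ne_bot _).2
        (Q.ne_bot_of_dvd_card (hr'.trans P.index_dvd_card))
      have := Q.2.center_nontrivial
      obtain ⟨⟨⟨z, hz⟩, h1⟩, h3⟩ := exists_ne (1 : Subgroup.center Q)
      exact ⟨z, hz, fun q hq => congrArg Subtype.val (Subgroup.mem_center_iff.1 h1 ⟨q, hq⟩).symm,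
        fun h => h3 (by simp [Subtype.ext_iff, h]), by simp⟩
    | insert b s _ ih =>
      obtain ⟨z, hz, h1, h3, h4⟩ := ih fun a ha => hs a (Finset.mem_insert_of_mem ha)
      have hb := hs b (Finset.mem_insert_self b s)
      have h5 := hQn b hb z hz
      have h6 : ∀ q ∈ Q, Commute (b * z * b⁻¹) q := fun q hq => by
        have := (h1 _ (hQn _ (inv_mem hb) q hq)).map (MulAut.conj b)
        simpa [mul_assoc] using this
      have h7 : b * (b * z * b⁻¹) * b⁻¹ = z := by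
        rw [← mul_assoc, ← mul_assoc, h2 b hb, mul_assoc, ← mul_inv_rev, h2 b hb]; simp
      have h8 : ∀ a ∈ s, a * (b * z * b⁻¹) * a⁻¹ = b * (a * z * a⁻¹) * b⁻¹ := fun a ha => by
        have := hc a (hs a (Finset.mem_insert_of_mem ha)) b hb
        calc _ = a * b * z * (a * b)⁻¹ := by group
          _ = _ := by rw [this]; group
      by_cases h9 : b * z * b⁻¹ = z
      · exact ⟨z, hz, h1, h3, by simpa [h9] using h4⟩
      refine ⟨z * (b * z * b⁻¹)⁻¹, mul_mem hz (inv_mem h5), fun q hq => (h1 q hq).mul_left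
        (h6 q hq).inv_left, fun h => h9 (mul_inv_eq_one.1 h).symm, fun a ha => ?_⟩
      rw [← conj_mul, ← conj_inv]
      rcases Finset.mem_insert.1 ha with rfl | ha
      · right; rw [h7, mul_inv_rev, inv_inv]
      · rw [h8 a ha]
        refine (h4 a ha).imp (fun h => by rw [h]) fun h => ?_
        rw [h, mul_inv_rev z, inv_inv, ← conj_inv, inv_inv]
        exact (h1 _ h5).inv_left.eq
  obtain ⟨z, hz, h1, h3, h4⟩ := key (Set.toFinite (P : Set G)).toFinset (by simp)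
  refine ⟨z, h3, hodd z hz, by simpa using h4, fun φ hφ => h1 _ ?_⟩
  rw [← huniq (φ • Q) fun a => ?_]
  · exact Subgroup.smul_mem_pointwise_smul z φ Q hz
  · have h5 : (φ⁻¹ a : G) • Q = Q := hQ ⟨_, hφ a a.2⟩
    rw [Sylow.smul_def] at h5
    rw [Subgroup.smul_def, Sylow.smul_def, ← mul_smul, show MulAut.conj (a : G) * φ =
      φ * MulAut.conj (φ⁻¹ a) by ext; simp, mul_smul, h5]

end grp

variable {F : Type*} [Field F] {A : Type*} [Ring A] [Algebra F A] {R Y K : Subgroup Aˣ}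

theorem Anti.pow_odd {a b : Aˣ} (h : Anti a b) {m : ℕ} (hm : Odd m) : Anti (a ^ m) b := by
  obtain ⟨k, rfl⟩ := hm
  rw [pow_succ, pow_mul, sq]
  exact (h.symm.comm_mul ((h.symm.mul_anti h.symm).pow_right k)).symm

theorem split_anti (h2 : (2 : F) ≠ 0) {y : Aˣ} {p q : A} (hp : y * p = p * y) (hq : y * q = -(q * y))
    (h : p + q = 0) : p = 0 ∧ q = 0 := by
  have h1 : p = q := by
    rw [← y.mul_left_inj, ← hp, eq_neg_of_add_eq_zero_left h, mul_neg, hq, neg_neg]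
  rw [h1] at h ⊢
  rw [← half_two h2 q, h]; simp

theorem conj_inv_neg {x y : Aˣ} (hx : x * x = -1) (h : Commute x y) : y * x⁻¹ * y⁻¹ = -x := by
  rw [← h.inv_left.eq, mul_inv_cancel_right, inv_eq_iff_mul_eq_one]; simp [hx]

/-- `K` is normalised by `Y` -/
def Nm (K Y : Subgroup Aˣ) : Prop := ∀ y ∈ Y, ∀ k ∈ K, y * k * y⁻¹ ∈ K

variable [Nontrivial A]

theorem pm_of_sc {g a : Aˣ} (ha : a * a = 1 ∨ a * a = -1) (h : Sc F (g * a * g⁻¹ * a⁻¹)) : Pm g a := by
  have h1 := conj_sq rfl ha g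
  have h2 := comm_mul_sq (h.comm a)
  rw [inv_mul_cancel_right, h1, right_eq_mul] at h2
  simpa [mul_inv_eq_iff_eq_mul, Pm, Anti, commute_iff_eq] using h.eq_one_or h2

namespace Pauli

variable (hR : Pauli F R)
include hR

theorem irr' {b w : Aˣ} (hb : b ∈ R) (hw : w ∈ R) (hbw : Anti w b) {m : A}
    (h : ∀ x ∈ R, Commute x b → m * x = x * m) (h' : m * w = w * m) : ∃ c : F, m = algebraMap F A c :=
  hR.irr m fun x hx => by
    rcases hR.comm x hx b hb with h1 | h1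
    · exact h x hx h1
    · have := h _ (mul_mem hx (inv_mem hw)) (h1.symm.mul_anti hbw.symm.inv_right).symm
      rw [← inv_mul_cancel_right x w, Units.val_mul, ← mul_assoc, this, mul_assoc, h', mul_assoc]

theorem cent {b : Aˣ} (hb : b ∈ R) (h0 : ¬ Sc F b) {m : A}
    (h : ∀ x ∈ R, Commute x b → m * x = x * m) : ∃ α β : F, m = algebraMap F A α + β • (b : A) := by
  obtain ⟨w, hw, h1⟩ := hR.exists_anti hb h0
  have h2 : ∀ x ∈ R, Commute x b → w * m * (w⁻¹ : Aˣ) * x = x * (w * m * (w⁻¹ : Aˣ)) := fun x hx hx' => by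
    have := h _ (mul_mem (mul_mem (inv_mem hw) hx) hw)
      (h1.mul_anti (h1.inv_right.mul_comm hx'.symm) |>.symm |> fun h => by
        simpa using ((h1.inv_right.mul_comm hx'.symm).mul_anti h1).symm)
    calc _ = w * (m * (w⁻¹ * x * w : Aˣ)) * (w⁻¹ : Aˣ) := by simp [mul_assoc]
      _ = _ := by rw [this]; simp [mul_assoc]
  have h3 : w * (w * m * (w⁻¹ : Aˣ)) = m * w := by
    have : (w⁻¹ : Aˣ) = (w * w)⁻¹ * w := by group
    rw [← mul_assoc, ← mul_assoc, ← Units.val_mul, this]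
    rcases hR.sq w hw with e | e <;> simp [e]
  obtain ⟨α, hα⟩ := hR.irr' hb hw h1.symm (m := m + w * m * (w⁻¹ : Aˣ))
    (fun x hx hx' => by rw [add_mul, mul_add, h x hx hx', h2 x hx hx'])
    (by rw [mul_add, h3, add_mul]; simp [add_comm])
  obtain ⟨β, hβ⟩ := hR.irr' hb hw h1.symm (m := (m - w * m * (w⁻¹ : Aˣ)) * (b⁻¹ : Aˣ))
    (fun x hx hx' => by
      rw [mul_assoc, ← Units.val_mul, ← hx'.inv_right.eq, Units.val_mul, ← mul_assoc, ← mul_assoc,
        sub_mul, mul_sub, h x hx hx', h2 x hx hx'])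
    (by
      rw [mul_assoc, ← Units.val_mul, h1.symm.inv_right.symm.eq, ← mul_assoc, mul_sub, h3]
      simp [sub_mul, mul_sub, mul_assoc])
  refine ⟨2⁻¹ * α, 2⁻¹ * β, ?_⟩
  rw [Units.mul_inv_eq_iff_eq_mul, ← Algebra.smul_def] at hβ
  rw [map_mul, ← Algebra.smul_def, mul_smul, ← hα, ← hβ, ← smul_add, add_add_sub_cancel, half_two hR.two]

variable [Finite A]

theorem exists_char {g : Aˣ} (h : ∀ x ∈ R, ∀ y ∈ R, ¬ Commute g x → ¬ Commute g y → Commute g (x * y))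
    (h0 : ¬ Sc F g) : ∃ r ∈ R, ¬ Sc F r ∧ ∀ x ∈ R, Commute x r → Commute g x := by
  obtain ⟨x₀, hx₀, h1⟩ : ∃ x ∈ R, ¬ Commute g x := by
    by_contra! hn
    exact h0 (hR.sc_of_comm hn)
  let U : Submodule K2 (Wsp R) :=
    { carrier := {w | ∃ x ∈ R, cl R x = w ∧ Commute g x}
      add_mem' := by
        rintro _ _ ⟨x, hx, rfl, h1⟩ ⟨y, hy, rfl, h2⟩
        exact ⟨_, R.mul_mem hx hy, hR.cl_mul hx hy, h1.mul_right h2⟩
      zero_mem' := ⟨1, R.one_mem, hR.cl_one, Commute.one_right g⟩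
      smul_mem' := fun c w hw => by
        by_cases hc : c = 0
        · exact ⟨1, R.one_mem, by simp [hR.cl_one, hc], Commute.one_right g⟩
        · simpa [K2.eq_one hc] using hw }
  obtain ⟨r, hr, h2, h3⟩ := hR.exists_anti_of_notMem (U := U) hx₀ fun ⟨x, hx, e, h2⟩ => h1 (by
    simpa using (((hR.cl_eq_iff hx₀ hx).1 e.symm).comm g).symm.mul_right h2)
  refine ⟨r, hr, h2.symm.not_sc hR.two, fun x hx hx' => by_contra fun h4 => ?_⟩
  exact (h2.symm.comm_mul hx'.symm).not_comm hR.two ((hR.B_eq_zero hr (mul_mem hx hx₀)).1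
    (h3 _ ⟨_, mul_mem hx hx₀, rfl, h x hx x₀ hx₀ h4 h1⟩))

theorem exists_neg_sq {k : ℕ} {v : Fin k → Aˣ} (hv : ∀ i, v i ∈ R) (h : HasI F R ∨ 2 * k < rk R) :
    ∃ x ∈ R, x * x = -1 ∧ ∀ i, Commute x (v i) := by
  rcases h with ⟨j, hj, h1, h2⟩ | h
  · exact ⟨j, hj, h2, fun i => h1.comm _⟩
  obtain ⟨y, hy, z, hz, h1, h2, h3⟩ := hR.exists_pair hv h
  rcases hR.sq y hy with e | e
  · rcases hR.sq z hz with e' | e'
    · exact ⟨_, mul_mem hy hz, by simp [h1.mul_sq, e, e'], fun i => (h2 i).mul_left (h3 i)⟩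
    · exact ⟨z, hz, e', h3⟩
  · exact ⟨y, hy, e, h2⟩

theorem exists_sing_comm {k : ℕ} {v : Fin k → Aˣ} (hv : ∀ i, v i ∈ R)
    (h : HasI F R ∧ k < rk R ∨ k + 2 < rk R) :
    ∃ x ∈ R, x * x = 1 ∧ ¬ Sc F x ∧ ∀ i, Commute x (v i) := by
  rcases h with ⟨⟨j, hj, h1, h2⟩, h⟩ | h
  · obtain ⟨x, hx, h3, h4, -⟩ := hR.exists_comm_notMem hv (U := ⊥) (U' := ⊥) (by simpa) (by simpa)
    have h5 : ¬ Sc F x := fun e => h4 ((hR.cl_eq_zero hx).2 e)
    rcases hR.sq x hx with e | e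
    · exact ⟨x, hx, e, h5, h3⟩
    · exact ⟨_, mul_mem hj hx, by rw [comm_mul_sq (h1.comm x), h2, e]; simp,
        fun e => h5 (by simpa using h1.inv.mul e), fun i => (h1.comm _).mul_left (h3 i)⟩
  · have := hR.finrank_perp_sp v
    obtain ⟨u, hu, h1, h2, h3⟩ := hR.exists_sing (M := hR.pol.perp (sp R v)) (U := ⊥) bot_le
      (by simp; omega)
    exact ⟨u, hu, h1, fun e => h3 ((hR.cl_eq_zero hu).2 e), (hR.mem_perp_sp hv hu).1 h2⟩

theorem exists_mul_sing (h : HasI F R ∨ 4 < rk R) {x : Aˣ} (hx : x ∈ R) (h0 : ¬ Sc F x)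
    (h1 : x * x = -1) : ∃ w ∈ R, w * w = 1 ∧ Anti x w ∧ x * w * (x * w) = 1 := by
  obtain ⟨w, hw, h2, h3, -⟩ := hR.exists_sing_anti h hx hx h0 h0
  exact ⟨w, hw, h2, h3, by simp [h3.mul_sq, h1, h2]⟩

end Pauli

namespace Ctx

variable [Finite A] (hC : Ctx F R Y) (hK : Nm K Y)
include hC hK

theorem exists_not_pm (hS : SC F R Y) (hr : HasI F R ∨ 4 < rk R) (hKY : K ≤ Y) (hRK : R ≤ K)
    (hY : ¬ Y ≤ NR R) : ∃ g ∈ K, g ∈ NR R ∧ ∃ x ∈ R, ¬ Pm g x := by
  by_contra! hn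
  have hR := hC.p
  have h1 : ∀ y ∈ Y, ∀ a ∈ R, pr F (y * a * y⁻¹) ∈ R.map (pr F) → y * a * y⁻¹ ∈ R := by
    rintro y hy a ha ⟨b, hb, e⟩
    exact hS.mem_of_sc hR hC.le (hKY (hK y hy a (hRK ha))) (by rw [hR.conj_sq' ha]; exact hR.sq a ha)
      hb (pr_eq.1 e.symm)
  obtain ⟨⟨_, z, hz, rfl⟩, h2, h3, h4, h5⟩ := exists_odd_center ((R.map (pr F)).subgroupOf (K.map (pr F)))
    (by
      rintro ⟨_, _⟩ ⟨a, ha, rfl⟩
      exact Subtype.ext ((map_mul _ _ _).symm.trans (pr_eq_one.2 (hR.sc_sq ha))))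
    (by
      rintro ⟨_, k, hk, rfl⟩ h
      obtain ⟨r, hr, e⟩ := hR.exists_sc (hn k hk (Subgroup.mem_normalizer_fintype fun a ha =>
        h1 k (hKY hk) a ha ((Subgroup.mem_normalizer_iff.1 h ⟨_, a, hRK ha, rfl⟩).1 ⟨a, ha, rfl⟩)))
      exact ⟨r, hr, (pr_eq.2 e).symm⟩)
    fun h => hY fun y hy => Subgroup.mem_normalizer_fintype fun a ha => h1 y hy a ha
      (Subgroup.subgroupOf_eq_top.1 h ⟨_, hK y hy a (hRK ha), rfl⟩)
  have h0 : ¬ Sc F z := fun e => h2 (Subtype.ext (pr_eq_one.2 e))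
  have h6 : ∀ a ∈ R, pr F a * pr F z * (pr F a)⁻¹ = pr F z → Commute z a := fun a ha e => by
    refine (pm_of_sc (F := F) (hR.sq a ha) ?_).resolve_right fun h => (h.pow_odd h3).not_sc hR.two ?_
    · rw [← pr_eq_one]
      simp only [map_mul, map_inv]
      rw [mul_inv_eq_one, mul_inv_eq_iff_eq_mul, mul_inv_eq_iff_eq_mul.1 e]
    · rw [← pr_eq_one, map_pow]
      exact congrArg Subtype.val (pow_orderOf_eq_one (⟨pr F z, z, hz, rfl⟩ : K.map (pr F)))
  have h7 : ∀ a ∈ R, ¬ Commute z a → pr F a * pr F z * (pr F a)⁻¹ = (pr F z)⁻¹ := fun a ha e =>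
    congrArg Subtype.val ((h4 ⟨_, a, hRK ha, rfl⟩ ⟨a, ha, rfl⟩).resolve_left fun e' =>
      e (h6 a ha (congrArg Subtype.val e')))
  obtain ⟨b, hb, hb0, h8⟩ := hR.exists_char (fun x hx y hy e e' => h6 _ (mul_mem hx hy) (by
    rw [map_mul, mul_inv_rev, mul_assoc (pr F x), ← mul_assoc, mul_assoc (pr F x), h7 y hy e', ← conj_inv,
      h7 x hx e, inv_inv])) h0
  obtain ⟨α, β, e⟩ := hR.cent hb hb0 fun x hx hx' => congrArg Units.val (h8 x hx hx').eq
  obtain ⟨w, hw, hw2, hbw, -⟩ := hR.exists_sing_anti hr hb hb hb0 hb0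
  obtain ⟨x, hx, hx2, hx3⟩ := hR.exists_neg_sq (v := ![b, w]) (by simp [hb, hw, Fin.forall_fin_succ]) hr
  have hs := hC.gate w hw hw2 x hx (hx3 1)
  have hs' := hR.ctl_mem_normalizer hw hw2 hx (hx3 1)
  have h9 : Anti b (ctl F w x * b * (ctl F w x)⁻¹) := by
    rw [ctl_conj_neg hR.two hw2 (hx3 1) hbw (conj_inv_neg hx2 (hx3 0))]
    exact (hbw.comm_mul (hx3 0).symm).neg_right.mul_comm (Commute.refl b)
  generalize ctl F w x = s at hs hs' h9
  have h10 := congrArg Subtype.val (h5 ((K.map (pr F)).normalizerMonoidHom ⟨pr F s,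
    Subgroup.mem_normalizer_fintype (by
      rintro _ ⟨k, hk, rfl⟩
      exact ⟨_, hK s hs k hk, rfl⟩)⟩) (by
      rintro ⟨_, _⟩ ⟨a, ha, rfl⟩
      exact ⟨_, conj_mem' hs' ha, rfl⟩)).eq
  obtain ⟨c, hc⟩ := (pr_eq (a := z * (s * z * s⁻¹)) (b := s * z * s⁻¹ * z)).1 h10
  have e' : ((s * z * s⁻¹ : Aˣ) : A) = algebraMap F A α + β • ((s * b * s⁻¹ : Aˣ) : A) := by
    simp [e, mul_add, add_mul, Algebra.algebraMap_eq_smul_one]
  rw [Units.val_mul, Units.mul_inv_eq_iff_eq_mul, Units.val_mul z, Units.val_mul _ z, e'] at hc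
  generalize s * b * s⁻¹ = b' at h9 hc
  have h11 := congrArg Units.val h9.symm.eq
  simp only [Units.val_mul, Units.val_neg] at h11
  obtain ⟨h12, h13⟩ := split_anti hR.two (y := b)
    (p := ((1 - c) * α * α) • (1 : A) + ((1 - c) * α * β) • (b : A))
    (q := ((1 - c) * α * β) • (b' : A) + ((1 + c) * β * β) • ((b : A) * b'))
    (by simp [mul_add, add_mul]) (by simp [mul_add, add_mul, mul_assoc, h11, add_comm]) (by
      rw [← sub_eq_zero, e] at hc
      rw [← hc]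
      simp only [Algebra.algebraMap_eq_smul_one, mul_add, add_mul, smul_mul_assoc, mul_smul_comm,
        one_mul, mul_one, h11]
      module)
  have h14 := (split_anti hR.two (y := b') (by simp) (by simp [h11]) h12).1
  have h15 := (split_anti hR.two (y := b') (by simp) (by simp [h11, ← mul_assoc]) h13).2
  rw [← Units.val_mul, smul_eq_zero, or_iff_left (Units.ne_zero _)] at h15
  rw [smul_eq_zero, or_iff_left one_ne_zero] at h14
  by_cases hβ : β = 0
  · exact h0 ⟨α, by simp [e, hβ]⟩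
  have hc' : 1 - c ≠ 0 := fun h => hR.two (by
    simp only [mul_eq_zero, hβ, or_false] at h15
    linear_combination h + h15)
  simp only [mul_eq_zero, hc', false_or, or_self] at h14
  refine (Anti.pow_odd (a := z) (b := b') (Units.ext ?_) h3).not_sc hR.two ?_
  · simp [e, h14, h11]
  · rw [← pr_eq_one, map_pow]
    exact congrArg Subtype.val (pow_orderOf_eq_one (⟨pr F z, z, hz, rfl⟩ : K.map (pr F)))

end Ctx

end Cfsg.Agent.H8.C6
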