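import Cfsg.Agent.H8.C6E

/-!
The core lemma: one nontrivial normalising element produces all controlled gates.
-/

set_option autoImplicit false
set_option linter.unusedSectionVars false

namespace Cfsg.Agent.H8.C6

open Module H7 H7.Polar

variable {F : Type*} [Field F] {A : Type*} [Ring A] [Algebra F A] {R Y K : Subgroup Aˣ}

/-- the targets of gates controlled by `v` lying in `K` -/
def Jv (h2 : (2 : F) ≠ 0) (K : Subgroup Aˣ) {v : Aˣ} (hv : v * v = 1) : Subgroup Aˣ where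
  carrier := {x | Commute x v ∧ ctl F v x ∈ K}
  mul_mem' h h' := ⟨h.1.mul_left h'.1, ctl_mul h2 hv h.1 h'.1 ▸ mul_mem h.2 h'.2⟩
  one_mem' := ⟨Commute.one_left v, by rw [ctl_one h2 hv]; exact one_mem K⟩
  inv_mem' h := ⟨h.1.inv_left, ctl_inv h2 hv h.1 ▸ inv_mem h.2⟩

theorem Nm.comm_mem (hK : Nm K Y) {k y : Aˣ} (hk : k ∈ K) (hy : y ∈ Y) : k * y * k⁻¹ * y⁻¹ ∈ K := by
  simpa [mul_assoc] using mul_mem hk (hK y hy _ (inv_mem hk))

variable [Nontrivial A] [Finite A]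

namespace Ctx

variable (hC : Ctx F R Y) (hK : Nm K Y)
include hC hK

section J

variable {v : Aˣ} (hv : v * v = 1)

theorem J_conj {y z : Aˣ} (hy : y ∈ Y) (h : Commute y v) (hz : z ∈ Jv hC.p.two K hv) :
    y * z * y⁻¹ ∈ Jv hC.p.two K hv := by
  have h1 : y * v * y⁻¹ = v := by rw [h.eq, mul_inv_cancel_right]
  refine ⟨h1 ▸ comm_conj hz.1 y, ?_⟩
  have := hK y hy _ hz.2
  rwa [conj_ctl hC.p.two hv hz.1, h1] at this

theorem J_neg {y z : Aˣ} (hy : y ∈ R) (h : Commute y v) (hz : z ∈ Jv hC.p.two K hv) (h' : Anti z y) :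
    -1 ∈ Jv hC.p.two K hv := by
  simpa [h'.symm.conj_eq] using mul_mem (hC.J_conj hK hv (hC.le hy) h hz) (inv_mem hz)

theorem J_step {w x z : Aˣ} (hw : w ∈ R) (hw' : w * w = 1) (h : Commute w v)
    (hz : z ∈ Jv hC.p.two K hv) (h' : Anti z w) (hx : x ∈ R) (h1 : Commute x v) (h2 : Commute x w) :
    (z * x⁻¹ * z⁻¹ = x → x ∈ Jv hC.p.two K hv) ∧ (z * x⁻¹ * z⁻¹ = -x → x * w ∈ Jv hC.p.two K hv) := by
  have h3 := mul_mem (hC.J_conj hK hv (hC.gate w hw hw' x hx h2)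
    (comm_ctl hC.p.two hw' h2 h.symm h1.symm).symm hz) (inv_mem hz)
  refine ⟨fun e => ?_, fun e => ?_⟩
  · rwa [ctl_conj_pos hC.p.two hw' h2 h' e, mul_inv_cancel_right] at h3
  · rw [ctl_conj_neg hC.p.two hw' h2 h' e, mul_inv_cancel_right] at h3
    simpa using mul_mem (hC.J_neg hK hv hw h hz h') h3

theorem J_weak (hI : HasI F R) {y z : Aˣ} (hz : z ∈ R) (hz' : z ∈ Jv hC.p.two K hv)
    (hy : y ∈ R) (h : Commute y v) (h' : Anti z y) {x t : Aˣ} (hx : x ∈ R) (hx' : Commute x v)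
    (hx2 : x * x = -1) (ht : t ∈ R) (h1 : Commute t v) (h2 : Anti x t) : x ∈ Jv hC.p.two K hv := by
  obtain ⟨j, hj, h3, h4⟩ := hI
  have key : ∀ z ∈ Jv hC.p.two K hv, ∀ w ∈ R, w * w = 1 → Commute w v → Anti z w →
      j * w ∈ Jv hC.p.two K hv := fun z hz w hw h5 h6 h7 =>
    (hC.J_step hK hv hw h5 h6 hz h7 hj (h3.comm v) (h3.comm w)).2 (conj_inv_neg h4 (h3.comm z))
  obtain ⟨w, hw, h5, h6, h7⟩ : ∃ w ∈ R, Commute w v ∧ Anti z w ∧ Anti x w := by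
    rcases hC.p.comm x hx y hy with e | e
    · rcases hC.p.comm z hz t ht with e' | e'
      · exact ⟨_, mul_mem hy ht, h.mul_left h1, h'.mul_comm e', h2.comm_mul e⟩
      · exact ⟨t, ht, h1, e', h2⟩
    · exact ⟨y, hy, h, h', e⟩
  obtain ⟨w, hw, h5, h6, h7, h8⟩ : ∃ w ∈ R, Commute w v ∧ Anti z w ∧ Anti x w ∧ w * w = 1 := by
    rcases hC.p.sq w hw with e | e
    · exact ⟨w, hw, h5, h6, h7, e⟩
    · exact ⟨_, mul_mem hj hw, (h3.comm v).mul_left h5, h6.comm_mul (h3.comm z).symm,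
        h7.comm_mul (h3.comm x).symm, by rw [comm_mul_sq (h3.comm w), h4, e]; simp⟩
  have h9 := key _ (key z hz' w hw h8 h5 h6) _ (mul_mem hj hx)
    (by rw [comm_mul_sq (h3.comm x), h4, hx2]; simp) ((h3.comm v).mul_left hx')
    (((h7.comm_mul (h3.comm x).symm).symm.comm_mul (h3.comm _).symm))
  rw [← mul_assoc, h4] at h9
  simpa using mul_mem (hC.J_neg hK hv hy h hz' h') h9

theorem J_strong (hr : 4 < rk R) (hv' : v ∈ R) {y z : Aˣ} (hz : z ∈ R) (hz' : z ∈ Jv hC.p.two K hv)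
    (hy : y ∈ R) (h : Commute y v) (h' : Anti z y) {x : Aˣ} (hx : x ∈ R) (hx' : Commute x v) :
    x ∈ Jv hC.p.two K hv := by
  have hR := hC.p
  obtain ⟨w, hw, h1, h2, h3⟩ := hR.exists_sing_anti_comm (Or.inr hr) hz hv'
    (hR.notMem_sp (by simp [hv']) hz hy h' (by simpa))
  have h4 := fun x hx => hC.J_step hK hv hw h1 h3.symm hz' h2 (x := x) hx
  obtain ⟨a, ha, b, hb, h5, h6, h7⟩ := hR.exists_pair (v := ![v, w])
    (by simp [hv', hw, Fin.forall_fin_succ]) hr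
  have ha' := h4 a ha (h6 0) (h6 1)
  have hb' := h4 b hb (h7 0) (h7 1)
  have hab := h4 _ (mul_mem ha hb) ((h6 0).mul_left (h7 0)) ((h6 1).mul_left (h7 1))
  rw [mul_inv_rev, ← conj_mul] at hab
  have h8 : w ∈ Jv hR.two K hv := by
    have e0 : Commute b w := h7 1
    rcases hR.conj_inv_or ha hz with e | e <;> rcases hR.conj_inv_or hb hz with e' | e' <;>
      rw [e, e'] at hab
    · exact (mul_mem_cancel_left (mul_mem (ha'.1 e) (hb'.1 e'))).1 (hab.2 h5.symm)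
    · exact (mul_mem_cancel_left ((mul_mem_cancel_left (ha'.1 e)).1
        (hab.1 (by simp [h5.eq])))).1 (hb'.2 e')
    · exact (mul_mem_cancel_left ((mul_mem_cancel_right (hb'.1 e')).1
        (hab.1 (by simp [h5.eq])))).1 (ha'.2 e)
    · have := mul_mem (ha'.2 e) (hb'.2 e')
      rw [mul_assoc, ← mul_assoc w, ← e0.eq, mul_assoc, h1, mul_one] at this
      exact (mul_mem_cancel_left this).1 (hab.2 (by simp [h5.eq]))
  have h9 : ∀ x ∈ R, Commute x v → Commute x w → x ∈ Jv hR.two K hv := fun x hx e e' =>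
    (hR.conj_inv_or hx hz).elim (h4 x hx e e').1 fun e'' =>
      (mul_mem_cancel_right h8).1 ((h4 x hx e e').2 e'')
  rcases hR.comm x hx w hw with e | e
  · exact h9 x hx hx' e
  · exact (mul_mem_cancel_right hz').1
      (h9 _ (mul_mem hx hz) (hx'.mul_left hz'.1) (e.symm.mul_anti h2.symm).symm)

end J

theorem exists_J (hr : HasI F R ∧ 2 < rk R ∨ 5 < rk R) {g : Aˣ} (hg : g ∈ K) (hg' : g ∈ NR R)
    (h : ∃ x ∈ R, ¬ Pm g x) : ∃ v ∈ R, ∃ hv : v * v = 1, ¬ Sc F v ∧ ∃ z ∈ R, z ∈ Jv hC.p.two K hv ∧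
      ∃ y ∈ R, Commute y v ∧ Anti z y := by
  have hR := hC.p
  have h2 := hR.two
  obtain ⟨w, hw, hw2, hw0⟩ : ∃ w ∈ R, w * w = 1 ∧ cl R w ∉ Fx R g := by
    by_contra! hn
    obtain ⟨x, hx, h1⟩ := h
    have h0 : ¬ Sc F x := fun e => h1 (Or.inl (e.comm g).symm)
    rw [← hR.cl_mem_Fx hg' hx] at h1
    obtain ⟨w, hw, h3, -, h4⟩ := hR.exists_mul_sing (hr.imp And.left (by omega)) hx h0
      ((hR.sq x hx).resolve_left fun e => h1 (hn x hx e))
    have h5 := hn _ (mul_mem hx hw) h4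
    rw [hR.cl_mul hx hw] at h5
    exact h1 ((add_mem_cancel_right (hn w hw h3)).1 h5)
  have hw' := conj_mem hg' hw
  have hw2' := conj_sq hw2 (Or.inl rfl) g
  obtain ⟨v, hv, hv2, hv0, h3, h4, h5, y, hy, h6, h7, h8, h9⟩ : ∃ v ∈ R, v * v = 1 ∧ ¬ Sc F v ∧
      Commute v w ∧ Commute v (g * w * g⁻¹) ∧ cl R (g * w * g⁻¹) ∉ sp R ![v] ∧ ∃ y ∈ R, Commute y v ∧
        Anti y (g * w * g⁻¹) ∧ Commute y w ∧ (w = v ∨ w = y) := by
    have h0 : ¬ Sc F w := fun e => hw0 ((hR.cl_eq_zero hw).2 e ▸ zero_mem _)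
    rcases hR.comm w hw _ hw' with e | e
    · have h3 := hR.notMem_sp_one hw' (fun e => h0 (sc_conj_iff.1 e)) (b := w) fun e =>
        hw0 (hR.mem_Fx.2 ((act_cl hg' hw).trans e))
      obtain ⟨y, hy, h4, h5⟩ := hR.exists_anti_comm (by simp [hw]) hw' h3
      exact ⟨w, hw, hw2, h0, Commute.refl w, e, h3, y, hy, h5 0, h4.symm, h5 0, Or.inl rfl⟩
    · obtain ⟨v, hv, h3, h4, h5⟩ := hR.exists_sing_comm (v := ![w, g * w * g⁻¹])
        (by simp [hw, hw', Fin.forall_fin_succ]) (hr.imp_right (by omega))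
      exact ⟨v, hv, h3, h4, h5 0, h5 1, hR.notMem_sp (by simp [hv]) hw' hw e.symm
        (by simpa using (h5 0).symm), w, hw, (h5 0).symm, e, Commute.refl w, Or.inr rfl⟩
  obtain ⟨x, hx, h10, h11⟩ : ∃ x ∈ R, (∀ i, Commute x (![g * w * g⁻¹, v, g * v * g⁻¹] i)) ∧
      (cl R x ∉ sp R ![v, g * w * g⁻¹] ∨ Sc F x ∧ x * x = -1) := by
    rcases hr with ⟨⟨j, hj, h10, h11⟩, -⟩ | hr
    · exact ⟨j, hj, fun i => h10.comm _, Or.inr ⟨h10, h11⟩⟩
    · have := finrank_sp_le (R := R) ![v, g * w * g⁻¹]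
      obtain ⟨x, hx, h10, h11, -⟩ := hR.exists_comm_notMem (v := ![g * w * g⁻¹, v, g * v * g⁻¹])
        (by simp [hv, hw', conj_mem hg' hv, Fin.forall_fin_succ]) (U := sp R ![v, g * w * g⁻¹])
        (U' := ⊥) (by omega) (by simp; omega)
      exact ⟨x, hx, h10, Or.inl h11⟩
  have hx' := inv_mem (conj_mem' hg' hx)
  have h12 : Commute (g⁻¹ * x * g)⁻¹ w := Commute.inv_left
    (comm_of_conj (g := g) (by simpa [mul_assoc] using h10 0))
  have h13 : Commute (g⁻¹ * x * g)⁻¹ v := Commute.inv_left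
    (comm_of_conj (g := g) (by simpa [mul_assoc] using h10 2))
  have hs := hR.ctl_mem_normalizer hw hw2 hx' h12
  have ht := hR.ctl_mem_normalizer hw' hw2' hx (h10 0)
  have hsv := (comm_ctl h2 hw2 h12 h3 h13.symm).symm
  have htv := (comm_ctl h2 hw2' (h10 0) h4 (h10 1).symm).symm
  have hk : ctl F (g * w * g⁻¹) x * ctl F w (g⁻¹ * x * g)⁻¹ ∈ K := by
    have := hK.comm_mem hg (hC.gate w hw hw2 _ (conj_mem' hg' hx) (by simpa using h12.inv_left))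
    rwa [conj_ctl h2 hw2 (by simpa using h12.inv_left), ctl_inv h2 hw2 (by simpa using h12.inv_left),
      show g * (g⁻¹ * x * g) * g⁻¹ = x by group] at this
  have hkv := htv.mul_left hsv
  have hkn := mul_mem ht hs
  have hz := mul_mem (conj_mem hkn hy) (inv_mem hy)
  have h14 : act R (ctl F w (g⁻¹ * x * g)⁻¹) (cl R y) = cl R y ∨
      act R (ctl F w (g⁻¹ * x * g)⁻¹) (cl R y) = cl R v + cl R y := by
    rw [act_cl hs hy]
    rcases hR.comm y hy _ hx' with e | e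
    · rw [ctl_conj_comm h2 hw2 h12 h8 e]; exact Or.inl rfl
    · rw [ctl_conj_anti h2 hw2 h12 h8 e, hR.cl_mul hw hy,
        h9.resolve_right fun e' => e.not_comm h2 (e' ▸ h12.symm)]
      exact Or.inr rfl
  have h15 := hR.mem_Fx.1 ((hR.cl_mem_Fx ht hv).2 (Or.inl htv))
  have h16 : act R (ctl F (g * w * g⁻¹) x) (cl R y) + cl R y ∉ sp R ![v] := fun hm => by
    have hle : sp R ![v] ≤ sp R ![v, g * w * g⁻¹] := Submodule.span_mono (by simp)
    rw [act_cl ht hy] at hm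
    rcases hR.conj_inv_or hx hy with e | e
    · rw [ctl_conj_pos h2 hw2' (h10 0) h7 e, hR.cl_mul hx hy, add_assoc, hR.add_self, add_zero] at hm
      rcases h11 with e' | ⟨e1, e2⟩
      · exact e' (hle hm)
      · exact ne_neg h2 x (e.symm.trans (conj_inv_neg e2 (e1.comm y)))
    · rw [ctl_conj_neg h2 hw2' (h10 0) h7 e, hR.cl_mul (hR.neg_mem (mul_mem hx hw')) hy, add_assoc,
        hR.add_self, add_zero, hR.cl_neg (mul_mem hx hw'), hR.cl_mul hx hw'] at hm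
      rcases h11 with e' | ⟨e1, -⟩
      · exact e' ((add_mem_cancel_right (mem_sp ![v, g * w * g⁻¹] 1)).1 (hle hm))
      · exact h5 (by rwa [(hR.cl_eq_zero hx).2 e1, zero_add] at hm)
  obtain ⟨t, ht', h17, h18⟩ := hR.exists_anti_comm (v := ![v]) (by simp [hv]) hz fun hm => h16 (by
    rw [hR.cl_mul (conj_mem hkn hy) (inv_mem hy), hR.cl_inv hy, ← act_cl hkn hy, hR.act_mul ht hs] at hm
    rcases h14 with e | e <;> rw [e] at hm
    · exact hm
    · rw [map_add, h15, add_assoc] at hm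
      exact (add_mem_cancel_left (mem_sp ![v] 0)).1 hm)
  generalize ctl F (g * w * g⁻¹) x * ctl F w (g⁻¹ * x * g)⁻¹ = k at *
  have h19 : k * v * k⁻¹ = v := by rw [hkv.eq, mul_inv_cancel_right]
  have h20 : Commute (k * y * k⁻¹) v := h19 ▸ comm_conj h6 k
  refine ⟨v, hv, hv2, hv0, _, hz, ⟨h20.mul_left h6.inv_left, ?_⟩, t, ht', h18 0, h17⟩
  have := hK.comm_mem hk (hC.gate v hv hv2 y hy h6)
  rwa [conj_ctl h2 hv2 h6, h19, ctl_inv h2 hv2 h6, ctl_mul h2 hv2 h20 h6.inv_left] at this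

theorem ctl_mem_of_conj (hr : HasI F R ∨ 4 < rk R) {v u : Aˣ} (hv : v ∈ R) (hv2 : v * v = 1)
    (hv0 : ¬ Sc F v) (hu : u ∈ R) (hu2 : u * u = 1) (hu0 : ¬ Sc F u) : ∃ g ∈ NR R, g * u * g⁻¹ = v ∧
      ∀ x, Commute x u → ctl F v (g * x * g⁻¹) ∈ K → ctl F u x ∈ K := by
  obtain ⟨g, hg, hg', e⟩ := hC.exists_conj hr hu hv hu0 hv0 (hu2.trans hv2.symm)
  refine ⟨g, hg', e, fun x hx h => ?_⟩
  rw [← e, ← conj_ctl hC.p.two hu2 hx] at h
  simpa [mul_assoc] using hK _ (inv_mem hg) _ h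

theorem core_of_J (hr : 4 < rk R) (h : ∃ v ∈ R, ∃ hv : v * v = 1, ¬ Sc F v ∧ ∃ z ∈ R,
    z ∈ Jv hC.p.two K hv ∧ ∃ y ∈ R, Commute y v ∧ Anti z y) : Ctx F R K := by
  obtain ⟨v, hv, hv2, hv0, z, hz, hz', y, hy, h1, h2⟩ := h
  have hR := hC.p
  have key : ∀ u ∈ R, u * u = 1 → ¬ Sc F u → ∀ x ∈ R, Commute x u → ctl F u x ∈ K :=
    fun u hu hu2 hu0 x hx hx' => by
      obtain ⟨g, hg, e, h3⟩ := hC.ctl_mem_of_conj hK (Or.inr hr) hv hv2 hv0 hu hu2 hu0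
      exact h3 x hx' (hC.J_strong hK hv2 hr hv hz hz' hy h1 h2 (conj_mem hg hx) (e ▸ comm_conj hx' g)).2
  have k1 : ∀ u ∈ R, u * u = 1 → ¬ Sc F u → u ∈ K := fun u hu hu2 hu0 =>
    ctl_self hR.two hu2 ▸ key u hu hu2 hu0 u hu (Commute.refl u)
  have k2 : ∀ u ∈ R, ¬ Sc F u → u ∈ K := fun u hu hu0 => (hR.sq u hu).elim (k1 u hu · hu0) fun e => by
    obtain ⟨w, hw, h3, h4, h5⟩ := hR.exists_mul_sing (Or.inr hr) hu hu0 e
    exact (mul_mem_cancel_right (k1 w hw h3 (h4.symm.not_sc hR.two))).1 (k1 _ (mul_mem hu hw) h5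
      ((h4.symm.mul_comm (Commute.refl w)).symm.not_sc hR.two))
  refine ⟨hR, fun u hu hu2 x hx hx' => ?_⟩
  by_cases hu0 : Sc F u
  · rcases hu0.eq_one_or hu2 with rfl | rfl
    · rw [ctl_one_left hR.two]; exact one_mem K
    · rw [ctl_neg_one_left hR.two]
      by_cases h0 : Sc F x
      · exact (mul_mem_cancel_right (k2 v hv hv0)).1
          (k2 _ (mul_mem hx hv) fun e => hv0 (by simpa using h0.inv.mul e))
      · exact k2 x hx h0
  · exact key u hu hu2 hu0 x hx hx'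

/-- The core lemma, strong form. -/
theorem core (hr : 5 < rk R) {g : Aˣ} (hg : g ∈ K) (hg' : g ∈ NR R) (h : ∃ x ∈ R, ¬ Pm g x) :
    Ctx F R K :=
  hC.core_of_J hK (by omega) (hC.exists_J hK (Or.inr hr) hg hg' h)

/-- The core lemma, weak form. -/
theorem core_weak (hr : HasI F R ∧ 2 < rk R ∨ 5 < rk R) {g : Aˣ} (hg : g ∈ K) (hg' : g ∈ NR R)
    (h : ∃ x ∈ R, ¬ Pm g x) {u x t : Aˣ} (hu : u ∈ R) (hu2 : u * u = 1) (hu0 : ¬ Sc F u) (hx : x ∈ R)
    (hx' : Commute x u) (hx2 : x * x = -1) (ht : t ∈ R) (h1 : Commute t u) (h2 : Anti x t) :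
    ctl F u x ∈ K := by
  rcases hr with hr | hr
  · obtain ⟨v, hv, hv2, hv0, z, hz, hz', y, hy, h3, h4⟩ := hC.exists_J hK (Or.inl hr) hg hg' h
    obtain ⟨g, hg, e, h5⟩ := hC.ctl_mem_of_conj hK (Or.inl hr.1) hv hv2 hv0 hu hu2 hu0
    exact h5 x hx' (hC.J_weak hK hv2 hr.1 hz hz' hy h3 h4 (conj_mem hg hx) (e ▸ comm_conj hx' g)
      (conj_sq hx2 (Or.inr rfl) g) (conj_mem hg ht) (e ▸ comm_conj h1 g) (h2.conj g)).2
  · exact (hC.core hK hr hg hg' h).gate u hu hu2 x hx hx'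

end Ctx

/-- Any subgroup containing all commutators contains the controlled gates. -/
theorem Ctx.of_commutator (hC : Ctx F R Y) (hr : 4 < rk R)
    (h : ∀ a ∈ Y, ∀ b ∈ Y, a * b * a⁻¹ * b⁻¹ ∈ K) (hK : Nm K Y) : Ctx F R K := by
  have hR := hC.p
  have h2 := hR.two
  obtain ⟨v, hv, hv2, hv0, -⟩ := hR.exists_sing_comm (v := ![]) (by simp) (Or.inr (by omega))
  obtain ⟨w, hw, hw2, h3, h4⟩ := hR.exists_sing (M := hR.pol.perp (sp R ![v])) (U := sp R ![v])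
    (fun x hx y hy => hR.pol.B_symm (hy x hx))
    (by have := hR.finrank_perp_sp ![v]; have := finrank_sp_le (R := R) ![v]; omega)
  rw [hR.mem_perp_sp (by simp [hv]) hw] at h3
  obtain ⟨y, hy, h5, h6⟩ := hR.exists_anti_comm (by simp [hv]) hw h4
  have := finrank_sp_le (R := R) ![v, w]
  obtain ⟨x, hx, h7, h8, -⟩ := hR.exists_comm_notMem (v := ![v, w])
    (by simp [hv, hw, Fin.forall_fin_succ]) (U := sp R ![v, w]) (U' := ⊥) (by omega) (by simp; omega)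
  have hs := hR.ctl_mem_normalizer hw hw2 hx (h7 1)
  have hsv : Commute (ctl F w x) v := (comm_ctl h2 hw2 (h7 1) (h3 0).symm (h7 0).symm).symm
  have hz := mul_mem (conj_mem hs hy) (inv_mem hy)
  obtain ⟨t, ht, h9, h10⟩ := hR.exists_anti_comm (v := ![v]) (by simp [hv]) hz fun hm => h8 (by
    replace hm : _ ∈ sp R ![v, w] := Submodule.span_mono (by simp) hm
    rcases hR.conj_inv_or hx hy with e | e
    · rwa [ctl_conj_pos h2 hw2 (h7 1) h5.symm e, mul_inv_cancel_right] at hm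
    · rw [ctl_conj_neg h2 hw2 (h7 1) h5.symm e, mul_inv_cancel_right, hR.cl_neg (mul_mem hx hw),
        hR.cl_mul hx hw] at hm
      exact (add_mem_cancel_right (mem_sp ![v, w] 1)).1 hm)
  have h11 := h _ (hC.gate w hw hw2 x hx (h7 1)) _ (hC.gate v hv hv2 y hy (h6 0))
  generalize ctl F w x = k at *
  have h19 : k * v * k⁻¹ = v := by rw [hsv.eq, mul_inv_cancel_right]
  have h20 : Commute (k * y * k⁻¹) v := h19 ▸ comm_conj (h6 0) k
  rw [conj_ctl h2 hv2 (h6 0), h19, ctl_inv h2 hv2 (h6 0), ctl_mul h2 hv2 h20 (h6 0).inv_left] at h11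
  exact hC.core_of_J hK hr ⟨v, hv, hv2, hv0, _, hz, ⟨h20.mul_left (h6 0).inv_left, h11⟩, t, ht,
    h10 0, h9⟩

end Cfsg.Agent.H8.C6
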