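import Cfsg.Agent.H8.C6F

/-!
Passing to the `-1` eigenspace of an involution.
-/

set_option autoImplicit false
set_option linter.unusedSectionVars false

namespace Cfsg.Agent.H8.C6

open Module H7 H7.Polar

variable {F : Type*} [Field F] {A : Type*} [Ring A] [Algebra F A] {R Y K : Subgroup Aˣ}

variable (F) in
/-- an involution with a nonzero `-1` eigenspace -/
structure Invl (a : Aˣ) : Prop where
  two : (2 : F) ≠ 0
  sq : a * a = 1
  ne : pe F a ≠ 0

variable (F) in
/-- inversion on `Y` is induced by a linear map -/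
def Tau (Y : Subgroup Aˣ) : Prop := ∃ τ : A →ₗ[F] A, ∀ y ∈ Y, τ y = (y⁻¹ : Aˣ)

theorem Tau.sc [Nontrivial A] (h : Tau F Y) (h2 : (2 : F) ≠ 0) : SC F R Y := fun c hc ⟨d, hd⟩ e => by
  obtain ⟨τ, hτ⟩ := h
  have h1 := hτ c hc
  rw [hd, Algebra.algebraMap_eq_smul_one, map_smul, ← Units.val_one, hτ 1 Y.one_mem, inv_one,
    Units.val_one, ← Algebra.algebraMap_eq_smul_one, ← hd, Units.val_inj, eq_inv_iff_mul_eq_one, e] at h1
  exact (ne_neg h2 1 h1.symm).elim

namespace Invl

variable {a : Aˣ} (ha : Invl F a)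

include ha in
theorem idem : IsIdempotentElem (pe F a) := pe_idem ha.two ha.sq

/-- the corner ring -/
def C : Type _ := ha.idem.Corner

instance : Ring ha.C := inferInstanceAs (Ring ha.idem.Corner)

variable {ha} in
/-- the underlying element -/
def cv (m : ha.C) : A := m.1

section
variable {ha}

theorem cv_inj {m m' : ha.C} (h : cv m = cv m') : m = m' := Subtype.ext h

@[simp] theorem cv_mul (m m' : ha.C) : cv (m * m') = cv m * cv m' := rfl
@[simp] theorem cv_add (m m' : ha.C) : cv (m + m') = cv m + cv m' := rfl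
@[simp] theorem cv_sub (m m' : ha.C) : cv (m - m') = cv m - cv m' := rfl
@[simp] theorem cv_neg (m : ha.C) : cv (-m) = -cv m := rfl
@[simp] theorem cv_one : cv (1 : ha.C) = pe F a := rfl
@[simp] theorem cv_zero : cv (0 : ha.C) = 0 := rfl
@[simp] theorem pe_cv (m : ha.C) : pe F a * cv m = cv m := congrArg cv (one_mul m)
@[simp] theorem cv_pe (m : ha.C) : cv m * pe F a = cv m := congrArg cv (mul_one m)

end

/-- the element of the corner -/
def el (m : A) : ha.C := ⟨pe F a * m * pe F a, m, rfl⟩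

theorem cv_el (m : A) : cv (ha.el m) = pe F a * m * pe F a := rfl

theorem cv_el' {m : A} (h : Commute m (pe F a)) : cv (ha.el m) = pe F a * m := by
  rw [cv_el, mul_assoc, h.eq, ← mul_assoc, ha.idem.eq]

instance : SMul F ha.C := ⟨fun c m => ha.el (c • cv m)⟩

@[simp] theorem cv_smul (c : F) (m : ha.C) : cv (c • m) = c • cv m := by
  change cv (ha.el _) = _
  simp [cv_el]

instance : Module F ha.C :=
  Function.Injective.module F ⟨⟨cv, cv_zero⟩, cv_add⟩ (fun _ _ => cv_inj) ha.cv_smul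

instance : Algebra F ha.C :=
  Algebra.ofModule (fun _ _ _ => cv_inj (by simp)) fun _ _ _ => cv_inj (by simp)

theorem cv_algebraMap (c : F) : cv (algebraMap F ha.C c) = c • pe F a := by
  rw [Algebra.algebraMap_eq_smul_one, cv_smul, cv_one]

instance [Finite A] : Finite ha.C := Finite.of_injective _ fun _ _ => cv_inj

instance : Nontrivial ha.C := ⟨1, 0, fun h => ha.ne (congrArg cv h)⟩

theorem el_mul {m m' : A} (h : Commute m (pe F a)) (h' : Commute m' (pe F a)) :
    ha.el (m * m') = ha.el m * ha.el m' := cv_inj (by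
  rw [cv_mul, ha.cv_el' h, ha.cv_el' h', ha.cv_el' (h.mul_left h'), mul_assoc, ← mul_assoc m, h.eq,
    mul_assoc (pe F a) m, ← mul_assoc (pe F a) (pe F a), ha.idem.eq])

theorem el_one : ha.el 1 = 1 := cv_inj (by simp [cv_el, ha.idem.eq])

open Classical in
/-- restriction to the `-1` eigenspace -/
noncomputable def res (g : Aˣ) : ha.Cˣ :=
  if h : Commute g a then ⟨ha.el g, ha.el (g⁻¹ : Aˣ),
    by rw [← ha.el_mul (pe_comm h.units_val) (pe_comm h.inv_left.units_val)]; simp [el_one],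
    by rw [← ha.el_mul (pe_comm h.inv_left.units_val) (pe_comm h.units_val)]; simp [el_one]⟩
  else 1

variable {g h : Aˣ}

theorem cv_res (hg : Commute g a) : cv (ha.res g : ha.C) = pe F a * g := by
  rw [res, dif_pos hg]; exact ha.cv_el' (pe_comm hg.units_val)

theorem res_eq_iff (hg : Commute g a) (hh : Commute h a) :
    ha.res g = ha.res h ↔ pe F a * g = pe F a * h := by
  rw [← ha.cv_res hg, ← ha.cv_res hh]
  exact ⟨fun h => by rw [h], fun h => Units.ext (cv_inj h)⟩

theorem res_mul (hg : Commute g a) (hh : Commute h a) : ha.res (g * h) = ha.res g * ha.res h := by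
  simp only [res, dif_pos hg, dif_pos hh, dif_pos (hg.mul_left hh)]
  exact Units.ext (ha.el_mul (pe_comm hg.units_val) (pe_comm hh.units_val))

theorem res_one : ha.res 1 = 1 := Units.ext (cv_inj (by simp [ha.cv_res (Commute.one_left a)]))

theorem res_inv (hg : Commute g a) : ha.res g⁻¹ = (ha.res g)⁻¹ :=
  eq_inv_of_mul_eq_one_left (by rw [← ha.res_mul hg.inv_left hg, inv_mul_cancel, res_one])

theorem res_neg (hg : Commute g a) : ha.res (-g) = -ha.res g :=
  Units.ext (cv_inj (by simp [ha.cv_res hg, ha.cv_res hg.neg_left]))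

theorem res_neg_one : ha.res (-1) = -1 := by rw [ha.res_neg (Commute.one_left a), res_one]

theorem res_conj (hg : Commute g a) (hh : Commute h a) :
    ha.res (g * h * g⁻¹) = ha.res g * ha.res h * (ha.res g)⁻¹ := by
  rw [ha.res_mul (hg.mul_left hh) hg.inv_left, ha.res_mul hg hh, ha.res_inv hg]

theorem res_comm (hg : Commute g a) (hh : Commute h a) (e : Commute g h) :
    Commute (ha.res g) (ha.res h) := by
  rw [commute_iff_eq, ← ha.res_mul hg hh, e.eq, ha.res_mul hh hg]

theorem res_anti (hg : Commute g a) (hh : Commute h a) (e : Anti g h) :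
    Anti (ha.res g) (ha.res h) := by
  rw [Anti, ← ha.res_mul hg hh, e.eq, ha.res_neg (hh.mul_left hg), ha.res_mul hh hg]

theorem res_sc (e : Sc F g) : Sc F (ha.res g) := by
  obtain ⟨c, hc⟩ := id e
  exact ⟨c, cv_inj (by rw [ha.cv_res (e.comm a), hc, cv_algebraMap, ← Algebra.commutes, Algebra.smul_def])⟩

theorem res_self : ha.res a = -1 :=
  Units.ext (cv_inj (by simp [ha.cv_res (Commute.refl a), pe_mul ha.sq]))

theorem res_sq {s : Aˣ} (hg : Commute g a) (e : g * g = s) : ha.res g * ha.res g = ha.res s := by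
  rw [← ha.res_mul hg hg, e]

theorem cv_pe_res (hg : Commute g a) : cv (pe F (ha.res g)) = pe F a * pe F g := by
  simp [pe, ha.cv_res hg, mul_sub]

theorem res_ctl {u x : Aˣ} (hu : Commute u a) (hu2 : u * u = 1) (hx : Commute x a) (e : Commute x u) :
    ha.res (ctl F u x) = ctl F (ha.res u) (ha.res x) := by
  refine Units.ext (cv_inj ?_)
  rw [ha.cv_res (comm_ctl ha.two hu2 e hu.symm hx.symm).symm, ctl_val ha.two hu2 e,
    ctl_val ha.two ((ha.res_sq hu hu2).trans ha.res_one) (ha.res_comm hx hu e)]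
  simp only [cv_add, cv_mul, cv_sub, cv_one, ha.cv_pe_res hu, ha.cv_res hx]
  rw [← mul_sub_one, mul_assoc, ← mul_assoc (pe F u), ← (pe_comm (pe_comm hu.units_val).symm).eq,
    ← mul_assoc, ← mul_assoc, ha.idem.eq, mul_add, mul_one, mul_assoc]

theorem pe_neg_cv (m : ha.C) : pe F (-a) * cv m = 0 := by simp [pe_neg' ha.two, sub_mul]

theorem cv_pe_neg (m : ha.C) : cv m * pe F (-a) = 0 := by simp [pe_neg' ha.two, mul_sub]

/-- extension by the identity -/
def extA : ha.C →* A where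
  toFun m := cv m + pe F (-a)
  map_one' := pe_add ha.two a
  map_mul' m m' := by
    simp [mul_add, add_mul, pe_neg_cv, cv_pe_neg, (pe_idem ha.two (a := -a) (by simpa using ha.sq)).eq]

/-- extension by the identity -/
def ext : ha.Cˣ →* Aˣ := Units.map ha.extA

theorem ext_val (g : ha.Cˣ) : (ha.ext g : A) = cv (g : ha.C) + pe F (-a) := rfl

theorem pe_ext (g : ha.Cˣ) : pe F a * ha.ext g = cv (g : ha.C) := by
  simp [ext_val, mul_add, pe_mul_pe_neg ha.two ha.sq]

theorem pe_neg_ext (g : ha.Cˣ) : pe F (-a) * ha.ext g = pe F (-a) := by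
  simp [ext_val, mul_add, pe_neg_cv, (pe_idem ha.two (a := -a) (by simpa using ha.sq)).eq]

theorem ext_comm (g : ha.Cˣ) : Commute (ha.ext g) a := by
  have : Commute (ha.ext g : A) (pe F a) := by
    simp [commute_iff_eq, ext_val, mul_add, add_mul, pe_mul_pe_neg ha.two ha.sq,
      pe_neg_mul_pe ha.two ha.sq]
  refine Commute.units_of_val ?_
  rw [eq_pe ha.two a]
  exact (Commute.one_right _).sub_right (this.add_right this)

theorem res_ext (g : ha.Cˣ) : ha.res (ha.ext g) = g :=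
  Units.ext (cv_inj (by rw [ha.cv_res (ha.ext_comm g), pe_ext]))

theorem ext_res (hg : Commute g a) : ha.ext (ha.res g) = ctl F a g :=
  eq_ctl ha.two ha.sq hg (by rw [pe_ext, ha.cv_res hg]) (ha.pe_neg_ext _)

theorem ext_eq (hg : Commute g a) (h : pe F (-a) * g = pe F (-a)) : ha.ext (ha.res g) = g := by
  rw [ha.ext_res hg, ← eq_ctl ha.two ha.sq hg rfl h]

theorem conj_ext (hg : Commute g a) (k : ha.Cˣ) :
    g * ha.ext k * g⁻¹ = ha.ext (ha.res g * k * (ha.res g)⁻¹) := by
  conv_rhs => rw [← ha.res_ext k, ← ha.res_conj hg (ha.ext_comm k)]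
  refine (ha.ext_eq ((hg.mul_left (ha.ext_comm k)).mul_left hg.inv_left) ?_).symm
  rw [Units.val_mul, Units.val_mul, ← mul_assoc, ← mul_assoc, ← (pe_comm hg.neg_right.units_val).eq,
    mul_assoc (g : A), pe_neg_ext, (pe_comm hg.neg_right.units_val).eq, Units.mul_inv_cancel_right]

/-- the restriction of the centraliser -/
def rs (S : Subgroup Aˣ) : Subgroup ha.Cˣ where
  carrier := {x | ∃ g ∈ S, Commute g a ∧ ha.res g = x}
  mul_mem' := by
    rintro _ _ ⟨g, hg, e, rfl⟩ ⟨h, hh, e', rfl⟩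
    exact ⟨_, mul_mem hg hh, e.mul_left e', ha.res_mul e e'⟩
  one_mem' := ⟨1, one_mem S, Commute.one_left a, ha.res_one⟩
  inv_mem' := by
    rintro _ ⟨g, hg, e, rfl⟩
    exact ⟨_, inv_mem hg, e.inv_left, ha.res_inv e⟩

theorem res_mem {S : Subgroup Aˣ} (hg : g ∈ S) (e : Commute g a) : ha.res g ∈ ha.rs S := ⟨g, hg, e, rfl⟩

theorem comap_le (h : K ≤ Y) : K.comap ha.ext ≤ ha.rs Y := fun g hg =>
  ⟨_, h hg, ha.ext_comm g, ha.res_ext g⟩

theorem nm (h : Nm K Y) : Nm (K.comap ha.ext) (ha.rs Y) := by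
  rintro _ ⟨y, hy, e, rfl⟩ k hk
  rw [Subgroup.mem_comap, ← ha.conj_ext e]
  exact h y hy _ hk

theorem hasI (h : HasI F R) : HasI F (ha.rs R) := by
  obtain ⟨j, hj, h1, h2⟩ := h
  exact ⟨_, ha.res_mem hj (h1.comm a), ha.res_sc h1, (ha.res_sq (h1.comm a) h2).trans ha.res_neg_one⟩

theorem tau (h : Tau F Y) (haY : a ∈ Y) : Tau F (ha.rs Y) := by
  obtain ⟨τ, hτ⟩ := h
  refine ⟨⟨⟨fun m => ha.el (τ (cv m)), fun _ _ => cv_inj (by simp [cv_el, mul_add, add_mul])⟩,
    fun _ _ => cv_inj (by simp [cv_el])⟩, ?_⟩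
  rintro _ ⟨y, hy, e, rfl⟩
  have h1 : τ (pe F a * y) = pe F a * (y⁻¹ : Aˣ) := by
    rw [pe, smul_mul_assoc, smul_mul_assoc, sub_mul, sub_mul, one_mul, one_mul, map_smul, map_sub,
      ← Units.val_mul, hτ y hy, hτ _ (mul_mem haY hy), mul_inv_rev, inv_eq_of_mul_eq_one_right ha.sq,
      e.inv_left.eq, Units.val_mul]
  refine cv_inj ?_
  change cv (ha.el (τ (cv _))) = _
  rw [ha.cv_res e, h1, ← ha.res_inv e, ← ha.cv_res e.inv_left, cv_el, pe_cv, cv_pe]

variable [Nontrivial A] (hR : Pauli F R)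
include hR

theorem res_comm_iff (hg : g ∈ R) (hh : h ∈ R) (e : Commute g a) (e' : Commute h a) :
    Commute (ha.res g) (ha.res h) ↔ Commute g h :=
  ⟨fun h1 => (hR.comm g hg h hh).resolve_right fun h2 => (ha.res_anti e e' h2).not_comm hR.two h1,
    ha.res_comm e e'⟩

theorem res_anti_iff (hg : g ∈ R) (hh : h ∈ R) (e : Commute g a) (e' : Commute h a) :
    Anti (ha.res g) (ha.res h) ↔ Anti g h :=
  ⟨fun h1 => (hR.comm g hg h hh).resolve_left fun h2 => h1.not_comm hR.two (ha.res_comm e e' h2),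
    ha.res_anti e e'⟩

theorem res_sq_iff (hg : g ∈ R) (e : Commute g a) : ha.res g * ha.res g = 1 ↔ g * g = 1 :=
  ⟨fun h1 => (hR.sq g hg).resolve_right fun h2 => ne_neg hR.two _
    (h1.symm.trans ((ha.res_sq e h2).trans ha.res_neg_one)), fun h1 => (ha.res_sq e h1).trans ha.res_one⟩

variable {b : Aˣ} (hb : b ∈ R) (hb0 : ¬ Sc F b) (hab : Sc F (a * b⁻¹))
include hb hb0 hab

omit hR hb hb0 in
theorem comm_iff (x : Aˣ) : Commute x a ↔ Commute x b :=
  ⟨fun h => by simpa using (hab.comm x).symm.inv_right.mul_right h,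
    fun h => by simpa using (hab.comm x).symm.mul_right h⟩

theorem pauli : Pauli F (ha.rs R) where
  two := hR.two
  irr m h := by
    obtain ⟨α, β, e⟩ := hR.cent hb hb0 (m := cv m) fun x hx hx' => by
      have h1 := (comm_iff hab x).2 hx'
      have h2 := congrArg cv (h _ (ha.res_mem hx h1))
      rwa [cv_mul, cv_mul, ha.cv_res h1, ← mul_assoc, cv_pe, ← (pe_comm h1.units_val).eq, mul_assoc,
        pe_cv] at h2
    obtain ⟨c, hc⟩ := hab.inv
    have h1 : (b : A) = c • (a : A) := by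
      rw [Algebra.smul_def, ← hc, ← Units.val_mul]; simp
    refine ⟨α - β * c, cv_inj ?_⟩
    rw [← pe_cv m, e, h1, cv_algebraMap, mul_add, ← Algebra.commutes, ← Algebra.smul_def, smul_smul,
      mul_smul_comm, pe_mul ha.sq, sub_smul, smul_neg, sub_eq_add_neg]
  sq := by
    rintro _ ⟨x, hx, e, rfl⟩
    exact (hR.sq x hx).imp (fun h => (ha.res_sq e h).trans ha.res_one)
      fun h => (ha.res_sq e h).trans ha.res_neg_one
  comm := by
    rintro _ ⟨x, hx, e, rfl⟩ _ ⟨y, hy, e', rfl⟩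
    exact (hR.comm x hx y hy).imp (ha.res_comm e e') (ha.res_anti e e')
  neg := ⟨-1, hR.neg, Commute.neg_one_left a, ha.res_neg_one⟩

theorem rk_le [Finite A] : rk R ≤ rk (ha.rs R) + 2 := by
  classical
  let l : ha.Cˣ → Aˣ := fun x => if h : x ∈ ha.rs R then h.choose else 1
  have hl : ∀ x ∈ R, Commute x a → ∀ y, chi R x (l y) = chi (ha.rs R) (ha.res x) y := fun x hx e y => by
    by_cases h : y ∈ ha.rs R
    · obtain ⟨h1, h2, h3⟩ := h.choose_spec
      simp only [l, dif_pos h, chi, h1, h, true_and]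
      conv_rhs => rw [← h3]
      exact if_congr (ha.res_anti_iff hR hx h1 e h2).symm rfl rfl
    · simp only [l, dif_neg h]
      rw [hR.chi_neg (Commute.one_right x), chi, if_neg fun e => h e.1]
  have h1 : ∀ w : hR.pol.perp (sp R ![b]), ∃ x ∈ R, Commute x a ∧ cl R x = w := fun w => by
    obtain ⟨x, hx, e⟩ := hR.exists_cl w
    exact ⟨x, hx, (comm_iff hab x).2 ((hR.mem_perp_sp (by simp [hb]) hx).1 (e ▸ w.2) 0), e⟩
  let L : hR.pol.perp (sp R ![b]) →ₗ[K2] Wsp (ha.rs R) := LinearMap.codRestrict _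
    (LinearMap.funLeft K2 K2 l ∘ₗ (Wsp R).subtype ∘ₗ Submodule.subtype _) fun w => by
      obtain ⟨x, hx, e, e'⟩ := h1 w
      refine Submodule.subset_span ⟨_, ha.res_mem hx e, funext fun y => ?_⟩
      rw [← hl x hx e, ← cl_val hx, e']; rfl
  have h2 : (LinearMap.ker L).map (Submodule.subtype _) ≤ sp R ![b] := by
    rintro _ ⟨w, hw, rfl⟩
    obtain ⟨x, hx, e, e'⟩ := h1 w
    by_contra hn
    obtain ⟨y, hy, h3, h4⟩ := hR.exists_anti_comm (v := ![b]) (by simp [hb]) hx (e' ▸ hn)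
    have h5 := (comm_iff hab y).2 (h4 0)
    have h6 : (w.1.1 : Aˣ → K2) (l (ha.res y)) = 0 := congrFun (congrArg Subtype.val hw) _
    rw [← e', cl_val hx, hl x hx e, Pauli.chi_pos (ha.res_mem hy h5) (ha.res_anti e h5 h3)] at h6
    exact one_ne_zero h6
  have h3 := Submodule.finrank_mono h2
  rw [Submodule.finrank_map_subtype_eq] at h3
  have := L.finrank_range_add_finrank_ker
  have := Submodule.finrank_le (LinearMap.range L)
  have := finrank_sp_le (R := R) ![b]
  have := hR.finrank_perp_sp ![b]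
  rw [rk.eq_1 (ha.rs R)]
  omega

omit hR in
theorem ctx [Finite A] (hC : Ctx F R Y) : Ctx F (ha.rs R) (ha.rs Y) := by
  refine ⟨ha.pauli hC.p hb hb0 hab, ?_⟩
  rintro _ ⟨u, hu, e, rfl⟩ h1 _ ⟨x, hx, e', rfl⟩ h2
  rw [ha.res_sq_iff hC.p hu e] at h1
  rw [ha.res_comm_iff hC.p hx hu e' e] at h2
  rw [← ha.res_ctl e h1 e' h2]
  exact ha.res_mem (hC.gate u hu h1 x hx h2) (comm_ctl ha.two h1 h2 e.symm e'.symm).symm

end Invl

end Cfsg.Agent.H8.C6
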