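import Cfsg.Agent.H8.C6G

/-!
If all levels are good, centralisers normalise the Pauli group.
-/

set_option autoImplicit false
set_option linter.unusedSectionVars false

namespace Cfsg.Agent.H8.C6

open Module H7 H7.Polar

variable {F : Type*} [Field F] {A : Type*} [Ring A] [Algebra F A] {R Y K : Subgroup Aˣ}

variable (F) in
/-- the centraliser of `a` normalises the Pauli group on the `-1` eigenspace -/
def Good (R Y : Subgroup Aˣ) (a : Aˣ) : Prop := ∀ y ∈ Y, Commute y a → ∀ x ∈ R, Commute x a →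
  ∃ x' ∈ R, Commute x' a ∧ pe F a * (y * x * y⁻¹ : Aˣ) = pe F a * x'

theorem Good.conj {a g : Aˣ} (h : Good F R Y a) (hg : g ∈ Y) (hg' : g ∈ NR R) :
    Good F R Y (g * a * g⁻¹) := fun y hy e x hx e' => by
  obtain ⟨x', h1, h2, h3⟩ := h _ (mul_mem (mul_mem (inv_mem hg) hy) hg)
    (comm_of_conj (g := g) (by simpa [mul_assoc] using e)) _ (conj_mem' hg' hx)
    (comm_of_conj (g := g) (by simpa [mul_assoc] using e'))
  refine ⟨_, conj_mem hg' h1, comm_conj h2 g, ?_⟩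
  rw [← conj_pe]
  calc _ = g * (pe F a * (g⁻¹ * y * g * (g⁻¹ * x * g) * (g⁻¹ * y * g)⁻¹ : Aˣ)) * (g⁻¹ : Aˣ) := by
        simp [mul_assoc]
    _ = _ := by rw [h3]; simp [mul_assoc]

theorem ctl_congr (h2 : (2 : F) ≠ 0) {u v x x' : Aˣ} (hv : v * v = 1) (h : Commute u v)
    (hx : Commute x v) (hx' : Commute x' v) (e : pe F u * x = pe F u * x') :
    pe F u * ctl F v x = pe F u * ctl F v x' := by
  rw [ctl_val h2 hv hx, ctl_val h2 hv hx', mul_add, mul_add, ← mul_assoc, ← mul_assoc,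
    (pe_comm (pe_comm h.symm.units_val).symm).eq, mul_assoc, mul_assoc, mul_sub, mul_sub (pe F u), e]

theorem ctl_ctl (h2 : (2 : F) ≠ 0) {u v x : Aˣ} (hu : u * u = 1) (hv : v * v = 1) (h : Commute u v)
    (hx : Commute x v) (hx' : Commute x u) (e : x * x = -1) :
    ctl F u (ctl F v x) * ctl F (-u) (ctl F v x)⁻¹ = ctl F v (-(u * x)) := by
  have hu' : -u * -u = 1 := by simpa
  have h1 := (comm_ctl h2 hv hx h hx'.symm).symm
  have h3 := pe_neg_mul_ctl h2 hu' h1.inv_left.neg_right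
  rw [neg_neg] at h3
  refine Units.ext (ext_pe h2 u ?_ ?_)
  · rw [Units.val_mul, ← mul_assoc, pe_mul_ctl h2 hu h1, ← (pe_comm h1.units_val).eq, mul_assoc, h3,
      (pe_comm h1.units_val).eq]
    exact ctl_congr h2 hv h hx (h.mul_left hx).neg_left (by simp [← mul_assoc, pe_mul hu])
  · rw [Units.val_mul, ← mul_assoc, pe_neg_mul_ctl h2 hu h1, pe_mul_ctl h2 hu' h1.inv_left.neg_right,
      ctl_inv h2 hv hx]
    refine ctl_congr h2 hv h.neg_left hx.inv_left (h.mul_left hx).neg_left ?_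
    rw [← neg_mul u, Units.val_mul, ← mul_assoc, pe_mul hu', inv_eq_of_mul_eq_one_right
      (show x * -x = 1 by simp [e])]
    simp

theorem Invl.good_iff [Finite A] {a : Aˣ} (ha : Invl F a) : Good F R Y a ↔ ha.rs Y ≤ NR (ha.rs R) := by
  constructor
  · rintro h _ ⟨y, hy, e, rfl⟩
    refine Subgroup.mem_normalizer_fintype ?_
    rintro _ ⟨x, hx, e', rfl⟩
    obtain ⟨x', h1, h2, h3⟩ := h y hy e x hx e'
    exact ⟨x', h1, h2, by
      rw [← ha.res_conj e e', eq_comm, ha.res_eq_iff ((e.mul_left e').mul_left e.inv_left) h2, h3]⟩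
  · intro h y hy e x hx e'
    obtain ⟨x', h1, h2, h3⟩ := conj_mem (h (ha.res_mem hy e)) (ha.res_mem hx e')
    exact ⟨x', h1, h2, by
      rw [← ha.res_eq_iff ((e.mul_left e').mul_left e.inv_left) h2, h3, ha.res_conj e e']⟩

variable [Nontrivial A]

theorem Pm.not_anti (h2 : (2 : F) ≠ 0) {g x t : Aˣ} (h : Pm g x) : ¬ Anti (g * x * g⁻¹ * x⁻¹) t := by
  rcases h with h | h
  · simpa [h.eq] using fun h => Anti.not_sc h2 h sc_one
  · simpa [h.eq] using fun h => Anti.not_sc h2 h sc_one.neg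

namespace Pauli

variable (hR : Pauli F R)
include hR

theorem invl {a : Aˣ} (ha : a ∈ R) (h : a * a = 1) (h0 : ¬ Sc F a) : Invl F a :=
  ⟨hR.two, h, hR.pe_ne_zero ha h0⟩

theorem exists_proj {a z y : Aˣ} (ha : a ∈ R) (hz : z ∈ R) (h : Anti a z) (hy : y ∈ R) :
    ∃ y' ∈ R, Commute y' a ∧ Commute y' z ∧ ∀ t, Commute t a → Commute t z →
      (Commute t y → Commute t y') ∧ (Anti t y → Anti t y') := by
  rcases hR.comm y hy a ha with e | e <;> rcases hR.comm y hy z hz with e' | e'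
  · exact ⟨y, hy, e, e', fun t _ _ => ⟨id, id⟩⟩
  · exact ⟨_, mul_mem hy ha, e.mul_left (Commute.refl a), (e'.symm.mul_anti h.symm).symm,
      fun t h1 _ => ⟨(·.mul_right h1), (·.mul_comm h1)⟩⟩
  · exact ⟨_, mul_mem hy hz, (e.symm.mul_anti h).symm, e'.mul_left (Commute.refl z),
      fun t _ h1 => ⟨(·.mul_right h1), (·.mul_comm h1)⟩⟩
  · exact ⟨_, mul_mem hy (mul_mem ha hz), (e.symm.mul_anti (h.comm_mul (Commute.refl a))).symm,
      (e'.symm.mul_anti (h.symm.mul_comm (Commute.refl z))).symm,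
      fun t h1 h2 => ⟨(·.mul_right (h1.mul_right h2)), (·.mul_comm (h1.mul_right h2))⟩⟩

theorem exists_neg_of_anti {y z : Aˣ} (hy : y ∈ R) (hz : z ∈ R) (h : Anti y z) :
    ∃ x ∈ R, ∃ t ∈ R, x * x = -1 ∧ Anti x t ∧
      ∀ s, Commute y s → Commute z s → Commute x s ∧ Commute t s := by
  rcases hR.sq y hy with e | e
  · rcases hR.sq z hz with e' | e'
    · exact ⟨_, mul_mem hy hz, z, hz, by simp [h.mul_sq, e, e'],
        (h.symm.mul_comm (Commute.refl z)).symm, fun s h1 h2 => ⟨h1.mul_left h2, h2⟩⟩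
    · exact ⟨z, hz, y, hy, e', h.symm, fun s h1 h2 => ⟨h2, h1⟩⟩
  · exact ⟨y, hy, z, hz, e, h, fun s h1 h2 => ⟨h1, h2⟩⟩

theorem cen_of_comm (h : ∀ a ∈ R, ¬ Sc F a → ∀ y ∈ Y, Commute y a → y ∈ NR R) (hY : R ≤ Y) :
    Cen F R Y := fun a ha h0 y hy e => by
  refine e.elim (h a ha h0 y hy) fun e => ?_
  obtain ⟨w, hw, h1⟩ := hR.exists_anti ha h0
  exact (mul_mem_cancel_right (mem_NR hw)).1
    (h a ha h0 _ (mul_mem hy (hY hw)) (e.symm.mul_anti h1).symm)

theorem cen_of_hasI (hI : HasI F R)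
    (h : ∀ a ∈ R, a * a = 1 → ¬ Sc F a → ∀ y ∈ Y, Commute y a → y ∈ NR R) (hY : R ≤ Y) :
    Cen F R Y := hR.cen_of_comm (fun a ha h0 y hy e => (hR.sq a ha).elim (h a ha · h0 y hy e) fun e' => by
  obtain ⟨j, hj, h1, h2⟩ := hI
  exact h _ (mul_mem hj ha) (by rw [comm_mul_sq (h1.comm a), h2, e']; simp)
    (fun e => h0 (by simpa using h1.inv.mul e)) y hy ((h1.comm y).symm.mul_right e)) hY

variable [Finite A]

/-- three hyperbolic pairs -/
theorem exists_three (hr : 4 < rk R) {a z : Aˣ} (ha : a ∈ R) (hz : z ∈ R) (h : Anti a z) :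
    ∃ v ∈ R, ∃ y ∈ R, ∃ x ∈ R, ∃ t ∈ R, v * v = 1 ∧ x * x = -1 ∧ Anti v y ∧ Anti x t ∧
      (Commute v a ∧ Commute y a ∧ Commute x a ∧ Commute t a) ∧
      (Commute v z ∧ Commute y z ∧ Commute x z ∧ Commute t z) ∧
      (Commute x v ∧ Commute t v) ∧ Commute x y ∧ Commute t y := by
  obtain ⟨v, hv, h1, h2, h3⟩ := hR.exists_sing_comm (v := ![a, z])
    (by simp [ha, hz, Fin.forall_fin_succ]) (Or.inr hr)
  obtain ⟨y, hy, h4⟩ := hR.exists_anti hv h2
  obtain ⟨y, hy, h5, h6, h7⟩ := hR.exists_proj ha hz h hy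
  replace h4 := (h7 v (h3 0) (h3 1)).2 h4
  obtain ⟨m, hm, h8, h9, -⟩ := hR.exists_comm_notMem (v := ![a, z, v, y])
    (by simp [ha, hz, hv, hy, Fin.forall_fin_succ]) (U := ⊥) (U' := ⊥) (by simpa) (by simpa)
  obtain ⟨n, hn, h10⟩ := hR.exists_anti hm fun e => h9 ((hR.cl_eq_zero hm).2 e)
  obtain ⟨n, hn, h11, h12, h13⟩ := hR.exists_proj ha hz h hn
  replace h10 := (h13 m (h8 0) (h8 1)).2 h10
  obtain ⟨n', hn', h14, h15, h16⟩ := hR.exists_proj hv hy h4 hn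
  obtain ⟨x, hx, t, ht, e1, e2, e3⟩ := hR.exists_neg_of_anti hm hn' ((h16 m (h8 2) (h8 3)).2 h10)
  have e4 := e3 a (h8 0) ((h16 a (h3 0).symm h5.symm).1 h11.symm).symm
  have e5 := e3 z (h8 1) ((h16 z (h3 1).symm h6.symm).1 h12.symm).symm
  exact ⟨v, hv, y, hy, x, hx, t, ht, h1, e1, h4, e2, ⟨h3 0, h5, e4⟩, ⟨h3 1, h6, e5⟩,
    e3 v (h8 2) h14, e3 y (h8 3) h15⟩

end Pauli

namespace Ctx

variable [Finite A] (hC : Ctx F R Y)
include hC

theorem mem_NR_of (hr : HasI F R ∧ 3 < rk R ∨ 5 < rk R)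
    (h : ∀ a ∈ R, a * a = 1 → ¬ Sc F a → ∀ g ∈ Y, Commute g a → ∀ x ∈ R, Commute x a → g * x * g⁻¹ ∈ R)
    {b y : Aˣ} (hb : b ∈ R) (hb0 : ¬ Sc F b) (hy : y ∈ Y) (e : Commute y b)
    (h' : ∀ x ∈ R, Commute x b → y * x * y⁻¹ ∈ R) : y ∈ NR R := by
  have hR := hC.p
  obtain ⟨w, hw, h1, h2, -⟩ := hR.exists_sing_anti (hr.imp And.left (by omega)) hb hb hb0 hb0
  obtain ⟨x, hx, h3, h4⟩ := hR.exists_neg_sq (v := ![b, w]) (by simp [hb, hw, Fin.forall_fin_succ])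
    (hr.imp And.left (by omega))
  obtain ⟨a, ha, h5, h6, h7⟩ := hR.exists_sing_comm (v := ![b, w, x])
    (by simp [hb, hw, hx, Fin.forall_fin_succ]) hr
  have h8 : y * b * y⁻¹ = b := by rw [e.eq, mul_inv_cancel_right]
  have h9 := h _ (h' a ha (h7 0)) (conj_sq h5 (Or.inl rfl) y) (fun e => h6 (sc_conj_iff.1 e)) _
    (mul_mem (mul_mem hy (hC.gate w hw h1 x hx (h4 1))) (inv_mem hy))
    (comm_conj (comm_ctl hR.two h1 (h4 1) (h7 1) (h7 2)).symm y) b hb (h8 ▸ comm_conj (h7 0).symm y)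
  rw [← h8, conj_inv, conj_mul, conj_mul, ctl_conj_neg hR.two h1 (h4 1) h2 (conj_inv_neg h3 (h4 0)),
    ← conj_mul, h8, mul_mem_cancel_right hb, mul_neg, neg_mul, ← conj_mul] at h9
  have h10 : y * w * y⁻¹ ∈ R := (mul_mem_cancel_left (h' x hx (h4 0))).1 (by simpa using hR.neg_mem h9)
  refine Subgroup.mem_normalizer_fintype fun r hr => (hR.comm r hr b hb).elim (h' r hr) fun e => ?_
  have := h' _ (mul_mem hr hw) (e.symm.mul_anti h2).symm
  rwa [← conj_mul, mul_mem_cancel_right h10] at this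

variable (hr : HasI F R ∧ 5 < rk R ∨ 7 < rk R) (hG : ∀ a ∈ R, a * a = 1 → ¬ Sc F a → Good F R Y a)
include hr hG

theorem pm_of_ext {a : Aˣ} (ha : Invl F a) (haR : a ∈ R) (h0 : ¬ Sc F a) {g : ha.Cˣ}
    (hg : ha.ext g ∈ Y) : ∀ x ∈ ha.rs R, Pm g x := by
  by_contra! hn
  have hR := hC.p
  have h2 := hR.two
  have hab : Sc F (a * a⁻¹) := by simpa using sc_one
  have hrk := ha.rk_le hR haR h0 hab
  obtain ⟨z, hz, haz⟩ := hR.exists_anti haR h0
  obtain ⟨v, hv, y, hy, x, hx, t, ht, h1, h3, h4, h5, ⟨a1, a2, a3, a4⟩, ⟨z1, -, z3, -⟩, ⟨v1, v2⟩, -⟩ :=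
    hR.exists_three (by omega) haR hz haz
  have h6 := (ha.ctx haR h0 hab hC).core_weak (ha.nm (K := Y) fun y hy k hk =>
    mul_mem (mul_mem hy hk) (inv_mem hy)) (hr.imp (fun h => ⟨ha.hasI h.1, by omega⟩) (by omega)) hg
    (ha.good_iff.1 (hG a haR ha.sq h0) (ha.comap_le le_rfl hg)) hn (ha.res_mem hv a1)
    ((ha.res_sq a1 h1).trans ha.res_one) ((ha.res_anti a1 a2 h4).not_sc h2) (ha.res_mem hx a3)
    (ha.res_comm a3 a1 v1) ((ha.res_sq a3 h3).trans ha.res_neg_one) (ha.res_mem ht a4)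
    (ha.res_comm a4 a1 v2) (ha.res_anti a3 a4 h5)
  have h7 := (comm_ctl h2 h1 v1 a1.symm a3.symm).symm
  rw [Subgroup.mem_comap, ← ha.res_ctl a1 h1 a3 v1, ha.ext_res h7] at h6
  obtain ⟨b, hb, b1, b0, b2⟩ := hR.exists_sing_comm (v := ![a, v, x, z, y])
    (by simp [haR, hv, hx, hz, hy, Fin.forall_fin_succ]) hr
  have hb' := hR.invl hb b1 b0
  have bz : Commute z b := (b2 3).symm
  have by' : Commute y b := (b2 4).symm
  have h8 := (comm_ctl h2 ha.sq h7 (b2 0) (comm_ctl h2 h1 v1 (b2 1) (b2 2))).symm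
  have h9 := mul_mem (conj_mem (hb'.good_iff.1 (hG b hb b1 b0) (hb'.res_mem h6 h8))
    (hb'.res_mem hz bz)) (inv_mem (hb'.res_mem hz bz))
  have h10 : ctl F a (ctl F v x) * z * (ctl F a (ctl F v x))⁻¹ * z⁻¹ = ctl F v (-(a * x)) := by
    rw [← ctl_ctl h2 ha.sq h1 a1.symm v1 a3 h3, mul_assoc, mul_assoc, ← mul_assoc z, ctl_inv h2 ha.sq h7,
      conj_ctl h2 ha.sq h7.inv_left, haz.symm.conj_eq, (comm_ctl h2 h1 v1 z1.symm z3.symm).inv_right.eq,
      mul_inv_cancel_right]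
  have h11 : Commute (-(a * x)) v := (a1.symm.mul_left v1).neg_left
  have h12 : Commute (ctl F v (-(a * x))) b :=
    (comm_ctl h2 h1 h11 (b2 1) ((b2 0).mul_right (b2 2)).neg_right).symm
  rw [← hb'.res_conj h8 bz, ← hb'.res_inv bz, ← hb'.res_mul
    ((h8.mul_left bz).mul_left h8.inv_left) bz.inv_left, h10] at h9
  have h13 := (h12.mul_left by').mul_left h12.inv_left
  refine Pm.not_anti h2 ((hb'.pauli hR hb b0 (by simpa using sc_one)).comm _ h9 _
    (hb'.res_mem hy by')) (t := hb'.res z) ?_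
  rw [← hb'.res_conj h12 by', ← hb'.res_inv by', ← hb'.res_mul h13 by'.inv_left]
  refine hb'.res_anti (h13.mul_left by'.inv_left) bz ?_
  have h14 := (haz.symm.mul_comm z3.symm).neg_right
  rcases hR.conj_inv_or (hR.neg_mem (mul_mem haR hx)) hy with e | e
  · rw [ctl_conj_pos h2 h1 h11 h4.symm e, mul_inv_cancel_right]
    exact h14.symm
  · rw [ctl_conj_neg h2 h1 h11 h4.symm e, mul_inv_cancel_right]
    exact (h14.mul_comm z1.symm).neg_right.symm

theorem conj_mem_of_sing {a y v t : Aˣ} (haR : a ∈ R) (ha2 : a * a = 1) (h0 : ¬ Sc F a) (hy : y ∈ Y)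
    (hya : Commute y a) (hv : v ∈ R) (hv2 : v * v = 1) (hva : Commute v a) (ht : t ∈ R)
    (hta : Commute t a) (hvt : Anti v t) : y * v * y⁻¹ ∈ R := by
  have hR := hC.p
  have h2 := hR.two
  have ha := hR.invl haR ha2 h0
  have ha' := hR.invl (hR.neg_mem haR) (by simpa) (sc_neg_iff.not.2 h0)
  have hc : ∀ {x}, Commute x a → Commute (y * x * y⁻¹) a := fun h => (hya.mul_left h).mul_left hya.inv_left
  have g1 : ∀ x ∈ R, Commute x a → ∃ x' ∈ R, Commute x' a ∧ ha.res (y * x * y⁻¹) = ha.res x' :=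
    fun x hx e => by
      obtain ⟨x', h1, h3, h4⟩ := hG a haR ha2 h0 y hy hya x hx e
      exact ⟨x', h1, h3, (ha.res_eq_iff (hc e) h3).2 h4⟩
  have g2 : ∀ x ∈ R, Commute x a → ∃ x' ∈ R, Commute x' a ∧ ha'.res (y * x * y⁻¹) = ha'.res x' :=
    fun x hx e => by
      obtain ⟨x', h1, h3, h4⟩ := hG _ (hR.neg_mem haR) ha'.sq (sc_neg_iff.not.2 h0) y hy hya.neg_right
        x hx e.neg_right
      exact ⟨x', h1, by simpa using h3.neg_right, (ha'.res_eq_iff (hc e).neg_right h3).2 h4⟩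
  obtain ⟨p, hp, p1, p2⟩ := g1 v hv hva
  obtain ⟨q, hq, q1, q2⟩ := g2 v hv hva
  have hv2' := conj_sq hv2 (Or.inl rfl) y
  have hp2 : p * p = 1 := (ha.res_sq_iff hR hp p1).1 (by rw [← p2, ha.res_sq (hc hva) hv2', ha.res_one])
  have hq2 : q * q = 1 := (ha'.res_sq_iff hR hq q1.neg_right).1
    (by rw [← q2, ha'.res_sq (hc hva).neg_right hv2', ha'.res_one])
  have c1 : ∀ x ∈ R, Commute x a → Commute x v → ∀ x' ∈ R, Commute x' a →
      ha.res (y * x * y⁻¹) = ha.res x' → Commute x' p := fun x hx e e' x' hx' e1 e2 =>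
    (ha.res_comm_iff hR hx' hp e1 p1).1 (e2 ▸ p2 ▸ ha.res_comm (hc e) (hc hva) (comm_conj e' y))
  have c2 : ∀ x ∈ R, Commute x a → Commute x v → ∀ x' ∈ R, Commute x' a →
      ha'.res (y * x * y⁻¹) = ha'.res x' → Commute x' q := fun x hx e e' x' hx' e1 e2 =>
    (ha'.res_comm_iff hR hx' hq e1.neg_right q1.neg_right).1
      (e2 ▸ q2 ▸ ha'.res_comm (hc e).neg_right (hc hva).neg_right (comm_conj e' y))
  have key : ∀ x ∈ R, Commute x a → Commute x v → ∀ s ∈ R, Commute s a → Commute s v → Anti x s →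
      ∀ x' ∈ R, Commute x' a → ha.res (y * x * y⁻¹) = ha.res x' → ∀ r ∈ R, Commute r a → Commute r p →
      Anti r q → Anti r x' := fun x hx e1 e2 s hs e3 e4 e5 x' hx' e6 e7 r hr' e8 e9 e10 => by
    refine (hR.comm r hr' x' hx').resolve_left fun e11 => ?_
    obtain ⟨x'', hx'', f1, f2⟩ := g2 x hx e1
    obtain ⟨s'', hs'', f3, f4⟩ := g2 s hs e3
    have f5 := c2 x hx e1 e2 x'' hx'' f1 f2
    have f6 := c2 s hs e3 e4 s'' hs'' f3 f4
    have f7 : Anti x'' s'' := (ha'.res_anti_iff hR hx'' hs'' f1.neg_right f3.neg_right).1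
      (f2 ▸ f4 ▸ ha'.res_anti (hc e1).neg_right (hc e3).neg_right (e5.conj y))
    have f8 := c1 x hx e1 e2 x' hx' e6 e7
    have k1 := (comm_ctl h2 hv2 e2 hva.symm e1.symm).symm
    have k2 := (comm_ctl h2 hq2 f5 q1.symm f1.symm).symm
    have k3 := (comm_ctl h2 hp2 f8 p1.symm e6.symm).symm
    have k4 := k2.mul_left (hc k1).inv_left
    have k5 : ha'.res (ctl F q x'' * (y * ctl F v x * y⁻¹)⁻¹) = ha'.res 1 := by
      rw [ha'.res_mul k2.neg_right (hc k1).inv_left.neg_right, ha'.res_inv (hc k1).neg_right,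
        conj_ctl h2 hv2 e2, ha'.res_ctl (hc hva).neg_right hv2' (hc e1).neg_right (comm_conj e2 y), q2, f2,
        ha'.res_ctl q1.neg_right hq2 f1.neg_right f5, mul_inv_cancel, ha'.res_one]
    rw [ha'.res_eq_iff k4.neg_right (Commute.one_left _), Units.val_one, mul_one] at k5
    have k6 := hC.pm_of_ext hr hG ha haR h0 (by
      rw [ha.ext_eq k4 k5]
      exact mul_mem (hC.gate q hq hq2 x'' hx'' f5) (inv_mem (mul_mem (mul_mem hy
        (hC.gate v hv hv2 x hx e2)) (inv_mem hy)))) _ (ha.res_mem hr' e8)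
    rw [ha.res_mul k2 (hc k1).inv_left, ha.res_inv (hc k1), conj_ctl h2 hv2 e2,
      ha.res_ctl (hc hva) hv2' (hc e1) (comm_conj e2 y), p2, e7, ← ha.res_ctl p1 hp2 e6 f8,
      ← ha.res_inv k3, ← ha.res_mul k2 k3.inv_left] at k6
    have k7 := k2.mul_left k3.inv_left
    have k8 := (k7.mul_left e8).mul_left k7.inv_left
    refine k6.not_anti h2 (t := ha.res s'') ?_
    rw [← ha.res_conj k7 e8, ← ha.res_inv e8, ← ha.res_mul k8 e8.inv_left]
    refine ha.res_anti (k8.mul_left e8.inv_left) f3 ?_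
    rw [mul_assoc (ctl F q x''), ← (comm_ctl h2 hp2 f8 e9 e11).inv_right.eq, mul_inv_rev, inv_inv,
      ← mul_assoc, ← mul_assoc, inv_mul_cancel_right]
    rcases hR.conj_inv_or hx'' hr' with e | e
    · rwa [ctl_conj_pos h2 hq2 f5 e10 e, mul_inv_cancel_right]
    · rw [ctl_conj_neg h2 hq2 f5 e10 e, mul_inv_cancel_right]
      exact (f7.symm.mul_comm f6).symm.neg_left
  have key2 : ∀ r ∈ R, Commute r a → Commute r p → Commute r q := fun r hr' e1 e2 => by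
    refine (hR.comm r hr' q hq).resolve_right fun e3 => ?_
    obtain ⟨x, hx, s, hs, e4, e5, e6⟩ := hR.exists_pair (v := ![a, v])
      (by simp [haR, hv, Fin.forall_fin_succ]) (by omega)
    obtain ⟨x', hx', f1, f2⟩ := g1 x hx (e5 0)
    obtain ⟨s', hs', f3, f4⟩ := g1 s hs (e6 0)
    refine (key _ (mul_mem hx hs) ((e5 0).mul_left (e6 0)) ((e5 1).mul_left (e6 1)) s hs (e6 0) (e6 1)
      (e4.symm.mul_comm (Commute.refl s)).symm _ (mul_mem hx' hs') (f1.mul_left f3) (by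
        rw [← conj_mul, ha.res_mul (hc (e5 0)) (hc (e6 0)), f2, f4, ha.res_mul f1 f3])
      r hr' e1 e2 e3).not_comm h2 ((key x hx (e5 0) (e5 1) s hs (e6 0) (e6 1) e4 x' hx' f1 f2 r hr' e1 e2
        e3).mul_anti (key s hs (e6 0) (e6 1) x hx (e5 0) (e5 1) e4.symm s' hs' f3 f4 r hr' e1 e2 e3))
  obtain ⟨s, hs, s1, s2⟩ := g2 t ht hta
  have s3 : Anti q s := (ha'.res_anti_iff hR hq hs q1.neg_right s1.neg_right).1
    (q2 ▸ s2 ▸ ha'.res_anti (hc hva).neg_right (hc hta).neg_right (hvt.conj y))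
  have s4 : Anti s p := (hR.comm s hs p hp).resolve_left fun e =>
    s3.symm.not_comm h2 (key2 s hs s1 e)
  have h5 : cl R (q * p) ∈ sp R ![a] := by
    by_contra hn
    obtain ⟨r, hr', e1, e2⟩ := hR.exists_anti_comm (by simp [haR]) (mul_mem hq hp) hn
    refine e1.symm.not_comm h2 ?_
    rcases hR.comm r hr' p hp with e | e
    · exact (key2 r hr' (e2 0) e).mul_right e
    · have := key2 _ (mul_mem hr' hs) ((e2 0).mul_left s1) (e.symm.mul_anti s4.symm).symm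
      refine Anti.mul_anti ((hR.comm r hr' q hq).resolve_left fun e' => ?_) e
      exact (s3.comm_mul e'.symm).not_comm h2 this.symm
  have h6 : pe F (-a) * a = pe F (-a) := by simpa using pe_mul (F := F) ha'.sq
  rw [ha.res_eq_iff (hc hva) p1] at p2
  rw [ha'.res_eq_iff (hc hva).neg_right q1.neg_right] at q2
  have h7 : pe F (-a) * q = pe F (-a) * p ∨ pe F (-a) * q = -(pe F (-a) * p) := by
    by_cases e : Sc F (q * p)
    · rw [← hR.cl_eq_zero (mul_mem hq hp), hR.cl_mul hq hp, hR.add_eq_zero] at e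
      rcases hR.eq_or_of_cl_eq hq hp e (hq2.trans hp2.symm) with e | e <;> simp [e]
    · have e1 : cl R (q * p) = cl R a := by_contra fun e1 => hR.notMem_sp_one (mul_mem hq hp) e e1 h5
      rw [hR.cl_mul hq hp] at e1
      rcases hR.eq_or_of_cl_eq hq (mul_mem haR hp)
        (by rw [hR.cl_mul haR hp, ← e1, add_assoc, hR.add_self, add_zero])
        (by rw [comm_mul_sq p1.symm, ha2, hp2, hq2, one_mul]) with e | e <;> simp [e, ← mul_assoc, h6]
  rcases h7 with e | e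
  · rwa [show y * v * y⁻¹ = p from Units.ext (ext_pe h2 a p2 (q2.trans e))]
  · rw [show y * v * y⁻¹ = -(a * p) from Units.ext (ext_pe h2 a
      (by rw [p2]; simp [← mul_assoc, pe_mul ha2]) (by rw [q2]; simp [e, ← mul_assoc, h6]))]
    exact hR.neg_mem (mul_mem haR hp)

theorem conj_mem_of_comm {a y x : Aˣ} (haR : a ∈ R) (ha2 : a * a = 1) (h0 : ¬ Sc F a) (hy : y ∈ Y)
    (hya : Commute y a) (hx : x ∈ R) (hxa : Commute x a) : y * x * y⁻¹ ∈ R := by
  have hR := hC.p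
  by_cases h1 : cl R x ∈ sp R ![a]
  · have : Commute y x := by
      by_cases e : Sc F x
      · exact (e.comm y).symm
      · have e1 : cl R x = cl R a := by_contra fun e1 => hR.notMem_sp_one hx e e1 h1
        simpa using (((hR.cl_eq_iff hx haR).1 e1).comm y).symm.mul_right hya
    rwa [this.eq, mul_inv_cancel_right]
  obtain ⟨w, hw, h3, h4, h5⟩ := hR.exists_sing_anti_comm (Or.inr (by omega)) hx haR h1
  rcases hR.sq x hx with e | e
  · exact hC.conj_mem_of_sing hr hG haR ha2 h0 hy hya hx e hxa hw h5.symm h4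
  · have := hC.conj_mem_of_sing hr hG haR ha2 h0 hy hya (mul_mem hx hw) (by simp [h4.mul_sq, e, h3])
      (hxa.mul_left h5.symm) hw h5.symm (h4.symm.mul_comm (Commute.refl w)).symm
    rwa [← conj_mul, mul_mem_cancel_right
      (hC.conj_mem_of_sing hr hG haR ha2 h0 hy hya hw h3 h5.symm hx hxa h4.symm)] at this

theorem mem_NR_of_good {a y : Aˣ} (haR : a ∈ R) (ha2 : a * a = 1) (h0 : ¬ Sc F a) (hy : y ∈ Y)
    (hya : Commute y a) : y ∈ NR R :=
  hC.mem_NR_of (by omega) (fun _ h1 h2 h3 _ h4 h5 _ h6 h7 => hC.conj_mem_of_comm hr hG h1 h2 h3 h4 h5 h6 h7)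
    haR h0 hy hya fun _ => hC.conj_mem_of_comm hr hG haR ha2 h0 hy hya

end Ctx

end Cfsg.Agent.H8.C6
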