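import Cfsg.Agent.H8.C6H

/-!
Overgroups not normalising the Pauli group contain multiply controlled gates.
-/

set_option autoImplicit false
set_option linter.unusedSectionVars false

namespace Cfsg.Agent.H8.C6

open Module H7 H7.Polar

universe u

section

variable {F : Type*} [Field F] {A : Type*} [Ring A] [Algebra F A] {R Y K : Subgroup Aˣ}

variable (F) in
/-- multiply controlled gates -/
noncomputable def gt (S : List Aˣ) (x : Aˣ) : Aˣ := S.foldr (ctl F) x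

/-- admissible controls and target -/
def Ok (R : Subgroup Aˣ) (S : List Aˣ) (x : Aˣ) : Prop :=
  x ∈ R ∧ (∀ s ∈ S, s ∈ R ∧ s * s = 1 ∧ Commute x s) ∧ S.Pairwise Commute

theorem Ok.tail {a x : Aˣ} {S : List Aˣ} (h : Ok R (a :: S) x) : Ok R S x :=
  ⟨h.1, fun s hs => h.2.1 s (List.mem_cons_of_mem a hs), h.2.2.of_cons⟩

theorem Ok.comm (h2 : (2 : F) ≠ 0) {x g : Aˣ} {S : List Aˣ} (h : Ok R S x) (hx : Commute g x)
    (hg : ∀ s ∈ S, Commute g s) : Commute g (gt F S x) := by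
  induction S generalizing g with
  | nil => exact hx
  | cons a S ih =>
    have h1 := h.2.1 a List.mem_cons_self
    exact comm_ctl h2 h1.2.1 (ih h.tail h1.2.2.symm (List.pairwise_cons.1 h.2.2).1).symm
      (hg a List.mem_cons_self) (ih h.tail hx fun s hs => hg s (List.mem_cons_of_mem a hs))

theorem Ok.comm_head (h2 : (2 : F) ≠ 0) {a x : Aˣ} {S : List Aˣ} (h : Ok R (a :: S) x) :
    Commute (gt F S x) a :=
  (h.tail.comm h2 (h.2.1 a List.mem_cons_self).2.2.symm (List.pairwise_cons.1 h.2.2).1).symm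

theorem Invl.res_gt {a : Aˣ} (ha : Invl F a) {x : Aˣ} {S : List Aˣ} (h : Ok R S x) (hx : Commute x a)
    (hS : ∀ s ∈ S, Commute a s) : ha.res (gt F S x) = gt F (S.map ha.res) (ha.res x) := by
  induction S with
  | nil => rfl
  | cons b S ih =>
    have h1 := fun s hs => hS s (List.mem_cons_of_mem b hs)
    exact (ha.res_ctl (hS b List.mem_cons_self).symm (h.2.1 b List.mem_cons_self).2.1
      (h.tail.comm ha.two hx.symm h1).symm (h.comm_head ha.two)).trans (congrArg _ (ih h.tail h1))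

theorem Invl.ok {a : Aˣ} (ha : Invl F a) {x : Aˣ} {S : List Aˣ} (h : Ok R (a :: S) x) :
    Ok (ha.rs R) (S.map ha.res) (ha.res x) := by
  have h1 := (h.2.1 a List.mem_cons_self).2.2
  have h2 := (List.pairwise_cons.1 h.2.2).1
  refine ⟨ha.res_mem h.1 h1, ?_, List.pairwise_map.2 (h.tail.2.2.imp_of_mem fun hs ht e =>
    ha.res_comm (h2 _ hs).symm (h2 _ ht).symm e)⟩
  simp only [List.forall_mem_map]
  exact fun s hs => ⟨ha.res_mem (h.tail.2.1 s hs).1 (h2 s hs).symm, (ha.res_sq (h2 s hs).symm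
    (h.tail.2.1 s hs).2.1).trans ha.res_one, ha.res_comm h1 (h2 s hs).symm (h.tail.2.1 s hs).2.2⟩

variable [Nontrivial A] [Finite A]

theorem sc_of_or (h : HasI F R ∨ Tau F Y) (h2 : (2 : F) ≠ 0) : SC F R Y :=
  h.elim (fun h _ _ _ _ => h) (·.sc h2)

theorem Ctx.not_good (hC : Ctx F R Y) (hI : HasI F R ∨ Tau F Y) (hi : ∃ i : F, i * i = -1)
    (hr : HasI F R ∧ 5 < rk R ∨ 7 < rk R) (hY : ¬ Y ≤ NR R) {a : Aˣ} (ha : a ∈ R) (ha2 : a * a = 1)
    (h0 : ¬ Sc F a) : ¬ Good F R Y a := fun hg => by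
  have hR := hC.p
  have h2 := hR.two
  have hG : ∀ b ∈ R, b * b = 1 → ¬ Sc F b → Good F R Y b := fun b hb hb2 hb0 => by
    obtain ⟨g, h1, h3, rfl⟩ := hC.exists_conj (Or.inr (by omega)) ha hb h0 hb0 (ha2.trans hb2.symm)
    exact hg.conj h1 h3
  have h1 := fun a ha ha2 h0 y hy => hC.mem_NR_of_good hr hG (a := a) ha ha2 h0 (y := y) hy
  refine hY (hC.le_NR (sc_of_or hI h2) ?_ (Or.inr (by omega)))
  rcases hI with hI | ⟨τ, hτ⟩
  · exact hR.cen_of_hasI hI h1 hC.le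
  refine hR.cen_of_comm (fun d hd hd0 y hy hyd => (hR.sq d hd).elim (h1 d hd · hd0 y hy hyd)
    fun hd2 => ?_) hC.le
  obtain ⟨i, hi⟩ := hi
  obtain ⟨j, hj⟩ : ∃ j : Aˣ, (j : A) = algebraMap F A i :=
    ⟨Units.map (algebraMap F A).toMonoidHom (Units.mkOfMulEqOne i (-i) (by simp [hi])), rfl⟩
  have hj1 : Sc F j := ⟨i, hj⟩
  have hj2 : j * j = -1 := Units.ext (by simp [hj, ← map_mul, hi])
  obtain ⟨w, hw, hdw⟩ := hR.exists_anti hd hd0
  have hb : Invl F (j * d) := ⟨h2, by rw [comm_mul_sq (hj1.comm d), hj2, hd2]; simp,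
    (hdw.symm.comm_mul (hj1.comm w).symm).pe_ne_zero h2⟩
  have hab : Sc F (j * d * d⁻¹) := by simpa
  have hc := Invl.comm_iff hab
  have hinj : ∀ z ∈ Y, Commute z (j * d) → hb.res z = 1 → z = 1 := fun z hz e e' => by
    rw [← hb.res_one, hb.res_eq_iff e (Commute.one_left _), Units.val_one, mul_one] at e'
    have h3 : ∀ z ∈ Y, τ (pe F (j * d) * z) = (z⁻¹ : Aˣ) * pe F (-(j * d)) := fun z hz => by
      rw [pe, pe_neg, smul_mul_assoc, mul_smul_comm, map_smul, sub_mul, one_mul, map_sub, hτ z hz,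
        Units.val_mul, hj, mul_assoc, ← Algebra.smul_def, map_smul, ← Units.val_mul,
        hτ _ (mul_mem (hC.le hd) hz), mul_inv_rev, inv_eq_of_mul_eq_one_right (show d * -d = 1 by simp [hd2])]
      simp [mul_add, ← Algebra.smul_def]
    have h4 := h3 z hz
    rw [e', ← mul_one (pe F (j * d)), ← Units.val_one, h3 1 (one_mem Y), eq_comm,
      Units.inv_mul_eq_iff_eq_mul, (by simp : ((1 : Aˣ)⁻¹ : Aˣ) * pe F (-(j * d)) = pe F (-(j * d))),
      (pe_comm e.neg_right.units_val).eq] at h4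
    exact Units.ext (ext_pe h2 _ (by simpa using e') (by simpa using h4.symm))
  have hC1 := hb.ctx hd hd0 hab hC
  have hI1 : HasI F (hb.rs R) := by
    have e := (hc d).2 (Commute.refl d)
    refine ⟨_, hb.res_mem hd e, ?_, (hb.res_sq e hd2).trans hb.res_neg_one⟩
    have := (hb.res_sc hj1).inv.mul (sc_one (F := F)).neg
    rwa [← hb.res_self, hb.res_mul (hj1.comm _) e, inv_mul_cancel_left] at this
  have h3 := hb.good_iff.2 (hC1.le_NR (fun _ _ _ _ => hI1) (hC1.p.cen_of_hasI hI1 (by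
    rintro _ ⟨u, hu, e, rfl⟩ e1 e2 _ ⟨z, hz, e', rfl⟩ e3
    have e4 := (e'.mul_left e).mul_left e'.inv_left
    have e5 := hinj _ (mul_mem (mul_mem (mul_mem hz (hC.le hu)) (inv_mem hz)) (inv_mem (hC.le hu)))
      (e4.mul_left e.inv_left) (by
        rw [hb.res_mul e4 e.inv_left, hb.res_conj e' e, hb.res_inv e, e3.eq]; simp)
    have e6 := h1 u hu ((hb.res_sq_iff hR hu e).1 e1) (fun h => e2 (hb.res_sc h)) z hz
      (by rwa [mul_inv_eq_one, mul_inv_eq_iff_eq_mul] at e5)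
    refine Subgroup.mem_normalizer_fintype ?_
    rintro _ ⟨x, hx, e7, rfl⟩
    exact ⟨_, conj_mem e6 hx, (e'.mul_left e7).mul_left e'.inv_left, hb.res_conj e' e7⟩) hC1.le)
    (Or.inl ⟨hI1, by have := hb.rk_le hR hd hd0 hab; omega⟩))
  refine hC.mem_NR_of (by omega) (fun a ha ha2 h0 g hg e x hx _ => conj_mem (h1 a ha ha2 h0 g hg e) hx)
    hd hd0 hy hyd fun x hx e => ?_
  have e1 := (hc y).2 hyd
  have e2 := (e1.mul_left ((hc x).2 e)).mul_left e1.inv_left
  obtain ⟨x', hx', e3, e4⟩ := h3 y hy e1 x hx ((hc x).2 e)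
  rw [← hb.res_eq_iff e2 e3] at e4
  rwa [mul_inv_eq_one.1 (hinj _ (mul_mem (mul_mem (mul_mem hy (hC.le hx)) (inv_mem hy))
    (inv_mem (hC.le hx'))) (e2.mul_left e3.inv_left)
    (by rw [hb.res_mul e2 e3.inv_left, hb.res_inv e3, e4, mul_inv_cancel]))]

theorem gt_mem_of (hR : Pauli F R) (hRK : R ≤ K) {d : ℕ}
    (h : ∀ a ∈ R, ∀ ha : Invl F a, ¬ Sc F a → ∀ S : List ha.Cˣ, S.length ≤ d → ∀ x, Ok (ha.rs R) S x →
      gt F S x ∈ K.comap ha.ext) (S : List Aˣ) (hS : S.length ≤ d + 1) {x : Aˣ} (hx : Ok R S x) :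
    gt F S x ∈ K := by
  induction S with
  | nil => exact hRK hx.1
  | cons a S ih =>
    obtain ⟨h1, h2, h3⟩ := hx.2.1 a List.mem_cons_self
    change ctl F a (gt F S x) ∈ K
    by_cases h0 : Sc F a
    · rcases h0.eq_one_or h2 with rfl | rfl
      · rw [ctl_one_left hR.two]; exact one_mem K
      · rw [ctl_neg_one_left hR.two]; exact ih (by simp at hS; omega) hx.tail
    have ha := hR.invl h1 h2 h0
    rw [← ha.ext_res (hx.comm_head hR.two), ha.res_gt hx.tail h3 (List.pairwise_cons.1 hx.2.2).1]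
    exact h a h1 ha h0 _ (by simpa using hS) _ (ha.ok hx)

theorem Ctx.rs_le (hC : Ctx F R K) {a : Aˣ} (ha : Invl F a) (haR : a ∈ R) :
    ha.rs R ≤ K.comap ha.ext := by
  rintro _ ⟨x, hx, e, rfl⟩
  rw [Subgroup.mem_comap, ha.ext_res e]
  exact hC.gate a haR ha.sq x hx e

/-- The doubly controlled gates in the case of a scalar of order four. -/
theorem Ctx.gate_two (hC : Ctx F R Y) (hI : HasI F R) (hi : ∃ i : F, i * i = -1) (hr : 5 < rk R)
    (hY : ¬ Y ≤ NR R) {a v x s t : Aˣ} (h : Ok R [a, v] x) (h0 : ¬ Sc F a) (hx : x * x = -1)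
    (hs : s ∈ R) (hsa : Commute s a) (hvs : Anti v s) (ht : t ∈ R) (hta : Commute t a)
    (htv : Commute t v) (hxt : Anti x t) : gt F [a, v] x ∈ Y := by
  have hR := hC.p
  obtain ⟨h1, h2, h3⟩ := h.2.1 a List.mem_cons_self
  have ha := hR.invl h1 h2 h0
  have hab : Sc F (a * a⁻¹) := by simpa using sc_one
  have hrk := ha.rk_le hR h1 h0 hab
  have hC1 := ha.ctx h1 h0 hab hC
  have hK := ha.nm (K := Y) fun y hy k hk => mul_mem (mul_mem hy hk) (inv_mem hy)
  obtain ⟨g, hg, hg', e⟩ := hC1.exists_not_pm hK (fun _ _ _ _ => ha.hasI hI) (Or.inl (ha.hasI hI))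
    (ha.comap_le le_rfl) (hC.rs_le ha h1)
    fun e => hC.not_good (Or.inl hI) hi (Or.inl ⟨hI, hr⟩) hY h1 h2 h0 (ha.good_iff.2 e)
  have h4 := ha.ok h
  have h5 : Commute v a := (List.pairwise_pair.1 h.2.2).symm
  obtain ⟨h6, h7, h8⟩ := h4.2.1 _ List.mem_cons_self
  have := hC1.core_weak hK (Or.inl ⟨ha.hasI hI, by omega⟩) hg hg' e h6 h7
    ((ha.res_anti h5 hsa hvs).not_sc hR.two) h4.1 h8 ((ha.res_sq h3 hx).trans ha.res_neg_one)
    (ha.res_mem ht hta) (ha.res_comm hta h5 htv) (ha.res_anti h3 hta hxt)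
  change ctl F a (gt F [v] x) ∈ Y
  rw [← ha.ext_res (h.comm_head hR.two), ha.res_gt h.tail h3 (List.pairwise_cons.1 h.2.2).1]
  exact this

end

/-- The main induction. -/
theorem gates {F : Type*} [Field F] (hi : ∃ i : F, i * i = -1) (j : ℕ) :
    ∀ {A : Type u} [Ring A] [Algebra F A] [Nontrivial A] [Finite A] {R Y K : Subgroup Aˣ},
    Ctx F R Y → HasI F R ∨ Tau F Y → Nm K Y → K ≤ Y → R ≤ K → ¬ Y ≤ NR R → 5 + 2 * j < rk R →
    ∀ S : List Aˣ, S.length ≤ j + 1 → ∀ x, Ok R S x → gt F S x ∈ K := by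
  have key : ∀ {A : Type u} [Ring A] [Algebra F A] [Nontrivial A] [Finite A] {R Y K : Subgroup Aˣ},
      Ctx F R Y → HasI F R ∨ Tau F Y → Nm K Y → K ≤ Y → R ≤ K → ¬ Y ≤ NR R → 5 < rk R → Ctx F R K := by
    intro A _ _ _ _ R Y K hC hI hK hKY hRK hY hr
    obtain ⟨g, hg, hg', e⟩ := hC.exists_not_pm hK (sc_of_or hI hC.p.two) (Or.inr (by omega)) hKY hRK hY
    exact hC.core hK hr hg hg' e
  induction j with
  | zero =>
    intro A _ _ _ _ R Y K hC hI hK hKY hRK hY hr S hS x hx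
    refine gt_mem_of hC.p hRK (d := 0) (fun a haR ha _ S hS x hx => ?_) S hS hx
    rw [List.length_eq_zero_iff.1 (Nat.le_zero.1 hS)]
    exact (key hC hI hK hKY hRK hY hr).rs_le ha haR hx.1
  | succ j ih =>
    intro A _ _ _ _ R Y K hC hI hK hKY hRK hY hr S hS x hx
    refine gt_mem_of hC.p hRK (fun a haR ha h0 => ?_) S hS hx
    have hab : Sc F (a * a⁻¹) := by simpa using sc_one
    exact ih (ha.ctx haR h0 hab hC) (hI.imp ha.hasI (ha.tau · (hC.le haR))) (ha.nm hK) (ha.comap_le hKY)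
      ((key hC hI hK hKY hRK hY (by omega)).rs_le ha haR)
      (fun e => hC.not_good hI hi (Or.inr (by omega)) hY haR ha.sq h0 (ha.good_iff.2 e))
      (by have := ha.rk_le hC.p haR h0 hab; omega)

end Cfsg.Agent.H8.C6
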