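import Cfsg.Agent.H8.C6I

/-!
Transfer of gates along ring homomorphisms, base change and the abstract main theorems.
-/

set_option autoImplicit false
set_option linter.unusedSectionVars false

namespace Cfsg.Agent.H8.C6

open Module H7 H7.Polar TensorProduct

variable {F : Type*} [Field F] {A : Type*} [Ring A] [Algebra F A] {R Y K X : Subgroup Aˣ}

/-- witnesses for the independence of the controls and the target -/
def Wit (R : Subgroup Aˣ) (S : List Aˣ) (x : Aˣ) : Prop :=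
  x * x = -1 ∧ (∀ a ∈ S, ∃ w, Anti a w) ∧ S.Pairwise (fun a v => ∃ s ∈ R, Commute s a ∧ Anti v s) ∧
    ∃ t ∈ R, Anti x t ∧ ∀ s ∈ S, Commute t s

variable (F) in
/-- `X` contains the gates with at most `m` independent controls -/
def GA (R X : Subgroup Aˣ) (m : ℕ) : Prop :=
  ∀ S : List Aˣ, S.length ≤ m → ∀ x, Ok R S x → Wit R S x → gt F S x ∈ X

variable (F) in
/-- `X` contains the gates with at most `m` controls -/
def GB (R X : Subgroup Aˣ) (m : ℕ) : Prop :=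
  ∀ S : List Aˣ, S.length ≤ m → ∀ x, Ok R S x → gt F S x ∈ X

theorem GB.ga {m : ℕ} (h : GB F R X m) : GA F R X m := fun S hS x h1 _ => h S hS x h1

theorem GA.mono {m m' : ℕ} (h : GA F R X m) (hm : m' ≤ m) : GA F R X m' :=
  fun S hS => h S (hS.trans hm)

theorem GB.mono {m m' : ℕ} (h : GB F R X m) (hm : m' ≤ m) : GB F R X m' :=
  fun S hS => h S (hS.trans hm)

variable (F) in
/-- `Y` is closed under forming controlled gates -/
def Cl (Y : Subgroup Aˣ) : Prop := ∀ u ∈ Y, u * u = 1 → ∀ x ∈ Y, Commute x u → ctl F u x ∈ Y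

theorem Cl.gb (h : Cl F Y) (h2 : (2 : F) ≠ 0) (hR : R ≤ Y) (m : ℕ) : GB F R Y m := by
  intro S hS x hx
  clear hS
  induction S with
  | nil => exact hR hx.1
  | cons a S ih =>
    obtain ⟨h1, h3, -⟩ := hx.2.1 a List.mem_cons_self
    exact h a (hR h1) h3 _ (ih hx.tail) (hx.comm_head h2)

theorem Cl.ctx (h : Cl F Y) (hR : Pauli F R) (hY : R ≤ Y) : Ctx F R Y :=
  ⟨hR, fun u hu h1 x hx => h u (hY hu) h1 x (hY hx)⟩

theorem cl_top : Cl F (⊤ : Subgroup Aˣ) := fun _ _ _ _ _ _ => trivial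

theorem Tau.mono (h : Tau F Y) (hX : X ≤ Y) : Tau F X := h.imp fun _ h y hy => h y (hX hy)

theorem nm_self : Nm X X := fun _ hy _ hk => mul_mem (mul_mem hy hk) (inv_mem hy)

section map

variable {F' : Type*} [Field F'] {A' : Type*} [Ring A'] [Algebra F' A'] (φ : A →+* A')

/-- the map on units -/
def um : Aˣ →* A'ˣ := Units.map φ.toMonoidHom

@[simp] theorem um_val (a : Aˣ) : (um φ a : A') = φ a := rfl

@[simp] theorem um_neg (a : Aˣ) : um φ (-a) = -um φ a := Units.ext (by simp)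

theorem Anti.um {a b : Aˣ} (h : Anti a b) : Anti (um φ a) (um φ b) := by
  rw [Anti, ← map_mul, h, um_neg, map_mul]

theorem Wit.map {R' : Subgroup A'ˣ} (hR : ∀ a ∈ R, um φ a ∈ R') {S : List Aˣ} {x : Aˣ}
    (h : Wit R S x) : Wit R' (S.map (um φ)) (um φ x) := by
  obtain ⟨h1, h2, h3, t, ht, h4, h5⟩ := h
  refine ⟨by rw [← map_mul, h1, um_neg, map_one], ?_, List.pairwise_map.2 (h3.imp ?_),
    _, hR t ht, h4.um φ, ?_⟩
  · simp only [List.forall_mem_map]
    exact fun a ha => (h2 a ha).elim fun w hw => ⟨_, hw.um φ⟩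
  · exact fun ⟨s, hs, e, e'⟩ => ⟨_, hR s hs, e.map _, e'.um φ⟩
  · simp only [List.forall_mem_map]
    exact fun s hs => (h5 s hs).map _

theorem Ok.map {R' : Subgroup A'ˣ} (hR : ∀ a ∈ R, um φ a ∈ R') {S : List Aˣ} {x : Aˣ}
    (h : Ok R S x) : Ok R' (S.map (um φ)) (um φ x) := by
  refine ⟨hR x h.1, ?_, List.pairwise_map.2 (h.2.2.imp fun e => e.map _)⟩
  simp only [List.forall_mem_map]
  exact fun s hs => ⟨hR s (h.2.1 s hs).1, by rw [← map_mul, (h.2.1 s hs).2.1, map_one],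
    (h.2.1 s hs).2.2.map _⟩

variable (h2 : (2 : F) ≠ 0) (h2' : (2 : F') ≠ 0)
include h2 h2'

theorem map_pe (a : Aˣ) : φ (pe F a) = pe F' (um φ a) := by
  rw [← half_two h2' (φ _), ← map_add, pe, ← smul_add, half_two h2, pe]
  simp

theorem map_ctl {u x : Aˣ} (hu : u * u = 1) (hx : Commute x u) :
    um φ (ctl F u x) = ctl F' (um φ u) (um φ x) := Units.ext (by
  rw [ctl_val h2' (by rw [← map_mul, hu, map_one]) (hx.map _), um_val, ctl_val h2 hu hx]
  simp [map_pe φ h2 h2'])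

theorem map_gt {S : List Aˣ} {x : Aˣ} (h : Ok R S x) :
    um φ (gt F S x) = gt F' (S.map (um φ)) (um φ x) := by
  induction S with
  | nil => rfl
  | cons a S ih =>
    exact (map_ctl φ h2 h2' (h.2.1 a List.mem_cons_self).2.1 (h.comm_head h2)).trans
      (congrArg _ (ih h.tail))

theorem GA.comap {R' X' : Subgroup A'ˣ} {m : ℕ} (h : GA F' R' X' m) :
    GA F (R'.comap (um φ)) (X'.comap (um φ)) m := fun S hS x h1 h3 => by
  rw [Subgroup.mem_comap, map_gt φ h2 h2' h1]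
  exact h _ (by simpa) _ (h1.map φ fun _ => id) (h3.map φ fun _ => id)

theorem GB.comap {R' X' : Subgroup A'ˣ} {m : ℕ} (h : GB F' R' X' m) :
    GB F (R'.comap (um φ)) (X'.comap (um φ)) m := fun S hS x h1 => by
  rw [Subgroup.mem_comap, map_gt φ h2 h2' h1]
  exact h _ (by simpa) _ (h1.map φ fun _ => id)

theorem Cl.comap {Y' : Subgroup A'ˣ} (h : Cl F' Y') : Cl F (Y'.comap (um φ)) := fun u hu h1 x hx h3 => by
  rw [Subgroup.mem_comap, map_ctl φ h2 h2' h1 h3]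
  exact h _ hu (by rw [← map_mul, h1, map_one]) _ hx (h3.map _)

omit h2 h2'

variable {φ} (hφ : Function.Injective φ)
include hφ

theorem um_inj : Function.Injective (um φ) := Units.map_injective hφ

theorem anti_um {a b : Aˣ} : Anti (um φ a) (um φ b) ↔ Anti a b :=
  ⟨fun h => um_inj hφ (by simpa [Anti] using h), (·.um φ)⟩

theorem rk_le_map [Finite A'] : rk R ≤ rk (R.map (um φ)) := by
  classical
  have h1 : ∀ a, LinearMap.funLeft K2 K2 (um φ) (chi (R.map (um φ)) (um φ a)) = chi R a := fun a =>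
    funext fun x => if_congr (and_congr (Subgroup.mem_map_iff_mem (um_inj hφ)) (anti_um hφ)) rfl rfl
  have h3 : Wsp R ≤ (Wsp (R.map (um φ))).map (LinearMap.funLeft K2 K2 (um φ)) :=
    Submodule.span_le.2 (by
      rintro _ ⟨a, ha, rfl⟩
      exact ⟨_, Submodule.subset_span ⟨_, ⟨a, ha, rfl⟩, rfl⟩, h1 a⟩)
  exact (Submodule.finrank_mono h3).trans (Submodule.finrank_map_le _ _)

theorem Ctx.map (hC : Ctx F R Y) (hR : Pauli F' (R.map (um φ))) :
    Ctx F' (R.map (um φ)) (Y.map (um φ)) := by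
  refine ⟨hR, ?_⟩
  rintro _ ⟨u, hu, rfl⟩ h1 _ ⟨x, hx, rfl⟩ h3
  replace h1 : u * u = 1 := um_inj hφ (by simpa using h1)
  replace h3 : Commute x u := um_inj hφ (by simpa using h3.eq)
  exact ⟨_, hC.gate u hu h1 x hx h3, map_ctl φ hC.p.two hR.two h1 h3⟩

theorem mem_NR_of_map {g : Aˣ} (h : um φ g ∈ NR (R.map (um φ))) : g ∈ NR R :=
  Subgroup.mem_normalizer_iff.2 fun a => by
    have := Subgroup.mem_normalizer_iff.1 h (um φ a)
    rwa [← map_inv, ← map_mul, ← map_mul, Subgroup.mem_map_iff_mem (um_inj hφ), Subgroup.mem_map_iff_mem (um_inj hφ)] at this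

omit hφ in
theorem Pauli.map (hR : Pauli F R) (h2 : (2 : F') ≠ 0)
    (h : ∀ m : A', (∀ a ∈ R, m * φ a = φ a * m) → ∃ c : F', m = algebraMap F' A' c) :
    Pauli F' (R.map (um φ)) where
  two := h2
  irr m hm := h m fun a ha => hm _ ⟨a, ha, rfl⟩
  sq := by
    rintro _ ⟨a, ha, rfl⟩
    rcases hR.sq a ha with e | e <;> simp [← map_mul, e]
  comm := by
    rintro _ ⟨a, ha, rfl⟩ _ ⟨b, hb, rfl⟩
    exact (hR.comm a ha b hb).imp (·.map _) (·.um φ)
  neg := ⟨-1, hR.neg, by simp⟩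

end map

theorem exists_ext.{u} (F : Type u) [Field F] [Finite F] : ∃ (F' : Type u) (_ : Field F') (_ : Algebra F F')
    (_ : Finite F'), ∃ i : F', i * i = -1 := by
  obtain ⟨i, hi⟩ := IsAlgClosed.exists_eq_mul_self (-1 : AlgebraicClosure F)
  have := IntermediateField.adjoin.finiteDimensional (K := F) (Algebra.IsIntegral.isIntegral i)
  exact ⟨IntermediateField.adjoin F {i}, inferInstance, inferInstance, Module.finite_of_finite F,
    IntermediateField.AdjoinSimple.gen F i, Subtype.ext hi.symm⟩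

theorem irr_tensor {F' : Type*} [Field F'] [Algebra F F'] [Finite F'] (hR : Pauli F R) (m : F' ⊗[F] A)
    (h : ∀ a ∈ R, m * (1 ⊗ₜ (a : A)) = (1 ⊗ₜ (a : A)) * m) : ∃ c : F', m = algebraMap F' _ c := by
  let b := finBasis F F'
  let L : Dual F F' → F' ⊗[F] A →ₗ[F] A := fun l => (TensorProduct.lid F A).toLinearMap ∘ₗ l.rTensor A
  have h1 : ∀ l (m : F' ⊗[F] A) (a : A), L l (m * 1 ⊗ₜ a) = L l m * a ∧ L l (1 ⊗ₜ a * m) = a * L l m :=
    fun l m a => by
      induction m using TensorProduct.induction_on with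
      | zero => simp
      | tmul x y => simp [L]
      | add x y hx hy => simp [mul_add, add_mul, hx, hy]
  have h3 : ∀ m : F' ⊗[F] A, m = ∑ i, b i ⊗ₜ L (b.coord i) m := fun m => by
    induction m using TensorProduct.induction_on with
    | zero => simp
    | tmul x y => simp [L, smul_tmul', ← sum_tmul]
    | add x y hx hy => simp only [map_add, tmul_add, Finset.sum_add_distrib, ← hx, ← hy]
  choose c hc using fun l => hR.irr (L l m) fun a ha => by rw [← (h1 l m a).1, h a ha, (h1 l m a).2]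
  refine ⟨∑ i, c (b.coord i) • b i, ?_⟩
  rw [h3 m]
  simp [hc, Algebra.algebraMap_eq_smul_one, Algebra.TensorProduct.one_def, sum_tmul, smul_tmul',
    Finset.sum_smul, ← smul_tmul]

variable [Nontrivial A] [Finite A]

/-- The main induction without a square root of `-1`. -/
theorem gates' [Finite F] (j : ℕ) (hC : Ctx F R Y) (hτ : Tau F Y) (hK : Nm K Y) (hKY : K ≤ Y)
    (hRK : R ≤ K) (hY : ¬ Y ≤ NR R) (hr : 5 + 2 * j < rk R) : GB F R K (j + 1) := by
  obtain ⟨F', _, _, _, hi⟩ := exists_ext F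
  let φ : A →+* F' ⊗[F] A := (Algebra.TensorProduct.includeRight : A →ₐ[F] F' ⊗[F] A).toRingHom
  have hφ : Function.Injective φ :=
    Algebra.TensorProduct.includeRight_injective (algebraMap F F').injective
  have := hφ.nontrivial
  have : Finite (F' ⊗[F] A) := Module.finite_of_finite F'
  have h2 : (2 : F') ≠ 0 := fun e => hC.p.two ((algebraMap F F').injective (by simpa [map_ofNat]))
  have hR := hC.p.map (φ := φ) h2 (irr_tensor hC.p)
  intro S hS x hx
  rw [← Subgroup.mem_map_iff_mem (um_inj hφ), map_gt φ hC.p.two h2 hx]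
  refine gates hi j (hC.map hφ hR) (Or.inr ?_) ?_ (Subgroup.map_mono hKY) (Subgroup.map_mono hRK)
    (fun e => hY fun g hg => mem_NR_of_map hφ (e ⟨g, hg, rfl⟩)) (hr.trans_le (rk_le_map hφ)) _
    (by simpa) _ (hx.map φ fun a ha => Subgroup.mem_map_of_mem _ ha)
  · obtain ⟨τ, hτ⟩ := hτ
    refine ⟨τ.baseChange F', ?_⟩
    rintro _ ⟨y, hy, rfl⟩
    rw [← map_inv]
    exact congrArg φ (hτ y hy)
  · rintro _ ⟨y, hy, rfl⟩ _ ⟨k, hk, rfl⟩
    exact ⟨_, hK y hy k hk, by simp⟩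

/-- The doubly controlled gates in the case of a scalar of order four. -/
theorem Ctx.ga_two (hC : Ctx F R Y) (hCK : Ctx F R K) (hK : Nm K Y) (hKY : K ≤ Y) (hI : HasI F R)
    (hr : 5 < rk R) (hY : ¬ Y ≤ NR R) : GA F R K 2 := by
  have hR := hC.p
  have hi : ∃ i : F, i * i = -1 := by
    obtain ⟨j, -, ⟨i, h1⟩, h2⟩ := hI
    exact ⟨i, (algebraMap F A).injective (by rw [map_mul, ← h1, ← Units.val_mul, h2]; simp)⟩
  rintro (_ | ⟨a, _ | ⟨v, _ | ⟨_, _⟩⟩⟩) hS x h ⟨hx, hw, hp, t, ht, hxt, hts⟩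
  · exact hCK.le h.1
  · obtain ⟨h1, h2, h3⟩ := h.2.1 a List.mem_cons_self
    exact hCK.gate a h1 h2 x h.1 h3
  swap
  · simp at hS
  obtain ⟨s, hs, hsa, hvs⟩ := List.pairwise_pair.1 hp
  have hta := hts a List.mem_cons_self
  have h0 := (hw a List.mem_cons_self).elim fun _ h => h.not_sc hR.two
  obtain ⟨h1, h2, h3⟩ := h.2.1 a List.mem_cons_self
  have ha := hR.invl h1 h2 h0
  have hab : Sc F (a * a⁻¹) := by simpa using sc_one
  have hrk := ha.rk_le hR h1 h0 hab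
  have hC1 := ha.ctx h1 h0 hab hC
  obtain ⟨g, hg, hg', e⟩ := hC1.exists_not_pm (ha.nm hK) (fun _ _ _ _ => ha.hasI hI)
    (Or.inl (ha.hasI hI)) (ha.comap_le hKY) (hCK.rs_le ha h1)
    fun e => hC.not_good (Or.inl hI) hi (Or.inl ⟨hI, hr⟩) hY h1 h2 h0 (ha.good_iff.2 e)
  have h4 := ha.ok h
  have h5 : Commute v a := (List.pairwise_pair.1 h.2.2).symm
  obtain ⟨h6, h7, h8⟩ := h4.2.1 _ List.mem_cons_self
  have := hC1.core_weak (ha.nm hK) (Or.inl ⟨ha.hasI hI, by omega⟩) hg hg' e h6 h7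
    ((ha.res_anti h5 hsa hvs).not_sc hR.two) h4.1 h8 ((ha.res_sq h3 hx).trans ha.res_neg_one)
    (ha.res_mem ht hta) (ha.res_comm hta h5 (hts v (by simp))) (ha.res_anti h3 hta hxt)
  change ctl F a (gt F [v] x) ∈ K
  rw [← ha.ext_res (h.comm_head hR.two), ha.res_gt h.tail h3 (List.pairwise_cons.1 h.2.2).1]
  exact this

/-- A doubly controlled gate does not normalise the Pauli group. -/
theorem GA.not_le (h : GA F R K 2) (hR : Pauli F R) (hr : 4 < rk R) : ¬ K ≤ NR R := fun hK => by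
  have h2 := hR.two
  obtain ⟨a, ha, ha2, h0, -⟩ := hR.exists_sing_comm (v := ![]) (by simp) (Or.inr (by omega))
  obtain ⟨z, hz, haz⟩ := hR.exists_anti ha h0
  obtain ⟨v, hv, y, hy, x, hx, t, ht, hv2, hx2, hvy, hxt, ⟨c1, c2, c3, c4⟩, ⟨d1, d2, d3, d4⟩,
    ⟨e1, e2⟩, e3, e4⟩ := hR.exists_three hr ha hz haz
  have h1 := hK (h [a, v] le_rfl x ⟨hx, by simp [*], by simp [c1.symm]⟩
    ⟨hx2, by simpa using ⟨⟨z, haz⟩, y, hvy⟩, by simpa using ⟨y, hy, c2, hvy⟩, t, ht, hxt, by simp [*]⟩)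
  have hc := (comm_ctl h2 hv2 e1 c1.symm c3.symm).symm
  have h3 := mul_mem (conj_mem h1 hz) (inv_mem hz)
  have h4 := conj_ctl h2 ha2 hc.inv_left z
  rw [haz.symm.conj_eq, (comm_ctl h2 hv2 e1 d1.symm d3.symm).inv_right.eq, mul_inv_cancel_right] at h4
  change ctl F a (ctl F v x) * z * (ctl F a (ctl F v x))⁻¹ * z⁻¹ ∈ R at h3
  rw [ctl_inv h2 ha2 hc, mul_assoc, mul_assoc, ← mul_assoc z, h4,
    ctl_ctl h2 ha2 hv2 c1.symm e1 c3 hx2] at h3
  have h5 : Commute (-(a * x)) v := (c1.symm.mul_left e1).neg_left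
  have h6 := ctl_conj_anti h2 hv2 h5 e2 (hxt.symm.comm_mul c4).neg_right
  rcases hR.comm _ h3 t ht with e | e
  · rw [e.eq, mul_inv_cancel_right, eq_comm, mul_eq_right] at h6
    exact hvy.not_sc h2 (h6 ▸ sc_one)
  · rw [e.conj_eq, ← neg_one_mul, mul_left_inj] at h6
    exact hvy.not_sc h2 (h6 ▸ sc_one.neg)

section main

variable (hR : Pauli F R) (hY : Cl F Y) (hRY : R ≤ Y) (hKY : K ≤ Y)
  (hK : ∀ a ∈ Y, ∀ b ∈ Y, a * b * a⁻¹ * b⁻¹ ∈ K)
include hR hY hRY hKY hK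

theorem nm_of_comm : Nm K Y := fun y hy k hk => by
  simpa using mul_mem (hK y hy k (hKY hk)) hk

theorem ctx_of_le (hr : 4 < rk R) (hX : K ⊓ NR R ≤ X) : Ctx F R X :=
  ⟨hR, fun u hu h1 x hx h3 => hX ⟨((hY.ctx hR hRY).of_commutator hr hK
    (nm_of_comm hR hY hRY hKY hK)).gate u hu h1 x hx h3, hR.ctl_mem_normalizer hu h1 hx h3⟩⟩

theorem main_tau [Finite F] (hτ : Tau F Y) {j : ℕ} (hj : 1 ≤ j) (hr : 5 + 2 * j < rk R) :
    ¬ K ≤ NR R ∧ ∀ X, K ⊓ NR R ≤ X → X ≤ K → ¬ X ≤ NR R → Ctx F R X ∧ GB F R X (j + 1) := by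
  have hC := hY.ctx hR hRY
  have hN := nm_of_comm hR hY hRY hKY hK
  refine ⟨((gates' j hC hτ hN hKY (hC.of_commutator (by omega) hK hN).le
    ((hY.gb hR.two hRY 2).ga.not_le hR (by omega)) hr).ga.mono (by omega)).not_le hR (by omega),
    fun X h1 h3 h4 => ?_⟩
  have hX := ctx_of_le hR hY hRY hKY hK (by omega) h1
  exact ⟨hX, gates' j hX (hτ.mono (h3.trans hKY)) nm_self le_rfl hX.le h4 hr⟩

theorem main_hasI (hI : HasI F R) (hr : 5 < rk R) :
    ¬ K ≤ NR R ∧ ∀ X, K ⊓ NR R ≤ X → ¬ X ≤ NR R → Ctx F R X ∧ GA F R X 2 := by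
  have hC := hY.ctx hR hRY
  have hN := nm_of_comm hR hY hRY hKY hK
  refine ⟨(hC.ga_two (hC.of_commutator (by omega) hK hN) hN hKY hI hr
    ((hY.gb hR.two hRY 2).ga.not_le hR (by omega))).not_le hR (by omega), fun X h1 h4 => ?_⟩
  have hX := ctx_of_le hR hY hRY hKY hK (by omega) h1
  exact ⟨hX, hX.ga_two hX nm_self le_rfl hI hr h4⟩

end main

end Cfsg.Agent.H8.C6
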