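import Cfsg.Agent.H8.C6J
import Cfsg.Agent.H7.C2Fr5
import Cfsg.Agent.Tens.Form

/-!
Gates acting on vectors, isometries, and the standard Pauli operators.
-/

set_option autoImplicit false
set_option linter.unusedSectionVars false

namespace Cfsg.Agent.H8.C6

open Module H7 H7.Polar H7.Fr Equiv

variable {F : Type*} [Field F]

section abstract

variable {A : Type*} [Ring A] [Algebra F A] {R R' Y X : Subgroup Aˣ}

theorem Ok.mono {S : List Aˣ} {x : Aˣ} (h : Ok R S x) (hR : R ≤ R') : Ok R' S x :=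
  ⟨hR h.1, fun s hs => ⟨hR (h.2.1 s hs).1, (h.2.1 s hs).2⟩, h.2.2⟩

theorem Wit.mono {S : List Aˣ} {x : Aˣ} (h : Wit R S x) (hR : R ≤ R') : Wit R' S x :=
  ⟨h.1, h.2.1, h.2.2.1.imp fun ⟨s, hs, e⟩ => ⟨s, hR hs, e⟩,
    h.2.2.2.elim fun t ht => ⟨t, hR ht.1, ht.2⟩⟩

theorem GA.inf {m : ℕ} (h : GA F R X m) (h2 : (2 : F) ≠ 0) (hY : Cl F Y) : GA F (R ⊓ Y) (X ⊓ Y) m :=
  fun S hS x h1 h3 => ⟨h S hS x (h1.mono inf_le_left) (h3.mono inf_le_left),
    hY.gb h2 inf_le_right m S hS x h1⟩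

theorem GB.inf {m : ℕ} (h : GB F R X m) (h2 : (2 : F) ≠ 0) (hY : Cl F Y) : GB F (R ⊓ Y) (X ⊓ Y) m :=
  fun S hS x h1 => ⟨h S hS x (h1.mono inf_le_left), hY.gb h2 inf_le_right m S hS x h1⟩

end abstract

section vec

variable {V : Type*} [AddCommGroup V] [Module F V] {R : Subgroup (End F V)ˣ}

/-- linear automorphisms as units -/
def UE : (V ≃ₗ[F] V) ≃* (End F V)ˣ := (LinearMap.GeneralLinearGroup.generalLinearEquiv F V).symm

@[simp] theorem UE_apply (g : V ≃ₗ[F] V) (v : V) : (UE g : End F V) v = g v := rfl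

@[simp] theorem UE_symm_apply (g : (End F V)ˣ) (v : V) : UE.symm g v = (g : End F V) v := rfl

theorem UE_val (g : V ≃ₗ[F] V) : (UE g : End F V) = g := rfl

theorem mul_app (g h : (End F V)ˣ) (v : V) : (g * h : (End F V)ˣ).1 v = g.1 (h.1 v) := rfl

theorem app_eq {g h : (End F V)ˣ} (e : g = h) (v : V) : g.1 v = h.1 v := by rw [e]

theorem Commute.app {g h : (End F V)ˣ} (e : Commute g h) (v : V) : g.1 (h.1 v) = h.1 (g.1 v) :=
  app_eq e.eq v

theorem Anti.app {g h : (End F V)ˣ} (e : Anti g h) (v : V) : g.1 (h.1 v) = -h.1 (g.1 v) :=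
  app_eq e.eq v

theorem half_add (h2 : (2 : F) ≠ 0) (v : V) : (2 : F)⁻¹ • (v + v) = v := by
  rw [← two_smul F, smul_smul, inv_mul_cancel₀ h2, one_smul]

theorem pe_apply (u : (End F V)ˣ) (v : V) : pe F u v = (2 : F)⁻¹ • (v - u.1 v) := rfl

variable (h2 : (2 : F) ≠ 0) {u x : (End F V)ˣ}
include h2

theorem ctl_apply (hu : u * u = 1) (hx : Commute x u) (v : V) :
    (ctl F u x).1 v = v + (2 : F)⁻¹ • (x.1 v - v - (u.1 (x.1 v) - u.1 v)) := by
  rw [ctl_val h2 hu hx]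
  simp [pe_apply]

theorem ctl_apply_neg (hu : u * u = 1) (hx : Commute x u) {v : V} (h : u.1 v = -v) :
    (ctl F u x).1 v = x.1 v := by
  rw [ctl_apply h2 hu hx, ← Commute.app hx, h, map_neg, ← neg_sub', sub_neg_eq_add, half_add h2]
  abel

theorem ctl_apply_pos (hu : u * u = 1) (hx : Commute x u) {v : V} (h : u.1 v = v) :
    (ctl F u x).1 v = v := by
  simp [ctl_apply h2 hu hx, ← Commute.app hx, h]

theorem gt_apply_neg {S : List (End F V)ˣ} (hS : Ok R S x) {v : V} (h : ∀ s ∈ S, s.1 v = -v) :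
    (gt F S x).1 v = x.1 v := by
  induction S with
  | nil => rfl
  | cons a S ih =>
    exact (ctl_apply_neg h2 (hS.2.1 a List.mem_cons_self).2.1 (hS.comm_head h2)
      (h a List.mem_cons_self)).trans (ih hS.tail fun s hs => h s (List.mem_cons_of_mem a hs))

theorem gt_apply_pos {S : List (End F V)ˣ} (hS : Ok R S x) {v : V} (h : ∃ s ∈ S, s.1 v = v) :
    (gt F S x).1 v = v := by
  induction S with
  | nil => simp at h
  | cons a S ih =>
    have h1 := (hS.2.1 a List.mem_cons_self).2.1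
    obtain ⟨s, hs, e⟩ := h
    rcases List.mem_cons.1 hs with rfl | hs
    · exact ctl_apply_pos h2 h1 (hS.comm_head h2) e
    · exact (ctl_apply h2 h1 (hS.comm_head h2) v).trans (by simp [ih hS.tail ⟨s, hs, e⟩])

omit h2

/-- the units preserving the form -/
def UP (P : Polar F V) : Subgroup (End F V)ˣ where
  carrier := {g | ∀ x y, P.B (g.1 x) (g.1 y) = P.B x y}
  mul_mem' ha hb x y := (ha _ _).trans (hb x y)
  one_mem' _ _ := rfl
  inv_mem' {g} ha x y := by rw [← ha, ← mul_app, ← mul_app, mul_inv_cancel]; rfl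

theorem cl_UP (h2 : (2 : F) ≠ 0) (P : Polar F V) : Cl F (UP P) := fun u hu h1 x hx h a b => by
  have e1 : ∀ a b, P.B (u.1 a) b = P.B a (u.1 b) := fun a b => by
    rw [← hu, ← mul_app, h1]; rfl
  have e2 := Commute.app h
  have e3 := hx a b
  have e4 := hx a (u.1 b)
  have e5 : ∀ a, u.1 (u.1 a) = a := app_eq h1
  simp only [ctl_apply h2 h1 h, map_add, map_sub, map_smul, LinearMap.add_apply, LinearMap.sub_apply,
    LinearMap.smul_apply, B_smul_right, e1, e5, map_inv₀, map_ofNat, smul_eq_mul, e3]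
  rw [e2] at e4
  rw [e4]
  field_simp
  ring

theorem tau_UP [Finite F] [FiniteDimensional F V] (P : Polar F V) (hσ : ∀ a, P.σ a = a) :
    Tau F (UP P) :=
  ⟨⟨⟨P.adj, P.adj_add⟩, fun c a => by simp [hσ]⟩, fun g hg => P.adj_eq_of fun z x => by
    rw [← hg, ← mul_app, mul_inv_cancel]; rfl⟩

theorem UE_mem_UP {P : Polar F V} {g : V ≃ₗ[F] V} (h : g ∈ P.Iso) : UE g ∈ UP P := h.1

theorem mem_UP_qP (h2 : (2 : F) ≠ 0) {Q : QuadraticForm F V} (hQ : ND Q) {g : V ≃ₗ[F] V} :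
    UE g ∈ UP (qP hQ) ↔ g ∈ (qP hQ).Iso :=
  ⟨fun h => (mem_qP_Iso hQ).2 fun x => mul_left_cancel₀ h2 (by
    rw [← polar_self', ← polar_self']; exact h x x), UE_mem_UP⟩

end vec

/-- signs -/
def sg (F : Type*) [Field F] (c : K2) : F := if c = 0 then 1 else -1

@[simp] theorem sg_zero : sg F 0 = 1 := rfl

@[simp] theorem sg_one : sg F 1 = -1 := rfl

theorem K2.cases (c : K2) : c = 0 ∨ c = 1 := by revert c; decide

theorem sg_add (c d : K2) : sg F (c + d) = sg F c * sg F d := by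
  rcases K2.cases c with rfl | rfl <;> rcases K2.cases d with rfl | rfl <;> simp [K2.add_self]

@[simp] theorem sg_mul_self (c : K2) : sg F c * sg F c = 1 := by rw [← sg_add, K2.add_self, sg_zero]

theorem sg_ne_zero (c : K2) : sg F c ≠ 0 := left_ne_zero_of_mul_eq_one (sg_mul_self c)

variable {κ : Type} [AddCommGroup κ] [Module K2 κ] [Fintype κ] [DecidableEq κ]

theorem k_add_self (t : κ) : t + t = 0 := by
  rw [← two_smul K2, show (2 : K2) = 0 from rfl, zero_smul]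

theorem k_add_eq_zero {s t : κ} : s + t = 0 ↔ s = t :=
  ⟨fun h => add_right_cancel (h.trans (k_add_self t).symm), fun h => h ▸ k_add_self s⟩

theorem ext_e {g h : (End F (κ → F))ˣ} (H : ∀ y, g.1 (e y) = h.1 (e y)) : g = h :=
  Units.ext ((Pi.basisFun F κ).ext fun y => by simpa [e] using H y)

variable (F) in
/-- diagonal Pauli operators -/
def Zs (φ : Dual K2 κ) (ε : K2) : (End F (κ → F))ˣ :=
  UE (LinearEquiv.ofInvolutive (LinearMap.pi fun y => sg F (φ y + ε) • LinearMap.proj y)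
    fun v => funext fun y => by simp [← mul_assoc])

variable (F) in
/-- translations -/
def Xs (t : κ) : (End F (κ → F))ˣ := UE (pm F (Equiv.addRight t))

theorem Zs_apply (φ : Dual K2 κ) (ε : K2) (v : κ → F) (y : κ) :
    (Zs F φ ε).1 v y = sg F (φ y + ε) * v y := rfl

@[simp] theorem Zs_e (φ : Dual K2 κ) (ε : K2) (y : κ) :
    (Zs F φ ε).1 (e y) = sg F (φ y + ε) • e y := funext fun z => by
  by_cases h : z = y <;> simp [Zs_apply, e_apply, h]

@[simp] theorem Xs_e (t y : κ) : (Xs F t).1 (e y) = e (y + t) := pm_e _ y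

theorem Zs_mul (φ ψ : Dual K2 κ) (ε δ : K2) : Zs F φ ε * Zs F ψ δ = Zs F (φ + ψ) (ε + δ) :=
  ext_e fun y => by simp [smul_smul, ← sg_add]; congr 2; abel

theorem Zs_comm (φ ψ : Dual K2 κ) (ε δ : K2) : Commute (Zs F φ ε) (Zs F ψ δ) := by
  rw [commute_iff_eq, Zs_mul, Zs_mul, add_comm φ, add_comm ε]

theorem Zs_sq (φ : Dual K2 κ) (ε : K2) : Zs F φ ε * Zs F φ ε = 1 :=
  ext_e fun y => by simp [smul_smul]

theorem Zs_one (φ : Dual K2 κ) : Zs F φ 1 = -Zs F φ 0 := ext_e fun y => by simp [sg_add]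

theorem Xs_mul (s t : κ) : Xs F s * Xs F t = Xs F (s + t) :=
  ext_e fun y => by simp [add_assoc, add_comm t]

theorem Xs_comm (s t : κ) : Commute (Xs F s) (Xs F t) := by
  rw [commute_iff_eq, Xs_mul, Xs_mul, add_comm]

theorem Xs_sq (t : κ) : Xs F t * Xs F t = 1 := ext_e fun y => by simp [add_assoc, k_add_self]

theorem XZ_comm {φ : Dual K2 κ} {t : κ} (h : φ t = 0) (ε : K2) : Commute (Xs F t) (Zs F φ ε) :=
  ext_e fun y => by simp [h]

theorem ZX_anti {φ : Dual K2 κ} {t : κ} (h : φ t = 1) (ε : K2) : Anti (Zs F φ ε) (Xs F t) :=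
  ext_e fun y => by simp [h, sg_add]

theorem ZX_sq {φ : Dual K2 κ} {t : κ} (h : φ t = 1) (ε : K2) :
    Zs F φ ε * Xs F t * (Zs F φ ε * Xs F t) = -1 := by
  rw [(ZX_anti h ε).mul_sq, Zs_sq, Xs_sq, mul_one]

theorem Zs_mem_UP (h2 : (2 : F) ≠ 0) (φ : Dual K2 κ) (ε : K2) : Zs F φ ε ∈ UP (qP (nd0 h2)) :=
  fun x y => by
    simp only [qP_B, polar_Q0, dotProduct, Zs_apply]
    congr 1
    exact Finset.sum_congr rfl fun i _ => by linear_combination x i * y i * sg_mul_self (F := F) (φ i + ε)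

theorem Xs_mem_UP (h2 : (2 : F) ≠ 0) (t : κ) : Xs F t ∈ UP (qP (nd0 h2)) :=
  UE_mem_UP (pm_mem_Iso h2 _)

/-- Gates supported on a coset of a subspace. -/
theorem exists_gate (h2 : (2 : F) ≠ 0) {R : Subgroup (End F (κ → F))ˣ} (hZ : ∀ φ ε, Zs F φ ε ∈ R)
    (hX : ∀ t, Xs F t ∈ R) (U : Submodule K2 κ) (c : κ) (φ : Dual K2 κ) (ε : K2) {t : κ} (ht : t ∈ U) :
    ∃ S : List (End F (κ → F))ˣ, S.length + finrank K2 U = finrank K2 κ ∧
      Ok R S (Zs F φ ε * Xs F t) ∧ (φ t = 1 → Wit R S (Zs F φ ε * Xs F t)) ∧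
        (∀ y, y + c ∈ U → (gt F S (Zs F φ ε * Xs F t)).1 (e y) = sg F (φ (y + t) + ε) • e (y + t)) ∧
        ∀ y, y + c ∉ U → (gt F S (Zs F φ ε * Xs F t)).1 (e y) = e y := by
  classical
  let b := finBasis K2 (κ ⧸ U)
  let ψ : Fin _ → Dual K2 κ := fun i => b.coord i ∘ₗ U.mkQ
  choose w hw using fun i => U.mkQ_surjective (b i)
  have h1 : ∀ i j, ψ i (w j) = if j = i then 1 else 0 := fun i j => by
    simp only [ψ, LinearMap.comp_apply, hw]
    simp [Finsupp.single_apply]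
  have h3 : ∀ y, y ∈ U ↔ ∀ i, ψ i y = 0 := fun y => by
    rw [← Submodule.Quotient.mk_eq_zero, ← b.forall_coord_eq_zero_iff]; rfl
  have hO : Ok R (List.ofFn fun i => Zs F (ψ i) (ψ i c + 1)) (Zs F φ ε * Xs F t) :=
    ⟨mul_mem (hZ _ _) (hX _), List.forall_mem_ofFn_iff.2 fun i => ⟨hZ _ _, Zs_sq _ _,
      (Zs_comm _ _ _ _).mul_left (XZ_comm ((h3 t).1 ht i) _)⟩,
      List.pairwise_ofFn.2 fun i j _ => Zs_comm _ _ _ _⟩
  refine ⟨_, by simpa using U.finrank_quotient_add_finrank, hO, fun h => ⟨ZX_sq h ε,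
    List.forall_mem_ofFn_iff.2 fun i => ⟨_, ZX_anti (t := w i) (by simp [h1]) _⟩,
    List.pairwise_ofFn.2 fun i j hij => ⟨_, hX (w j), XZ_comm (by simp [h1, hij.ne']) _,
      ZX_anti (by simp [h1]) _⟩, _, hZ φ 0, ((ZX_anti h 0).comm_mul (Zs_comm _ _ _ _)).symm,
    List.forall_mem_ofFn_iff.2 fun i => Zs_comm _ _ _ _⟩, fun y h => ?_, fun y h => ?_⟩
  · rw [gt_apply_neg h2 hO (List.forall_mem_ofFn_iff.2 fun i => ?_)]
    · simp
    · rw [Zs_e, ← add_assoc, ← map_add, (h3 _).1 h]; simp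
  · obtain ⟨i, hi⟩ := not_forall.1 ((h3 _).not.1 h)
    refine gt_apply_pos h2 hO ⟨_, (List.mem_ofFn' _ _).2 ⟨i, rfl⟩, ?_⟩
    rw [Zs_e, ← add_assoc, ← map_add, K2.eq_one hi, K2.add_self]; simp

end Cfsg.Agent.H8.C6
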