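import Cfsg.Agent.H8.C6K

/-!
Multiply controlled gates generate the orthogonal group of the standard form.
-/

set_option autoImplicit false
set_option linter.unusedSectionVars false

namespace Cfsg.Agent.H8.C6

open Module H7 H7.Polar H7.Fr Equiv

variable {F : Type*} [Field F] [Fintype F] {κ : Type} [Fintype κ] [DecidableEq κ]

theorem ext_e' {g h : (κ → F) ≃ₗ[F] (κ → F)} (H : ∀ y, g (e y) = h (e y)) : g = h :=
  LinearEquiv.toLinearMap_injective ((Pi.basisFun F κ).ext fun y => by simpa [e] using H y)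

variable (F) in
/-- the reflection in a basis vector -/
noncomputable abbrev rf (y : κ) : (κ → F) ≃ₗ[F] (κ → F) := rQ (Q0 F κ) (e y)

theorem rf_self (y : κ) : rf F y (e y) = -e y := funext fun z => by
  by_cases h : z = y <;> simp [rQ0_e, h, e_apply]

theorem rf_ne {y z : κ} (h : z ≠ y) : rf F y (e z) = e z := funext fun w => by
  by_cases h' : w = y <;> simp [rQ0_e, h', e_apply, h.symm]

theorem frame_gen (hp : (Fintype.card F).Prime) (h2 : (2 : F) ≠ 0) (hn : 7 ≤ Fintype.card κ)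
    {X : Subgroup ((κ → F) ≃ₗ[F] (κ → F))} (hX : X ≤ (qP (nd0 h2)).Iso)
    (h1 : ∀ y y', rf F y * rf F y' ∈ X)
    (h3 : ∀ Y : Subgroup ((κ → F) ≃ₗ[F] (κ → F)), (∀ y, rf F y ∈ Y) →
      (∀ g ∈ X, ∀ y, g (e y) = e y → g ∈ Y) → ∀ a b c d, a ≠ b → c ≠ d →
        pm F (swap a b * swap c d) ∈ Y)
    (h4 : ∃ g ∈ X, ∃ y y', g (e y) = e y ∧ 3 ≤ (supp (g (e y'))).card) : (qP (nd0 h2)).E ≤ X := by
  obtain ⟨g, hg, y, y', h5, h6⟩ := h4
  obtain ⟨Y, y1, y2, y3, y4⟩ := exists_refl_group hX (e y)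
  have y5 : ∀ g ∈ X, ∀ z, g (e z) = e z → g ∈ Y := fun g hg z h =>
    y4 g hg _ (h1 z y) (by rw [h]; exact h1 z y)
  have hY : RCtx h2 Y := ⟨y1, h3 Y (fun z => y3 _ (h1 z y)) y5, fun z => y3 _ (h1 z y)⟩
  have hE := hY.E_le hp hn (hY.map (y5 g hg y h5) (hY.root_e y')) (Or.inl h6)
  have hsq : ∀ g ∈ Y, g * g ∈ X := fun g hg => by
    rcases y2 g hg with e1 | e1
    · exact mul_mem e1 e1
    rcases y2 _ (inv_mem hg) with e2 | e2
    · simpa using inv_mem (mul_mem e2 e2)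
    · simpa [rQ_inv, mul_assoc, ← mul_assoc (rQ _ _), rQ_mul_self] using mul_mem e1 (inv_mem e2)
  refine E_le_of_EI fun u w c hu hw hc => ?_
  have hw' : (qP (nd0 h2)).B ((2 : F)⁻¹ • w) u = 0 := by rw [map_smul, LinearMap.smul_apply, hw, smul_zero]
  refine ⟨_, hsq _ (hE (eichE_mem_E hu hw' (qP_val_self _ _))), fun x => ?_⟩
  rw [LinearEquiv.mul_apply, eichE_apply, eichE_apply, eich_comp _ _ (sing_B hu) hw' hw', qP_B,
    ← Q_add, ← smul_add, half_add h2, (qP_val _).1 hc]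

variable [AddCommGroup κ] [Module K2 κ]

theorem mem_one {t x : κ} : x ∈ K2 ∙ t ↔ x = 0 ∨ x = t := by
  rw [Submodule.mem_span_singleton]
  refine ⟨?_, fun h => h.elim (⟨0, by simp [·]⟩) (⟨1, by simp [·]⟩)⟩
  rintro ⟨c, rfl⟩
  rcases K2.cases c with rfl | rfl <;> simp

theorem mem_two {t u x : κ} : x ∈ (K2 ∙ t) ⊔ (K2 ∙ u) ↔ x = 0 ∨ x = t ∨ x = u ∨ x = t + u := by
  simp only [Submodule.mem_sup, mem_one]
  constructor
  · rintro ⟨_, rfl | rfl, _, rfl | rfl, rfl⟩ <;> simp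
  · rintro (rfl | rfl | rfl | rfl)
    exacts [⟨0, .inl rfl, 0, .inl rfl, by simp⟩, ⟨_, .inr rfl, 0, .inl rfl, by simp⟩,
      ⟨0, .inl rfl, _, .inr rfl, by simp⟩, ⟨_, .inr rfl, _, .inr rfl, rfl⟩]

theorem k_add_eq {x y z : κ} : x + y = z ↔ x = y + z := by
  constructor <;> rintro rfl
  · rw [add_comm x, ← add_assoc, k_add_self, zero_add]
  · rw [add_comm y, add_assoc, k_add_self, add_zero]

theorem two_le_finrank {t u : κ} (ht : t ≠ 0) (hu : u ∉ K2 ∙ t) :
    2 ≤ finrank K2 ↥((K2 ∙ t) ⊔ (K2 ∙ u)) :=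
  (finrank_span_singleton (K := K2) ht).symm.trans_lt (Submodule.finrank_lt_finrank_of_lt
    (lt_of_le_of_ne le_sup_left fun h => hu (h ▸ Submodule.mem_sup_right
      (Submodule.mem_span_singleton_self u))))

theorem card_k : Fintype.card κ = 2 ^ finrank K2 κ := by
  simpa using Module.card_eq_pow_finrank (K := K2) (V := κ)

theorem seven_le_card (h : 3 ≤ finrank K2 κ) : 7 ≤ Fintype.card κ := by
  have := Nat.pow_le_pow_right two_pos h
  rw [card_k]; omega

variable (h2 : (2 : F) ≠ 0) {R X : Subgroup (End F (κ → F))ˣ} (hZ : ∀ φ ε, Zs F φ ε ∈ R)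
  (hX : ∀ t, Xs F t ∈ R) {m : ℕ}
include h2 hZ hX

theorem exists_good (hk : 3 ≤ finrank K2 κ) (h : GA F R X 2) :
    ∃ g ∈ X.comap UE.toMonoidHom, ∃ y y', g (e y) = e y ∧ 3 ≤ (supp (g (e y'))).card := by
  let b := finBasis K2 κ
  let v : Fin 3 → κ := fun i => b (i.castLE hk)
  let φ : Fin 3 → Dual K2 κ := fun i => b.coord (i.castLE hk)
  have h1 : ∀ i j, φ i (v j) = if j = i then 1 else 0 := fun i j => by
    simp [φ, v, Finsupp.single_apply]
  have h3 : Commute (Zs F (φ 2) 0 * Xs F (v 2)) (Xs F (v 1)) :=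
    (XZ_comm (by simp [h1]) _).symm.mul_left (Xs_comm _ _)
  have hO : Ok R [Zs F (φ 0) 0, Xs F (v 1)] (Zs F (φ 2) 0 * Xs F (v 2)) :=
    ⟨mul_mem (hZ _ _) (hX _), List.forall_mem_cons.2 ⟨⟨hZ _ _, Zs_sq _ _, (Zs_comm _ _ _ _).mul_left
      (XZ_comm (by simp [h1]) _)⟩, List.forall_mem_singleton.2 ⟨hX _, Xs_sq _, h3⟩⟩,
      List.pairwise_pair.2 (XZ_comm (by simp [h1]) _).symm⟩
  refine ⟨UE.symm _, by simpa using h _ le_rfl _ hO ⟨ZX_sq (by simp [h1]) _, List.forall_mem_cons.2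
    ⟨⟨_, ZX_anti (t := v 0) (by simp [h1]) _⟩, List.forall_mem_singleton.2
      ⟨_, (ZX_anti (φ := φ 1) (by simp [h1]) 0).symm⟩⟩,
    List.pairwise_pair.2 ⟨_, hZ (φ 1) 0, Zs_comm _ _ _ _, (ZX_anti (by simp [h1]) 0).symm⟩, _, hZ (φ 2) 0,
    ((ZX_anti (by simp [h1]) 0).comm_mul (Zs_comm _ _ _ _)).symm, List.forall_mem_cons.2
      ⟨Zs_comm _ _ _ _, List.forall_mem_singleton.2 (XZ_comm (by simp [h1]) _).symm⟩⟩, 0, v 0,
    gt_apply_pos h2 hO ⟨_, List.mem_cons_self, by simp⟩, ?_⟩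
  have h4 : ∀ i, v i ≠ 0 := fun i e => by simpa [e] using h1 i i
  have h5 : v 1 ≠ v 2 := fun e => by simpa [e, h1] using h1 2 1
  have h6 : v 1 + v 2 ≠ 0 := k_add_eq_zero.not.2 h5
  change 3 ≤ (supp ((ctl F (Zs F (φ 0) 0) (gt F [_] _)).1 _)).card
  rw [ctl_apply_neg h2 (Zs_sq _ _) (hO.comm_head h2) (by simp [h1]), gt, List.foldr_cons, List.foldr_nil,
    ctl_apply h2 (Xs_sq _) h3]
  refine (Finset.card_eq_three.2 ⟨v 0, v 0 + v 1, v 0 + v 2, by simp [h4], by simp [h4], by simp [h5],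
    rfl⟩).ge.trans (Finset.card_le_card ?_)
  simp [Finset.insert_subset_iff, e_apply, h1, h2, h4, h5, h5.symm, h6, add_assoc, add_comm (v 2),
    add_eq_right, eq_comm (a := v 1), eq_comm (a := v 2)]
  intro h
  exact one_ne_zero (α := F) (by field_simp at h; linear_combination h)

theorem stdA' (hp : (Fintype.card F).Prime) (hk : 3 ≤ finrank K2 κ) (hm : finrank K2 κ ≤ m + 1)
    (h : GA F R X m) (hU : X ≤ UP (qP (nd0 h2))) : (qP (nd0 h2)).E ≤ X.comap UE.toMonoidHom := by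
  have key : ∀ a b : κ, a ≠ b → pm F (swap a b) * rf F b ∈ X.comap UE.toMonoidHom := fun a b hab => by
    have ht := k_add_eq_zero.not.2 hab
    obtain ⟨φ, hφ⟩ := exists_dual_one' (F := K2) ht
    obtain ⟨S, h1, h3, h4, h5, h6⟩ := exists_gate h2 hZ hX (K2 ∙ (a + b)) a φ (φ b)
      (Submodule.mem_span_singleton_self _)
    rw [finrank_span_singleton ht] at h1
    change UE _ ∈ X
    convert h S (by omega) _ h3 (h4 hφ) using 1
    refine ext_e fun y => ?_
    by_cases e1 : y = a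
    · rw [e1, h5 a (by simp [k_add_self])]
      simp [rf_ne hab, pm_e, ← add_assoc, k_add_self, K2.add_self]
    by_cases e2 : y = b
    · rw [e2, h5 b (by simp [add_comm b]), add_comm a, ← add_assoc, k_add_self, zero_add, ← map_add, hφ]
      simp [rf_self, pm_e]
    · rw [h6 y (by simp [mem_one, k_add_eq_zero, Ne.symm e1, e2, add_comm y])]
      simp [rf_ne e2, pm_e, swap_apply_of_ne_of_ne e1 e2]
  refine frame_gen hp h2 (seven_le_card hk) (fun g hg => (mem_UP_qP h2 _).1 (hU hg)) (fun a b => ?_)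
    (fun Y h1 h3 => ?_) (exists_good h2 hZ hX hk (h.mono (by omega)))
  · by_cases hab : a = b
    · rw [hab, rQ_mul_self]; exact one_mem _
    have := mul_mem (key a b hab) (key a b hab)
    have h1 := rQ_conj (pm_mem_Iso h2 (swap a b)) (e b)
    rw [pm_e, swap_apply_right, inv_eq_of_mul_eq_one_right (show pm F (swap a b) * pm F (swap a b) = 1 by
      rw [← pm_mul, swap_mul_self, pm_one])] at h1
    rwa [← mul_assoc, h1] at this
  · have h4 : ∀ a b : κ, a ≠ b → pm F (swap a b) ∈ Y := fun a b hab => by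
      obtain ⟨y, -, -, -, -, -, hy, -⟩ := exists_notMem_three (S := {a, b})
        (by have := seven_le_card hk; have := Finset.card_le_two (a := a) (b := b); omega)
      simp only [Finset.mem_insert, Finset.mem_singleton, not_or] at hy
      exact (mul_mem_cancel_right (h1 b)).1 (h3 _ (key a b hab) y
        (by simp [rf_ne hy.2, pm_e, swap_apply_of_ne_of_ne hy.1 hy.2]))
    exact fun a b c d e1 e2 => mul_mem (h4 a b e1) (h4 c d e2)

theorem stdB' (hp : (Fintype.card F).Prime) (hk : 4 ≤ finrank K2 κ) (hm : finrank K2 κ ≤ m + 2)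
    (h : GB F R X m) (hU : X ≤ UP (qP (nd0 h2))) : (qP (nd0 h2)).E ≤ X.comap UE.toMonoidHom := by
  have hn := seven_le_card (κ := κ) (by omega)
  let P : Subgroup (Perm κ) := (X.comap UE.toMonoidHom).comap (MonoidHom.mk' (pm F) pm_mul)
  have k1 : ∀ t c d : κ, t ≠ 0 → swap c (c + t) * swap d (d + t) ∈ P := fun t c d ht => by
    by_cases hu : c + d ∈ K2 ∙ t
    · rcases mem_one.1 hu with e | e
      · rw [k_add_eq_zero.1 e, swap_mul_self]; exact one_mem _
      · rw [k_add_eq.1 e, add_assoc, k_add_self, add_zero, swap_comm, swap_mul_self]; exact one_mem _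
    obtain ⟨S, h1, h3, -, h5, h6⟩ := exists_gate h2 hZ hX ((K2 ∙ t) ⊔ K2 ∙ (c + d)) c 0 0
      (Submodule.mem_sup_left (Submodule.mem_span_singleton_self t))
    have := two_le_finrank ht hu
    change UE (pm F _) ∈ X
    convert h S (by omega) _ h3 using 1
    rw [mem_one, not_or, k_add_eq_zero, k_add_eq] at hu
    have h7 : d ≠ c + t := fun e => hu.2 (by rw [e, add_assoc, k_add_self, add_zero])
    have h8 : d + t ≠ c + t := by simpa using Ne.symm hu.1
    refine ext_e fun y => ?_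
    rw [UE_apply, pm_e]
    by_cases hy : y + c ∈ (K2 ∙ t) ⊔ K2 ∙ (c + d)
    · rw [h5 y hy]
      simp only [mem_two, k_add_eq, add_zero, ← add_assoc, k_add_self, zero_add, add_right_comm c t c] at hy
      rcases hy with rfl | rfl | rfl | rfl <;>
        simp [swap_apply_of_ne_of_ne, hu.1, hu.2, Ne.symm hu.1, Ne.symm hu.2, h7, h7.symm, h8, h8.symm,
          add_assoc, k_add_self, add_comm t]
    · rw [h6 y hy]
      simp only [mem_two, k_add_eq, add_zero, ← add_assoc, k_add_self, zero_add, add_right_comm c t c,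
        not_or, add_comm t] at hy
      simp [swap_apply_of_ne_of_ne, hy]
  have k2 : ∀ a t t' : κ, t ≠ 0 → t' ≠ 0 → swap a (a + t) * swap a (a + t') ∈ P := fun a t t' ht ht' => by
    by_cases e : t' = t
    · rw [e, swap_mul_self]; exact one_mem _
    have d1 := finrank_sup_span_le (K2 ∙ t) t'
    have d2 := finrank_span_singleton_le (F := K2) t
    obtain ⟨g, -, hg⟩ := exists_notMem_of_finrank_lt (U := (K2 ∙ t) ⊔ K2 ∙ t') (W := ⊤) (by simp; omega)
    have d3 := finrank_sup_span_le ((K2 ∙ t) ⊔ K2 ∙ t') g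
    obtain ⟨c, -, hc⟩ := exists_notMem_of_finrank_lt (U := ((K2 ∙ t) ⊔ K2 ∙ t') ⊔ K2 ∙ g) (W := ⊤)
      (by simp; omega)
    have h1 := k1 (t + t') (a + t) (a + g) (k_add_eq_zero.not.2 (Ne.symm e))
    have h3 := k1 t a (a + c) ht
    have h4 := mul_mem h3 (inv_mem (mul_mem (mul_mem h1 h3) (inv_mem h1)))
    have n : ∀ x ∈ ((K2 ∙ t) ⊔ K2 ∙ t') ⊔ K2 ∙ g, c ≠ x ∧ c + t ≠ x := fun x hx =>
      ⟨fun e => hc (e ▸ hx), fun e => hc (k_add_eq.1 e ▸ add_mem (Submodule.mem_sup_left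
        (Submodule.mem_sup_left (Submodule.mem_span_singleton_self t))) hx)⟩
    have m1 : t ∈ ((K2 ∙ t) ⊔ K2 ∙ t') ⊔ K2 ∙ g := Submodule.mem_sup_left (by simp [mem_two])
    have m2 : t' ∈ ((K2 ∙ t) ⊔ K2 ∙ t') ⊔ K2 ∙ g := Submodule.mem_sup_left (by simp [mem_two])
    have m3 : g ∈ ((K2 ∙ t) ⊔ K2 ∙ t') ⊔ K2 ∙ g := Submodule.mem_sup_right (by simp)
    have n4 := n _ (add_mem m3 (add_mem m1 m2))
    simp only [mem_two, not_or] at hg
    have g1 : 0 ≠ g + (t + t') := fun e => hg.2.2.2 (k_add_eq_zero.1 e.symm)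
    have g2 : t ≠ g + (t + t') := fun e => hg.2.2.1 (by
      rwa [add_left_comm, left_eq_add, k_add_eq_zero] at e)
    rw [← conj_mul, ← swap_apply_apply, ← swap_apply_apply] at h4
    simpa [add_assoc, ← add_assoc t t, k_add_self, swap_apply_of_ne_of_ne, n _ m1, n _ m2, n _ m3, n4, ht,
      ht', hg, g1, g1.symm, g2, Ne.symm hg.2.2.1, Ne.symm hg.2.1, mul_assoc] using h4
  refine frame_gen hp h2 hn (fun g hg => (mem_UP_qP h2 _).1 (hU hg)) (fun a b => ?_)
    (fun Y h1 h3 a b c d e1 e2 => ?_) (exists_good h2 hZ hX (by omega) (h.ga.mono (by omega)))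
  · by_cases hab : a = b
    · rw [hab, rQ_mul_self]; exact one_mem _
    have ht := k_add_eq_zero.not.2 hab
    have d2 := finrank_span_singleton_le (F := K2) (a + b)
    obtain ⟨u, -, hu⟩ := exists_notMem_of_finrank_lt (U := K2 ∙ (a + b)) (W := ⊤) (by simp; omega)
    obtain ⟨φ, e1, e2⟩ := exists_dual_one hu
    replace e2 := e2 _ (Submodule.mem_span_singleton_self _)
    obtain ⟨S, h1, h3, -, h5, h6⟩ := exists_gate h2 hZ hX ((K2 ∙ (a + b)) ⊔ K2 ∙ u) a φ (φ a + 1)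
      (zero_mem _)
    have := two_le_finrank ht hu
    change UE _ ∈ X
    convert h S (by omega) _ h3 using 1
    refine ext_e fun y => ?_
    by_cases e3 : y = a
    · rw [e3, h5 a (by simp [k_add_self])]
      simp [rf_ne hab, rf_self, ← add_assoc, K2.add_self]
    by_cases e4 : y = b
    · rw [e4, h5 b (by simp [mem_two, add_comm b]), add_zero, ← add_assoc, ← map_add, add_comm b, e2]
      simp [rf_self, rf_ne (Ne.symm hab)]
    rw [UE_apply, LinearEquiv.mul_apply, rf_ne e4, rf_ne e3]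
    by_cases hy : y + a ∈ (K2 ∙ (a + b)) ⊔ K2 ∙ u
    · rw [h5 y hy, add_zero, ← add_assoc, ← map_add]
      rcases mem_two.1 hy with e | e | e | e
      · exact (e3 (k_add_eq_zero.1 e)).elim
      · exact (e4 (by rwa [add_comm y, add_right_inj] at e)).elim
      · simp [e, e1, K2.add_self]
      · simp [e, e1, e2, K2.add_self]
    · rw [h6 y hy]
  · have e3 := mul_mem (k2 a (a + b) (c + d) (k_add_eq_zero.not.2 e1) (k_add_eq_zero.not.2 e2))
      (k1 (c + d) a c (k_add_eq_zero.not.2 e2))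
    rw [mul_assoc, swap_mul_self_mul, ← add_assoc, ← add_assoc c, k_add_self, k_add_self, zero_add,
      zero_add] at e3
    obtain ⟨y, -, -, -, -, -, hy, -⟩ := exists_notMem_three (S := {a, b, c, d})
      (by have := Finset.card_le_four (a := a) (b := b) (c := c) (d := d); omega)
    simp only [Finset.mem_insert, Finset.mem_singleton, not_or] at hy
    exact h3 _ e3 y (by simp [pm_e, swap_apply_of_ne_of_ne, hy])

theorem stdA (hp : (Fintype.card F).Prime) (hk : 3 ≤ finrank K2 κ) (hm : finrank K2 κ ≤ m + 1)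
    (h : GA F R X m) : (qP (nd0 h2)).E ≤ X.comap UE.toMonoidHom :=
  (stdA' (R := R ⊓ _) h2 (fun φ ε => ⟨hZ φ ε, Zs_mem_UP h2 φ ε⟩) (fun t => ⟨hX t, Xs_mem_UP h2 t⟩) hp hk hm
    (h.inf h2 (cl_UP h2 _)) inf_le_right).trans (Subgroup.comap_mono inf_le_left)

theorem stdB (hp : (Fintype.card F).Prime) (hk : 4 ≤ finrank K2 κ) (hm : finrank K2 κ ≤ m + 2)
    (h : GB F R X m) : (qP (nd0 h2)).E ≤ X.comap UE.toMonoidHom :=
  (stdB' (R := R ⊓ _) h2 (fun φ ε => ⟨hZ φ ε, Zs_mem_UP h2 φ ε⟩) (fun t => ⟨hX t, Xs_mem_UP h2 t⟩) hp hk hm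
    (h.inf h2 (cl_UP h2 _)) inf_le_right).trans (Subgroup.comap_mono inf_le_left)

end Cfsg.Agent.H8.C6
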