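import Cfsg.Agent.H8.C6L

/-!
Frames in a Pauli group.
-/

set_option autoImplicit false
set_option linter.unusedSectionVars false

namespace Cfsg.Agent.H8.C6

open Module H7 H7.Polar

variable {F : Type*} [Field F] {A : Type*} [Ring A] [Algebra F A] {R : Subgroup Aˣ}

/-- powers with exponent in the field with two elements -/
def pw (u : Aˣ) (c : K2) : Aˣ := if c = 0 then 1 else u

@[simp] theorem pw_zero (u : Aˣ) : pw u 0 = 1 := rfl

@[simp] theorem pw_one (u : Aˣ) : pw u 1 = u := rfl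

theorem pw_add {u : Aˣ} (hu : u * u = 1) (c d : K2) : pw u (c + d) = pw u c * pw u d := by
  rcases K2.cases c with rfl | rfl <;> rcases K2.cases d with rfl | rfl <;> simp [K2.add_self, hu]

theorem pw_mem {u : Aˣ} (hu : u ∈ R) (c : K2) : pw u c ∈ R := by
  rcases K2.cases c with rfl | rfl <;> simp [hu]

theorem comm_pw {x u : Aˣ} (h : Commute x u) (c : K2) : Commute x (pw u c) := by
  rcases K2.cases c with rfl | rfl <;> simp [h]

/-- A dual pair of elementary abelian subgroups. -/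
structure Fm (R : Subgroup Aˣ) (κ : Type) [AddCommGroup κ] [Module K2 κ] where
  /-- the diagonal part -/
  α : Dual K2 κ → Aˣ
  /-- the translation part -/
  β : κ → Aˣ
  α_mem : ∀ φ, α φ ∈ R
  β_mem : ∀ t, β t ∈ R
  α_add : ∀ φ ψ, α (φ + ψ) = α φ * α ψ
  β_add : ∀ s t, β (s + t) = β s * β t
  comm : ∀ φ t, φ t = 0 → Commute (α φ) (β t)
  anti : ∀ φ t, φ t = 1 → Anti (α φ) (β t)

/-- the commutator form as a bilinear map -/
noncomputable def Pauli.Bl [Nontrivial A] (hR : Pauli F R) : Wsp R →ₗ[K2] Wsp R →ₗ[K2] K2 := hR.pol.B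

namespace Fm

variable {κ : Type} [AddCommGroup κ] [Module K2 κ] (f : Fm R κ)

/-- commuting with the frame -/
def Cm {M : Type*} [Mul M] (ι : Aˣ → M) (x : M) : Prop :=
  (∀ φ, Commute x (ι (f.α φ))) ∧ ∀ t, Commute x (ι (f.β t))

theorem α_zero : f.α 0 = 1 := by simpa using f.α_add 0 0

theorem β_zero : f.β 0 = 1 := by simpa using f.β_add 0 0

theorem α_comm (φ ψ : Dual K2 κ) : Commute (f.α φ) (f.α ψ) := by
  rw [commute_iff_eq, ← f.α_add, ← f.α_add, add_comm]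

theorem β_comm (s t : κ) : Commute (f.β s) (f.β t) := by
  rw [commute_iff_eq, ← f.β_add, ← f.β_add, add_comm]

theorem β_sq (t : κ) : f.β t * f.β t = 1 := by
  rw [← f.β_add, ← two_smul K2, show (2 : K2) = 0 from rfl, zero_smul, β_zero]

variable {f}

theorem Cm.mul {x y : Aˣ} (h : f.Cm id x) (h' : f.Cm id y) : f.Cm id (x * y) :=
  ⟨fun φ => (h.1 φ).mul_left (h'.1 φ), fun t => (h.2 t).mul_left (h'.2 t)⟩

theorem Cm.val {x : Aˣ} (h : f.Cm id x) : f.Cm Units.val x :=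
  ⟨fun φ => (h.1 φ).units_val, fun t => (h.2 t).units_val⟩

theorem Cm.of_sc {x : Aˣ} (h : Sc F x) : f.Cm id x := ⟨fun _ => h.comm _, fun _ => h.comm _⟩

/-- extension of a frame -/
def ext {u w : Aˣ} (hu : u ∈ R) (hw : w ∈ R) (hu2 : u * u = 1) (hw2 : w * w = 1) (h : Anti u w)
    (hu' : f.Cm id u) (hw' : f.Cm id w) : Fm R (κ × K2) where
  α φ := f.α (φ ∘ₗ LinearMap.inl K2 κ K2) * pw u (φ (0, 1))
  β t := f.β t.1 * pw w t.2
  α_mem φ := mul_mem (f.α_mem _) (pw_mem hu _)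
  β_mem t := mul_mem (f.β_mem _) (pw_mem hw _)
  α_add φ ψ := by
    rw [LinearMap.add_comp, f.α_add, LinearMap.add_apply, pw_add hu2]
    exact ((comm_pw (hu'.1 _).symm _).mul_mul_mul_comm _ _)
  β_add s t := by
    rw [Prod.fst_add, f.β_add, Prod.snd_add, pw_add hw2]
    exact ((comm_pw (hw'.2 _).symm _).mul_mul_mul_comm _ _)
  comm φ t e := by
    obtain ⟨t, c⟩ := t
    have h1 := hu'.2 t
    have h2 := (hw'.1 (φ ∘ₗ LinearMap.inl K2 κ K2)).symm
    have h3 := f.comm (φ ∘ₗ LinearMap.inl K2 κ K2) t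
    have h4 := f.anti (φ ∘ₗ LinearMap.inl K2 κ K2) t
    rw [show (t, c) = (t, 0) + c • (0, 1) by simp, map_add, map_smul] at e
    rcases K2.cases c with rfl | rfl <;> rcases K2.cases (φ (0, 1)) with e' | e' <;> rw [e'] at e ⊢
    · simpa using h3 (by simpa using e)
    · simpa using (h3 (by simpa using e)).mul_left h1
    · simpa using (h3 (by simpa using e)).mul_right h2
    · exact (((h4 (by simpa [k_add_eq] using e)).mul_comm h2).symm.mul_anti
        (h.comm_mul h1).symm).symm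
  anti φ t e := by
    obtain ⟨t, c⟩ := t
    have h1 := hu'.2 t
    have h2 := (hw'.1 (φ ∘ₗ LinearMap.inl K2 κ K2)).symm
    have h3 := f.comm (φ ∘ₗ LinearMap.inl K2 κ K2) t
    have h4 := f.anti (φ ∘ₗ LinearMap.inl K2 κ K2) t
    rw [show (t, c) = (t, 0) + c • (0, 1) by simp, map_add, map_smul] at e
    rcases K2.cases c with rfl | rfl <;> rcases K2.cases (φ (0, 1)) with e' | e' <;> rw [e'] at e ⊢
    · simpa using h4 (by simpa using e)
    · simpa using ((h4 (by simpa using e)).symm.mul_comm h1.symm).symm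
    · simpa using (h4 (by simpa using e)).mul_comm h2
    · exact ((h.comm_mul h1).symm.comm_mul ((h3 (by simpa using e)).mul_right h2).symm).symm

variable [Nontrivial A] (hR : Pauli F R) (f)

/-- the classes of the diagonal part -/
noncomputable def aL : Dual K2 κ →ₗ[K2] Wsp R := (AddMonoidHom.mk' (fun φ => cl R (f.α φ)) fun φ ψ => by
  rw [f.α_add, hR.cl_mul (f.α_mem _) (f.α_mem _)]).toZModLinearMap 2

/-- the classes of the translation part -/
noncomputable def bL : κ →ₗ[K2] Wsp R := (AddMonoidHom.mk' (fun t => cl R (f.β t)) fun φ ψ => by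
  rw [f.β_add, hR.cl_mul (f.β_mem _) (f.β_mem _)]).toZModLinearMap 2

theorem B_aa (φ ψ : Dual K2 κ) : hR.Bl (f.aL hR φ) (f.aL hR ψ) = 0 :=
  (hR.B_eq_zero (f.α_mem _) (f.α_mem _)).2 (f.α_comm φ ψ)

theorem B_bb (s t : κ) : hR.Bl (f.bL hR s) (f.bL hR t) = 0 :=
  (hR.B_eq_zero (f.β_mem _) (f.β_mem _)).2 (f.β_comm s t)

theorem B_ab (φ : Dual K2 κ) (t : κ) : hR.Bl (f.aL hR φ) (f.bL hR t) = φ t := by
  rcases K2.cases (φ t) with e | e <;> rw [e]
  exacts [(hR.B_eq_zero (f.α_mem _) (f.β_mem _)).2 (f.comm φ t e),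
    (hR.B_eq_one (f.α_mem _) (f.β_mem _)).2 (f.anti φ t e)]

theorem cm_iff {x : Aˣ} (hx : x ∈ R) : f.Cm id x ↔
    (∀ φ, hR.Bl (cl R x) (f.aL hR φ) = 0) ∧ ∀ t, hR.Bl (cl R x) (f.bL hR t) = 0 :=
  and_congr (forall_congr' fun _ => (hR.B_eq_zero hx (f.α_mem _)).symm)
    (forall_congr' fun _ => (hR.B_eq_zero hx (f.β_mem _)).symm)

variable [Finite κ]
include hR

theorem proj {y : Aˣ} (hy : y ∈ R) : ∃ φ t, f.Cm id (y * f.α φ * f.β t) := by
  obtain ⟨t, ht⟩ := (evalEquiv K2 κ).surjective (hR.Bl (cl R y) ∘ₗ f.aL hR)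
  refine ⟨hR.Bl (cl R y) ∘ₗ f.bL hR, t, ?_⟩
  have h1 := mul_mem hy (f.α_mem (hR.Bl (cl R y) ∘ₗ f.bL hR))
  rw [f.cm_iff hR (mul_mem h1 (f.β_mem _)), hR.cl_mul h1 (f.β_mem _), hR.cl_mul hy (f.α_mem _)]
  change (∀ φ, hR.Bl (_ + f.aL hR _ + f.bL hR _) _ = 0) ∧ ∀ s, hR.Bl (_ + f.aL hR _ + f.bL hR _) _ = 0
  simp only [map_add, LinearMap.add_apply, f.B_aa, f.B_bb, f.B_ab, add_zero]
  refine ⟨fun φ => ?_, fun s => K2.add_self _⟩
  rw [show hR.Bl (f.bL hR t) _ = hR.Bl _ _ from hR.B_symm' _ _, f.B_ab, show φ t = evalEquiv K2 κ t φ from rfl, ht]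
  exact K2.add_self _

theorem comm_of {m : A} (hm : f.Cm Units.val m) {y : Aˣ} (hy : y ∈ R)
    (h : ∀ φ t, f.Cm id (y * f.α φ * f.β t) → Commute m (y * f.α φ * f.β t : Aˣ)) : m * y = y * m := by
  obtain ⟨φ, t, h1⟩ := f.proj hR hy
  simpa using (((h φ t h1).mul_right (hm.2 t).units_inv_right).mul_right (hm.1 φ).units_inv_right).eq

theorem exists_anti {x : Aˣ} (hx : x ∈ R) (h : f.Cm id x) (h0 : ¬ Sc F x) :
    ∃ w ∈ R, f.Cm id w ∧ Anti x w := by
  obtain ⟨w, hw, h1⟩ := hR.exists_anti hx h0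
  obtain ⟨φ, t, h2⟩ := f.proj hR hw
  exact ⟨_, mul_mem (mul_mem hw (f.α_mem _)) (f.β_mem _), h2, (h1.mul_comm (h.1 φ)).mul_comm (h.2 t)⟩

variable [Finite A]

theorem finrank_range : finrank K2 (LinearMap.range ((f.aL hR).coprod (f.bL hR))) = 2 * finrank K2 κ := by
  rw [LinearMap.finrank_range_of_inj, finrank_prod, Subspace.dual_finrank_eq, two_mul]
  refine (injective_iff_map_eq_zero _).2 fun x hx => ?_
  rw [LinearMap.coprod_apply] at hx
  refine Prod.ext (LinearMap.ext fun t => ?_) ((forall_dual_apply_eq_zero_iff K2 _).1 fun φ => ?_)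
  · simpa [f.B_ab, f.B_bb] using congrArg (hR.Bl · (f.bL hR t)) hx
  · simpa [f.B_ab, f.B_aa] using congrArg (hR.Bl (f.aL hR φ)) hx

include f in
theorem rk_ge : 2 * finrank K2 κ ≤ rk R := f.finrank_range hR ▸ Submodule.finrank_le _

theorem rk_ge' {d d' : Aˣ} (hd : d ∈ R) (hd' : d' ∈ R) (h : f.Cm id d) (h' : f.Cm id d')
    (e : Anti d d') : 2 * finrank K2 κ + 2 ≤ rk R := by
  have key : ∀ x ∈ R, f.Cm id x → LinearMap.range ((f.aL hR).coprod (f.bL hR)) ≤ hR.pol.pp (cl R x) := by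
    rintro x hx h _ ⟨y, rfl⟩
    rw [f.cm_iff hR hx] at h
    exact hR.pol.B_symm (show hR.Bl (cl R x) (f.aL hR y.1 + f.bL hR y.2) = 0 by simp [h.1, h.2])
  have h1 := (hR.B_eq_one hd hd').2 e
  have h2 := Submodule.finrank_lt_finrank_of_lt (lt_of_le_of_ne
    (le_sup_left (a := LinearMap.range ((f.aL hR).coprod (f.bL hR))) (b := K2 ∙ cl R d))
    fun e => one_ne_zero (h1.symm.trans (key d' hd' h'
      (e ▸ Submodule.mem_sup_right (Submodule.mem_span_singleton_self _)))))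
  have h3 := Submodule.finrank_lt (s := _ ⊔ K2 ∙ cl R d) fun e => one_ne_zero
    (((hR.B_symm' _ _).trans h1).symm.trans (sup_le (key d hd h)
      ((Submodule.span_singleton_le_iff_mem _ _).2 (hR.B_self _)) (e ▸ Submodule.mem_top)))
  rw [f.finrank_range hR] at h2
  rw [rk]; omega

variable (F) in
/-- no nonscalar involution commutes with the frame -/
def Max : Prop := ∀ u ∈ R, f.Cm id u → u * u = 1 → Sc F u

variable {f}

theorem Max.sc (h : f.Max F) (hI : HasI F R) {x : Aˣ} (hx : x ∈ R) (hx' : f.Cm id x) : Sc F x := by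
  obtain ⟨j, hj, h1, h2⟩ := hI
  refine (hR.sq x hx).elim (h x hx hx') fun e => ?_
  simpa using h1.inv.mul (h _ (mul_mem hj hx) ((Cm.of_sc h1).mul hx')
    (by rw [comm_mul_sq (h1.comm x), h2, e]; simp))

omit [Finite A] in
theorem scal (h : ∀ x ∈ R, f.Cm id x → Sc F x) {m : A} (hm : f.Cm Units.val m) :
    ∃ c, m = algebraMap F A c :=
  hR.irr m fun _ hy => f.comm_of hR hm hy fun _ _ h1 => by
    obtain ⟨c, hc⟩ := h _ (mul_mem (mul_mem hy (f.α_mem _)) (f.β_mem _)) h1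
    exact hc ▸ (Algebra.commutes c m).symm

theorem Max.quat (h : f.Max F) {d : Aˣ} (hd : d ∈ R) (hd' : f.Cm id d) (h0 : ¬ Sc F d) :
    ∃ d' ∈ R, f.Cm id d' ∧ Anti d d' ∧ d * d = -1 ∧ d' * d' = -1 ∧ ∀ m : A, f.Cm Units.val m →
      ∃ a b c e : F, m = algebraMap F A a + b • (d : A) + c • (d' : A) + e • (d * d' : A) := by
  obtain ⟨w, hw, h1, h2⟩ := f.exists_anti hR hd hd' h0
  have h3 := (hR.sq d hd).resolve_left fun e => h0 (h d hd hd' e)
  have h4 := (hR.sq w hw).resolve_left fun e => h2.symm.not_sc hR.two (h w hw h1 e)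
  have key : ∀ m : A, f.Cm Units.val m → Commute m d → ∃ a b : F, m = algebraMap F A a + b • (d : A) :=
    fun m hm e => hR.cent hd h0 fun y hy e' => f.comm_of hR hm hy fun φ t h5 => by
      have h6 : Commute (y * f.α φ * f.β t) d := (e'.mul_left (hd'.1 φ).symm).mul_left (hd'.2 t).symm
      have h7 := mul_mem (mul_mem hy (f.α_mem φ)) (f.β_mem t)
      generalize y * f.α φ * f.β t = x at *
      rcases hR.sq x h7 with e1 | e1
      · obtain ⟨c, hc⟩ := h x h7 h5 e1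
        exact hc ▸ (Algebra.commutes c m).symm
      · obtain ⟨c, hc⟩ := h _ (mul_mem h7 hd) (h5.mul hd') (by rw [comm_mul_sq h6, e1, h3]; simp)
        have h8 : Commute m (x * d : Aˣ) := hc ▸ (Algebra.commutes c m).symm
        simpa using h8.mul_right e.units_inv_right
  refine ⟨w, hw, h1, h2, h3, h4, fun m hm => ?_⟩
  have e1 : (d : A) * d = -1 := congrArg Units.val h3
  have e2 : (w : A) * w = -1 := congrArg Units.val h4
  have e3 : (d : A) * w = -(w * d) := congrArg Units.val h2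
  have h5 : f.Cm Units.val (d * m * d) :=
    ⟨fun φ => ((hd'.val.1 φ).mul_left (hm.1 φ)).mul_left (hd'.val.1 φ),
      fun φ => ((hd'.val.2 φ).mul_left (hm.2 φ)).mul_left (hd'.val.2 φ)⟩
  obtain ⟨a, b, hab⟩ := key (m - d * m * d) ⟨fun φ => (hm.1 φ).sub_left (h5.1 φ),
    fun φ => (hm.2 φ).sub_left (h5.2 φ)⟩ (by
      rw [commute_iff_eq, sub_mul, mul_sub, mul_assoc, e1, ← mul_assoc, ← mul_assoc, e1]
      noncomm_ring)
  obtain ⟨c, e, hce⟩ := key ((m + d * m * d) * w)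
    ⟨fun φ => ((hm.1 φ).add_left (h5.1 φ)).mul_left (h1.val.1 φ),
      fun φ => ((hm.2 φ).add_left (h5.2 φ)).mul_left (h1.val.2 φ)⟩ (by
      rw [commute_iff_eq, mul_assoc, ← neg_neg (_ * _ : A), ← neg_eq_iff_eq_neg.2 e3, neg_neg, mul_neg,
        ← mul_assoc, ← mul_assoc, add_mul, mul_add, mul_assoc _ (d : A), e1, ← mul_assoc, ← mul_assoc, e1]
      noncomm_ring)
  have h6 := congrArg (· * (w : A)) hce
  simp only [mul_assoc, e2, add_mul, ← Algebra.smul_def, smul_mul_assoc, mul_neg, mul_one] at h6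
  refine ⟨2⁻¹ * a, 2⁻¹ * b, -(2⁻¹ * c), -(2⁻¹ * e), ?_⟩
  rw [map_mul, ← Algebra.smul_def, mul_smul, ← smul_add, ← hab, add_assoc, neg_smul, neg_smul, ← neg_add,
    mul_smul, mul_smul, ← smul_add, ← h6, ← smul_neg, ← smul_add, mul_assoc, eq_comm]
  convert half_two hR.two m using 2
  abel

end Fm

theorem Pauli.exists_frame [Nontrivial A] [Finite A] (hR : Pauli F R) : ∃ (κ : Type) (_ : AddCommGroup κ)
    (_ : Module K2 κ) (_ : Fintype κ) (_ : DecidableEq κ) (f : Fm R κ), f.Max F := by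
  classical
  let P : ℕ → Prop := fun n => ∃ (κ : Type) (_ : AddCommGroup κ) (_ : Module K2 κ) (_ : Fintype κ)
    (_ : Fm R κ), finrank K2 κ = n
  obtain ⟨κ, _, _, _, f, hf⟩ := Nat.findGreatest_spec (P := P) (Nat.zero_le (rk R))
    ⟨PUnit, inferInstance, inferInstance, inferInstance, ⟨fun _ => 1, fun _ => 1, by simp, by simp,
      by simp, by simp, by simp, fun φ t h => by rw [Subsingleton.elim t 0, map_zero] at h; exact absurd h zero_ne_one⟩, finrank_zero_of_subsingleton⟩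
  refine ⟨κ, _, _, inferInstance, inferInstance, f, fun u hu h1 h2 => ?_⟩
  by_contra h0
  obtain ⟨w, hw, h3, h4, h5⟩ : ∃ w ∈ R, f.Cm id w ∧ Anti u w ∧ w * w = 1 := by
    obtain ⟨w, hw, h3, h4⟩ := f.exists_anti hR hu h1 h0
    exact (hR.sq w hw).elim (⟨w, hw, h3, h4, ·⟩) fun e => ⟨_, mul_mem hu hw, h1.mul h3,
      h4.comm_mul (Commute.refl u), by simp [h4.mul_sq, h2, e]⟩
  have h6 := (Fm.ext hu hw h2 h5 h4 h1 h3).rk_ge hR
  rw [finrank_prod, finrank_self] at h6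
  exact Nat.findGreatest_is_greatest (P := P) (k := finrank K2 κ + 1) (n := rk R) (by omega) (by omega)
    ⟨_, _, _, inferInstance, Fm.ext hu hw h2 h5 h4 h1 h3, by rw [finrank_prod, finrank_self]⟩

end Cfsg.Agent.H8.C6
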