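import Cfsg.Agent.H8.C6M
import Cfsg.Agent.Tens.Level3

/-!
The tensor structure attached to a frame.
-/

set_option autoImplicit false
set_option linter.unusedSectionVars false

namespace Cfsg.Agent.H8.C6

open Module H7 H7.Polar H7.Fr Tens

variable {F : Type*} [Field F]

theorem sum_sg (h2 : (2 : F) ≠ 0) {G : Type*} [AddCommGroup G] [Module K2 G] [Fintype G]
    {φ : Dual K2 G} (h : φ ≠ 0) : ∑ g, sg F (φ g) = 0 := by
  obtain ⟨g, hg⟩ := DFunLike.ne_iff.1 h
  have := Equiv.sum_comp (Equiv.addRight g) fun x => sg F (φ x)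
  simp only [Equiv.coe_addRight, map_add, K2.eq_one hg, sg_add, sg_one, mul_neg, mul_one,
    Finset.sum_neg_distrib] at this
  exact mul_left_cancel₀ h2 (by linear_combination -this)

variable {V : Type*} [AddCommGroup V] [Module F V] {R : Subgroup (End F V)ˣ}
  {κ : Type} [AddCommGroup κ] [Module K2 κ] [Fintype κ] [DecidableEq κ]

noncomputable instance : Fintype (Dual K2 κ) := @Fintype.ofFinite _ (DFunLike.finite _)

theorem card_dual : Fintype.card (Dual K2 κ) = Fintype.card κ := by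
  rw [Module.card_eq_pow_finrank (K := K2), Subspace.dual_finrank_eq, ← Module.card_eq_pow_finrank]

theorem card_ne_zero (h2 : (2 : F) ≠ 0) : (Fintype.card κ : F) ≠ 0 := by
  simpa [card_k] using fun h => (h2 h).elim

namespace Fm

variable (f : Fm R κ)

/-- the common fixed space of the diagonal part -/
def V0 : Submodule F V where
  carrier := {v | ∀ φ, (f.α φ).1 v = v}
  add_mem' h h' φ := by rw [map_add, h, h']
  zero_mem' φ := map_zero _
  smul_mem' c v h φ := by rw [map_smul, h]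

theorem αβ (φ : Dual K2 κ) (t : κ) (v : V) :
    (f.α φ).1 ((f.β t).1 v) = sg F (φ t) • (f.β t).1 ((f.α φ).1 v) := by
  rcases K2.cases (φ t) with e | e <;> rw [e]
  · simpa using Commute.app (f.comm φ t e) v
  · simpa using (f.anti φ t e).app v

theorem ββ (s t : κ) (v : V) : (f.β s).1 ((f.β t).1 v) = (f.β (s + t)).1 v := by rw [f.β_add]; rfl

/-- the projection to the fixed space -/
noncomputable def π : V →ₗ[F] f.V0 :=
  LinearMap.codRestrict _ ((Fintype.card κ : F)⁻¹ • ∑ φ, (f.α φ).1) fun v ψ => by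
    simp only [LinearMap.smul_apply, LinearMap.sum_apply, map_smul, map_sum, ← mul_app, ← f.α_add]
    exact congrArg _ (Equiv.sum_comp (Equiv.addLeft ψ) fun φ => (f.α φ).1 v)

theorem π_val (v : V) : (f.π v : V) = (Fintype.card κ : F)⁻¹ • ∑ φ, (f.α φ).1 v := by
  rw [← LinearMap.sum_apply]; rfl

variable (h2 : (2 : F) ≠ 0)
include h2

theorem π_β (t : κ) (v : f.V0) : f.π ((f.β t).1 v) = if t = 0 then v else 0 := by
  refine Subtype.ext ?_
  simp only [π_val, αβ, v.2 _, ← Finset.sum_smul, smul_smul]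
  split_ifs with h
  · simp [h, card_dual, card_ne_zero h2, β_zero]
  · rw [show ∑ φ : Dual K2 κ, sg F (φ t) = 0 from sum_sg h2 (φ := evalEquiv K2 κ t)
      ((evalEquiv K2 κ).map_ne_zero_iff.2 h)]
    simp

theorem sum_β_π (v : V) : ∑ t, (f.β t).1 (f.π ((f.β t).1 v)) = v := by
  have h1 : ∀ t w, (f.β t).1 ((f.β t).1 w) = w := fun t => app_eq (f.β_sq t)
  simp only [π_val, αβ, map_smul, map_sum, h1, ← Finset.smul_sum]
  rw [Finset.sum_comm, Finset.sum_eq_single 0 (fun φ _ h => by rw [← Finset.sum_smul, sum_sg h2 h, zero_smul])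
    (by simp)]
  simp [α_zero, ← Nat.cast_smul_eq_nsmul F, card_ne_zero h2]

/-- the decomposition into eigenspaces -/
noncomputable def eqv : (κ → f.V0) ≃ₗ[F] V where
  toFun v := ∑ t, (f.β t).1 (v t)
  map_add' v w := by simp [Finset.sum_add_distrib]
  map_smul' c v := by simp [Finset.smul_sum]
  invFun v t := f.π ((f.β t).1 v)
  left_inv v := funext fun t => by simp [ββ, π_β f h2, k_add_eq_zero]
  right_inv := f.sum_β_π h2

/-- the tensor structure -/
noncomputable def ts : Tens.TS F (κ → F) f.V0 V :=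
  ⟨TensorProduct.comm F _ _ ≪≫ₗ TensorProduct.piScalarRight F F f.V0 κ ≪≫ₗ f.eqv h2⟩

theorem ts_tp (u : κ → F) (v : f.V0) : (f.ts h2).tp u v = ∑ t, u t • (f.β t).1 v := by
  simp [ts, eqv, Tens.TS.tp_def]

theorem ts_e (y : κ) (v : f.V0) : (f.ts h2).tp (e y) v = (f.β y).1 v := by
  simp [ts_tp, e_apply]

theorem ts_ext {g g' : End F V} (h : ∀ y (v : f.V0), g ((f.β y).1 v) = g' ((f.β y).1 v)) : g = g' :=
  (f.ts h2).ext fun u v => by simp [ts_tp, h]

/-- the embedding of the standard algebra -/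
noncomputable def Θ : End F (κ → F) →+* End F V where
  toFun a := (f.ts h2).K a 1
  map_one' := Tens.TS.K_one _
  map_mul' a b := by rw [Tens.TS.K_mul, mul_one]
  map_zero' := by simp
  map_add' a b := by simp

theorem Θ_β (a : End F (κ → F)) (y : κ) (v : f.V0) :
    f.Θ h2 a ((f.β y).1 v) = (f.ts h2).tp (a (e y)) v := by
  rw [← f.ts_e h2]; exact Tens.TS.K_tp _ _ _ _ _

theorem Θ_Zs (φ : Dual K2 κ) : um (f.Θ h2) (Zs F φ 0) = f.α φ :=
  Units.ext (f.ts_ext h2 fun y v => by simp [Θ_β, ts_e, αβ, v.2 _])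

theorem Θ_Xs (t : κ) : um (f.Θ h2) (Xs F t) = f.β t :=
  Units.ext (f.ts_ext h2 fun y v => by simp [Θ_β, ts_e, ββ, add_comm])

theorem Θ_UE (g : (κ → F) ≃ₗ[F] (κ → F)) : um (f.Θ h2) (UE g) = UE ((f.ts h2).KL g) := rfl

theorem Zs_mem (h : -1 ∈ R) (φ : Dual K2 κ) (ε : K2) : um (f.Θ h2) (Zs F φ ε) ∈ R := by
  rcases K2.cases ε with rfl | rfl
  · exact f.Θ_Zs h2 φ ▸ f.α_mem φ
  · simpa [Zs_one, Θ_Zs] using mul_mem h (f.α_mem φ)

theorem Xs_mem (t : κ) : um (f.Θ h2) (Xs F t) ∈ R := f.Θ_Xs h2 t ▸ f.β_mem t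

theorem cm_K (b : End F f.V0) : f.Cm Units.val ((f.ts h2).K 1 b) := by
  have key : ∀ a, Commute ((f.ts h2).K 1 b) (f.Θ h2 a) := fun a => by
    change _ * (f.ts h2).K a 1 = (f.ts h2).K a 1 * _
    simp [Tens.TS.K_mul]
  exact ⟨fun φ => f.Θ_Zs h2 φ ▸ key _, fun t => f.Θ_Xs h2 t ▸ key _⟩

omit h2 in
/-- restriction to the fixed space -/
def res {m : End F V} (hm : f.Cm Units.val m) : End F f.V0 :=
  m.restrict fun v hv φ => (LinearMap.congr_fun (hm.1 φ).eq v).symm.trans (congrArg m (hv φ))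

theorem K_res {m : End F V} (hm : f.Cm Units.val m) : (f.ts h2).K 1 (f.res hm) = m :=
  f.ts_ext h2 fun y v => by
    conv_lhs => rw [← f.ts_e h2, Tens.TS.K_tp, End.one_apply, ts_e]
    exact (LinearMap.congr_fun (hm.2 y).eq v).symm

theorem K_inj {b b' : End F f.V0} (h : (f.ts h2).K 1 b = (f.ts h2).K 1 b') : b = b' :=
  (f.ts h2).flip.K_one_inj (by simpa using h)

variable [FiniteDimensional F V]

theorem finrank_eq : finrank F V = 2 ^ finrank K2 κ * finrank F f.V0 := by
  rw [← (f.ts h2).e.finrank_eq, finrank_tensorProduct, finrank_fintype_fun_eq_card, card_k]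

omit h2 in
theorem finrank_le {k : ℕ} (s : Fin (k * k) → End F f.V0) (h : ⊤ ≤ Submodule.span F (Set.range s)) :
    finrank F f.V0 ≤ k := by
  have := finrank_le_of_span_eq_top (top_le_iff.1 h)
  rw [finrank_linearMap, Fintype.card_fin] at this
  exact Nat.mul_self_le_mul_self_iff.1 this

variable [Nontrivial V] (hR : Pauli F R)
include hR

theorem finrank_V0 (h : ∀ x ∈ R, f.Cm id x → Sc F x) : finrank F f.V0 = 1 := by
  have h1 := f.finrank_le (k := 1) (fun _ => 1) fun b _ => by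
    obtain ⟨c, hc⟩ := Fm.scal hR h (f.cm_K h2 b)
    rw [f.K_inj h2 (b := b) (b' := c • 1) (by simpa [Algebra.algebraMap_eq_smul_one] using hc)]
    exact Submodule.smul_mem _ _ (Submodule.subset_span ⟨0, rfl⟩)
  have h3 := f.finrank_eq h2
  have h4 := finrank_pos (R := F) (M := V)
  interval_cases finrank F f.V0 <;> omega

omit h2

variable (P : Polar F V) (hP : R ≤ UP P)
include hP

theorem B_β (s t : κ) (v w : f.V0) :
    P.B ((f.β s).1 v) ((f.β t).1 w) = if s = t then P.B v w else 0 := by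
  split_ifs with h
  · rw [h, hP (f.β_mem t)]
  obtain ⟨φ, hφ⟩ := exists_dual_one' (F := K2) (k_add_eq_zero.not.2 h)
  have h1 := hP (f.α_mem φ) ((f.β s).1 v) ((f.β t).1 w)
  rw [αβ, αβ, v.2, w.2] at h1
  rw [map_add, k_add_eq] at hφ
  refine mul_left_cancel₀ hR.two ?_
  rcases K2.cases (φ t) with e | e <;> simp [hφ, e, K2.add_self] at h1 <;> linear_combination -h1

theorem B_tp (u u' : κ → F) (v w : f.V0) : P.B ((f.ts hR.two).tp u v) ((f.ts hR.two).tp u' w) =
    (∑ t, u t * P.σ (u' t)) * P.B v w := by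
  simp [ts_tp, map_sum, f.B_β hR P hP, Finset.sum_mul, mul_assoc, mul_left_comm]

theorem nondeg (v : f.V0) (h : ∀ w : f.V0, P.B w v = 0) : v = 0 :=
  Subtype.ext (P.nondeg _ fun x => by
    have : P.B.flip v = 0 := (f.ts hR.two).ext fun u w => by
      have := f.B_tp hR P hP u (e 0) w v
      rwa [h, mul_zero, ts_e, β_zero] at this
    exact LinearMap.congr_fun this x)

end Fm

end Cfsg.Agent.H8.C6
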