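import Cfsg.Agent.H8.C6O
import Cfsg.Agent.H7.SubInst
import Cfsg.Agent.H7.SubPolar2

/-!
Maximality of normalisers of the groups `4 ∘ 2^(1+6)` in linear and unitary groups of dimension 8.
-/

set_option autoImplicit false
set_option linter.unusedSectionVars false

namespace Cfsg.Agent.H8.C6

open Module H7 H7.Polar H7.Fr Tens QuadraticMap

variable {F : Type*} [Field F] {V : Type*} [AddCommGroup V] [Module F V] {R : Subgroup (End F V)ˣ}
  [Fintype F] [FiniteDimensional F V]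

theorem Pauli.frame8 (hR : Pauli F R) (hI : HasI F R) (hn : finrank F V = 8) :
    ∃ (κ : Type) (_ : AddCommGroup κ) (_ : Module K2 κ) (_ : Fintype κ) (_ : DecidableEq κ)
      (f : Fm R κ) (v : f.V0) (φ : (κ → F) ≃ₗ[F] V) (i : F) (t : κ),
      finrank K2 κ = 3 ∧ finrank F f.V0 = 1 ∧ v ≠ 0 ∧ (∀ u, φ u = (f.ts hR.two).tp u v) ∧
      (∀ a u, f.Θ hR.two a (φ u) = φ (a u)) ∧ 5 < rk R ∧ i * i = -1 ∧ ∀ X, Ctx F R X →
        ∃ g ∈ X, g.1 (φ (e 0)) = φ (e 0) ∧ g.1 (φ (e t)) = i • φ (e t) := by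
  have h2 := hR.two
  have : Nontrivial V := nontrivial_of_finrank_pos (R := F) (by omega)
  have : Finite (End F V) := Module.finite_of_finite F
  obtain ⟨κ, _, _, _, _, f, hf⟩ := hR.exists_frame
  have h1 := f.finrank_V0 h2 hR fun x => hf.sc hR hI
  have h3 := f.finrank_eq h2
  have hk : finrank K2 κ = 3 := Nat.pow_right_injective le_rfl (by simpa [h1, hn] using h3.symm)
  have h4 := f.rk_ge hR
  obtain ⟨v, φ, hv, h7, h8⟩ := f.exists_eqv h2 h1
  obtain ⟨j, hj, ⟨i, hi⟩, h5⟩ := hI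
  obtain ⟨t, ht⟩ := @exists_ne _ (nontrivial_of_finrank_pos (R := K2) (M := κ) (by omega)) 0
  obtain ⟨ψ, hψ⟩ := exists_dual_one' (F := K2) ht
  have h6 : f.α ψ * f.α ψ = 1 := by rw [← f.Θ_Zs h2, ← map_mul, Zs_sq, map_one]
  have h9 : Commute j (f.α ψ) := Sc.comm ⟨i, hi⟩ _
  have h10 : ∀ y, (f.α ψ).1 (φ (e y)) = sg F (ψ y) • φ (e y) := fun y => by
    rw [h7, f.ts_e, f.αβ, v.2]
  refine ⟨κ, _, _, _, _, f, v, φ, i, t, hk, h1, hv, h7, h8, by omega, (algebraMap F (End F V)).injective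
    (by rw [map_mul, ← hi, ← Units.val_mul, h5]; simp), fun X hX =>
      ⟨_, hX.gate _ (f.α_mem ψ) h6 j hj h9, ctl_apply_pos h2 h6 h9 (by simp [h10]), ?_⟩⟩
  rw [ctl_apply_neg h2 h6 h9 (by simp [h10, hψ]), hi]
  rfl

theorem maximal_SL8 (hp : (Fintype.card F).Prime) (hR : Pauli F R) (hI : HasI F R)
    (hn : finrank F V = 8) : Geo.IsMaximalIn (GE (SLV F V)) (NR R ⊓ GE (SLV F V)) := by
  have h2 := hR.two
  have : Nontrivial V := nontrivial_of_finrank_pos (R := F) (by omega)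
  have : Finite (End F V) := Module.finite_of_finite F
  obtain ⟨κ, _, _, _, _, f, v, φ, i, t, hk, -, -, -, h8, hr, hi, hg⟩ := hR.frame8 hI hn
  obtain ⟨h5, h6⟩ := main_hasI (K := GE (SLV F V)) hR cl_top le_top le_top
    (fun a _ b _ => by simp [GE, SLV]) hI hr
  refine max_of h5 fun X e1 _ e3 => GE_le ?_
  obtain ⟨hC, hG⟩ := h6 X e1 e3
  let Q : QuadraticForm F V := (Q0 F κ).comp φ.symm
  have hB : ∀ x y, polar Q (φ x) (φ y) = 2 * (x ⬝ᵥ y) := fun x y => by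
    simp [Q, polar_comp, ← polar_Q0, polar]
  have hQ : ND Q := fun y hy => by
    obtain ⟨y, rfl⟩ := φ.surjective y
    rw [nd0 h2 y fun x => by rw [polar_Q0, ← hB, hy], map_zero]
  refine (SLV_le_or_le_Sim_of_orth (P := qP hQ) (by omega) (fun _ => rfl) rfl (fun c hc => by simpa [qP_val] using hc)
    h2 fun g hg => ?_).resolve_right fun h => ?_
  · obtain ⟨g, rfl⟩ := (cE φ).surjective g
    have := stdA h2 (f.Zs_mem h2 hR.neg) (f.Xs_mem h2) hp hk.ge hk.le (hG.comap (f.Θ h2) h2 h2)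
      ((cE_mem_E_iff hQ (nd0 h2) one_ne_zero (fun x => by simp [Q]) g).2 hg)
    change UE _ ∈ X
    rwa [← um_eq_cE h8]
  · obtain ⟨g, hg, h3, h4⟩ := hg X hC
    obtain ⟨c, hc⟩ := h (show UE.symm g ∈ X.comap UE.toMonoidHom by simpa)
    have e1 := hc (φ (e 0)) (φ (e 0))
    have e2 := hc (φ (e t)) (φ (e t))
    simp [h3, h4, hB] at e1 e2
    exact h2 (mul_left_cancel₀ h2 (by linear_combination e1 - e2 + 2 * hi))

section bc

variable (F₀ : Subfield F) {κ : Type} [Fintype κ] [DecidableEq κ]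

/-- base change of endomorphisms -/
noncomputable def Ψ : End F₀ (κ → F₀) →+* End F (κ → F) :=
  mE.comp (F₀.subtype.mapMatrix.comp LinearMap.toMatrixAlgEquiv'.toRingEquiv.toRingHom)

theorem Ψ_apply (a : End F₀ (κ → F₀)) (u : κ → F₀) :
    Ψ F₀ a (fun i => u i) = fun i => (a u i : F) := funext fun i => by
  have := F₀.subtype.map_mulVec (LinearMap.toMatrix' a) u i
  rw [LinearMap.toMatrix'_mulVec] at this
  exact this.symm

theorem Ψ_e (a : End F₀ (κ → F₀)) (y : κ) : Ψ F₀ a (e y) = fun i => (a (e y) i : F) := by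
  rw [← Ψ_apply]
  congr 1
  ext i
  simp [e_apply, apply_ite]

variable [AddCommGroup κ] [Module K2 κ]

theorem Ψ_Zs (φ : Dual K2 κ) (ε : K2) : um (Ψ F₀) (Zs F₀ φ ε) = Zs F φ ε := ext_e fun y => by
  ext i
  rcases K2.cases (φ y + ε) with h | h <;> simp [Ψ_e, e_apply, apply_ite, h]

theorem Ψ_Xs (t : κ) : um (Ψ F₀) (Xs F₀ t) = Xs F t := ext_e fun y => by
  ext i
  simp [Ψ_e, e_apply, apply_ite]

end bc

theorem maximal_U8 {P : Polar F V} (hσ : ∃ a, P.σ a ≠ a) (hε : P.ε = 1) {F₀ : Subfield F}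
    (hF₀ : ∀ a, P.σ a = a ↔ a ∈ F₀) (hp : (Nat.card F₀).Prime) (hcard : Fintype.card F = Nat.card F₀ ^ 2)
    (hR : Pauli F R) (hI : HasI F R) (hP : R ≤ UP P) (hn : finrank F V = 8) :
    Geo.IsMaximalIn (GE P.E) (NR R ⊓ GE P.E) := by
  classical
  have h2 := hR.two
  have h2' : (2 : F₀) ≠ 0 := fun e => h2 (congrArg Subtype.val e)
  have : Nontrivial V := nontrivial_of_finrank_pos (R := F) (by omega)
  have : Finite (End F V) := Module.finite_of_finite F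
  obtain ⟨κ, _, _, _, _, f, v, φ, i, t, hk, h1, hv, h7, h8, hr, hi, hg⟩ := hR.frame8 hI hn
  obtain ⟨h5, h6⟩ := main_hasI hR (cl_UP h2 _) hP (GE_le_UP _) (comm_mem_GE
    (fun g => mem_Iso_of_unitary hσ hε) (wild_two_of_unitary hσ hε) (by omega)) hI hr
  refine max_of h5 fun X e1 e2 e3 => GE_le ?_
  obtain ⟨hC, hG⟩ := h6 X e1 e3
  have h9 := f.B_ne hR hP h1 hv
  obtain ⟨β, hβ⟩ : ∃ β : F₀, P.B v v = β := ⟨⟨_, (hF₀ _).1 (σ_B_self hε _)⟩, rfl⟩
  have hB : ∀ x y, P.B (φ x) (φ y) = (∑ t, x t * P.σ (y t)) * β := fun x y => by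
    rw [h7, h7, f.B_tp hR P hP, hβ]
  have hσ' : ∀ a : F₀, P.σ a = a := fun a => (hF₀ _).2 a.2
  let T := (RatStr.pi P.σ hF₀ κ).map φ
  have hτ : ∀ u, T.τ (φ u) = φ fun i => P.σ (u i) := fun u => congrArg φ (by simp; rfl)
  have hfix : ∀ x, T.τ x = x → ∃ u : κ → F₀, x = φ fun i => u i := fun x hx => by
    obtain ⟨u, rfl⟩ := φ.surjective x
    exact ⟨fun i => ⟨u i, (hF₀ _).1 (congrFun (φ.injective (hτ u ▸ hx)) i)⟩, rfl⟩
  have hB' : ∀ x y : κ → F₀, P.B (φ fun i => x i) (φ fun i => y i) = (x ⬝ᵥ y * β : F₀) := fun x y => by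
    simp [hB, hσ', dotProduct]
  have hm : ∀ x y, T.τ x = x → T.τ y = y → P.B x y ∈ F₀ := fun x y hx hy => by
    obtain ⟨x, rfl⟩ := hfix x hx
    obtain ⟨y, rfl⟩ := hfix y hy
    exact hB' x y ▸ Subtype.prop _
  have h : P.RatOK T := ⟨fun _ => rfl, hm, fun x hx => ⟨P.B x x / 2, F₀.div_mem (hm x x hx hx) (by simp), by
    rw [val_iff_of_unitary hσ hε, map_div₀, σ_B_self hε, map_ofNat]; field_simp; ring⟩⟩
  have hE := stdA h2' (fun ψ ε => show um (f.Θ h2) (um (Ψ F₀) _) ∈ R from Ψ_Zs F₀ ψ ε ▸ f.Zs_mem h2 hR.neg ψ ε)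
    (fun t => show um (f.Θ h2) (um (Ψ F₀) _) ∈ R from Ψ_Xs F₀ t ▸ f.Xs_mem h2 t) (by simpa using hp) hk.ge hk.le
    (hG.comap ((f.Θ h2).comp (Ψ F₀)) h2' h2)
  have hX : ∀ x y c, T.τ x = x → T.τ y = y → c ∈ F₀ → P.Val x 0 → P.B y x = 0 → P.Val y c →
      P.EI (X.comap UE.toMonoidHom) x y c := fun x y c hx hy hc e4 e5 e6 => by
    obtain ⟨x, rfl⟩ := hfix x hx
    obtain ⟨y, rfl⟩ := hfix y hy
    lift c to F₀ using hc
    have hβ0 : β ≠ 0 := fun e => h9 (by rw [hβ, e]; rfl)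
    rw [sing_iff_of_unitary hσ hε, hB'] at e4
    rw [val_iff_of_unitary hσ hε, hB', hσ'] at e6
    rw [hB'] at e5
    have e7 := hE (eichE_mem_E (u := x) (w := (β / 2) • y) (c := c * β / 2)
      (qP_sing _ (by simpa [hβ0, Q0_apply] using e4)) (by simpa [hβ0, polar_Q0, h2'] using e5) (by
        have : y ⬝ᵥ y * β = c + c := Subtype.ext e6
        simp [qP_val, Q0_apply]
        field_simp
        linear_combination -this))
    refine ⟨UE.symm _, by simpa using e7, fun z => ?_⟩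
    obtain ⟨z, rfl⟩ := φ.surjective z
    revert z
    rw [← funext_iff]
    change ⇑((f.Θ h2 (Ψ F₀ _)) ∘ₗ φ.toLinearMap) = ⇑(P.eichL _ _ _ ∘ₗ φ.toLinearMap)
    congr 1
    refine (Pi.basisFun F κ).ext fun s => ?_
    change f.Θ h2 _ (φ (Pi.basisFun F κ s)) = P.eich _ _ _ (φ (Pi.basisFun F κ s))
    rw [show Pi.basisFun F κ s = e s by simp [e], h8, Ψ_e, eich, hB, hB, hσ', hε, ← map_smul φ,
      ← map_smul φ, ← map_add, ← map_sub]
    congr 1
    ext j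
    simp [eich, polar_Q0, hσ', e_apply, apply_ite, show ((2 : F₀) : F) = 2 from rfl]
    split_ifs <;> field_simp <;> ring
  by_contra hcon
  have hw := h.wild_three (Or.inl hε)
  obtain ⟨g, hg, h11, h12⟩ := hg X hC
  obtain ⟨c, hc⟩ := h.le_N hw hX ((le_GE e2).trans E_le_Iso) (fun w hws e4 e5 z hz => by
    by_contra e6
    exact hcon (h.E_le_of_not_rat hw hX (by omega) (subring_eq_top Nat.prime_two hcard) (fun c hc =>
      (lam_of_unitary hσ hε hc).elim fun a ha => ⟨a, 0, 0, F₀.zero_mem, val_zero, by simpa using ha⟩)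
      hws e4 e5 hz e6)) hn.ge (by omega) (Or.inr (Or.inr fun x => by
        obtain ⟨x, rfl⟩ := φ.surjective x
        simp [hτ, P.σσ])) (show UE.symm g ∈ X.comap UE.toMonoidHom by simpa)
  have h13 : ∀ y, T.τ (φ (e y)) = φ (e y) := fun y => by
    rw [hτ]; congr 1; ext j; simp [e_apply, apply_ite]
  have h14 : ∀ y, φ (e y) ≠ 0 := fun y => by simpa using e_ne_zero y
  have e4 := hc (φ (e 0))
  have e5 := hc (φ (e t))
  simp only [UE_symm_apply, h11, h12, h13, RatStr.τ_smul, smul_smul] at e4 e5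
  have e6 : (c : F) = 1 := smul_left_injective F (h14 0) (by simpa using e4.symm)
  have e7 : P.σ i = i := smul_left_injective F (h14 t) (by rw [e6, one_mul] at e5; exact e5)
  have e8 := GE_le_UP _ (e2 hg) (φ (e t)) (φ (e t))
  simp [h12, e7, hB, e_apply, ← hβ, h9, ← mul_assoc, hi] at e8
  exact h9 (mul_left_cancel₀ h2 (by linear_combination -e8))

end Cfsg.Agent.H8.C6
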