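import Cfsg.Agent.H8.C6J
import Mathlib.GroupTheory.SpecificGroups.Alternating.Simple

/-!
Pauli groups of rank six and minus type: the case of good levels.
-/

set_option autoImplicit false
set_option linter.unusedSectionVars false

namespace Cfsg.Agent.H8.C6

open Module H7 H7.Polar Equiv Equiv.Perm

theorem perm5 {N M : Subgroup (Perm (Fin 5))}
    (hM : ∀ i j k l : Fin 5, [i, j, k, l].Nodup → swap i j * swap k l ∈ M)
    (hN : ∀ m ∈ M, ∀ n ∈ N, m * n * m⁻¹ ∈ N) {π : Perm (Fin 5)} (h : π ∈ N) (h1 : π ≠ 1) :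
    swap 0 1 * swap 1 2 ∈ N := by
  have hA : alternatingGroup (Fin 5) ≤ M := by
    rw [← Equiv.Perm.closure_three_cycles_eq_alternating, Subgroup.closure_le]
    intro g hg3
    obtain ⟨a, ha⟩ := hg3.isCycle.nonempty_support
    have h_support := hg3.support_eq_iff_mem_support.mpr ha
    have h_nodup := hg3.nodup_iff_mem_support.mpr ha
    have : 1 < g.supportᶜ.card := by
      rw [Finset.card_compl, hg3.card_support]; simp
    obtain ⟨b, c, hb, hc, hbc⟩ := Finset.one_lt_card_iff.mp this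
    have H : g = (swap a (g a) * (swap b c)) * (swap b c * (swap (g a) (g (g a)))) := by
      simp [mul_assoc, ← hg3.eq_swap_mul_swap_iff_mem_support.mpr ha]
    rw [H]
    exact mul_mem (hM _ _ _ _ (by grind [Finset.mem_compl])) (hM _ _ _ _ (by grind [Finset.mem_compl]))
  have hn : (N.subgroupOf (alternatingGroup (Fin 5))).Normal :=
    ⟨fun n hn m => hN _ (hA m.2) _ hn⟩
  rcases hn.eq_bot_or_eq_top with e | e
  · refine (h1 (Equiv.ext fun i => ?_)).elim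
    obtain ⟨j, k, l, m, h2, h3⟩ : ∃ j k l m : Fin 5, [j, k, l, m].Nodup ∧
        ∀ x, (swap j k * swap l m) x = x ↔ x = i := by
      fin_cases i
      exacts [⟨1, 2, 3, 4, by decide⟩, ⟨0, 2, 3, 4, by decide⟩, ⟨0, 1, 3, 4, by decide⟩,
        ⟨0, 1, 2, 4, by decide⟩, ⟨0, 1, 2, 3, by decide⟩]
    have h4 : swap j k * swap l m ∈ alternatingGroup (Fin 5) := by
      simp at h2
      simp [mem_alternatingGroup, h2]
    generalize swap j k * swap l m = c at *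
    have h5 : (⟨π⁻¹ * c * π * c⁻¹, by simp [mem_alternatingGroup, mem_alternatingGroup.1 h4]⟩ :
        alternatingGroup (Fin 5)) ∈ N.subgroupOf (alternatingGroup (Fin 5)) := by
      simpa [Subgroup.mem_subgroupOf, mul_assoc] using mul_mem (inv_mem h) (hN c (hA h4) π h)
    rw [e, Subgroup.mem_bot, Subtype.ext_iff] at h5
    have h6 := congrArg (· (c i)) h5
    simp only [Perm.mul_apply, OneMemClass.coe_one, Perm.one_apply, Perm.coe_inv, symm_apply_apply,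
      symm_apply_eq] at h6
    exact (h3 _).1 (by rwa [(h3 i).2 rfl] at h6)
  · have : (⟨swap 0 1 * swap 1 2, by simp [mem_alternatingGroup]⟩ :
        alternatingGroup (Fin 5)) ∈ N.subgroupOf (alternatingGroup (Fin 5)) := e ▸ trivial
    exact this

variable {F : Type*} [Field F] {A : Type*} [Ring A] [Algebra F A] {R Y K U : Subgroup Aˣ}

/-- equality up to sign -/
def Sg (x y : Aˣ) : Prop := x = y ∨ x = -y

theorem Sg.trans {x y z : Aˣ} (h : Sg x y) (h' : Sg y z) : Sg x z := by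
  rcases h with rfl | rfl <;> rcases h' with rfl | rfl <;> simp [Sg]

theorem Sg.symm {x y : Aˣ} (h : Sg x y) : Sg y x := by
  rcases h with rfl | rfl <;> simp [Sg]

theorem Sg.conj {x y : Aˣ} (h : Sg x y) (g : Aˣ) : Sg (g * x * g⁻¹) (g * y * g⁻¹) := by
  rcases h with rfl | rfl <;> simp [Sg]

theorem Sg.mul {x y x' y' : Aˣ} (h : Sg x y) (h' : Sg x' y') : Sg (x * x') (y * y') := by
  rcases h with rfl | rfl <;> rcases h' with rfl | rfl <;> simp [Sg]

theorem Sg.comm {x y : Aˣ} (h : Sg x y) : Commute x y := by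
  rcases h with rfl | rfl <;> simp

theorem Sg.sq {x y : Aˣ} (h : Sg x y) : x * x = y * y := by
  rcases h with rfl | rfl <;> simp

theorem Sg.anti {x y z : Aˣ} (h : Sg x y) (h' : Anti y z) : Anti x z := by
  rcases h with rfl | rfl
  exacts [h', h'.neg_left]

theorem Pm.sg {g x : Aˣ} (h : Pm g x) : Sg (g * x * g⁻¹) x :=
  h.imp (fun h => by rw [h.eq, mul_inv_cancel_right]) Anti.conj_eq

theorem Sg.pm {g x : Aˣ} (h : Sg (g * x * g⁻¹) x) : Pm g x :=
  h.imp mul_inv_eq_iff_eq_mul.1 fun h => by rw [Anti, mul_inv_eq_iff_eq_mul.1 h, neg_mul]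

theorem Sg.mem {x y : Aˣ} (h : Sg x y) (h1 : -1 ∈ R) (hy : y ∈ R) : x ∈ R := by
  rcases h with rfl | rfl
  exacts [hy, by simpa using mul_mem h1 hy]

/-- generators of a Pauli group of rank four and minus type -/
structure G5 (R : Subgroup Aˣ) (t : Fin 5 → Aˣ) : Prop where
  mt : ∀ i, t i ∈ R
  t2 : ∀ i, t i * t i = 1
  tt : ∀ i j, i ≠ j → Anti (t i) (t j)
  tri : ∀ x ∈ R, Sg x 1 ∨ (∃ j, Sg x (t j)) ∨ ∃ i j, i ≠ j ∧ x = t i * t j

/-- the induced permutation -/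
def Rel (t : Fin 5 → Aˣ) (g : Aˣ) (π : Perm (Fin 5)) : Prop := ∀ i, Sg (g * t i * g⁻¹) (t (π i))

/-- the induced permutation group -/
def PZ (t : Fin 5 → Aˣ) (Z : Subgroup Aˣ) : Subgroup (Perm (Fin 5)) where
  carrier := {π | ∃ g ∈ Z, Rel t g π}
  one_mem' := ⟨1, one_mem Z, fun i => Or.inl (by simp)⟩
  mul_mem' := by
    rintro π ρ ⟨g, hg, h1⟩ ⟨h, hh, h2⟩
    exact ⟨_, mul_mem hg hh, fun i => by
      simpa [mul_assoc] using ((h2 i).conj g).trans (h1 _)⟩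
  inv_mem' := by
    rintro π ⟨g, hg, h1⟩
    exact ⟨_, inv_mem hg, fun i => by simpa [mul_assoc] using ((h1 (π⁻¹ i)).conj g⁻¹).symm⟩

variable [Nontrivial A] {t : Fin 5 → Aˣ}

namespace G5

variable (h : G5 R t) (h2 : (2 : F) ≠ 0)
include h

theorem comm_mul {i j k : Fin 5} (h1 : i ≠ j) (h3 : i ≠ k) : Commute (t i) (t j * t k) :=
  (h.tt i j h1).mul_anti (h.tt i k h3)

theorem anti_mul {i j : Fin 5} (h1 : i ≠ j) : Anti (t i) (t i * t j) :=
  (h.tt i j h1).comm_mul (Commute.refl _)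

theorem mul_sq {i j : Fin 5} (h1 : i ≠ j) : t i * t j * (t i * t j) = -1 := by
  simp [(h.tt i j h1).mul_sq, h.t2]

include h2

theorem inj {i j : Fin 5} (e : Commute (t i) (t j)) : i = j :=
  by_contra fun h1 => (h.tt i j h1).not_comm h2 e

theorem sing {x y : Aˣ} (hx : x ∈ R) (h1 : x * x = 1) (h3 : Anti x y) : ∃ j, Sg x (t j) := by
  rcases h.tri x hx with e | e | ⟨i, j, e, rfl⟩
  · exact (h3.not_comm h2 (by rcases e with rfl | rfl <;> simp)).elim
  · exact e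
  · exact (ne_neg h2 1 (h1.symm.trans (h.mul_sq e))).elim

theorem exists_rel {g : Aˣ} (hg : g ∈ NR R) : ∃ π, Rel t g π := by
  choose f hf using fun i => (exists_ne i).elim fun j hj => h.sing h2 (conj_mem hg (h.mt i))
    (conj_sq (h.t2 i) (Or.inl rfl) g) ((h.tt i j hj.symm).conj g)
  exact ⟨Equiv.ofBijective f (Finite.injective_iff_bijective.1 fun i j e => h.inj h2
    (comm_of_conj (((hf i).trans (e ▸ (hf j).symm)).comm))), hf⟩

theorem mem_NR [Finite A] (h1 : -1 ∈ R) {g : Aˣ} (hg : ∀ i, ∃ j, Sg (g * t i * g⁻¹) (t j)) :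
    g ∈ NR R := by
  have key := fun i => (hg i).elim fun j e => e.mem h1 (h.mt j)
  refine Subgroup.mem_normalizer_fintype fun x hx => ?_
  rcases h.tri x hx with e | ⟨j, e⟩ | ⟨i, j, -, rfl⟩
  · exact Sg.mem (by simpa using e.conj g) h1 (one_mem R)
  · exact (e.conj g).mem h1 (key j)
  · exact conj_mul (b := g) ▸ mul_mem (key i) (key j)

theorem pm {g : Aˣ} (hg : Rel t g 1) {x : Aˣ} (hx : x ∈ R) : Pm g x := by
  refine Sg.pm ?_
  rcases h.tri x hx with e | ⟨j, e⟩ | ⟨i, j, -, rfl⟩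
  · exact (by simpa using e.conj g : Sg _ 1).trans e.symm
  · exact ((e.conj g).trans (hg j)).trans e.symm
  · exact conj_mul (b := g) ▸ (hg i).mul (hg j)

omit h2 in
theorem swap_mem [Finite A] (hC : Ctx F R Y) {i j k l : Fin 5} (hn : [i, j, k, l].Nodup) :
    swap i j * swap k l ∈ PZ t Y := by
  have h2 := hC.p.two
  obtain ⟨m, h1, h3⟩ : ∃ m, [i, j, k, l, m].Nodup ∧ ∀ x, x = i ∨ x = j ∨ x = k ∨ x = l ∨ x = m := by
    revert i j k l; decide
  simp only [List.nodup_cons, List.mem_cons, List.not_mem_nil, or_false, not_or] at h1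
  obtain ⟨⟨a1, a2, a3, a4⟩, ⟨a5, a6, a7⟩, ⟨a8, a9⟩, a10, -⟩ := h1
  have hx := (h.comm_mul (Ne.symm a4) (Ne.symm a7)).symm
  have hm := mul_mem (h.mt i) (h.mt j)
  obtain ⟨π, hπ⟩ := h.exists_rel h2 (hC.p.ctl_mem_normalizer (h.mt m) (h.t2 m) hm hx)
  have hi : (t i * t j)⁻¹ = t j * t i := by
    rw [mul_inv_rev, inv_eq_of_mul_eq_one_right (h.t2 i), inv_eq_of_mul_eq_one_right (h.t2 j)]
  have e1 : π m = m := h.inj h2 (by
    have := hπ m
    rw [(ctl_comm h2 (h.t2 m) hx).eq, mul_inv_cancel_right] at this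
    exact this.symm.comm)
  have e2 : π i = j := h.inj h2 (by
    have := hπ i
    rw [ctl_conj_pos h2 (h.t2 m) hx (h.tt i m a4) (by rw [hi, ← mul_assoc, mul_inv_cancel_right]),
      (h.tt i j a1).eq, neg_mul, mul_assoc, h.t2, mul_one] at this
    simpa using this.symm.comm)
  have e3 : π j = i := h.inj h2 (by
    have := hπ j
    rw [ctl_conj_pos h2 (h.t2 m) hx (h.tt j m a7) (by
      rw [hi, ← mul_assoc, h.t2, one_mul, inv_eq_of_mul_eq_one_right (h.t2 j)]),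
      mul_assoc, h.t2, mul_one] at this
    exact this.symm.comm)
  have e4 : π k ≠ k := fun e => by
    have h4 := h.comm_mul (Ne.symm a2) (Ne.symm a5)
    have := hπ k
    rw [ctl_conj_neg h2 (h.t2 m) hx (h.tt k m a9) (conj_inv_neg (h.mul_sq a1) h4.symm), e] at this
    exact ((((h.tt k m a9).comm_mul h4).neg_right.mul_comm (Commute.refl _)).not_comm h2) this.symm.comm
  have e5 : π k = l := by have := π.injective; have := h3 (π k); grind
  have e6 : π l = k := by have := π.injective; have := h3 (π l); grind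
  refine ⟨_, hC.gate _ (h.mt m) (h.t2 m) _ hm hx, (show π = swap i j * swap k l from Equiv.ext fun x => ?_) ▸ hπ⟩
  rcases h3 x with rfl | rfl | rfl | rfl | rfl <;> simp [swap_apply_of_ne_of_ne, *, Ne.symm]

omit h2 in
theorem three [Finite A] (hC : Ctx F R Y) (hK : Nm K Y) (hKY : K ≤ NR R) {g : Aˣ} (hg : g ∈ K)
    {x : Aˣ} (hx : x ∈ R) (h1 : ¬ Pm g x) : ∃ k ∈ K, Rel t k (swap 0 1 * swap 1 2) := by
  obtain ⟨π, hπ⟩ := h.exists_rel hC.p.two (hKY hg)
  refine perm5 (N := PZ t K) (fun _ _ _ _ => h.swap_mem hC) ?_ ⟨g, hg, hπ⟩ fun e =>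
    h1 (h.pm hC.p.two (e ▸ hπ) hx)
  rintro m ⟨y, hy, h3⟩ n ⟨k, hk, h4⟩
  refine ⟨_, hK y hy k hk, fun i => ?_⟩
  have h5 : Sg (y⁻¹ * t i * y) (t (m⁻¹ i)) := by
    simpa [mul_assoc] using ((h3 (m⁻¹ i)).conj y⁻¹).symm
  simpa [mul_assoc] using (((h5.conj k).trans (h4 _)).conj y).trans (h3 _)

end G5

theorem Pauli.exists_adj' (hR : Pauli F R) {a z x : Aˣ} (ha : a ∈ R) (ha2 : a * a = 1) (hz : z ∈ R)
    (h : Anti a z) (hx : x ∈ R) (e : Commute x a) :
    ∃ x' ∈ R, Commute x' a ∧ Commute x' z ∧ pe F a * x = pe F a * x' := by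
  rcases hR.comm x hx z hz with e' | e'
  · exact ⟨x, hx, e, e', rfl⟩
  · exact ⟨_, hR.neg_mem (mul_mem ha hx), ((Commute.refl a).mul_left e).neg_left,
      (h.symm.mul_anti e'.symm).symm.neg_left, by simp [← mul_assoc, pe_mul ha2]⟩

/-- Doubling: an element normalising the Pauli group on the `-1` eigenspace extends to an element
of the normaliser. -/
theorem Pauli.dbl [Finite A] (hR : Pauli F R) {a z y : Aˣ} (ha : a ∈ R) (ha2 : a * a = 1) (hz : z ∈ R)
    (h : Anti a z) (hy : Commute y a) (hU : Cl F U) (hRU : R ≤ U) (hyU : y ∈ U)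
    (hg : ∀ x ∈ R, Commute x a → ∃ x' ∈ R, Commute x' a ∧ pe F a * (y * x * y⁻¹ : Aˣ) = pe F a * x') :
    ∃ n ∈ U, n ∈ NR R ∧ Commute n a ∧ pe F a * n = pe F a * y := by
  have h2 := hR.two
  have ha2' : -a * -a = 1 := by simpa
  have hy' : Commute (z * y * z⁻¹) (-a) := h.symm.conj_eq ▸ comm_conj hy z
  have c1 := ctl_comm h2 ha2 hy
  have c2 : Commute (ctl F (-a) (z * y * z⁻¹)) a := by simpa using (ctl_comm h2 ha2' hy').neg_right
  have e1 : pe F a * (ctl F a y * ctl F (-a) (z * y * z⁻¹) : Aˣ) = pe F a * y := by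
    have := pe_neg_mul_ctl h2 ha2' hy'
    rw [neg_neg] at this
    rw [Units.val_mul, ← mul_assoc, pe_mul_ctl h2 ha2 hy, ← (pe_comm hy.units_val).eq, mul_assoc, this]
  have e2 : pe F (-a) * (ctl F a y * ctl F (-a) (z * y * z⁻¹) : Aˣ) = pe F (-a) * (z * y * z⁻¹ : Aˣ) := by
    rw [Units.val_mul, ← mul_assoc, pe_neg_mul_ctl h2 ha2 hy, pe_mul_ctl h2 ha2' hy']
  have c3 := c1.mul_left c2
  have hn := mul_mem (hU a (hRU ha) ha2 y hyU hy) (hU _ (hRU (hR.neg_mem ha)) ha2' _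
    (mul_mem (mul_mem (hRU hz) hyU) (inv_mem (hRU hz))) hy')
  generalize ctl F a y * ctl F (-a) (z * y * z⁻¹) = n at *
  have e3 := h.symm.mul_pe (F := F)
  have key : ∀ m m' : Aˣ, pe F a * m = pe F a * m' →
      pe F a * (z⁻¹ * m * z : Aˣ) = pe F a * (z⁻¹ * m' * z : Aˣ) → m = m' := fun m m' a1 a2 => by
    refine Units.ext (ext_pe h2 a a1 ?_)
    have := congrArg (fun w : A => z * w * (z⁻¹ : Aˣ)) a2
    simpa [← mul_assoc, e3] using this
  have c4 : Commute n z := by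
    have a1 : pe F a * (z⁻¹ * n * z : Aˣ) = pe F a * n := by
      have e4 := h.neg_left.inv_right.symm.mul_pe (F := F)
      rw [neg_neg] at e4
      rw [e1, Units.val_mul, Units.val_mul, ← mul_assoc, ← mul_assoc, ← e4, mul_assoc _ _ (n : A), e2,
        ← mul_assoc, e4]
      simp [mul_assoc]
    refine (inv_mul_eq_iff_eq_mul.1 ((mul_assoc _ _ _).symm.trans (key _ _ a1 ?_)) :)
    rw [a1, show z⁻¹ * (z⁻¹ * n * z) * z = (z * z)⁻¹ * n * (z * z) by group]
    rcases hR.sq z hz with e | e <;> simp [e]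
  have hi := hR.invl ha ha2 (h.not_sc h2)
  have k1 : ∀ x ∈ R, Commute x a → Commute x z → n * x * n⁻¹ ∈ R := fun x hx b1 b2 => by
    obtain ⟨x', hx', b3, b4⟩ := hg x hx b1
    obtain ⟨x', hx', b3, b5, b6⟩ := hR.exists_adj' ha ha2 hz h hx' b3
    have b7 : pe F a * (n * x * n⁻¹ : Aˣ) = pe F a * x' := by
      rw [← b6, ← b4, ← hi.res_eq_iff ((c3.mul_left b1).mul_left c3.inv_left)
        ((hy.mul_left b1).mul_left hy.inv_left), hi.res_conj c3 b1, hi.res_conj hy b1,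
        (hi.res_eq_iff c3 hy).2 e1]
    rwa [key _ _ b7 (by rwa [mul_assoc, mul_assoc z⁻¹, b5.eq, ((c4.mul_left b2).mul_left c4.inv_left).eq,
      inv_mul_cancel_left, inv_mul_cancel_left])]
  have k2 : n * a * n⁻¹ ∈ R := by rwa [c3.eq, mul_inv_cancel_right]
  have k3 : n * z * n⁻¹ ∈ R := by rwa [c4.eq, mul_inv_cancel_right]
  have k4 : ∀ x ∈ R, Commute x a → n * x * n⁻¹ ∈ R := fun x hx b1 =>
    (hR.comm x hx z hz).elim (k1 x hx b1) fun b2 => by
      have := k1 _ (mul_mem hx ha) (b1.mul_left (Commute.refl a)) (b2.symm.mul_anti h.symm).symm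
      rwa [← conj_mul, mul_mem_cancel_right k2] at this
  refine ⟨n, hn, Subgroup.mem_normalizer_fintype fun x hx => (hR.comm x hx a ha).elim (k4 x hx)
    fun b1 => ?_, c3, e1⟩
  have := k4 _ (mul_mem hx hz) (b1.symm.mul_anti h).symm
  rwa [← conj_mul, mul_mem_cancel_right k3] at this

/-- generators of a Pauli group of rank six and minus type -/
structure G6 (R : Subgroup Aˣ) (a z : Aˣ) (t : Fin 5 → Aˣ) : Prop where
  ma : a ∈ R
  mz : z ∈ R
  mt : ∀ i, t i ∈ R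
  a2 : a * a = 1
  z2 : z * z = 1
  t2 : ∀ i, t i * t i = 1
  az : Anti a z
  ta : ∀ i, Commute (t i) a
  tz : ∀ i, Commute (t i) z
  tt : ∀ i j, i ≠ j → Anti (t i) (t j)
  tri : ∀ x ∈ R, Commute x a → Commute x z → Sg x 1 ∨ (∃ j, Sg x (t j)) ∨ ∃ i j, i ≠ j ∧ x = t i * t j

theorem Invl.res_sg {a x y : Aˣ} (ha : Invl F a) (h : Sg x y) (hy : Commute y a) :
    Sg (ha.res x) (ha.res y) := by
  rcases h with rfl | rfl
  exacts [Or.inl rfl, Or.inr (ha.res_neg hy)]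

theorem Tau.sg (h : Tau F Y) {c : Aˣ} (hc : c ∈ Y) (hc' : Sc F c) : Sg c 1 := by
  obtain ⟨τ, hτ⟩ := h
  obtain ⟨d, hd⟩ := id hc'
  have h1 := hτ c hc
  rw [hd, Algebra.algebraMap_eq_smul_one, map_smul, ← Units.val_one, hτ 1 Y.one_mem, inv_one,
    Units.val_one, ← Algebra.algebraMap_eq_smul_one, ← hd, Units.val_inj, eq_inv_iff_mul_eq_one] at h1
  exact hc'.eq_one_or h1

namespace G6

variable {a z : Aˣ} (h : G6 R a z t)
include h

theorem g5 (hR : Pauli F R) (ha : Invl F a) : G5 (ha.rs R) fun i => ha.res (t i) where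
  mt i := ha.res_mem (h.mt i) (h.ta i)
  t2 i := (ha.res_sq (h.ta i) (h.t2 i)).trans ha.res_one
  tt i j e := ha.res_anti (h.ta i) (h.ta j) (h.tt i j e)
  tri := by
    rintro _ ⟨x, hx, e, rfl⟩
    obtain ⟨x, hx, e1, e2, e3⟩ := hR.exists_adj' h.ma h.a2 h.mz h.az hx e
    rw [(ha.res_eq_iff e e1).2 e3]
    rcases h.tri x hx e1 e2 with e | ⟨j, e⟩ | ⟨i, j, e, rfl⟩
    · exact Or.inl (ha.res_one ▸ ha.res_sg e (Commute.one_left a))
    · exact Or.inr (Or.inl ⟨j, ha.res_sg e (h.ta j)⟩)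
    · exact Or.inr (Or.inr ⟨i, j, e, ha.res_mul (h.ta i) (h.ta j)⟩)

variable [Finite A] (hC : Ctx F R Y)
include hC

theorem pm_of_ext (hG : ∀ b ∈ R, b * b = 1 → ¬ Sc F b → Good F R Y b) (ha : Invl F a) {g : ha.Cˣ}
    (hg : ha.ext g ∈ Y) : ∀ x ∈ ha.rs R, Pm g x := by
  by_contra! hn
  obtain ⟨x, hx, hn⟩ := hn
  have hR := hC.p
  have h2 := hR.two
  have h0 := h.az.not_sc h2
  have h5 := h.g5 hR ha
  have hY := ha.good_iff.1 (hG a h.ma h.a2 h0)
  obtain ⟨k, hk, h1⟩ := h5.three (ha.ctx h.ma h0 (by simpa using sc_one) hC) (ha.nm nm_self)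
    ((ha.comap_le le_rfl).trans hY) hg hx hn
  obtain ⟨k, hk, h1, h3⟩ : ∃ k ∈ Y.comap ha.ext, Sg (k * ha.res (t 0 * t 1) * k⁻¹) (ha.res (t 1 * t 2)) ∧
      Commute k (ha.res (t 3)) := by
    have h3 : Sg (k * ha.res (t 0 * t 1) * k⁻¹) (ha.res (t 1 * t 2)) := by
      rw [ha.res_mul (h.ta _) (h.ta _), ha.res_mul (h.ta _) (h.ta _), ← conj_mul]
      exact (h1 0).mul (h1 1)
    rcases (h1 3).pm with e | e
    · exact ⟨k, hk, h3, e⟩
    · refine ⟨_, mul_mem hk (hC.rs_le ha h.ma (h5.mt 4)), ?_, (e.symm.mul_anti (h5.tt 3 4 (by decide))).symm⟩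
      rwa [mul_inv_rev, mul_assoc k, ha.res_mul (h.ta _) (h.ta _),
        (h5.comm_mul (i := 4) (by decide) (by decide)).eq, ← mul_assoc, ← mul_assoc, mul_inv_cancel_right,
        ← ha.res_mul (h.ta _) (h.ta _)]
  have h4 := ha.ext_comm k
  have h6 : Commute (ha.ext k) (t 3) := by
    have := ha.conj_ext (h.ta 3) k
    rw [← h3.eq, mul_inv_cancel_right] at this
    exact (mul_inv_eq_iff_eq_mul.1 this).symm
  have h7 := (h.tt 3 0 (by decide)).not_sc h2
  obtain ⟨x', hx', e1, e2⟩ := hG _ (h.mt 3) (h.t2 3) h7 _ hk h6 z h.mz (h.tz 3).symm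
  have hb := hR.invl (h.mt 3) (h.t2 3) h7
  have c1 := (h6.mul_left (h.tz 3).symm).mul_left h6.inv_left
  rw [← hb.res_eq_iff c1 e1] at e2
  have h8 : Anti x' a := (hb.res_anti_iff hR hx' h.ma e1 (h.ta 3).symm).1 (e2 ▸ hb.res_anti c1
    (h.ta 3).symm ((h4.symm.mul_right h4.symm.inv_right |> fun _ =>
      ((h.az.comm_mul h4.symm).mul_comm h4.symm.inv_right).symm)))
  have h9 := (h8.symm.mul_anti h.az.inv_right).symm
  have c2 : Commute (ha.ext k * z * (ha.ext k)⁻¹ * z⁻¹) a :=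
    (((h.az.comm_mul h4.symm).mul_comm h4.symm.inv_right).mul_anti h.az.inv_right).symm
  have h10 : ha.res (ha.ext k * z * (ha.ext k)⁻¹ * z⁻¹) = k := by
    conv_rhs => rw [← ha.res_ext k]
    have e3 := h.az.neg_left.symm.mul_pe (F := F)
    rw [neg_neg] at e3
    rw [ha.res_eq_iff c2 h4, ← map_inv, Units.val_mul, Units.val_mul, Units.val_mul, ← mul_assoc,
      ← mul_assoc, ← mul_assoc, ← (pe_comm h4.units_val).eq, mul_assoc _ (pe F a), ← e3, mul_assoc,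
      mul_assoc, mul_assoc, ← mul_assoc (pe F (-a)), ha.pe_neg_ext, ← mul_assoc (z : A), e3]
    simp
  have hb' : Invl F (ha.res (t 3)) := ⟨h2, h5.t2 3, (h5.tt 0 3 (by decide)).pe_ne_zero h2⟩
  have c3 := ha.res_comm h9 (h.ta 3) (e1.mul_left (h.tz 3).symm.inv_left)
  have h11 : hb'.res k = hb'.res (ha.res (x' * z⁻¹)) := by
    rw [hb'.res_eq_iff h3 c3, ← h10]
    refine Invl.cv_inj ?_
    rw [hb.res_eq_iff c1 e1] at e2
    have e3 := (pe_comm (F := F) (pe_comm (F := F) (h.ta 3).units_val).symm).eq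
    rw [Invl.cv_mul, Invl.cv_mul, ha.cv_pe_res (h.ta 3), ha.cv_res c2, ha.cv_res h9,
      Units.val_mul _ z⁻¹, Units.val_mul _ z⁻¹, mul_assoc (pe F a), mul_assoc (pe F a),
      ← mul_assoc (pe F (t 3)), ← mul_assoc (pe F (t 3)), ← e3, mul_assoc (pe F a), mul_assoc (pe F a),
      ← mul_assoc (pe F (t 3)), ← mul_assoc (pe F (t 3)), e2]
  have c4 : ∀ i j, i ≠ 3 → j ≠ 3 → Commute (ha.res (t i * t j)) (ha.res (t 3)) := fun i j e e' =>
    ha.res_mul (h.ta i) (h.ta j) ▸ (h5.comm_mul e.symm e'.symm).symm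
  have h12 := hb'.res_sg h1 (c4 1 2 (by decide) (by decide))
  have h13 := hb'.res_sg (Pm.sg ((ha.pauli hR h.ma h0 (by simpa using sc_one)).comm _
    (ha.res_mem (mul_mem hx' (inv_mem h.mz)) h9) _ (ha.res_mem (mul_mem (h.mt 0) (h.mt 1))
      ((h.ta 0).mul_left (h.ta 1))))) (c4 0 1 (by decide) (by decide))
  rw [hb'.res_conj h3 (c4 0 1 (by decide) (by decide)), h11] at h12
  rw [hb'.res_conj c3 (c4 0 1 (by decide) (by decide))] at h13
  refine (hb'.res_anti (c4 0 1 (by decide) (by decide)) (c4 1 2 (by decide) (by decide)) ?_).not_comm h2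
    (h13.symm.trans h12).comm
  rw [ha.res_mul (h.ta _) (h.ta _), ha.res_mul (h.ta _) (h.ta _)]
  exact ((h5.anti_mul (i := 1) (j := 2) (by decide)).symm.comm_mul
    (h5.comm_mul (i := 0) (by decide) (by decide)).symm).symm

theorem mem_NR_of_good (hG : ∀ b ∈ R, b * b = 1 → ¬ Sc F b → Good F R Y b) (hτ : Tau F Y)
    (hU : Cl F U) (hYU : Y ≤ U) (hN : U ⊓ NR R ≤ Y) {y : Aˣ} (hy : y ∈ Y) (e : Commute y a) :
    y ∈ NR R := by
  have hR := hC.p
  have h2 := hR.two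
  have h0 := h.az.not_sc h2
  have ha := hR.invl h.ma h.a2 h0
  obtain ⟨n, h1, h3, h4, h5⟩ := hR.dbl (hR.neg_mem h.ma) (by simpa using h.a2) h.mz h.az.neg_left
    e.neg_right hU (hC.le.trans hYU) (hYU hy) (hG _ (hR.neg_mem h.ma) (by simpa using h.a2)
      (sc_neg_iff.not.2 h0) y hy e.neg_right)
  replace h4 : Commute n a := by simpa using h4.neg_right
  have h6 := e.mul_left h4.inv_left
  have h7 := mul_mem hy (inv_mem (hN ⟨h1, h3⟩))
  have h8 := ha.ext_eq h6 (by rw [Units.val_mul, ← mul_assoc, ← h5, Units.mul_inv_cancel_right])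
  have hab : Sc F (a * a⁻¹) := by simpa using sc_one
  obtain ⟨_, ⟨r, hr, h9, rfl⟩, h10⟩ := (ha.pauli hR h.ma h0 hab).exists_sc
    (h.pm_of_ext hC hG ha (h8.symm ▸ h7))
  have h11 := (ha.tau hτ (hC.le h.ma)).sg (mul_mem (ha.res_mem h7 h6)
    (inv_mem (ha.res_mem (hC.le hr) h9))) h10
  obtain ⟨x, hx, h12, h13⟩ := (mul_mem_cancel_right (inv_mem (ha.res_mem hr h9))).1
    (h11.mem (ha.pauli hR h.ma h0 hab).neg (one_mem _))
  rw [← h13, ha.ext_res h12] at h8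
  exact (mul_mem_cancel_right (inv_mem h3)).1 (h8 ▸ hR.ctl_mem_normalizer h.ma h.a2 hx h12)

end G6

theorem Ctx.le_NR_of_sing [Finite A] (hC : Ctx F R Y) (hτ : Tau F Y) (hi : ∃ i : F, i * i = -1)
    (hr : 5 < rk R) (h1 : ∀ a ∈ R, a * a = 1 → ¬ Sc F a → ∀ y ∈ Y, Commute y a → y ∈ NR R) :
    Y ≤ NR R := by
  have hR := hC.p
  have h2 := hR.two
  refine hC.le_NR (hτ.sc h2) ?_ (Or.inr (by omega))
  obtain ⟨τ, hτ⟩ := hτ
  refine hR.cen_of_comm (fun d hd hd0 y hy hyd => (hR.sq d hd).elim (h1 d hd · hd0 y hy hyd)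
    fun hd2 => ?_) hC.le
  obtain ⟨i, hi⟩ := hi
  obtain ⟨j, hj⟩ : ∃ j : Aˣ, (j : A) = algebraMap F A i :=
    ⟨Units.map (algebraMap F A).toMonoidHom (Units.mkOfMulEqOne i (-i) (by simp [hi])), rfl⟩
  have hj1 : Sc F j := ⟨i, hj⟩
  have hj2 : j * j = -1 := Units.ext (by simp [hj, ← map_mul, hi])
  obtain ⟨w, hw, hdw⟩ := hR.exists_anti hd hd0
  have hb : Invl F (j * d) := ⟨h2, by rw [comm_mul_sq (hj1.comm d), hj2, hd2]; simp,
    (hdw.symm.comm_mul (hj1.comm w).symm).pe_ne_zero h2⟩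
  have hab : Sc F (j * d * d⁻¹) := by simpa
  have hc := Invl.comm_iff hab
  have hinj : ∀ z ∈ Y, Commute z (j * d) → hb.res z = 1 → z = 1 := fun z hz e e' => by
    rw [← hb.res_one, hb.res_eq_iff e (Commute.one_left _), Units.val_one, mul_one] at e'
    have h3 : ∀ z ∈ Y, τ (pe F (j * d) * z) = (z⁻¹ : Aˣ) * pe F (-(j * d)) := fun z hz => by
      rw [pe, pe_neg, smul_mul_assoc, mul_smul_comm, map_smul, sub_mul, one_mul, map_sub, hτ z hz,
        Units.val_mul, hj, mul_assoc, ← Algebra.smul_def, map_smul, ← Units.val_mul,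
        hτ _ (mul_mem (hC.le hd) hz), mul_inv_rev, inv_eq_of_mul_eq_one_right (show d * -d = 1 by simp [hd2])]
      simp [mul_add, ← Algebra.smul_def]
    have h4 := h3 z hz
    rw [e', ← mul_one (pe F (j * d)), ← Units.val_one, h3 1 (one_mem Y), eq_comm,
      Units.inv_mul_eq_iff_eq_mul, (by simp : ((1 : Aˣ)⁻¹ : Aˣ) * pe F (-(j * d)) = pe F (-(j * d))),
      (pe_comm e.neg_right.units_val).eq] at h4
    exact Units.ext (ext_pe h2 _ (by simpa using e') (by simpa using h4.symm))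
  have hC1 := hb.ctx hd hd0 hab hC
  have hI1 : HasI F (hb.rs R) := by
    have e := (hc d).2 (Commute.refl d)
    refine ⟨_, hb.res_mem hd e, ?_, (hb.res_sq e hd2).trans hb.res_neg_one⟩
    have := (hb.res_sc hj1).inv.mul (sc_one (F := F)).neg
    rwa [← hb.res_self, hb.res_mul (hj1.comm _) e, inv_mul_cancel_left] at this
  have h3 := hb.good_iff.2 (hC1.le_NR (fun _ _ _ _ => hI1) (hC1.p.cen_of_hasI hI1 (by
    rintro _ ⟨u, hu, e, rfl⟩ e1 e2 _ ⟨z, hz, e', rfl⟩ e3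
    have e4 := (e'.mul_left e).mul_left e'.inv_left
    have e5 := hinj _ (mul_mem (mul_mem (mul_mem hz (hC.le hu)) (inv_mem hz)) (inv_mem (hC.le hu)))
      (e4.mul_left e.inv_left) (by
        rw [hb.res_mul e4 e.inv_left, hb.res_conj e' e, hb.res_inv e, e3.eq]; simp)
    have e6 := h1 u hu ((hb.res_sq_iff hR hu e).1 e1) (fun h => e2 (hb.res_sc h)) z hz
      (by rwa [mul_inv_eq_one, mul_inv_eq_iff_eq_mul] at e5)
    refine Subgroup.mem_normalizer_fintype ?_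
    rintro _ ⟨x, hx, e7, rfl⟩
    exact ⟨_, conj_mem e6 hx, (e'.mul_left e7).mul_left e'.inv_left, hb.res_conj e' e7⟩) hC1.le)
    (Or.inl ⟨hI1, by have := hb.rk_le hR hd hd0 hab; omega⟩))
  refine hC.mem_NR_of (by omega) (fun a ha ha2 h0 g hg e x hx _ => conj_mem (h1 a ha ha2 h0 g hg e) hx)
    hd hd0 hy hyd fun x hx e => ?_
  have e1 := (hc y).2 hyd
  have e2 := (e1.mul_left ((hc x).2 e)).mul_left e1.inv_left
  obtain ⟨x', hx', e3, e4⟩ := h3 y hy e1 x hx ((hc x).2 e)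
  rw [← hb.res_eq_iff e2 e3] at e4
  rwa [mul_inv_eq_one.1 (hinj _ (mul_mem (mul_mem (mul_mem hy (hC.le hx)) (inv_mem hy))
    (inv_mem (hC.le hx'))) (e2.mul_left e3.inv_left)
    (by rw [hb.res_mul e2 e3.inv_left, hb.res_inv e3, e4, mul_inv_cancel]))]

open TensorProduct in
theorem Ctx.le_NR_of_sing' [Finite A] [Finite F] (hC : Ctx F R Y) (hτ : Tau F Y)
    (hr : 5 < rk R) (h1 : ∀ a ∈ R, a * a = 1 → ¬ Sc F a → ∀ y ∈ Y, Commute y a → y ∈ NR R) :
    Y ≤ NR R := by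
  obtain ⟨F', _, _, _, hi⟩ := exists_ext F
  let φ : A →+* F' ⊗[F] A := (Algebra.TensorProduct.includeRight : A →ₐ[F] F' ⊗[F] A).toRingHom
  have hφ : Function.Injective φ :=
    Algebra.TensorProduct.includeRight_injective (algebraMap F F').injective
  have := hφ.nontrivial
  have : Finite (F' ⊗[F] A) := Module.finite_of_finite F'
  have h2 : (2 : F') ≠ 0 := fun e => hC.p.two ((algebraMap F F').injective (by simpa [map_ofNat]))
  have hR := hC.p.map (φ := φ) h2 (irr_tensor hC.p)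
  refine fun g hg => mem_NR_of_map hφ ((hC.map hφ hR).le_NR_of_sing ?_ hi
    (hr.trans_le (rk_le_map hφ)) ?_ ⟨g, hg, rfl⟩)
  · obtain ⟨τ, hτ⟩ := hτ
    refine ⟨τ.baseChange F', ?_⟩
    rintro _ ⟨y, hy, rfl⟩
    rw [← map_inv]
    exact congrArg φ (hτ y hy)
  · rintro _ ⟨a, ha, rfl⟩ e1 e2 _ ⟨y, hy, rfl⟩ e3
    refine Subgroup.le_normalizer_map (um φ) (Subgroup.mem_map_of_mem _ (h1 a ha
      (um_inj hφ (by simpa using e1)) (fun ⟨c, hc⟩ => e2 ⟨algebraMap F F' c, ?_⟩) y hy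
      (um_inj hφ (by simpa using e3.eq))))
    rw [um_val, hc, ← IsScalarTower.algebraMap_apply]
    exact AlgHom.commutes _ c

theorem G6.le_NR [Finite A] [Finite F] {a z : Aˣ} (h : G6 R a z t) (hC : Ctx F R Y) (hτ : Tau F Y)
    (hr : 5 < rk R) (hU : Cl F U) (hYU : Y ≤ U) (hN : U ⊓ NR R ≤ Y) (hG : Good F R Y a) :
    Y ≤ NR R := by
  have h0 := h.az.not_sc hC.p.two
  have h1 := fun b hb (hb2 : 1 = b * b) hb0 =>
    hC.exists_conj (Or.inr (by omega)) h.ma hb h0 hb0 (h.a2.trans hb2)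
  refine hC.le_NR_of_sing' hτ hr fun b hb hb2 hb0 y hy e => ?_
  obtain ⟨g, h3, h4, rfl⟩ := h1 b hb hb2.symm hb0
  have := h.mem_NR_of_good hC (fun b hb hb2 hb0 => by
    obtain ⟨g, h3, h4, rfl⟩ := h1 b hb hb2.symm hb0
    exact hG.conj h3 h4) hτ hU hYU hN (mul_mem (mul_mem (inv_mem h3) hy) h3)
    (comm_of_conj (g := g) (by simpa [mul_assoc] using e))
  exact (mul_mem_cancel_left (inv_mem h4)).1 ((mul_mem_cancel_right h4).1 this)

end Cfsg.Agent.H8.C6
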