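import Cfsg.Agent.H8.C6Q
import Cfsg.Agent.H8.C6O
import Cfsg.Agent.H1.Spin5B
import Cfsg.Agent.Tens.One2

/-!
Maximality of the normaliser of the extraspecial group of order `128` and minus type in `Sp_8(p)`.
-/

set_option autoImplicit false
set_option linter.unusedSectionVars false

namespace Cfsg.Agent.H8.C6

open Module H7 H7.Polar Tens Tens.One H1.Spin5 Matrix QuadraticMap

theorem le_of_rel {G G' : Type*} [Group G] [Group G'] (Γ : Subgroup (G × G')) {S M : Subgroup G}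
    {E K : Subgroup G'} (h1 : ∀ g ∈ S, ∃ h ∈ E, (g, h) ∈ Γ) (h2 : ∀ h ∈ E, ∃ g ∈ S, (g, h) ∈ Γ)
    (h3 : ∀ X, K ⊓ E ≤ X → X ≤ E → ∀ x ∈ X, x ∉ K → E ≤ X) {p : G → Prop}
    (h4 : ∀ g ∈ S, ∀ h ∈ K, h ∈ E → (g, h) ∈ Γ → p g) (hM : ∀ g ∈ S, p g → g ∈ M) (hS : M ≤ S)
    {g : G} (hg : g ∈ M) (hg' : ¬ p g) : S ≤ M := by
  obtain ⟨h, hh, hr⟩ := h1 g (hS hg)
  have key := h3 ((M.prod E ⊓ Γ).map (MonoidHom.snd G G')) (fun k hk => by
      obtain ⟨s, hs, hr⟩ := h2 k hk.2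
      exact ⟨(s, k), ⟨⟨hM s hs (h4 s hs k hk.1 hk.2 hr), hk.2⟩, hr⟩, rfl⟩)
    (by rintro _ ⟨p, hp, rfl⟩; exact hp.1.2) h ⟨(g, h), ⟨⟨hg, hh⟩, hr⟩, rfl⟩
    fun hk => hg' (h4 g (hS hg) h hk hh hr)
  intro s hs
  obtain ⟨k, hk, hr⟩ := h1 s hs
  obtain ⟨⟨m, k'⟩, ⟨⟨b1, -⟩, b2⟩, rfl⟩ := key hk
  have b3 : m⁻¹ * s ∈ S := mul_mem (inv_mem (hS b1)) hs
  have := hM _ b3 (h4 _ b3 1 (one_mem _) (one_mem _) (by simpa using Γ.mul_mem (Γ.inv_mem b2) hr))
  simpa using mul_mem b1 this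

variable {F : Type*} [Field F] [Fintype F]

theorem five (h2 : (2 : F) ≠ 0) (hp : (Fintype.card F).Prime) {t : Fin 5 → GL I4 F}
    (t1 : ∀ i, t i ∈ spGL 2 F) (t2 : ∀ i, t i * t i = 1) (tt : ∀ i j, i ≠ j → Anti (t i) (t j))
    {X : Subgroup (GL I4 F)} (hX : X ≤ spGL 2 F)
    (h1 : ∀ g ∈ spGL 2 F, (∀ i, ∃ j, Sg (g * t i * g⁻¹) (t j)) → g ∈ X) {g : GL I4 F} (hg : g ∈ X)
    (hg' : ¬ ∀ i, ∃ j, Sg (g * t i * g⁻¹) (t j)) : spGL 2 F ≤ X := by
  have t3 : ∀ i, (t i).1 * (t i).1 = 1 := fun i => congrArg Units.val (t2 i)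
  have t4 : ∀ i j, i ≠ j → (t i).1 * (t j).1 = -((t j).1 * (t i).1) := fun i j e =>
    congrArg Units.val (tt i j e)
  choose fr hfr using fun i => exists_ψ h2 (T := (t i).1) (fun u v => by
    rw [← H1.Spin5.mem_sp.1 (t1 i), mulVec_mulVec, t3, one_mulVec]) (by
      obtain ⟨j, hj⟩ := exists_ne i
      exact H2.SympType.trace_eq_zero h2 (t4 j i hj))
  have f1 : ∀ i, Q5 F (fr i) = 1 := fun i => smul_one_inj (by rw [← ψ_sq, hfr, t3, one_smul])
  have f2 : ∀ i j, i ≠ j → polar (Q5 F) (fr i) (fr j) = 0 := fun i j e => smul_one_eq_zero (by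
    rw [← ψ_anti, hfr, hfr, t4 i j e, neg_add_cancel])
  obtain ⟨φ, e1, e2⟩ := exists_frame_equiv h2 one_ne_zero f1 f2 (by simp)
  have hE := cE_mem_E_iff (nd5 h2) (Fr.nd0 h2) one_ne_zero e2
  refine le_of_rel (Γ F) (K := (decStab (Fr.D0 F : Fin 5 → _)).map (cE φ).toMonoidHom)
    (exists_image h2) (exists_lift h2) (fun X h1 h3 x hx hx' y hy => ?_) ?_ h1 hX hg hg'
  · obtain ⟨x, rfl⟩ := (cE φ).surjective x
    obtain ⟨y, rfl⟩ := (cE φ).surjective y
    exact H1.Fr5.key5 h2 hp (by simp) (X := X.comap (cE φ).toMonoidHom)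
      (fun g hg => h1 ⟨⟨g, hg.1, rfl⟩, (hE g).1 hg.2⟩) (fun g hg => (hE g).2 (h3 hg)) hx
      (fun hg => hx' ⟨x, hg, rfl⟩) ((hE y).2 hy)
  · rintro g - _ ⟨k, hk, rfl⟩ hk' hr i
    obtain ⟨j, hj⟩ := Fr.mem_mon.1 hk i
    obtain ⟨s, hs⟩ := Submodule.mem_span_singleton.1 hj
    have b1 : cE φ k (fr i) = s • fr j := by rw [← e1, cE_apply, ← hs, map_smul, e1]
    have b2 := Iso.Q_eq (E_le_Iso hk') (fr i)
    have b3 := hr (fr i)
    simp only [MulEquiv.coe_toMonoidHom, b1, Q_smul, f1, mul_one, map_smul, hfr] at b2 b3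
    refine ⟨j, (mul_self_eq_one_iff.1 b2).imp ?_ ?_⟩ <;> rintro rfl <;>
      exact mul_inv_eq_iff_eq_mul.2 (Units.ext (by simpa using b3.symm))

variable {V : Type*} [AddCommGroup V] [Module F V] [FiniteDimensional F V] {P : Polar F V}
  {a z : (End F V)ˣ}

theorem app_ne (z : (End F V)ˣ) {v : V} (h : z.1 v = 0) : v = 0 := (UE.symm z).map_eq_zero_iff.1 h

theorem B_invol (ha : a ∈ UP P) (h : a * a = 1) (x y : V) : P.B (a.1 x) y = P.B x (a.1 y) := by
  rw [← ha, ← mul_app, h]; rfl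

theorem orth_eig (h2 : (2 : F) ≠ 0) (ha : a ∈ UP P) {u w : V} (hu : a.1 u = -u) (hw : a.1 w = w) :
    P.B w u = 0 := by
  have := ha w u
  rw [hu, hw, map_neg] at this
  exact mul_left_cancel₀ h2 (by linear_combination -this)

theorem eig_pe (h : a * a = 1) (v : V) : a.1 (pe F a v) = -pe F a v :=
  LinearMap.congr_fun (mul_pe (F := F) h) v

theorem eig_pe' (h : a * a = 1) (v : V) : a.1 (pe F (-a) v) = pe F (-a) v :=
  neg_inj.1 (eig_pe (a := -a) (by simpa) v)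

theorem pe_eig (h2 : (2 : F) ≠ 0) {v : V} (h : a.1 v = -v) : pe F a v = v := by
  rw [pe_apply, h, sub_neg_eq_add, half_add h2]

theorem pe_eig' {v : V} (h : a.1 v = v) : pe F a v = 0 := by simp [pe_apply, h]

theorem ext_eig (h2 : (2 : F) ≠ 0) (h : a * a = 1) {m m' : End F V} (h1 : ∀ v, a.1 v = -v → m v = m' v)
    (h3 : ∀ v, a.1 v = v → m v = m' v) : m = m' := LinearMap.ext fun v => by
  rw [← show pe F a v + pe F (-a) v = v from LinearMap.congr_fun (pe_add h2 a) v, map_add, map_add,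
    h1 _ (eig_pe h v), h3 _ (eig_pe' h v)]

theorem fx_of (h2 : (2 : F) ≠ 0) (ha : a ∈ UP P) (h : a * a = 1) {g : (End F V)ˣ} (hg : g ∈ UP P)
    (h1 : ∀ w, a.1 w = w → g.1 w = w) : Commute g a ∧ pe F (-a) * g = pe F (-a) := by
  have h3 : ∀ v, a.1 v = -v → a.1 (g.1 v) = -g.1 v := fun v hv => eq_neg_of_add_eq_zero_left
    (P.nondeg _ fun y => by
      have h4 : a.1 (y + a.1 y) = y + a.1 y := by rw [map_add, ← mul_app, h, add_comm]; rfl
      have := orth_eig h2 ha hv h4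
      rw [← hg, h1 _ h4, map_add, LinearMap.add_apply, B_invol ha h] at this
      rw [map_add, add_comm, this])
  refine ⟨Units.ext (ext_eig h2 h (fun v hv => ?_) fun v hv => ?_), ext_eig h2 h (fun v hv => ?_)
    fun v hv => ?_⟩
  · simp [hv, h3 v hv]
  · simp [hv, h1 v hv]
  · simp [pe_apply, hv, h3 v hv]
  · simp [h1 v hv]

theorem exists_eig (h : a * a = 1) (h1 : Anti a z) {v : V} (hv : v ≠ 0) :
    ∃ u, u ≠ 0 ∧ a.1 u = -u ∧ (u = v - a.1 v ∨ u = z.1 v) := by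
  by_cases e : a.1 v = v
  · exact ⟨_, fun e => hv (app_ne z e), by rw [h1.app, e], Or.inr rfl⟩
  · exact ⟨_, sub_ne_zero.2 (Ne.symm e), by rw [map_sub, ← mul_app, h]; simp, Or.inl rfl⟩

theorem exists_phi (h2 : (2 : F) ≠ 0) (hP : IsSp P) (hn : finrank F V = 8) (ha : a ∈ UP P)
    (h : a * a = 1) (h1 : Anti a z) {b w : (End F V)ˣ} (hb : b ∈ UP P) (hw : w ∈ UP P) (h3 : b * b = 1)
    (h4 : Anti b w) (h5 : Commute b a) (h6 : Commute w a) : ∃ φ : (I4 → F) →ₗ[F] V,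
      (∀ x y, P.B (φ x) (φ y) = sympForm 2 F x y) ∧ (∀ x, a.1 (φ x) = -φ x) ∧
        (∀ v, a.1 v = -v → ∃ x, φ x = v) ∧
          ∃ e f, a.1 e = -e ∧ a.1 f = -f ∧ b.1 e = -e ∧ b.1 f = -f ∧ P.B f e = 1 := by
  have : Nontrivial V := nontrivial_of_finrank_pos (R := F) (by omega)
  obtain ⟨v, hv⟩ := exists_ne (0 : V)
  obtain ⟨v, hv, a1, -⟩ := exists_eig h h1 hv
  obtain ⟨e, he, a2, a3⟩ := exists_eig h3 h4 hv
  replace a1 : a.1 e = -e := by
    rcases a3 with rfl | rfl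
    · simp [← Commute.app h5, a1]; abel
    · simp [← Commute.app h6, a1]
  obtain ⟨y, -, hy⟩ := exists_partner (hP.val e 0) he
  have b1 := eig_pe h (pe F b y)
  have b2 : b.1 (pe F a (pe F b y)) = -pe F a (pe F b y) := by
    rw [show b.1 (pe F a _) = pe F a (b.1 _) from LinearMap.congr_fun (pe_comm h5.units_val).eq _,
      eig_pe h3, map_neg]
  have b3 : P.B (pe F a (pe F b y)) e = 1 := by
    simp [pe_apply, B_invol ha h, B_invol hb h3, a1, a2, hy]; field_simp; norm_num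
  generalize pe F a (pe F b y) = f at *
  have c1 : ∀ u, b.1 u = -u → b.1 (w.1 u) = w.1 u := fun u hu => by simp [h4.app, hu]
  have c2 := fun u v hu hv => orth_eig h2 hb (u := u) hu (c1 v hv)
  have c3 := fun u v hu hv => P.B_symm (c2 u v hu hv)
  have c4 : P.B e f = -1 := by rw [P.herm f e, b3, hP.ε]; simp
  let φ : (I4 → F) →ₗ[F] V := Fintype.linearCombination F (Sum.elim ![e, w.1 e] ![f, w.1 f])
  have d1 : ∀ x, φ x = x (.inl 0) • e + x (.inl 1) • w.1 e + (x (.inr 0) • f + x (.inr 1) • w.1 f) :=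
    fun x => by simp [φ, Fintype.linearCombination_apply]
  have d2 : ∀ x y, P.B (φ x) (φ y) = sympForm 2 F x y := fun x y => by
    simp [d1, f_apply, hP.σ, hw _ _, c2, c3, a2, b2, b3, c4, sing_B (hP.val _ _)]; ring
  have d3 : ∀ x, a.1 (φ x) = -φ x := fun x => by
    simp [d1, ← Commute.app h6, a1, b1]; abel
  refine ⟨φ, d2, d3, fun v hv => ?_, e, f, a1, b1, a2, b2, b3⟩
  let M := LinearMap.ker (a.1 + 1)
  have hM : ∀ v, v ∈ M ↔ a.1 v = -v := fun v => by simp [M, add_eq_zero_iff_eq_neg]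
  have d4 : Function.Injective φ := (injective_iff_map_eq_zero _).2 fun x hx =>
    (spStd 2 F).nondeg x fun y => (d2 y x).symm.trans (by simp [hx])
  have d5 := LinearMap.finrank_le_finrank_of_injective (f := M.subtype.coprod (z.1 ∘ₗ M.subtype))
    ((injective_iff_map_eq_zero _).2 fun x hx => by
      have e1 := congrArg a.1 hx
      simp only [LinearMap.coprod_apply, LinearMap.comp_apply, Submodule.subtype_apply, map_add, h1.app,
        (hM _).1 x.1.2, (hM _).1 x.2.2, map_neg, neg_neg, map_zero] at e1 hx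
      have e2 : x.1.1 = 0 := by
        rw [← half_add h2 x.1.1, show x.1.1 + x.1.1 = 0 by linear_combination (norm := abel1) hx - e1, smul_zero]
      rw [e2, zero_add] at hx
      exact Prod.ext (Subtype.ext e2) (Subtype.ext (app_ne z hx)))
  rw [finrank_prod, hn] at d5
  exact (Submodule.eq_of_le_of_finrank_le (S₁ := LinearMap.range φ) (S₂ := M) (by
    rintro _ ⟨x, rfl⟩; exact (hM _).2 (d3 x)) (by
      rw [LinearMap.finrank_range_of_inj d4]; simp; omega)).ge ((hM v).2 hv)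

section phi

variable (h2 : (2 : F) ≠ 0) (ha : a ∈ UP P) (h : a * a = 1) {φ : (I4 → F) →ₗ[F] V}
  (d2 : ∀ x y, P.B (φ x) (φ y) = sympForm 2 F x y) (d3 : ∀ x, a.1 (φ x) = -φ x)
  (d4 : ∀ v, a.1 v = -v → ∃ x, φ x = v)
include d2

theorem phi_inj : Function.Injective φ := (injective_iff_map_eq_zero _).2 fun x hx =>
  (spStd 2 F).nondeg x fun y => (d2 y x).symm.trans (by simp [hx])

theorem mat_ext {M M' : Matrix I4 I4 F} (e : ∀ x, φ (M *ᵥ x) = φ (M' *ᵥ x)) : M = M' :=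
  Matrix.toLin'.injective (LinearMap.ext fun x => phi_inj d2 (e x))

include d3 d4

theorem exists_mat {y : (End F V)ˣ} (hy : Commute y a) :
    ∃ M : GL I4 F, ∀ x, φ (M.1 *ᵥ x) = y.1 (φ x) := by
  obtain ⟨ψ, hψ⟩ := φ.exists_leftInverse_of_injective (LinearMap.ker_eq_bot.2 (phi_inj d2))
  have key : ∀ y : (End F V)ˣ, Commute y a → ∀ x,
      φ (LinearMap.toMatrix' (ψ ∘ₗ y.1 ∘ₗ φ) *ᵥ x) = y.1 (φ x) := fun y hy x => by
    obtain ⟨x', hx'⟩ := d4 (y.1 (φ x)) (by rw [← Commute.app hy, d3, map_neg])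
    rw [LinearMap.toMatrix'_mulVec, LinearMap.comp_apply, LinearMap.comp_apply, ← hx']
    exact congrArg φ (LinearMap.congr_fun hψ x')
  exact ⟨⟨_, _, mat_ext d2 fun x => by
    rw [← mulVec_mulVec, key y hy, key _ hy.inv_left, ← mul_app, mul_inv_cancel, one_mulVec]; rfl,
    mat_ext d2 fun x => by
    rw [← mulVec_mulVec, key _ hy.inv_left, key y hy, ← mul_app, inv_mul_cancel, one_mulVec]; rfl⟩,
    key y hy⟩

include h2 ha h

theorem exists_unit {M : GL I4 F} (hM : M ∈ spGL 2 F) :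
    ∃ y ∈ UP P, Commute y a ∧ ∀ x, φ (M.1 *ᵥ x) = y.1 (φ x) := by
  obtain ⟨ψ, hψ⟩ := φ.exists_leftInverse_of_injective (LinearMap.ker_eq_bot.2 (phi_inj d2))
  let L : Matrix I4 I4 F → End F V := fun M => φ ∘ₗ Matrix.toLin' M ∘ₗ ψ ∘ₗ pe F a + pe F (-a)
  have e1 : ∀ M x, L M (φ x) = φ (M *ᵥ x) := fun M x => by
    have : ψ (φ x) = x := LinearMap.congr_fun hψ x
    simp [L, pe_eig h2 (d3 x), pe_eig' (a := -a) (v := φ x) (by simp [d3]), this]
  have e2 : ∀ M w, a.1 w = w → L M w = w := fun M w hw => by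
    simp [L, pe_eig' hw, pe_eig h2 (a := -a) (v := w) (by simp [hw])]
  have e3 : ∀ M M', M * M' = 1 → L M * L M' = 1 := fun M M' e => ext_eig h2 h (fun v hv => by
    obtain ⟨x, rfl⟩ := d4 v hv
    simp [e1, e]) fun v hv => by simp [e2 _ v hv]
  have e4 : ∀ v, ∃ x w, a.1 w = w ∧ v = φ x + w := fun v => by
    obtain ⟨x, hx⟩ := d4 _ (eig_pe h v)
    exact ⟨x, _, eig_pe' h v, hx ▸ (LinearMap.congr_fun (pe_add h2 a) v).symm⟩
  have e5 : (⟨L M.1, L (M⁻¹).1, e3 _ _ M.mul_inv, e3 _ _ M.inv_mul⟩ : (End F V)ˣ) ∈ UP P := fun v v' => by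
    obtain ⟨x, w, hw, rfl⟩ := e4 v
    obtain ⟨x', w', hw', rfl⟩ := e4 v'
    simp [e1, e2 _ _ hw, e2 _ _ hw', d2, H1.Spin5.mem_sp.1 hM, orth_eig h2 ha (d3 _) hw,
      P.B_symm (orth_eig h2 ha (d3 _) hw')]
  exact ⟨_, e5, (fx_of h2 ha h e5 (e2 _)).1, fun x => (e1 _ x).symm⟩

end phi

variable {R X : Subgroup (End F V)ˣ} {t : Fin 5 → (End F V)ˣ}

theorem G6.surj (h : G6 R a z t) (hp : (Fintype.card F).Prime) (hP : IsSp P) (hn : finrank F V = 8)
    (hC : Ctx F R X) (hX : X ≤ UP P) (hN : UP P ⊓ NR R ≤ X) (hG : ¬ Good F R X a) {g : (End F V)ˣ}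
    (hg : g ∈ UP P) (e : Commute g a) : ∃ y ∈ X, Commute y a ∧ pe F a * y = pe F a * g := by
  have : Nontrivial V := nontrivial_of_finrank_pos (R := F) (by omega)
  have : Finite (End F V) := Module.finite_of_finite F
  have hR := hC.p
  have h2 := hR.two
  have hU := hC.le.trans hX
  have ha := hR.invl h.ma h.a2 (h.az.not_sc h2)
  obtain ⟨φ, d2, d3, d4, -⟩ := exists_phi h2 hP hn (hU h.ma) h.a2 h.az (hU (h.mt 0)) (hU (h.mt 1))
    (h.t2 0) (h.tt 0 1 (by decide)) (h.ta 0) (h.ta 1)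
  have key : ∀ {y y' : (End F V)ˣ}, Commute y a → Commute y' a →
      (ha.res y = ha.res y' ↔ ∀ x, y.1 (φ x) = y'.1 (φ x)) := fun {y y'} e e' => by
    rw [ha.res_eq_iff e e', ← (pe_comm e.units_val).eq, ← (pe_comm e'.units_val).eq]
    refine ⟨fun h1 x => by simpa [pe_eig h2 (d3 x)] using LinearMap.congr_fun h1 (φ x),
      fun h1 => LinearMap.ext fun v => ?_⟩
    obtain ⟨x, hx⟩ := d4 _ (eig_pe h.a2 v)
    simp [← hx, h1]
  let Γ : Subgroup (GL I4 F × (End F V)ˣ) :=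
    { carrier := {p | Commute p.2 a ∧ ∀ x, φ (p.1.1 *ᵥ x) = p.2.1 (φ x)}
      one_mem' := by simp
      mul_mem' := fun hp hq => ⟨hp.1.mul_left hq.1, fun x => by
        simp [← mulVec_mulVec, hp.2, hq.2]⟩
      inv_mem' := fun {p} hp => ⟨hp.1.inv_left, fun x => by
        rw [← (UE.symm p.2).injective.eq_iff]
        simp [← hp.2, ← mul_app]⟩ }
  have sp : ∀ M y, (M, y) ∈ Γ → y ∈ UP P → M ∈ spGL 2 F := fun M y h1 h3 u v => by
    change sympForm 2 F (M.1 *ᵥ u) (M.1 *ᵥ v) = _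
    rw [← d2, h1.2, h1.2, h3, d2]
  have sg : ∀ M y M' y', (M, y) ∈ Γ → (M', y') ∈ Γ → (Sg M M' ↔ Sg (ha.res y) (ha.res y')) :=
    fun M y M' y' h1 h3 => by
      rw [Sg, Sg, ← ha.res_neg h3.1, key h1.1 h3.1, key h1.1 h3.1.neg_left]
      refine or_congr ⟨?_, fun h4 => Units.ext (mat_ext d2 fun x => by rw [h1.2, h3.2, h4])⟩
        ⟨?_, fun h4 => Units.ext (mat_ext d2 fun x => by simp [neg_mulVec, h1.2, h3.2, h4])⟩ <;>
        rintro rfl x
      · exact (h1.2 x).symm.trans (h3.2 x)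
      · simpa [neg_mulVec, h3.2] using (h1.2 x).symm
  choose T hT using fun i => exists_mat d2 d3 d4 (h.ta i)
  have hT' := hT
  replace hT : ∀ i, (T i, t i) ∈ Γ := fun i => ⟨h.ta i, hT i⟩
  have mon : ∀ M y, (M, y) ∈ Γ → ((∀ i, ∃ j, Sg (M * T i * M⁻¹) (T j)) ↔
      ∀ i, ∃ j, Sg (ha.res y * ha.res (t i) * (ha.res y)⁻¹) (ha.res (t j))) := fun M y h1 =>
    forall_congr' fun i => exists_congr fun j => by
      rw [← ha.res_conj h1.1 (h.ta i)]
      exact sg _ _ _ _ (mul_mem (mul_mem h1 (hT i)) (inv_mem h1)) (hT j)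
  have h5 := h.g5 hR ha
  have hR1 := ha.pauli hR h.ma (h.az.not_sc h2) (by simpa using sc_one)
  obtain ⟨_, ⟨y, hy, e1, rfl⟩, e2⟩ := SetLike.not_le_iff_exists.1 (fun e => hG (ha.good_iff.2 e))
  obtain ⟨M, hM⟩ := exists_mat d2 d3 d4 e1
  obtain ⟨M', hM'⟩ := exists_mat d2 d3 d4 e
  obtain ⟨⟨_, y'⟩, ⟨h3, h4⟩, rfl⟩ := five h2 hp (t := T) (fun i => sp _ _ (hT i) (hU (h.mt i)))
    (fun i => Units.ext (mat_ext d2 fun x => by
      simp [← mulVec_mulVec, hT', ← mul_app, h.t2]))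
    (fun i j e => Units.ext (mat_ext d2 fun x => by
      simp [← mulVec_mulVec, hT', neg_mulVec, (h.tt i j e).app]))
    (X := (Γ ⊓ Subgroup.prod ⊤ X).map (MonoidHom.fst _ _))
    (by rintro _ ⟨p, hp, rfl⟩; exact sp _ _ hp.1 (hX hp.2.2))
    (fun N hN' h1 => by
      obtain ⟨u, h3, h4, h6⟩ := exists_unit h2 (hU h.ma) h.a2 d2 d3 d4 hN'
      have h7 := h5.mem_NR h2 hR1.neg ((mon N u ⟨h4, h6⟩).1 h1)
      obtain ⟨n, h8, h9, h10, h11⟩ := hR.dbl h.ma h.a2 h.mz h.az h4 (cl_UP h2 P) hU h3 fun x hx e => by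
        obtain ⟨x', b1, b2, b3⟩ := conj_mem h7 (ha.res_mem hx e)
        exact ⟨x', b1, b2, by rw [← ha.res_eq_iff ((h4.mul_left e).mul_left h4.inv_left) b2, b3,
          ha.res_conj h4 e]⟩
      exact ⟨(N, n), ⟨⟨h10, fun x => (h6 x).trans ((key h10 h4).1 ((ha.res_eq_iff h10 h4).2 h11) x).symm⟩,
        trivial, hN ⟨h8, h9⟩⟩, rfl⟩)
    (g := M) ⟨(M, y), ⟨⟨e1, hM⟩, trivial, hy⟩, rfl⟩
    (fun h1 => e2 (h5.mem_NR h2 hR1.neg ((mon M y ⟨e1, hM⟩).1 h1))) (sp M' g ⟨e, hM'⟩ hg)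
  exact ⟨y', h4.2, h3.1, (ha.res_eq_iff h3.1 e).1 ((key h3.1 e).2 fun x => (h3.2 x).symm.trans (hM' x))⟩

theorem G6.E_le (h : G6 R a z t) (hp : (Fintype.card F).Prime) (hP : IsSp P) (hn : finrank F V = 8)
    (hC : Ctx F R X) (hX : X ≤ UP P) (hN : UP P ⊓ NR R ≤ X) (hG : ¬ Good F R X a) (hr : 4 < rk R) :
    P.E ≤ X.comap UE.toMonoidHom := by
  have : Nontrivial V := nontrivial_of_finrank_pos (R := F) (by omega)
  have : Finite (End F V) := Module.finite_of_finite F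
  have hR := hC.p
  have h2 := hR.two
  have hU := hC.le.trans hX
  have h0 := h.az.not_sc h2
  have ha := hR.invl h.ma h.a2 h0
  have iso : X.comap UE.toMonoidHom ≤ P.Iso := fun g hg => ⟨hX hg, fun _ _ _ => hP.val _ _⟩
  have hc : ∀ g ∈ P.Iso, (∀ w, a.1 w = w → g w = w) → ∀ k ∈ X.comap UE.toMonoidHom,
      (∀ w, a.1 w = w → k w = w) → g * k * g⁻¹ ∈ X.comap UE.toMonoidHom := fun g hg e k hk e' => by
    obtain ⟨c1, -⟩ := fx_of h2 (hU h.ma) h.a2 (UE_mem_UP hg) e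
    obtain ⟨c2, c3⟩ := fx_of h2 (hU h.ma) h.a2 (hX hk) e'
    obtain ⟨y, hy, c4, c5⟩ := h.surj hp hP hn hC hX hN hG (UE_mem_UP hg) c1
    have := mul_mem (mul_mem hy hk) (inv_mem hy)
    rw [← ha.ext_eq c2 c3, ha.conj_ext c4, (ha.res_eq_iff c4 c1).2 c5, ← ha.conj_ext c1,
      ha.ext_eq c2 c3] at this
    simpa using this
  have ho := fun u w => orth_eig h2 (hU h.ma) (u := u) (w := w)
  obtain ⟨-, -, -, -, e, f, a1, a2, a3, a4, a5⟩ := exists_phi h2 hP hn (hU h.ma) h.a2 h.az (hU (h.mt 0))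
    (hU (h.mt 1)) (h.t2 0) (h.tt 0 1 (by decide)) (h.ta 0) (h.ta 1)
  obtain ⟨u, u0, u1, u2⟩ : ∃ u, u ≠ 0 ∧ a.1 u = -u ∧ (t 0).1 u = u :=
    ⟨(t 1).1 e, fun e' => by simp [app_ne _ e'] at a5, by simp [← Commute.app (h.ta 1), a1],
      by simp [(h.tt 0 1 (by decide)).app, a3]⟩
  have k1 : ∀ w, a.1 w = -w → (t 0).1 w = -w → P.EI (X.comap UE.toMonoidHom) u (w + w) 0 := by
    intro w w1 w2
    have hw := P.B_symm (orth_eig h2 (hU (h.mt 0)) w2 u2)
    have hk : UE.symm (ctl F a (t 0)) ∈ X.comap UE.toMonoidHom := by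
      simpa using hC.gate a h.ma h.a2 _ (h.mt 0) (h.ta 0)
    have k2 : ∀ v, a.1 v = -v → UE.symm (ctl F a (t 0)) v = (t 0).1 v := fun v =>
      ctl_apply_neg h2 h.a2 (h.ta 0)
    refine ⟨_, mul_mem (hc _ (eichE_mem_Iso (hP.val u 0) hw (hP.val w 0))
      (fun x hx => eich_fix _ (ho _ _ u1 hx) (ho _ _ w1 hx)) _ hk
      fun x => ctl_apply_pos h2 h.a2 (h.ta 0)) (inv_mem hk), fun x => ?_⟩
    generalize UE.symm (ctl F a (t 0)) = k at *
    obtain ⟨x, rfl⟩ := k.surjective x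
    have := eich_conj (iso hk) u (-w) (P.ε * P.σ 0) x
    rw [map_neg, k2 u u1, k2 w w1, u2, w2, neg_neg] at this
    have e1 : (eichE (hP.val u 0) hw (hP.val w 0))⁻¹ x = P.eich u (-w) (P.ε * P.σ 0) x := rfl
    simp only [LinearEquiv.mul_apply, LinearEquiv.coe_inv k, LinearEquiv.symm_apply_apply, e1, ← this,
      eichE_apply, eich_comp _ _ (sing_B (hP.val u 0)) hw hw]
    simp [sing_B (hP.val w 0)]
  have k2 : TV P (X.comap UE.toMonoidHom) u := fun s => by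
    have o := fun w hw => P.B_symm (orth_eig h2 (hU (h.mt 0)) (u := w) hw u2)
    have b1 := o e a3
    have b2 := o f a4
    have := ((k1 ((s / 4) • e) (by simp [a1]) (by simp [a3])).add (k1 f a2 a4) (hP.val _ _) (by simp [b1])
      (by simp [b2])).add (k1 (-((s / 4) • e + f)) (by simp [a1, a2, add_comm])
      (by simp [a3, a4, add_comm])) (hP.val _ _)
      (by simp [b1, b2]) (by simp [b1, b2])
    refine this.has.congr fun x => ?_
    have h4 : (4 : F) ≠ 0 := by simpa [show (2 : F) * 2 = 4 by norm_num] using mul_ne_zero h2 h2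
    simp only [eich, map_add, map_neg, map_smul, LinearMap.add_apply, LinearMap.smul_apply, B_smul_right,
      hP.σ, hP.ε, a5, B_anti iso hP f e, sing_B (hP.val _ _), smul_eq_mul, End.one_apply, th_apply]
    match_scalars <;> field_simp <;> ring
  have k3 : ∀ u v, a.1 u = -u → a.1 v = -v → P.B u v ≠ 0 → TV P (X.comap UE.toMonoidHom) u →
      TV P (X.comap UE.toMonoidHom) v := fun u v u1 v1 e hu s => by
    obtain ⟨k, hk, e'⟩ := hu s
    have hg := E_le_Iso (unip_th_mem (hP.val (v - u) 0) (hP.val 0 (P.B u v)⁻¹))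
    have e1 : unip (th_sq (hP.val (v - u) 0)) (P.B u v)⁻¹ u = v := by
      simp [unip_apply, sing_B (hP.val u 0), smul_smul, e]
    refine ⟨_, hc _ hg (fun x hx => by simp [unip_apply, ho _ _ u1 hx, ho _ _ v1 hx]) k hk
      (fun x hx => by simp [e', ho _ _ u1 hx]), fun x => ?_⟩
    generalize unip (th_sq (hP.val (v - u) 0)) (P.B u v)⁻¹ = g at *
    obtain ⟨x, rfl⟩ := g.surjective x
    simp [e', ← e1, Iso.B hg]
  have k4 : ∀ u v, a.1 u = -u → a.1 v = -v → u ≠ 0 → v ≠ 0 →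
      ∃ x, a.1 x = -x ∧ P.B x u ≠ 0 ∧ P.B x v ≠ 0 := fun u v u1 v1 u0 v0 => by
    have key : ∀ u, a.1 u = -u → u ≠ 0 → ∃ x ∈ LinearMap.ker (a.1 + 1), P.B x u ≠ 0 := fun u u1 u0 => by
      obtain ⟨y, -, hy⟩ := exists_partner (hP.val u 0) u0
      exact ⟨y - a.1 y, by simp [← mul_app, h.a2], by
        simpa [B_invol (hU h.ma) h.a2, u1, hy, one_add_one_eq_two]⟩
    obtain ⟨x, h1, h3⟩ := key u u1 u0
    obtain ⟨y, h4, h5⟩ := key v v1 v0
    obtain ⟨w, h6, h7⟩ := exists_both_ne _ (P.B.flip u).toAddMonoidHom (P.B.flip v).toAddMonoidHom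
      h1 h4 h3 h5
    exact ⟨w, by simpa [add_eq_zero_iff_eq_neg] using h6, h7⟩
  have k5 : ∀ v, a.1 v = -v → TV P (X.comap UE.toMonoidHom) v := fun v v1 => by
    by_cases v0 : v = 0
    · exact v0 ▸ TV.zero
    obtain ⟨x, h1, h3, h4⟩ := k4 u v u1 v1 u0 v0
    exact k3 x v h1 v1 h4 (k3 u x u1 h1 (P.B_ne_symm h3) k2)
  have k6 : ∀ b ∈ R, b * b = 1 → ¬ Sc F b → ∀ v, b.1 v = -v → TV P (X.comap UE.toMonoidHom) v := by
    intro b hb b2 b0 v hv s
    obtain ⟨g, hg, -, rfl⟩ := hC.exists_conj (Or.inr hr) h.ma hb h0 b0 (h.a2.trans b2.symm)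
    obtain ⟨v, rfl⟩ := (UE.symm g).surjective v
    have hg' : UE.symm g ∈ X.comap UE.toMonoidHom := by simpa
    refine (k5 v ((UE.symm g).injective ?_) s).conj hg' fun x => by simp [hX hg x]
    rw [UE_symm_apply, ← mul_app, inv_mul_cancel_right] at hv
    rw [map_neg]
    exact hv
  refine E_le_of_TV iso hP h2 k2 u0 (Q := {v | a.1 v = -v ∨ a.1 v = v}) (eq_top_iff.2 fun v _ => ?_) ?_
  · rw [← show pe F a v + pe F (-a) v = v from LinearMap.congr_fun (pe_add h2 a) v]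
    exact add_mem (Submodule.subset_span (Or.inl (eig_pe h.a2 v)))
      (Submodule.subset_span (Or.inr (eig_pe' h.a2 v)))
  rintro y (hy | hy)
  · refine ⟨k5 y hy, fun y0 => ?_⟩
    obtain ⟨x, h1, h3, h4⟩ := k4 u y u1 hy u0 y0
    exact ⟨x, k5 x h1, h3, P.B_ne_symm h4⟩
  · refine ⟨k6 _ (hR.neg_mem h.ma) (by simpa using h.a2) (sc_neg_iff.not.2 h0) y (by simpa), fun y0 => ?_⟩
    obtain ⟨x, h1, h3, h4⟩ := k4 u (z.1 y) u1 (by rw [h.az.app, hy]) u0 fun e => y0 (app_ne z e)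
    have h5 : a.1 (z.1 x) = z.1 x := by simp [h.az.app, h1]
    exact ⟨x - z.1 x, k6 z h.mz h.z2 (h.az.symm.not_sc h2) _ (by simp [← mul_app, h.z2]),
      by simpa [ho _ _ u1 h5], by simpa [ho _ _ h1 hy, ← B_invol (hU h.mz) h.z2] using P.B_ne_symm h4⟩

theorem g6_of {A : Type*} [Ring A] [Algebra F A] [Nontrivial A] {R : Subgroup Aˣ} (hR : Pauli F R)
    (hτ : Tau F R) {a z b w d d' : Aˣ} (ma : a ∈ R) (mz : z ∈ R) (mb : b ∈ R) (mw : w ∈ R) (md : d ∈ R)
    (md' : d' ∈ R) (a2 : a * a = 1) (z2 : z * z = 1) (b2 : b * b = 1) (w2 : w * w = 1)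
    (d2 : d * d = -1) (d2' : d' * d' = -1) (az : Anti a z) (bw : Anti b w) (dd : Anti d d')
    (ba : Commute b a) (bz : Commute b z) (wa : Commute w a) (wz : Commute w z)
    (c : ∀ x, x = d ∨ x = d' → Commute x a ∧ Commute x z ∧ Commute x b ∧ Commute x w)
    (gen : ∀ x ∈ R, Commute x a → Commute x z → Commute x b → Commute x w → Commute x d →
      Commute x d' → Sc F x) :
    G6 R a z ![b, w, b * w * d, b * w * d', b * w * (d * d')] := by
  obtain ⟨c1, c2, c3, c4⟩ := c d (Or.inl rfl)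
  obtain ⟨c5, c6, c7, c8⟩ := c d' (Or.inr rfl)
  have h2 := hR.two
  have s1 : b * w * (b * w) = -1 := by simp [bw.mul_sq, b2, w2]
  have s2 : ∀ x, Commute x b → Commute x w → x * x = -1 → b * w * x * (b * w * x) = 1 :=
    fun x e e' h => by rw [comm_mul_sq (e.mul_right e').symm, s1, h]; simp
  have s3 : ∀ x, Commute x b → Anti b (b * w * x) := fun x e =>
    (bw.comm_mul (Commute.refl b)).mul_comm e.symm
  have s4 : ∀ x, Commute x w → Anti w (b * w * x) := fun x e =>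
    (bw.symm.mul_comm (Commute.refl w)).mul_comm e.symm
  have s5 : ∀ x y, Commute x b → Commute x w → Commute y b → Commute y w → Anti x y →
      Anti (b * w * x) (b * w * y) := fun x y e1 e2 e3 e4 e =>
    ((e.symm.comm_mul (e3.mul_right e4)).symm.comm_mul
      ((Commute.refl _).mul_left (e1.mul_right e2)))
  have s6 := dd.comm_mul (Commute.refl d)
  have s7 := dd.symm.mul_comm (Commute.refl d')
  have c9 := c3.mul_left c7
  have c10 := c4.mul_left c8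
  have mt : ∀ i, ![b, w, b * w * d, b * w * d', b * w * (d * d')] i ∈ R := fun i => by
    fin_cases i <;> simp [mul_mem, *]
  have t2 : ∀ i, ![b, w, b * w * d, b * w * d', b * w * (d * d')] i *
      ![b, w, b * w * d, b * w * d', b * w * (d * d')] i = 1 := fun i => by
    fin_cases i
    exacts [b2, w2, s2 d c3 c4 d2, s2 d' c7 c8 d2', s2 _ c9 c10 (by simp [dd.mul_sq, d2, d2'])]
  have ta : ∀ i, Commute (![b, w, b * w * d, b * w * d', b * w * (d * d')] i) a := fun i => by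
    fin_cases i
    exacts [ba, wa, (ba.mul_left wa).mul_left c1, (ba.mul_left wa).mul_left c5,
      (ba.mul_left wa).mul_left (c1.mul_left c5)]
  have tz : ∀ i, Commute (![b, w, b * w * d, b * w * d', b * w * (d * d')] i) z := fun i => by
    fin_cases i
    exacts [bz, wz, (bz.mul_left wz).mul_left c2, (bz.mul_left wz).mul_left c6,
      (bz.mul_left wz).mul_left (c2.mul_left c6)]
  have tt : ∀ i j, i ≠ j → Anti (![b, w, b * w * d, b * w * d', b * w * (d * d')] i)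
      (![b, w, b * w * d, b * w * d', b * w * (d * d')] j) := by
    have : ∀ i j, i < j → Anti (![b, w, b * w * d, b * w * d', b * w * (d * d')] i)
        (![b, w, b * w * d, b * w * d', b * w * (d * d')] j) := fun i j e => by
      fin_cases i <;> fin_cases j <;> simp at e
      exacts [bw, s3 d c3, s3 d' c7, s3 _ c9, s4 d c4, s4 d' c8, s4 _ c10, s5 _ _ c3 c4 c7 c8 dd,
        s5 _ _ c3 c4 c9 c10 s6, s5 _ _ c7 c8 c9 c10 s7]
    exact fun i j e => e.lt_or_gt.elim (this i j) fun e => (this j i e).symm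
  have gen' : ∀ x ∈ R, Commute x a → Commute x z →
      (∀ i, Commute x (![b, w, b * w * d, b * w * d', b * w * (d * d')] i)) → Sg x 1 :=
    fun x hx e1 e2 e => hτ.sg hx (gen x hx e1 e2 (e 0) (e 1)
      (by simpa [mul_assoc] using ((e 0).mul_right (e 1)).inv_right.mul_right (e 2))
      (by simpa [mul_assoc] using ((e 0).mul_right (e 1)).inv_right.mul_right (e 3)))
  have pr : cl R (b * w * (d * d')) = cl R b + cl R w + cl R (b * w * d) + cl R (b * w * d') := by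
    simp only [hR.cl_mul, mul_mem, *]
    rw [← add_zero (cl R b + _ + _), ← hR.add_self (cl R b + cl R w)]; abel
  refine ⟨ma, mz, mt, a2, z2, t2, az, ta, tz, tt, fun x hx e1 e2 => ?_⟩
  generalize ht : ![b, w, b * w * d, b * w * d', b * w * (d * d')] = t at *
  replace pr : cl R (t 4) = cl R (t 0) + cl R (t 1) + cl R (t 2) + cl R (t 3) := ht ▸ pr
  have B : ∀ i j, hR.pol.B (cl R (t i)) (cl R (t j)) = if j = i then 0 else 1 := fun i j => by
    split_ifs with e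
    exacts [e ▸ hR.B_self _, (hR.B_eq_one (mt i) (mt j)).2 (tt i j (Ne.symm e))]
  have key : ∀ y ∈ R, Commute y a → Commute y z → (∀ i, hR.pol.B (cl R x) (cl R (t i)) =
      hR.pol.B (cl R y) (cl R (t i))) → Sg x y := fun y hy e3 e4 e => by
    simpa using (gen' _ (mul_mem hx (inv_mem hy)) (e1.mul_left e3.inv_left) (e2.mul_left e4.inv_left)
      fun i => by
        rw [← hR.B_eq_zero (mul_mem hx (inv_mem hy)) (mt i), hR.cl_mul hx (inv_mem hy), hR.cl_inv hy,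
          map_add, LinearMap.add_apply, e, K2.add_self]).mul (Or.inl rfl : Sg y y)
  have tri : ∀ c : Fin 5 → K2, c 4 = c 0 + c 1 + c 2 + c 3 → (∀ i, c i = 0) ∨
      (∃ j, ∀ i, c i = if i = j then 0 else 1) ∨ ∃ i j, i ≠ j ∧
        ∀ k, c k = (if k = i then 0 else 1) + if k = j then 0 else 1 := by decide
  rcases tri (fun i => hR.pol.B (cl R x) (cl R (t i))) (by simp only [pr, map_add]) with
    e | ⟨j, e⟩ | ⟨i, j, e3, e⟩
  · exact Or.inl (key 1 (one_mem R) (Commute.one_left a) (Commute.one_left z) fun i => by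
      simp [e, hR.cl_one])
  · exact Or.inr (Or.inl ⟨j, key _ (mt j) (ta j) (tz j) fun i => by rw [e, B]⟩)
  · rcases key _ (mul_mem (mt i) (mt j)) ((ta i).mul_left (ta j)) ((tz i).mul_left (tz j)) fun k => by
      rw [e, hR.cl_mul (mt i) (mt j), map_add, LinearMap.add_apply, B, B] with e4 | e4
    · exact Or.inr (Or.inr ⟨i, j, e3, e4⟩)
    · exact Or.inr (Or.inr ⟨j, i, e3.symm, e4.trans (tt j i e3.symm).eq.symm⟩)

theorem maximal_Sp8 (hP : IsSp P) (hp : (Fintype.card F).Prime) (hR : Pauli F R) (hU : R ≤ UP P)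
    (hn : finrank F V = 8) : Geo.IsMaximalIn (GE P.E) (NR R ⊓ GE P.E) := by
  have h2 := hR.two
  have : Nontrivial V := nontrivial_of_finrank_pos (R := F) (by omega)
  have : Finite (End F V) := Module.finite_of_finite F
  obtain ⟨κ, _, _, _, _, f, hf⟩ := hR.exists_frame
  have := f.nontrivial h2
  have h1 : finrank F f.V0 ≠ 1 := fun h => by
    obtain ⟨v, hv⟩ := exists_ne (0 : f.V0)
    exact f.B_ne hR hU h hv (sing_B (hP.val _ _))
  obtain ⟨d, hd, hd', h0⟩ : ∃ d ∈ R, f.Cm id d ∧ ¬ Sc F d := by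
    by_contra! h
    exact h1 (f.finrank_V0 h2 hR h)
  obtain ⟨d', h3, h4, h5, h6, h7, h8⟩ := hf.quat hR hd hd' h0
  have h9 : ∀ b : End F f.V0, ∃ a₁ a₂ a₃ a₄ : F, b = a₁ • 1 + a₂ • f.res hd'.val + a₃ • f.res h4.val +
      a₄ • (f.res hd'.val * f.res h4.val) := fun b => by
    obtain ⟨a₁, a₂, a₃, a₄, h⟩ := h8 _ (f.cm_K h2 b)
    refine ⟨a₁, a₂, a₃, a₄, f.K_inj h2 ?_⟩
    have := (f.ts h2).K_mul 1 1 (f.res hd'.val) (f.res h4.val)
    rw [mul_one, f.K_res, f.K_res] at this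
    simp [h, f.K_res, Algebra.algebraMap_eq_smul_one, this]
  have h10 := f.finrank_le (k := 2) ![1, f.res hd'.val, f.res h4.val, f.res hd'.val * f.res h4.val]
    fun b _ => by
      obtain ⟨a₁, a₂, a₃, a₄, rfl⟩ := h9 b
      refine add_mem (add_mem (add_mem ?_ ?_) ?_) ?_ <;>
        exact Submodule.smul_mem _ _ (Submodule.subset_span (by simp))
  have h11 := f.finrank_eq h2
  have h12 := f.rk_ge' hR hd h3 hd' h4 h5
  have hk : finrank K2 κ = 2 := by
    have := finrank_pos (R := F) (M := f.V0)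
    rw [hn, show finrank F f.V0 = 2 by omega] at h11
    exact Nat.pow_right_injective le_rfl (show 2 ^ _ = 2 ^ 2 by omega)
  let b := finBasisOfFinrankEq K2 κ hk
  have hb : ∀ i j, b.coord i (b j) = if j = i then 1 else 0 := fun i j => by simp [Finsupp.single_apply]
  have a2 : ∀ φ, f.α φ * f.α φ = 1 := fun φ => by rw [← f.Θ_Zs h2, ← map_mul, Zs_sq, map_one]
  have hτ := tau_UP P hP.σ
  have hG := g6_of hR (hτ.mono hU) (f.α_mem (b.coord 0)) (f.β_mem (b 0)) (f.α_mem (b.coord 1))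
    (f.β_mem (b 1)) hd h3 (a2 _) (f.β_sq _) (a2 _) (f.β_sq _) h6 h7 (f.anti _ _ (by simp [hb]))
    (f.anti _ _ (by simp [hb])) h5 (f.α_comm _ _) (f.comm _ _ (by simp [hb]))
    (f.comm _ _ (by simp [hb])).symm (f.β_comm _ _)
    (by rintro x (rfl | rfl)
        exacts [⟨hd'.1 _, hd'.2 _, hd'.1 _, hd'.2 _⟩, ⟨h4.1 _, h4.2 _, h4.1 _, h4.2 _⟩])
    fun x hx e1 e2 e3 e4 e5 e6 => by
      have hx' : f.Cm id x := by
        refine ⟨fun φ => ?_, fun s => ?_⟩
        · rw [← b.sum_dual_apply_smul_coord φ, Fin.sum_univ_two, f.α_add]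
          refine Commute.mul_right ?_ ?_ <;> rcases K2.cases (φ (b _)) with e | e <;> rw [e] <;>
            simp [f.α_zero, e1, e3]
        · rw [← b.sum_repr s, Fin.sum_univ_two, f.β_add]
          refine Commute.mul_right ?_ ?_ <;> rcases K2.cases (b.repr s _) with e | e <;> rw [e] <;>
            simp [f.β_zero, e2, e4]
      refine (hR.sq x hx).elim (hf x hx hx') fun e => (h5.symm.not_comm h2 ?_).elim
      simpa using e6.symm.inv_right.mul_right ((hf _ (mul_mem hx hd) (hx'.mul hd')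
        (by rw [comm_mul_sq e5, e, h6]; simp)).comm d').symm
  have hE : GE P.E = UP P := le_antisymm (GE_le_UP P) fun g hg =>
    (E_eq_Iso fun x => hP.val x 0).ge (show UE.symm g ∈ P.Iso from ⟨hg, fun _ _ _ => hP.val _ _⟩)
  refine max_of (hE ▸ ((cl_UP h2 P).gb h2 hU 2).ga.not_le hR (by omega)) fun X e1 e2 e3 => GE_le ?_
  rw [hE] at e1 e2
  have hC : Ctx F R X := ⟨hR, fun u hu u2 x hx e => e1 ⟨cl_UP h2 P u (hU hu) u2 x (hU hx) e,
    hR.ctl_mem_normalizer hu u2 hx e⟩⟩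
  exact hG.E_le hp hP hn hC e2 e1 (fun e => e3 (hG.le_NR hC (hτ.mono e2) (by omega) (cl_UP h2 P) e2 e1 e))
    (by omega)

end Cfsg.Agent.H8.C6
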