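import Cfsg.Agent.H8.SLBlk

/-!
Overgroups of the monomial group in `GL_n(q)`, `n ≥ 3`, `q ≥ 5`, contain transvections.
-/

set_option autoImplicit false
set_option linter.unusedSectionVars false

namespace Cfsg.Agent.H8

open Module H7

variable {F : Type*} [Field F] {V : Type*} [AddCommGroup V] [Module F V]
variable {κ : Type} [Fintype κ] [DecidableEq κ]

theorem exists_gen [Fintype F] :
    ∃ a : F, a ≠ 0 ∧ ∀ m, 0 < m → m + 1 < Fintype.card F → a ^ m ≠ 1 := by
  classical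
  obtain ⟨a, ha⟩ := IsCyclic.exists_generator (α := Fˣ)
  refine ⟨a, a.ne_zero, fun m h1 h2 h3 => ?_⟩
  have := Nat.le_of_dvd h1 (orderOf_dvd_of_pow_eq_one (x := a) (n := m) (Units.ext (by simpa)))
  rw [orderOf_eq_card_of_forall_mem_zpowers ha, Nat.card_eq_fintype_card, Fintype.card_units] at this
  omega

/-- the conjugates of the coordinate homology groups -/
def HR (Y : Subgroup (V ≃ₗ[F] V)) (c : Basis κ F V) (u : V) (φ : Dual F V) : Prop :=
  ∃ g ∈ Y, ∃ i, u = g (c i) ∧ ∀ x, φ (g x) = c.coord i x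

namespace HR

variable {Y : Subgroup (V ≃ₗ[F] V)} {c : Basis κ F V} {u v : V} {φ ψ : Dual F V}

theorem basis (i : κ) : HR Y c (c i) (c.coord i) := ⟨1, one_mem _, i, rfl, fun _ => rfl⟩

theorem one (h : HR Y c u φ) : φ u = 1 := by
  obtain ⟨g, -, i, rfl, h⟩ := h
  simp [h]

theorem conj (h : HR Y c u φ) {g : V ≃ₗ[F] V} (hg : g ∈ Y) (hψ : ∀ x, ψ (g x) = φ x) :
    HR Y c (g u) ψ := by
  obtain ⟨g', hg', i, rfl, h⟩ := h
  exact ⟨g * g', mul_mem hg hg', i, rfl, fun x => by rw [LinearEquiv.mul_apply, hψ, h]⟩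

variable (hd : ∀ j (β : F), β ≠ 0 → TV Y ((β - 1) • c.coord j) (c j))
include hd

theorem tv (h : HR Y c u φ) {β : F} (hβ : β ≠ 0) : TV Y ((β - 1) • φ) u := by
  obtain ⟨g, hg, i, rfl, h⟩ := h
  exact (hd i β hβ).conj hg fun x => by simp [h]

theorem hconj (h : HR Y c u φ) (h' : HR Y c v ψ) {β : F} (hβ : β ≠ 0) :
    HR Y c (u + ((β - 1) * ψ u) • v) (φ + ((β⁻¹ - 1) * φ v) • ψ) := by
  obtain ⟨g, hg, h1⟩ := h'.tv hd hβ
  have := h.conj hg (ψ := φ + ((β⁻¹ - 1) * φ v) • ψ) fun x => by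
    simp [h1, h'.one]; field_simp; ring
  simpa [h1] using this

variable [Fintype F] (hq : 5 ≤ Fintype.card F)
  (hn : ∀ i (φ : Dual F V), φ (c i) = 0 → TV Y φ (c i) → φ = 0)
include hq hn

omit hd hq in
theorem eq_zero (h : HR Y c u φ) (h1 : ψ u = 0) (h2 : TV Y ψ u) : ψ = 0 := by
  obtain ⟨g, hg, i, rfl, -⟩ := h
  have := hn i (ψ ∘ₗ g) h1 (by
    simpa using h2.conj (inv_mem hg) (ψ := ψ ∘ₗ g) fun x => by simp)
  ext x
  simpa using congrArg (· (g.symm x)) this

theorem zero_of_zero (h : HR Y c u φ) (h' : HR Y c v ψ) (h1 : φ v = 0) : ψ u = 0 := by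
  obtain ⟨β, β0, β1⟩ := exists_ne_zero_one (F := F) (by omega)
  have h2 := (h.hconj hd h' β0).tv hd β0
  have h3 : TV Y (((β - 1) * ψ u * (β - 1)) • φ) v :=
    Has.of_comp_left h2.has (h.tv hd β0).has fun x => by simp [h1]; module
  have := congrArg (· u) (h'.eq_zero hn (by simp [h1]) h3)
  simpa [h.one, sub_eq_zero, β1] using this

theorem mul_cases (h : HR Y c u φ) (h' : HR Y c v ψ) :
    φ v * ψ u = 0 ∨ φ v * ψ u = 1 ∨ 2 * (φ v * ψ u) = 1 := by
  by_contra! h1
  obtain ⟨h1, h2, h3⟩ := h1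
  have h4 : φ v * ψ u - 1 ≠ 0 := sub_ne_zero.2 h2
  have h5 := left_ne_zero_of_mul h1
  have h6 := right_ne_zero_of_mul h1
  have := h.zero_of_zero hd hq hn (h.hconj hd h' (β := (φ v * ψ u - 1) / (φ v * ψ u))
    (div_ne_zero h4 h1)) (by simp [h.one]; field_simp; ring)
  simp only [LinearMap.add_apply, h.one, LinearMap.smul_apply, smul_eq_mul, inv_div] at this
  field_simp at this
  exact h3 (by linear_combination this)

theorem key (h : HR Y c u φ) {j k l : κ} (hjk : j ≠ k) (hjl : j ≠ l) (hkl : k ≠ l) {a b d : F}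
    (ha : a ≠ 0) (hb : b ≠ 0) (hd' : d ≠ 0) {A B x y z : F} (hx : c.repr u j * φ (c j) = x)
    (hy : c.repr u k * φ (c k) = y) (hz : c.repr u l * φ (c l) = z)
    (hA : A = 1 + (a - 1) * x + (b - 1) * y + (d - 1) * z)
    (hB : B = 1 + (a⁻¹ - 1) * x + (b⁻¹ - 1) * y + (d⁻¹ - 1) * z) :
    (A = 0 → B = 0) ∧ (A * B = 0 ∨ A * B = 1 ∨ 2 * (A * B) = 1) := by
  have h' := ((h.hconj hd (basis j) ha).hconj hd (basis k) hb).hconj hd (basis l) hd'
  have h1 := h.zero_of_zero hd hq hn h'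
  have h2 := h.mul_cases hd hq hn h'
  simp only [map_add, map_smul, h.one, Basis.coord_apply, Basis.repr_self, LinearMap.add_apply,
    LinearMap.smul_apply, smul_eq_mul, Finsupp.single_apply, hjk, hjl, hkl, hjk.symm, hjl.symm,
    hkl.symm, if_false, mul_zero, add_zero, Finsupp.add_apply, Finsupp.smul_apply] at h1 h2
  subst hx hy hz hA hB
  constructor
  · convert h1 using 2 <;> ring
  · convert h2 using 3 <;> ring

theorem mem_span (h3 : 3 ≤ Fintype.card κ)
    (hs : ∀ j l, ∃ s ∈ Y, ∀ m, s (c m) = c (Equiv.swap j l m)) (h : HR Y c u φ) :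
    ∃ j, u ∈ F ∙ c j := by
  by_contra! hu
  have h0 : ∀ j, c.repr u j = 0 ↔ φ (c j) = 0 := fun j =>
    ⟨(basis j).zero_of_zero hd hq hn h, h.zero_of_zero hd hq hn (basis j)⟩
  have h1 : ∀ j, c.repr u j ≠ 0 →
      c.repr u j * φ (c j) = 1 ∨ 2 * (c.repr u j * φ (c j)) = 1 := fun j hj =>
    ((basis j).mul_cases hd hq hn h).resolve_left (mul_ne_zero hj (mt (h0 j).2 hj))
  have h2 : ∀ j, ∃ k, k ≠ j ∧ c.repr u k ≠ 0 := fun j => by
    by_contra! h2
    refine hu j (Submodule.mem_span_singleton.2 ⟨c.repr u j, c.ext_elem fun k => ?_⟩)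
    by_cases hk : k = j
    · simp [hk]
    · simp [h2 k hk, hk]
  have third : ∀ j k : κ, ∃ l, j ≠ l ∧ k ≠ l := fun j k => by
    obtain ⟨l, hl⟩ := exists_notMem_of_card_lt (s := {j, k}) (Finset.card_le_two.trans_lt h3)
    exact ⟨l, by simpa [eq_comm] using hl⟩
  have h4 : ∀ j, c.repr u j * φ (c j) ≠ 1 := fun j hj => by
    obtain ⟨k, hk, hk'⟩ := h2 j
    obtain ⟨l, hl, hl'⟩ := third j k
    rcases h1 k hk' with h5 | h5
    · obtain ⟨b, h6, h7⟩ := avoid22 (F := F) hq (a := 1) (b := -1) (c := 0) (a' := 1) (b' := -1)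
        (c' := 1) (by simp) (by simp)
      have b0 : b ≠ 0 := by rintro rfl; simp at h6
      have b1 : 1 - b ≠ 0 := fun h8 => h6 (by linear_combination -b * h8)
      have := (h.key hd hq hn hk.symm hl hl' b0 b1 one_ne_zero hj h5 rfl rfl rfl).1 (by ring)
      field_simp at this
      exact h7 (by linear_combination this)
    · obtain ⟨b, h6, h7⟩ := avoid21 (F := F) (by omega) (a := 1) (b := -1) (c := 0) (d := 1)
        (e := 1) (by simp) (by simp)
      have b0 : b ≠ 0 := by rintro rfl; simp at h6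
      have b1 : 1 - b ≠ 0 := fun h8 => h6 (by linear_combination -b * h8)
      generalize hy : c.repr u k * φ (c k) = y at h5
      have y0 : y ≠ 0 := by rintro rfl; simp at h5
      have := (h.key hd hq hn hk.symm hl hl' (mul_ne_zero b1 y0) b0 one_ne_zero hj hy rfl rfl
        rfl).1 (by ring)
      field_simp at this
      refine pow_ne_zero 2 h7 ?_
      linear_combination 4 * this - (1 - b) ^ 2 * (2 * y + 1) * h5
  have h5 : ∀ j, c.repr u j ≠ 0 → 2 * (c.repr u j * φ (c j)) = 1 := fun j hj =>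
    (h1 j hj).resolve_left (h4 j)
  obtain ⟨j, -, hj⟩ := h2 (Classical.arbitrary κ (h := Fintype.card_pos_iff.1 (by omega)))
  obtain ⟨k, hk, hk'⟩ := h2 j
  obtain ⟨l, hl, hl'⟩ := third j k
  have hx := h5 j hj
  have hy := h5 k hk'
  have h6 : (2 : F) ≠ 0 := by intro h6; simp [h6] at hx
  have h7 : (5 : F) = 0 := by
    obtain ⟨a, a0, ha⟩ := exists_gen (F := F)
    by_cases h7 : Fintype.card F = 5
    · exact_mod_cast h7 ▸ FiniteField.cast_card_eq_zero F
    refine (ha 4 (by norm_num) (by omega) ?_).elim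
    generalize hx' : c.repr u j * φ (c j) = x at hx
    have h8 := (h.key hd hq hn hk.symm hl hl' a0 one_ne_zero one_ne_zero hx' rfl rfl rfl rfl).2
    obtain rfl : x = 2⁻¹ := eq_inv_of_mul_eq_one_right hx
    field_simp at h8
    rcases h8 with h8 | h8 | h8
    · have : (a + 1) ^ 2 = 0 := by linear_combination h8
      rw [pow_eq_zero_iff two_ne_zero] at this
      linear_combination (a - 1) * (a ^ 2 + 1) * this
    · have : (a - 1) ^ 2 = 0 := by linear_combination h8
      rw [pow_eq_zero_iff two_ne_zero] at this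
      linear_combination (a + 1) * (a ^ 2 + 1) * this
    · linear_combination (a ^ 2 - 1) * h8
  have h8 : ∀ l, j ≠ l → k ≠ l → c.repr u l = 0 := fun l hl hl' => by
    by_contra h8
    have hz := h5 l h8
    have := (h.key hd hq hn hk.symm hl hl' h6 h6 h6 rfl rfl rfl rfl rfl).1
      (mul_left_cancel₀ h6 (by linear_combination hx + hy + hz + h7))
    field_simp at this
    exact one_ne_zero (α := F) (by linear_combination 2 * this + hx + hy + hz)
  obtain ⟨s, hs, h9⟩ := hs k l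
  have h10 : ∀ x, s (s x) = x := fun x => by
    have : (s : V →ₗ[F] V) ∘ₗ s = LinearMap.id := c.ext fun m => by simp [h9]
    exact congrArg (· x) this
  have h11 : u = c.repr u j • c j + c.repr u k • c k := c.ext_elem fun m => by
    by_cases h : j = m
    · simp [← h, hk, hk.symm]
    by_cases h' : k = m
    · simp [← h', hk, hk.symm]
    · simp [h8 m h h', h, h', Ne.symm h, Ne.symm h']
  have h12 : 2 * φ (s u) = 1 := by
    rw [h11]
    simpa [h9, Equiv.swap_apply_of_ne_of_ne hk.symm hl, (h0 l).1 (h8 l hl hl')] using hx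
  have h13 := h.mul_cases hd hq hn (h.conj hs (ψ := φ ∘ₗ s) fun x => by simp [h10])
  simp only [LinearMap.comp_apply, LinearEquiv.coe_coe] at h13
  generalize φ (s u) = x at h12 h13
  refine one_ne_zero (α := F) ?_
  rcases h13 with h13 | h13 | h13
  · linear_combination 4 * h13 - (2 * x + 1) * h12
  · linear_combination (-8) * h13 + 2 * (2 * x + 1) * h12 - h7
  · linear_combination (-2) * h13 + (2 * x + 1) * h12

end HR

/-- A proper overgroup of the monomial group contains an elementary transvection. -/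
theorem mono_or_elem [Fintype F] {Y : Subgroup (V ≃ₗ[F] V)} {c : Basis κ F V}
    (hq : 5 ≤ Fintype.card F) (h3 : 3 ≤ Fintype.card κ)
    (hd : ∀ j (β : F), β ≠ 0 → TV Y ((β - 1) • c.coord j) (c j))
    (hs : ∀ j l, ∃ s ∈ Y, ∀ m, s (c m) = c (Equiv.swap j l m)) :
    (∀ g ∈ Y, ∀ i, ∃ j, g (c i) ∈ F ∙ c j) ∨
      ∃ i j, ∃ a : F, i ≠ j ∧ a ≠ 0 ∧ TV Y (a • c.coord j) (c i) := by
  by_cases hn : ∀ i (φ : Dual F V), φ (c i) = 0 → TV Y φ (c i) → φ = 0
  · exact Or.inl fun g hg i => HR.mem_span hd hq hn h3 hs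
      ((HR.basis i).conj hg (ψ := c.coord i ∘ₗ g.symm) fun x => by simp)
  right
  push Not at hn
  obtain ⟨i, φ, h1, h2, h4⟩ := hn
  obtain ⟨j, hj⟩ : ∃ j, φ (c j) ≠ 0 := by
    by_contra! h5
    exact h4 (c.ext h5)
  have hij : i ≠ j := by rintro rfl; exact hj h1
  obtain ⟨β, β0, β1⟩ := exists_ne_zero_one (F := F) (by omega)
  obtain ⟨g, hg, h5⟩ := hd j β β0
  have h6 := h2.conj hg (ψ := φ + ((β⁻¹ - 1) * φ (c j)) • c.coord j) fun x => by
    simp [h5]; field_simp; ring
  rw [show g (c i) = c i by simp [h5, hij.symm]] at h6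
  refine ⟨i, j, (β⁻¹ - 1) * φ (c j), hij, mul_ne_zero (by simpa [sub_eq_zero]) hj, ?_⟩
  simpa using h6.sub_left h2 (by simp [h1, hij.symm]) h1

end Cfsg.Agent.H8
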