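import Cfsg.Agent.H8.SLFrame
import Cfsg.Agent.H8.OTensor
import Cfsg.Agent.H5.SUMax
import Cfsg.Agent.H5.SLSmall
import Cfsg.Agent.H9.SpSmall
import Cfsg.Agent.H9.SpProper

/-!
Non-maximal decomposition and tensor product stabilisers over small fields.
-/

set_option autoImplicit false
set_option linter.unusedSectionVars false

namespace Cfsg.Agent.H8

open Module H7 Asch Geo
open scoped MatrixGroups Matrix Kronecker

variable {F : Type*} [Field F] [Fintype F] {ι : Type} [Fintype ι] [DecidableEq ι]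

theorem exists_between_of' {G : Type*} [Group G] {H M K Y : Subgroup G} (h1 : H ⊓ K ≤ M)
    (hK : Y ≤ K) (hM : Y ≤ M) (hH : ¬ Y ≤ H) (h3 : ¬ K ≤ M) : ∃ X, H ⊓ K < X ∧ X < K := by
  obtain ⟨g, hg, hg'⟩ := SetLike.not_le_iff_exists.1 hH
  exact exists_between_of h1 ⟨g, hK hg, hM hg, hg'⟩ h3

theorem between_of_sim {P : Polar F (ι → F)} {d : ℕ} (hw : P.Wild d) (hd : d ≤ 3)
    (hn : 7 ≤ Fintype.card ι) {M : Subgroup (GL ι F)} (hM : ∀ g, toLE g ∈ P.Iso → g ∈ M)
    (hM' : ¬ specialLinear ι F ≤ M) {t m : ℕ} {D : Fin t → Submodule F (ι → F)}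
    (hD : IsMDecomposition m D) (h : decompositionStabilizer D ⊓ specialLinear ι F ≤ M) :
    ∃ K, decompositionStabilizer D ⊓ specialLinear ι F < K ∧ K < specialLinear ι F :=
  exists_between_of' (Y := P.E.comap toLE.toMonoidHom) h
    (fun g hg => (mem_specialLinear_iff g).2 (Polar.E_le_SLV hg)) (fun g hg => hM g (Polar.E_le_Iso hg))
    (HasE.not_le_decompositionStabilizer ⟨P, d, hw, hd, by omega, fun _ h => h⟩ hD) hM'

theorem between_sl_dec (hn : 7 ≤ Fintype.card ι) {t m : ℕ} (ht : 3 ≤ t)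
    {D : Fin t → Submodule F (ι → F)} (hD : IsMDecomposition m D)
    (h : Irred (decompositionStabilizer D ⊓ specialLinear ι F) →
      LinC8 (decompositionStabilizer D ⊓ specialLinear ι F)) :
    ∃ K, decompositionStabilizer D ⊓ specialLinear ι F < K ∧ K < specialLinear ι F := by
  by_cases hI : Irred (decompositionStabilizer D ⊓ specialLinear ι F)
  · rcases h hI with ⟨f, hf, h⟩ | ⟨σ, f, hf, h⟩ | ⟨-, Q, hQ, h⟩
    · exact between_of_sim (spPolar_wild hf) (by omega) hn (fun g hg => Polar.Iso_le_Sim hg)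
        (H5.SL.not_le_symplectic (by omega) hf) hD h
    · exact between_of_sim (Polar.wild_two_of_unitary (unitPolar_ne hf) rfl) (by omega) hn
        (fun g hg => Polar.Iso_le_Sim hg) (H5.SL.not_le_unitary (by omega) hf) hD h
    · exact exists_between_of' (Y := omegaGL Q) h (fun g hg => (mem_specialLinear_iff g).2
        (Polar.E_le_SLV ((mem_omegaGL_iff hQ hn g).1 hg)))
        (fun g hg => ⟨1, fun v => by simpa using isom_of_mem_omegaGL hg v⟩)
        ((hasE_omegaGL hQ hn).not_le_decompositionStabilizer hD) (H5.SL.not_le_quad (by omega) hQ)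
  simp only [Irred, not_forall, not_or] at hI
  obtain ⟨W, h1, h2, h3⟩ := hI
  refine exists_between_of (M := subspaceStabilizer W) (fun g hg =>
    mem_subspaceStabilizer_of_forall (h1 g hg)) ?_ (H5.SL.not_le_subspaceStabilizer h2 h3)
  by_contra! h4
  have hD' := IsMDecomposition.dec hD
  obtain ⟨w, hw, w0⟩ := (Submodule.ne_bot_iff W).1 h2
  obtain ⟨j, hj⟩ := hD'.exists_pr_ne w0
  have key : ∀ i, i ≠ j → ∃ u ∈ D i, u ≠ 0 ∧ u + w ∈ D j := fun i hi => by
    obtain ⟨u, hu, u0⟩ := hD'.exists_ne_zero i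
    obtain ⟨φ, k1, k2⟩ := exists_dual_zero_one (F := F) (u := w) (v := u) fun k => by
      obtain ⟨c, rfl⟩ := Submodule.mem_span_singleton.1 k
      exact smul_ne_zero (left_ne_zero_of_smul u0) hj (by rw [← map_smul, hD'.pr_ne hi hu])
    have := h4 (toLE.symm (LinearEquiv.transvection k2))
      (by simpa [mem_specialLinear_iff] using transvection_mem_SLV k2)
      (by simpa [mem_subspaceStabilizer_iff] using transvection_mem_stab_of_mem k2 hw)
    rw [mem_decompositionStabilizer_iff, MulEquiv.apply_symm_apply] at this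
    obtain ⟨l, hl⟩ := Dec.exists_mem this hu
    simp only [LinearEquiv.transvection.coe_apply, LinearMap.transvection.apply, k1, one_smul] at hl
    refine ⟨u, hu, u0, ?_⟩
    by_contra k3
    exact hD'.notMem_of_pr (i := l) (j := j) (by rintro rfl; exact k3 hl)
      (by simpa [hD'.pr_ne hi hu] using hj) hl
  obtain ⟨i, hi⟩ := exists_notMem_of_card_lt (s := {j}) (by simp; omega)
  obtain ⟨i', hi'⟩ := exists_notMem_of_card_lt (s := {j, i}) (Finset.card_le_two.trans_lt (by simpa))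
  simp only [Finset.mem_insert, Finset.mem_singleton, not_or] at hi hi'
  obtain ⟨u, hu, u0, k1⟩ := key i hi
  obtain ⟨u', hu', -, k2⟩ := key i' hi'.1
  have k3 := hD'.pr_ne (Ne.symm hi) (sub_mem k1 k2)
  simp [hD'.pr_self hu, hD'.pr_ne hi'.2 hu', u0] at k3

theorem between_sl_tensor_two (hq : Fintype.card F = 2) {b : ℕ} (hb : 2 ≤ b) (e : ι ≃ Fin 2 × Fin b)
    (P : GL ι F) : ∃ K, tensorProductSubgroup 2 b e P ⊓ specialLinear ι F < K ∧
      K < specialLinear ι F := by
  obtain ⟨hθ, hK, hle⟩ := exists_field_tensor_two hq (by omega) e P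
  refine exists_between_of (inf_le_left.trans hle) ?_ (H5.SL.not_le_subalgebraNormalizer
    (by rw [card_eq_of_equiv_prod e]; omega) le_rfl hK)
  let i : Fin b := ⟨0, by omega⟩
  let j : Fin b := ⟨1, by omega⟩
  have hij : i ≠ j := by simp [i, j]
  let N : Matrix (Fin 2 × Fin b) (Fin 2 × Fin b) F := !![0, 1; 1, 1] ⊗ₖ Matrix.single i j 1
  have hN : N * N = 0 := by
    rw [← Matrix.mul_kronecker_mul, Matrix.single_mul_single_of_ne _ _ _ _ hij.symm,
      Matrix.kronecker_zero]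
  let u : GL (Fin 2 × Fin b) F := ⟨1 + N, 1 - N, by simp [mul_sub, add_mul, hN],
    by simp [mul_add, sub_mul, hN]⟩
  refine ⟨trGL e P u, H5.SU.mem_SL.2 (eq_one_of_card_two hq (Matrix.isUnits_det_units _).ne_zero),
    mem_subalgebraNormalizer_quadAlg _ ?_, fun hg => ?_⟩
  · rw [cj_trGL, (cj_eq_self_iff u _).2]
    · exact self_mem_quadAlg _
    · simp only [u, N, lk_apply, add_mul, mul_add, ← Matrix.mul_kronecker_mul, one_mul, mul_one]
  · obtain ⟨A, B, h⟩ := (mem_tensorProductSubgroup e P _).1 hg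
    have h1 := (tr e P).injective h
    have h2 := congrFun (congrFun h1 (0, i)) (1, i)
    have h3 := congrFun (congrFun h1 (0, i)) (0, i)
    have h4 := congrFun (congrFun h1 (0, i)) (1, j)
    simp [u, N, hij, hij.symm] at h2 h3 h4
    rcases h2 with h2 | h2
    · simp [h2] at h4
    · simp [h2] at h3

omit [Fintype F] in
theorem notMem_tensor_of_tv {a b : ℕ} (ha : 2 ≤ a) (hb : 2 ≤ b) {e : ι ≃ Fin a × Fin b} {P g : GL ι F}
    {φ : Dual F (ι → F)} {u x : ι → F} (h : ∀ x, (g : Matrix ι ι F) *ᵥ x = x + φ x • u)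
    (hu : u ≠ 0) (hx : φ x ≠ 0) : g ∉ tensorProductSubgroup a b e P := fun hg => by
  obtain ⟨A, B, h1⟩ := (mem_tensorProductSubgroup e P g).1 hg
  have h2 := finrank_inf_ker_ge ⊤ φ
  rw [top_inf_eq, finrank_top, finrank_fintype_fun_eq_card] at h2
  have h3 : ∀ v ∈ LinearMap.ker φ, (g : Matrix ι ι F) *ᵥ v = v := fun v hv => by
    rw [h, hv, zero_smul, add_zero]
  obtain ⟨c, hc⟩ := scalar_of_fix_kronecker e P A B (C := LinearMap.ker φ) (by simp; omega) (h1 ▸ h3)
  obtain ⟨d, hd⟩ := scalar_of_fix_kronecker (e.trans (Equiv.prodComm _ _)) P B A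
    (C := LinearMap.ker φ) (by simp; omega) (by rw [tr_swap]; exact h1 ▸ h3)
  have h4 : ∀ v, (g : Matrix ι ι F) *ᵥ v = (c * d) • v := fun v => by
    rw [h1, hc, hd, Matrix.smul_kronecker, Matrix.kronecker_smul, Matrix.one_kronecker_one,
      smul_smul, map_smul, map_one, Matrix.smul_mulVec, Matrix.one_mulVec]
  obtain ⟨v, hv, v0⟩ := (Submodule.ne_bot_iff (LinearMap.ker φ)).1 (by
    rw [← Submodule.one_le_finrank_iff, card_eq_of_equiv_prod e] at *; nlinarith)
  have h5 : c * d = 1 := smul_left_injective F v0 (by simpa [h3 v hv] using (h4 v).symm)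
  simpa [h, h5, hx, hu] using h4 x

theorem between_sp_planes {m : ℕ} (hm : 4 ≤ m) (hq : Fintype.card F = 2) {t : ℕ}
    {D : Fin t → Submodule F (Fin m ⊕ Fin m → F)}
    (hD : IsNondegenerateMDecomposition (sympForm m F) 2 D) :
    ∃ K, decompositionStabilizer D ⊓ spGL m F < K ∧ K < spGL m F := by
  obtain ⟨Q, hQ, h1, h2⟩ := H9.SpT.exists_quad_planes hq (isSymplecticForm_sympForm m F) hD
    (fixesGram_of_le_spGL inf_le_right) inf_le_left
  exact exists_between_of' (Y := omegaGL Q) h2 (fun g hg u v => by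
      rw [sympForm_eq, ← h1, ← h1]
      exact polar_mulVec (Q := toQF hQ) (omegaGL_le_isometryGroup hg) u v)
    (fun g hg => ⟨1, fun v => by simpa using isom_of_mem_omegaGL hg v⟩)
    ((hasE_omegaGL hQ (by simp; omega)).not_le_decompositionStabilizer hD.decomp)
    ((H9.SpT.hasT_spGL m).not_le_quadSimilarityGroup (by simp; omega)
      (by exact_mod_cast cast_eq_zero_of_card hq) hQ h1)

theorem between_sp_tensor_three {m : ℕ} (hm : 3 ≤ m) (hq : Fintype.card F = 3) {n₁ : ℕ}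
    {e : (Fin m ⊕ Fin m) ≃ Fin n₁ × Fin 3} {P : GL (Fin m ⊕ Fin m) F}
    {f₁ : (Fin n₁ → F) → (Fin n₁ → F) → F} {f₂ : (Fin 3 → F) → (Fin 3 → F) → F}
    (hf₁ : IsSymplecticForm f₁) (hf₂ : IsSymmetricForm f₂)
    (hT : IsTensorFormStructure id (sympForm m F) f₁ f₂ e P) :
    ∃ K, tensorProductSubgroup n₁ 3 e P ⊓ spGL m F < K ∧ K < spGL m F := by
  have hf := isSymplecticForm_sympForm m F
  have hc := card_eq_of_equiv_prod e
  simp only [Fintype.card_sum, Fintype.card_fin] at hc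
  obtain ⟨D, hD, h⟩ := H9.SpT.exists_decomp_three hq hf.bilinear (by omega) hf₁.nondegenerate
    hf₁.bilinear hf₂ hT (H := tensorProductSubgroup n₁ 3 e P ⊓ spGL m F) (fun g hg => hg.2)
    inf_le_left
  refine exists_between_of h ?_ ((hasE_spGL hm).not_le_decompositionStabilizer hD.decomp)
  obtain ⟨u, hu, u0⟩ := (IsMDecomposition.dec hD.decomp).exists_ne_zero 0
  obtain ⟨x, hx⟩ := (hf.nondegenerate u u0).1
  refine ⟨_, H9.SpT.tv_mem_spGL u 1, mem_decompositionStabilizer_of_le hD.decomp fun i =>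
    ⟨i, fun v hv => ?_⟩, notMem_tensor_of_tv (by omega) (by norm_num)
      (φ := (bilinOf hf.bilinear).flip u) (fun x => by simp [H9.SpT.tv_mulVec]) u0 hx⟩
  rw [H9.SpT.tv_mulVec]
  by_cases hi : i = 0
  · exact hi ▸ add_mem (hi ▸ hv) ((D 0).smul_mem _ hu)
  · simpa [hD.orthogonal i 0 hi v hv u hu] using hv

open H5.SU

variable {σ : F ≃+* F} {G : Matrix ι ι F}

omit [Fintype F] in
theorem exists_perm_SUG {κ : Type} [Fintype κ] [DecidableEq κ] {b : κ → ι → F} (hb : ON σ G b)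
    (hc : Fintype.card κ = Fintype.card ι) {π : Equiv.Perm κ} (hπ : Equiv.Perm.sign π = 1) :
    ∃ g ∈ SUG σ G, ∀ a, (g : Matrix ι ι F) *ᵥ b a = b (π a) := by
  let B := basisOfLinearIndependentOfCardEqFinrank' b hb.indep (by simpa using hc)
  have h1 : ∀ a, ((toLE.symm (permLE B π) : GL ι F) : Matrix ι ι F) *ᵥ b a = b (π a) := fun a => by
    simpa [B, toLE_symm_mulVec] using permLE_apply B π a
  refine ⟨_, mem_SUG.2 ⟨fun u v => ?_, ?_⟩, h1⟩
  · obtain ⟨x, rfl⟩ := hb.exists_sum (W := ⊤) (fun _ => trivial) (by simpa using hc.symm) (v := u) trivial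
    obtain ⟨y, rfl⟩ := hb.exists_sum (W := ⊤) (fun _ => trivial) (by simpa using hc.symm) (v := v) trivial
    have h2 : ON σ G fun a => b (π a) := fun a a' => by simp [hb (π a)]
    simp only [Matrix.mulVec_sum, Matrix.mulVec_smul, h1, hb.sum_sum, h2.sum_sum]
  · rw [← det_toLE, MulEquiv.apply_symm_apply, det_permLE, hπ, one_smul]

theorem between_su_planes (h4 : Fintype.card F = 4) (hG : Herm σ 1 G) (hne : σ ≠ RingEquiv.refl F)
    {t : ℕ} {D : Fin t → Submodule F (ι → F)} (hD : IsNondegenerateMDecomposition (gf σ G) 2 D) :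
    ∃ K, decompositionStabilizer D ⊓ SUG σ G < K ∧ K < SUG σ G := by
  obtain ⟨b, hb, hb'⟩ := exists_on_decomp hG hne hD
  have hm := IsMDecomposition.mul_eq hD.decomp
  have ht := hD.decomp.two_le
  let e : Fin (Fintype.card ι) ≃ Fin t × Fin 2 := Fintype.equivOfCardEq (by simp [hm])
  have hD' := hb'.frame hG e (by omega) rfl
  refine exists_between_of (fun g hg => mem_decompositionStabilizer_comp hD'.decomp ?_) ?_
    (not_le_frame hG hne hD' (by omega))
  · rintro ⟨i, a⟩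
    obtain ⟨π, hπ⟩ := mulVec_mem_decomp hg.1
    have hb2 : ON σ G fun a => b (π i, a) := fun a a' => by simpa using hb' (π i, a) (π i, a')
    obtain ⟨x, hx⟩ := hb2.exists_sum (hb (π i)) (by simpa using hD.decomp.finrank_eq _)
      (hπ i _ (hb i a))
    obtain ⟨a', ha'⟩ := mem_span_of_four h4 hne hb2 (x := x) (by
      rw [← hx, (mem_SUG.1 hg.2).1, hb'.self]; exact one_ne_zero)
    exact ⟨(π i, a'), mulVec_mem_span (hx ▸ ha')⟩
  let i : Fin t := ⟨0, by omega⟩
  let j : Fin t := ⟨1, by omega⟩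
  have hij : i ≠ j := by simp [i, j]
  obtain ⟨g, h1, h2⟩ := exists_perm_SUG hb' (by simp [hm])
    (π := Equiv.swap (j, 0) (j, 1) * Equiv.swap (i, 0) (j, 1)) (by simp [hij])
  refine ⟨g, h1, mem_decompositionStabilizer_comp hD'.decomp fun a =>
    ⟨(Equiv.swap (j, 0) (j, 1) * Equiv.swap (i, 0) (j, 1) : Equiv.Perm (Fin t × Fin 2)) a,
      mulVec_mem_span (by rw [h2]; exact Submodule.mem_span_singleton_self _)⟩, fun hg => ?_⟩
  obtain ⟨π, hπ⟩ := mulVec_mem_decomp hg
  have h3 := hπ i _ (hb i 0)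
  have h5 := hπ i _ (hb i 1)
  simp [h2, Equiv.swap_apply_of_ne_of_ne, hij] at h3 h5
  have hD₀ := IsMDecomposition.dec hD.decomp
  exact hij ((hD₀.eq_of_mem (hb i 1) h5 (hb'.ne_zero _)).trans
    (hD₀.eq_of_mem h3 (hb j 0) (hb'.ne_zero _)))

theorem between_su_tensor (h4 : Fintype.card F = 4) (hG : Herm σ 1 G) (hne : σ ≠ RingEquiv.refl F)
    {b : ℕ} (hb : 2 ≤ b) {e : ι ≃ Fin 2 × Fin b} {P : GL ι F} {G₁ : Matrix (Fin 2) (Fin 2) F}
    {G₂ : Matrix (Fin b) (Fin b) F} (h₁ : Herm σ 1 G₁) (h₂ : Herm σ 1 G₂)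
    (hT : IsTensorFormStructure σ (gf σ G) (gf σ G₁) (gf σ G₂) e P) :
    ∃ K, tensorProductSubgroup 2 b e P ⊓ SUG σ G < K ∧ K < SUG σ G := by
  obtain ⟨c, hc, h⟩ := hT
  have h1 : pbG σ e P G = c • G₁ ⊗ₖ G₂ := gf_ext (σ := σ) fun x y => by
    rw [← gf_trv, gf_smul, ← formOfGram_eq_gf _ (G₁ ⊗ₖ G₂)]
    rw [gramMatrix_gf, gramMatrix_gf] at h
    exact h x y
  haveI : Nonempty (Fin b) := ⟨⟨0, by omega⟩⟩
  have h2 : σ c = c := by
    have := (hG.pbG e P).star
    rw [h1, map_smul_equiv, Matrix.transpose_smul, kronecker_map, kronecker_transpose, h₁.star,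
      h₂.star, one_smul, one_smul, one_smul] at this
    exact smul_left_injective F (isUnit_kronecker h₁.unit h₂.unit).ne_zero this
  obtain ⟨D, hD, h3⟩ := pair_of_tensor h4 hne (H := tensorProductSubgroup 2 b e P ⊓ SUG σ G)
    ⟨le_rfl, hb, hG, h₁.smul hc h2, h₂, (mul_one _).symm, fun _ => rfl, fun _ => rfl,
      by rw [h1, Matrix.smul_kronecker], inf_le_left⟩ (inf_le_right.trans fixesGram_SUG.le_sim)
  refine exists_between_of h3 ?_ (not_le_decompositionStabilizer hG hne hD.decomp (Or.inl hb))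
  obtain ⟨x, hx, hx'⟩ := exists_on_basis hG hne b (D 0) (hD.nondegenerate 0) (hD.decomp.finrank_eq 0)
  let i : Fin b := ⟨0, by omega⟩
  let j : Fin b := ⟨1, by omega⟩
  have hij : i ≠ j := by simp [i, j]
  have h5 : gf σ G (x i) (x i + x j) = 1 := by rw [gf_add_right, hx'.self, hx'.ne hij, add_zero]
  have h6 : -(1 : F) = 1 := by linear_combination -two_eq_zero_of_four h4
  obtain ⟨g, k1, -, -, k2, -⟩ := exists_tv hG (v := x i + x j) (c := 1) (by
    rw [gf_add_left, h5, gf_add_right, hx'.self, hx'.ne hij.symm]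
    linear_combination two_eq_zero_of_four h4) (by rw [map_one, h6])
  refine ⟨g, k1, mem_decompositionStabilizer_of_le hD.decomp fun l => ⟨l, fun v hv => ?_⟩,
    notMem_tensor_of_tv le_rfl hb (φ := fl σ G (x i + x j)) (u := x i + x j) (x := x i)
      (fun z => by simp [k2]) (fun h0 => by simp [h0, gf_zero_right] at h5) (by simp [h5])⟩
  rw [k2]
  by_cases hl : l = 0
  · exact hl ▸ add_mem (hl ▸ hv) ((D 0).smul_mem _ (add_mem (hx i) (hx j)))
  · simpa [hD.orthogonal l 0 hl v hv _ (add_mem (hx i) (hx j))] using hv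

theorem exists_herm_of_pow {q : ℕ} (hF : Fintype.card F = q ^ 2) {f : (ι → F) → (ι → F) → F}
    (hf : IsUnitaryFormPow q f) : ∃ G, Herm (qInv hF) 1 G ∧ f = gf (qInv hF) G := by
  have h1 : Sesq (qInv hF) f := ⟨hf.add_left, hf.smul_left, fun v x y => by
      rw [hf.herm, hf.add_left, hf.herm v x, hf.herm v y]; exact map_add (qInv hF) _ _,
    fun c v x => by rw [hf.herm, hf.smul_left, hf.herm v x, mul_pow]; rfl⟩
  exact ⟨_, ⟨qInv_qInv hF, h1.isUnit_gram hf.nondegenerate, Matrix.ext fun i j => by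
    rw [one_smul]; exact (hf.herm _ _).symm, Or.inl rfl⟩, h1.eq_gf⟩

end Cfsg.Agent.H8
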