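import Cfsg.Agent.H8.LamBlk
import Cfsg.Agent.H8.Fld

/-!
Stabilisers of orthogonal decompositions into summands of dimension at least three in `Ω`.
-/

set_option autoImplicit false
set_option linter.unusedSectionVars false

namespace Cfsg.Agent.H8

open Module H7 H7.Polar QuadraticMap

variable {F : Type*} [Field F] {V : Type*} [AddCommGroup V] [Module F V]
variable [Fintype F] [FiniteDimensional F V]
variable {κ : Type} [Fintype κ] [DecidableEq κ]
variable {Q : QuadraticForm F V} {hQ : ND Q}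

theorem apply_mem_eSub' {P : Polar F V} {X : Subgroup (V ≃ₗ[F] V)} {u : V} (hu : P.Val u 0)
    {g : V ≃ₗ[F] V} (hg : g ∈ X) (hg' : g ∈ P.Iso) {w : V} (hw : w ∈ P.eSub X hu) {v : V}
    (hv : P.Val v 0) (hgu : g u = v) : g w ∈ P.eSub X hv := by
  subst hgu
  refine ⟨by rw [Iso.B hg', hw.1], fun a => ?_⟩
  obtain ⟨c, hc, hX⟩ := hw.2 a
  have := hX.conj hg hg'
  rw [map_smul] at this
  exact ⟨c, by simpa using Iso.val hg' hc, this⟩

variable (hQ) in
/-- the Eichler subspace at a singular vector -/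
abbrev AS (X : Subgroup (V ≃ₗ[F] V)) {v : V} (hv : Q v = 0) : Submodule F V :=
  (qP hQ).eSub X (qP_sing hQ hv)

theorem AS.polar {X : Subgroup (V ≃ₗ[F] V)} {v w : V} {hv : Q v = 0} (h : w ∈ AS hQ X hv) :
    polar Q w v = 0 := h.1

theorem AS.exists {X : Subgroup (V ≃ₗ[F] V)} {v w : V} {hv : Q v = 0} (h : w ∈ AS hQ X hv) :
    ∃ g ∈ X, ∀ x, g x = x + QuadraticMap.polar Q x v • w -
      (QuadraticMap.polar Q x w + Q w * QuadraticMap.polar Q x v) • v := by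
  obtain ⟨c, hc, g, hg, h⟩ := h.2 1
  rw [one_smul] at hc h
  exact ⟨g, hg, fun x => by rw [h, qP_eich, (qP_val hQ).1 hc]⟩

theorem self_mem_AS (X : Subgroup (V ≃ₗ[F] V)) {v : V} (hv : Q v = 0) : v ∈ AS hQ X hv :=
  ⟨by simp [hv], fun a => ⟨0, sing_smul (qP_sing hQ hv) a, Has.id.congr fun x => by
    simp [qP_eich, smul_smul, mul_comm]⟩⟩

theorem Iso.Q_eq {g : V ≃ₗ[F] V} (hg : g ∈ (qP hQ).Iso) (x : V) : Q (g x) = Q x :=
  (mem_qP_Iso hQ).1 hg x

theorem Iso.polar_eq {g : V ≃ₗ[F] V} (hg : g ∈ (qP hQ).Iso) (x y : V) :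
    polar Q (g x) (g y) = polar Q x y := hg.1 x y

theorem exists_Q_ne {x y : V} {W : Submodule F V} (hx : x ∈ W) (hy : y ∈ W)
    (h : polar Q x y ≠ 0) : ∃ w ∈ W, Q w ≠ 0 := by
  by_contra! h'
  exact h (TS.polar h' hx hy)

theorem univ_of_ndOn {W : Submodule F V} (h : NDOn Q W) (hd : 2 ≤ finrank F W) :
    Univ (qP hQ) W := fun c => by
  obtain ⟨a, ha, hc⟩ := h.exists_val hd c
  exact Or.inr ⟨a, ha, hc.symm⟩

namespace PDec

variable {k : ℕ} {D : κ → Submodule F V} (hD : PDec (qP hQ) k D)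
include hD

theorem ndOn (i : κ) : NDOn Q (D i) := (ndOn_iff hQ).2 (hD.nd i)

theorem pol {i j : κ} (h : i ≠ j) {x y : V} (hx : x ∈ D i) (hy : y ∈ D j) : polar Q x y = 0 :=
  hD.orth h hx hy

theorem pol_pr {i : κ} {x : V} (hx : x ∈ D i) (y : V) : polar Q x (hD.pr i y) = polar Q x y :=
  hD.B_pr_right hx y

theorem pr_pol {i : κ} {x : V} (hx : x ∈ D i) (y : V) : polar Q (hD.pr i y) x = polar Q y x :=
  hD.B_pr_left hx y

theorem Q_sum (x : V) : Q x = ∑ i, Q (hD.pr i x) := by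
  conv_lhs => rw [← hD.sum_pr x]
  exact Q_sum_of_orth _ fun a b h => hD.pol h (hD.pr_mem _ _) (hD.pr_mem _ _)

theorem pol_sum (x y : V) : polar Q x y = ∑ i, polar Q (hD.pr i x) (hD.pr i y) := hD.B_eq_sum x y

theorem exists_other {v : V} (hv : Q v = 0) {i : κ} (hi : Q (hD.pr i v) ≠ 0) :
    ∃ j, j ≠ i ∧ Q (hD.pr j v) ≠ 0 := by
  by_contra! h
  rw [hD.Q_sum, Finset.sum_eq_single i (fun j _ hj => h j hj) (by simp)] at hv
  exact hi hv

theorem univ (hk : 2 ≤ k) (j : κ) : Univ (qP hQ) (D j) :=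
  univ_of_ndOn (hD.ndOn j) (by rw [hD.dim]; exact hk)

end PDec

variable (hQ) in
/-- the setting of a counterexample -/
structure OCtx (k : ℕ) (D : κ → Submodule F V) (X : Subgroup (V ≃ₗ[F] V)) : Prop
    extends PDec (qP hQ) k D where
  hH : decStab D ⊓ (qP hQ).E ≤ X
  hX : X ≤ (qP hQ).Iso
  hn : 7 ≤ finrank F V
  h3 : 3 ≤ k
  ne : ¬ (qP hQ).E ≤ X

/-- images of singular vectors of the summands -/
def Orb (Q : QuadraticForm F V) (D : κ → Submodule F V) (X : Subgroup (V ≃ₗ[F] V)) (v : V) : Prop :=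
  ∃ g ∈ X, ∃ i, ∃ u ∈ D i, Q u = 0 ∧ u ≠ 0 ∧ g u = v

theorem Orb.apply {D : κ → Submodule F V} {X : Subgroup (V ≃ₗ[F] V)} {v : V} (h : Orb Q D X v)
    {g : V ≃ₗ[F] V} (hg : g ∈ X) : Orb Q D X (g v) := by
  obtain ⟨g', hg', i, u, h1, h2, h3, rfl⟩ := h
  exact ⟨g * g', X.mul_mem hg hg', i, u, h1, h2, h3, rfl⟩

theorem Orb.of_mem {D : κ → Submodule F V} (X : Subgroup (V ≃ₗ[F] V)) {i : κ} {u : V}
    (hu : u ∈ D i) (hus : Q u = 0) (h0 : u ≠ 0) : Orb Q D X u :=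
  ⟨1, X.one_mem, i, u, hu, hus, h0, rfl⟩

namespace OCtx

variable {k : ℕ} {D : κ → Submodule F V} {X : Subgroup (V ≃ₗ[F] V)} (hC : OCtx hQ k D X)
include hC

theorem exists_sing' (i : κ) : ∃ u ∈ D i, u ≠ 0 ∧ Q u = 0 :=
  exists_sing_ne_zero hQ (by rw [hC.dim]; exact hC.h3)

theorem exists_sing_pol {i : κ} {v : V} (h : hC.pr i v ≠ 0) :
    ∃ u ∈ D i, Q u = 0 ∧ polar Q u v = 1 := by
  obtain ⟨u, h1, h2, h3⟩ := hC.exists_sing' i
  obtain ⟨e, h4, h5, h6⟩ := exists_sing_ne' h1 (qP_sing hQ h3) (notMem_perp_of_nd (hC.nd i) h1 h2)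
    (mt hC.mem_perp_iff.1 h)
  replace h6 : polar Q e v ≠ 0 := h6
  exact ⟨(polar Q e v)⁻¹ • e, Submodule.smul_mem _ _ h4, by simp [Q_smul, ← (qP_val hQ).1 h5],
    by simp [h6]⟩

theorem AS_le {i : κ} {u : V} (hu : u ∈ D i) (hus : Q u = 0) (h0 : u ≠ 0) : AS hQ X hus ≤ D i := by
  intro w hw
  by_contra h
  refine hC.ne (hC.E_le_of_eSub hC.hH hC.hX (qP_wild hQ) hC.hn (fun j => ?_)
    (hC.univ (by have := hC.h3; omega)) hu _ h0 hw h)
  obtain ⟨e, h1, h2, h3⟩ := hC.exists_sing' j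
  exact irr_of_three (hC.nd j) h1 (qP_sing hQ h3) h2 (by rw [hC.dim]; exact hC.h3)

theorem orb_sing {v : V} (h : Orb Q D X v) : Q v = 0 := by
  obtain ⟨g, hg, i, u, -, h2, -, rfl⟩ := h
  rw [Iso.Q_eq (hC.hX hg), h2]

theorem AS_eq {v : V} (h : Orb Q D X v) : ∃ g ∈ (qP hQ).Iso, ∃ i, ∃ u ∈ D i, Q u = 0 ∧ u ≠ 0 ∧
    g u = v ∧ AS hQ X (hC.orb_sing h) = (D i ⊓ (qP hQ).pp u).map (g : V →ₗ[F] V) := by
  obtain ⟨g, hg, i, u, h1, h2, h3, rfl⟩ := id h
  refine ⟨g, hC.hX hg, i, u, h1, h2, h3, rfl, le_antisymm (fun w hw => ?_) ?_⟩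
  · have := apply_mem_eSub' _ (X.inv_mem hg) (hC.hX (X.inv_mem hg)) hw (qP_sing hQ h2)
      (g.symm_apply_apply u)
    exact ⟨_, ⟨hC.AS_le h1 h2 h3 this, this.1⟩, g.apply_symm_apply w⟩
  · rintro _ ⟨w, hw, rfl⟩
    exact apply_mem_eSub' _ hg (hC.hX hg) (hC.mem_eSub hC.hH (qP_sing hQ h2) hw.2 h1 hw.1) _ rfl

theorem finrank_AS {v : V} (h : Orb Q D X v) : finrank F (AS hQ X (hC.orb_sing h)) + 1 = k := by
  obtain ⟨g, -, i, u, h1, -, h3, -, h4⟩ := hC.AS_eq h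
  rw [h4, LinearEquiv.finrank_map_eq, (hC.ndOn i).finrank_inf_pp hQ h1 h3, hC.dim]

theorem rad_AS {v : V} (h : Orb Q D X v) {w : V} (hw : w ∈ AS hQ X (hC.orb_sing h))
    (hw' : ∀ y ∈ AS hQ X (hC.orb_sing h), polar Q y w = 0) : w ∈ F ∙ v := by
  obtain ⟨g, hg, i, u, h1, -, -, rfl, h4⟩ := hC.AS_eq h
  rw [h4] at hw hw'
  obtain ⟨w, hw, rfl⟩ := hw
  by_contra h5
  obtain ⟨y, hy, h6, h7⟩ := exists_perp_ne (hC.nd i) h1 hw.1 (fun h => h5 (by
    obtain ⟨a, rfl⟩ := Submodule.mem_span_singleton.1 h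
    exact Submodule.mem_span_singleton.2 ⟨a, by simp⟩))
  exact h7 (by rw [← Iso.B hg]; exact hw' _ ⟨y, ⟨hy, h6⟩, rfl⟩)

theorem exists_nonsing_AS {v : V} (h : Orb Q D X v) : ∃ w ∈ AS hQ X (hC.orb_sing h), Q w ≠ 0 := by
  obtain ⟨w, hw, hw'⟩ := exists_notMem_of_finrank_lt (U := F ∙ v) (W := AS hQ X (hC.orb_sing h))
    (by
      have := hC.finrank_AS h
      have := finrank_span_singleton_le (F := F) v
      have := hC.h3
      omega)
  by_contra! h'
  exact hw' (hC.rad_AS h hw fun y hy => TS.polar h' hy hw)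

theorem key {v : V} (h : Orb Q D X v) {w : V} (hw : w ∈ AS hQ X (hC.orb_sing h)) {i : κ} {u : V}
    (hu : u ∈ D i) (hus : Q u = 0) (h0 : u ≠ 0) (h1 : polar Q u v = 0) (h2 : polar Q u w = 0)
    {x : V} (hx : x ∈ D i) (hxu : polar Q x u = 0) :
    polar Q x v • w - (polar Q x w + Q w * polar Q x v) • v ∈ D i := by
  obtain ⟨g, hg, hg'⟩ := AS.exists hw
  have := hC.AS_le hu hus h0 (apply_mem_eSub _ hg (hC.hX hg) (by simp [hg', h1, h2])
    (hC.mem_eSub hC.hH (qP_sing hQ hus) hxu hu hx))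
  rwa [hg', add_sub_assoc, Submodule.add_mem_iff_right _ hx] at this

theorem exists_dual {v : V} {i : κ} (h0 : hC.pr i v ≠ 0) {u : V} (hu : u ∈ D i)
    (hu' : u ∉ F ∙ hC.pr i v) : ∃ x ∈ D i, polar Q x u = 0 ∧ polar Q x v = 1 := by
  obtain ⟨y, hy, h1, h2⟩ := exists_perp_ne (hC.nd i) hu (hC.pr_mem i v) (by
    simpa using notMem_sup_span_swap (U := ⊥) (v := hC.pr i v) (z := u) (by simpa using h0)
      (by simpa using hu'))
  rw [hC.B_pr_right hy] at h2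
  replace h1 : polar Q y u = 0 := h1
  replace h2 : polar Q y v ≠ 0 := h2
  exact ⟨(polar Q y v)⁻¹ • y, Submodule.smul_mem _ _ hy, by simp [h1], by simp [h2]⟩

theorem main {v : V} (h : Orb Q D X v) {i : κ} (hv : v ∉ D i) (h0 : hC.pr i v ≠ 0) {u : V}
    (hu : u ∈ D i) (hus : Q u = 0) (h1 : polar Q u v = 0) (hu' : u ∉ F ∙ hC.pr i v) :
    ∃ A : Submodule F V, A ≤ AS hQ X (hC.orb_sing h) ∧ k ≤ finrank F A + 3 ∧
      ∀ w ∈ A, ∃ α β : F, w = α • u + β • hC.pr i v ∧ Q w = -β := by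
  have hu0 : u ≠ 0 := by rintro rfl; simp at hu'
  obtain ⟨x, hx, hxu, hxv⟩ := hC.exists_dual h0 hu hu'
  refine ⟨AS hQ X (hC.orb_sing h) ⊓ (qP hQ).pp u ⊓ D i, inf_le_left.trans inf_le_left, ?_,
    fun w hw => ?_⟩
  · have h2 : AS hQ X (hC.orb_sing h) ⊓ (qP hQ).pp u ≤
        (AS hQ X (hC.orb_sing h) ⊓ (qP hQ).pp u ⊓ D i) ⊔ F ∙ v := fun w hw => by
      have h3 := hC.key h hw.1 hu hus hu0 h1 (by rw [polar_comm]; exact hw.2) hx hxu
      rw [hxv, one_smul] at h3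
      exact mem_sup_span_singleton.2 ⟨_, ⟨Submodule.sub_mem _ hw (Submodule.smul_mem _ _
        ⟨self_mem_AS _ _, (polar_comm ..).trans h1⟩), h3⟩, _, (sub_add_cancel _ _).symm⟩
    have := Submodule.finrank_mono h2
    have := finrank_sup_span_le (AS hQ X (hC.orb_sing h) ⊓ (qP hQ).pp u ⊓ D i) v
    have := finrank_inf_pp_ge (P := qP hQ) (AS hQ X (hC.orb_sing h)) u
    have := hC.finrank_AS h
    omega
  · have h2 : ∀ x ∈ D i, polar Q x u = 0 → polar Q x v = 1 → polar Q x w + Q w = 0 :=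
      fun x hx hxu hxv => by
        have h3 := hC.key h hw.1.1 hu hus hu0 h1 (by rw [polar_comm]; exact hw.1.2) hx hxu
        rw [hxv, one_smul, Submodule.sub_mem_iff_right _ hw.2, mul_one] at h3
        by_contra h4
        exact hv ((Submodule.smul_mem_iff _ h4).1 h3)
    have h3 := h2 x hx hxu hxv
    obtain ⟨α, β, rfl⟩ := mem_span_pair'.1 (mem_of_perp_inf (hC.nd i)
      (pair_le hu (hC.pr_mem i v)) hw.2 fun y hy => by
        have h4 : polar Q y u = 0 := hy.2 u (left_mem_pair _ _)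
        have h5 : polar Q y v = 0 := by
          rw [← hC.pol_pr hy.1]; exact hy.2 _ (right_mem_pair _ _)
        have := h2 (x + y) (Submodule.add_mem _ hx hy.1) (by simp [hxu, h4]) (by simp [hxv, h5])
        rw [polar_add_left] at this
        show polar Q y _ = 0
        linear_combination this - h3)
    refine ⟨α, β, rfl, ?_⟩
    simp only [polar_add_right, polar_smul_right, hxu, hC.pol_pr hx, hxv, smul_eq_mul] at h3
    linear_combination h3

theorem false_of_five (hk : 5 ≤ k) {v : V} (h : Orb Q D X v) (hv : ∀ j, v ∉ D j) [Nonempty κ] :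
    False := by
  obtain ⟨i, -, -, hi, -⟩ := hC.exists_two hv
  have hd := hC.dim i
  obtain ⟨u, hu, hu', hus⟩ := exists_sing_notMem hQ (W := D i ⊓ (qP hQ).pp v)
    (U := F ∙ hC.pr i v) (by
    have := finrank_inf_pp_ge (P := qP hQ) (D i) v
    have := finrank_span_singleton_le (F := F) (hC.pr i v)
    omega)
  obtain ⟨A, -, h1, h2⟩ := hC.main h (hv i) hi hu.1 hus hu.2 hu'
  have h3 : A ≤ (F ∙ hC.pr i v) ⊔ F ∙ u := fun w hw => by
    obtain ⟨α, β, rfl, -⟩ := h2 w hw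
    exact mem_span_pair'.2 ⟨β, α, add_comm _ _⟩
  have h4 := Submodule.finrank_mono h3
  rw [finrank_pair hi hu'] at h4
  have h5 := Submodule.eq_of_le_of_finrank_le h3 (by rw [finrank_pair hi hu']; omega)
  have h6 : ∀ a : F, Q (a • hC.pr i v) = -a := fun a => by
    obtain ⟨α, β, h6, h7⟩ := h2 _ (h5.ge (Submodule.smul_mem _ a (left_mem_pair _ _)))
    obtain ⟨h8, -⟩ := eq_zero_of_pair hi hu' (a := a - β) (b := -α) (by
      linear_combination (norm := module) h6)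
    rw [h7, sub_eq_zero.1 h8]
  have h7 := h6 (-1)
  rw [neg_smul, Q.map_neg, h6] at h7
  exact (hC.ndOn i).two_ne_zero hQ (by rw [hd, show k = 5 by omega]; decide)
    (by linear_combination -h7)

theorem exists_nonsing_pr (hq : 2 < Fintype.card F) {v : V} (h : Orb Q D X v)
    (hv : ∀ j, v ∉ D j) [Nonempty κ] : ∃ v, Orb Q D X v ∧ ∃ i, Q (hC.pr i v) ≠ 0 := by
  by_contra! h1
  obtain ⟨w, hw, hw'⟩ := hC.exists_nonsing_AS h
  refine hw' ((hC.Q_sum w).trans (Finset.sum_eq_zero fun i _ => ?_))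
  obtain ⟨j, hj, hj'⟩ := hC.exists_of_notMem (hv i)
  obtain ⟨u, hu, hus, huv⟩ := hC.exists_sing_pol hj'
  have h2 : ∀ a : F, a ≠ 0 → Q (hC.pr i w) =
      (polar Q u w + a * Q w) * polar Q (hC.pr i w) (hC.pr i v) := fun a ha => by
    obtain ⟨g, hg, hg'⟩ := AS.exists (Submodule.smul_mem _ a hw)
    have := h1 _ ((Orb.of_mem X hu hus (by rintro rfl; simp at huv)).apply hg) i
    simp only [hg', huv, map_sub, map_add, map_smul, hC.pr_ne hj hu, Q_sub, Q_smul, h1 v h i,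
      polar_smul_left, polar_smul_right, zero_add, one_smul, smul_eq_mul] at this
    apply mul_left_cancel₀ (mul_ne_zero ha ha)
    linear_combination this
  obtain ⟨a, ha0, ha1⟩ := exists_ne_zero_one hq
  have h3 : polar Q (hC.pr i w) (hC.pr i v) = 0 := by
    apply mul_left_cancel₀ (mul_ne_zero (sub_ne_zero.2 ha1) hw')
    linear_combination h2 1 one_ne_zero - h2 a ha0
  rw [h2 1 one_ne_zero, h3, mul_zero]

theorem notMem_of_nonsing {v : V} (h : Orb Q D X v) {i : κ} (hi : Q (hC.pr i v) ≠ 0) (j : κ) :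
    v ∉ D j := fun hj => hi (by
  rw [hC.pr_of_mem hj]
  split_ifs
  exacts [hC.orb_sing h, map_zero Q])

theorem exists_sing_AS (hk : k = 4) (hq : 2 < Fintype.card F) {v : V} (h : Orb Q D X v)
    {i : κ} (hi : Q (hC.pr i v) ≠ 0) :
    ∃ u ∈ D i, u ≠ 0 ∧ Q u = 0 ∧ u ∈ AS hQ X (hC.orb_sing h) := by
  obtain ⟨u, hu, hu0, hus⟩ := exists_sing_ne_zero hQ (W := D i ⊓ (qP hQ).pp v) (by
    have := finrank_inf_pp_ge (P := qP hQ) (D i) v
    have := hC.dim i
    omega)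
  have hi0 : hC.pr i v ≠ 0 := fun h => hi (by rw [h, map_zero])
  have hu' : u ∉ F ∙ hC.pr i v := fun h => by
    obtain ⟨a, rfl⟩ := Submodule.mem_span_singleton.1 h
    rw [Q_smul, mul_eq_zero, or_iff_left hi, mul_self_eq_zero] at hus
    simp [hus] at hu0
  obtain ⟨A, h1, h2, h3⟩ := hC.main h (hC.notMem_of_nonsing h hi i) hi0 hu.1 hus hu.2 hu'
  obtain ⟨w, hw, hw0⟩ := (Submodule.ne_bot_iff A).1 (by
    rintro rfl; rw [finrank_bot] at h2; omega)
  obtain ⟨α, β, rfl, h4⟩ := h3 w hw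
  obtain ⟨a, ha0, ha1⟩ := exists_ne_zero_one hq
  obtain ⟨α', β', h5, h6⟩ := h3 _ (A.smul_mem a hw)
  obtain ⟨h7, -⟩ := eq_zero_of_pair hi0 hu' (a := a * β - β') (b := a * α - α') (by
    linear_combination (norm := module) h5)
  rw [Q_smul, h4] at h6
  have h8 : β = 0 := by
    apply mul_left_cancel₀ (mul_ne_zero ha0 (sub_ne_zero.2 ha1))
    linear_combination -h6 - h7
  subst h8
  have h9 : α ≠ 0 := by rintro rfl; simp at hw0
  refine ⟨u, hu.1, hu0, hus, ?_⟩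
  have := h1 hw
  rwa [zero_smul, add_zero, Submodule.smul_mem_iff _ h9] at this

theorem false_of_four (hk : k = 4) (hq : 2 < Fintype.card F) {v : V} (h : Orb Q D X v)
    {i : κ} (hi : Q (hC.pr i v) ≠ 0) : False := by
  obtain ⟨j, hj, hj'⟩ := hC.exists_other (hC.orb_sing h) hi
  obtain ⟨u, h1, h2, h3, h4⟩ := hC.exists_sing_AS hk hq h hi
  obtain ⟨u', h1', h2', h3', h4'⟩ := hC.exists_sing_AS hk hq h hj'
  have h5 : u' ∉ F ∙ u := fun h => hj (hC.eq_of_mem h1'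
    ((Submodule.span_singleton_le_iff_mem _ _).2 h1 h) h2')
  have h6 : v ∉ (F ∙ u) ⊔ F ∙ u' := fun h => by
    obtain ⟨a, b, h⟩ := mem_span_pair'.1 h
    rw [h, map_add, map_smul, map_smul, hC.pr_self h1, hC.pr_ne hj h1'] at hi
    simp [Q_smul, h3] at hi
  have h7 : ((F ∙ u) ⊔ F ∙ u') ⊔ F ∙ v = AS hQ X (hC.orb_sing h) :=
    Submodule.eq_of_le_of_finrank_eq (sup_le (pair_le h4 h4')
    ((Submodule.span_singleton_le_iff_mem _ _).2 (self_mem_AS _ _))) (by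
      have := hC.finrank_AS h
      rw [finrank_sup_span h6, finrank_pair h2 h5]; omega)
  have h8 := hC.rad_AS h h4 fun y hy => by
    obtain ⟨y', hy', c, rfl⟩ := mem_sup_span_singleton.1 (h7.ge hy)
    obtain ⟨a, b, rfl⟩ := mem_span_pair'.1 hy'
    have h8 : polar Q v u = 0 := (polar_comm ..).trans (AS.polar h4)
    simp [h3, hC.pol hj h1' h1, h8]
  obtain ⟨a, ha⟩ := Submodule.mem_span_singleton.1 h8
  have h9 : a ≠ 0 := fun h => h2 (by rw [← ha, h, zero_smul])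
  exact hC.notMem_of_nonsing h hi i ((Submodule.smul_mem_iff _ h9).1 (ha ▸ h1))

theorem orb_ne_zero {v : V} (h : Orb Q D X v) : v ≠ 0 := by
  obtain ⟨g, -, i, u, -, -, h3, rfl⟩ := h
  simpa using h3

theorem exists_pr_eq_zero (hk : k = 3) (hq : 3 < Fintype.card F) {v : V} (h : Orb Q D X v)
    {i : κ} (hi : Q (hC.pr i v) ≠ 0) :
    ∃ w ∈ AS hQ X (hC.orb_sing h), Q w ≠ 0 ∧ hC.pr i w = 0 := by
  have h2 : (2 : F) ≠ 0 := (hC.ndOn i).two_ne_zero hQ (by rw [hC.dim, hk]; decide)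
  have hvv : ∀ i, polar Q v (hC.pr i v) = 2 * Q (hC.pr i v) := fun i => by
    rw [← hC.pr_pol (hC.pr_mem _ _), polar_self']
  obtain ⟨w, hw, hw', hwi⟩ : ∃ w ∈ AS hQ X (hC.orb_sing h), Q w ≠ 0 ∧
      polar Q w (hC.pr i v) = 0 := by
    obtain ⟨w, hw, hw'⟩ := hC.exists_nonsing_AS h
    refine ⟨w - (polar Q w (hC.pr i v) / (2 * Q (hC.pr i v))) • v,
      Submodule.sub_mem _ hw (Submodule.smul_mem _ _ (self_mem_AS _ _)), ?_, ?_⟩
    · simpa [Q_sub, Q_smul, hC.orb_sing h, AS.polar hw] using hw'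
    · rw [polar_sub_left, polar_smul_left, hvv, smul_eq_mul, div_mul_cancel₀ _ (mul_ne_zero h2 hi),
        sub_self]
  refine ⟨w, hw, hw', ?_⟩
  by_contra h0
  have hW : ∀ i, Q (hC.pr i v) ≠ 0 → NDOn Q (D i ⊓ (qP hQ).pp (hC.pr i v)) ∧
      finrank F ↥(D i ⊓ (qP hQ).pp (hC.pr i v)) = 2 := fun i hi =>
    ⟨(hC.ndOn i).inf_pp hQ (hC.pr_mem _ _) (by rw [polar_self']; exact mul_ne_zero h2 hi), by
      have := (hC.ndOn i).finrank_inf_pp hQ (hC.pr_mem i v) (fun h => hi (by rw [h, map_zero]))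
      have := hC.dim i
      omega⟩
  obtain ⟨j, hj, hj'⟩ := hC.exists_other (hC.orb_sing h) hi
  have hwi' : hC.pr i w ∈ D i ⊓ (qP hQ).pp (hC.pr i v) :=
    ⟨hC.pr_mem _ _, (hC.pr_pol (hC.pr_mem _ _) w).trans hwi⟩
  obtain ⟨y, hy, hy'⟩ := exists_notMem_of_finrank_lt (U := F ∙ hC.pr i w)
    (W := D i ⊓ (qP hQ).pp (hC.pr i v)) (by rw [finrank_span_singleton h0, (hW i hi).2]; omega)
  have h3 : ¬ (Q (hC.pr i w) = 0 ∧ polar Q (hC.pr i w) y = 0) := fun h => h0 <|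
    (hW i hi).1 _ hwi' fun x hx => by
      rw [eq_pair_of_finrank (hW i hi).2 hwi' hy h0 hy'] at hx
      obtain ⟨a, b, rfl⟩ := mem_span_pair'.1 hx
      simp [h.1, polar_comm Q y, h.2]
  obtain ⟨x, h4, h5⟩ := avoid21 hq (a := Q (hC.pr i w)) (b := polar Q (hC.pr i w) y) (c := Q y)
    (d := 2 * Q (hC.pr i w)) (e := polar Q (hC.pr i w) y) (by tauto) (by simpa [h2] using h3)
  have ha := Submodule.add_mem _ hy (Submodule.smul_mem _ x hwi')
  have ha' : y + x • hC.pr i w ∉ F ∙ hC.pr i w := by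
    rwa [Submodule.add_mem_iff_left _ (Submodule.smul_mem _ _ (Submodule.mem_span_singleton_self _))]
  have ha0 : Q (y + x • hC.pr i w) ≠ 0 := fun h => h4 (by
    rw [← h, Q_add, Q_smul, polar_smul_right, polar_comm Q y, smul_eq_mul]; ring)
  have ha1 : polar Q (hC.pr i w) (y + x • hC.pr i w) ≠ 0 := fun h => h5 (by
    rw [← h, polar_add_right, polar_smul_right, polar_self', smul_eq_mul]; ring)
  generalize y + x • hC.pr i w = a at ha ha' ha0 ha1
  have hr := reflE_mem_FixIso (qP_val_self hQ a) ha0 ha.1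
  obtain ⟨f, hf, hf'⟩ := hC.exists_comp (qP_wild hQ) hC.hn (univ_of_ndOn (hW j hj').1
    (hW j hj').2.ge) inf_le_left hr.1 (hC.FixIso_le i hr)
  have hav : polar Q a (hC.pr i v) = 0 := ha.2
  have h6 := apply_mem_eSub _ (hC.hH hf') (E_le_Iso hf'.2) (by
    rw [LinearEquiv.mul_apply, hf.2 v fun x hx => (polar_comm ..).trans
      ((hC.pol_pr hx.1 v).symm.trans hx.2), reflE_apply]
    exact refl_fix _ ((polar_comm ..).trans ((hC.pol_pr ha.1 v).symm.trans hav))) hw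
  obtain ⟨α, β, h6⟩ := mem_span_pair'.1 ((eq_pair_of_finrank (W := AS hQ X (hC.orb_sing h))
    (by have := hC.finrank_AS h; omega) (self_mem_AS _ _) hw (hC.orb_ne_zero h)
    (fun h' => hw' (TS.span (hC.orb_sing h) w h'))).le h6)
  have h7 := congrArg (hC.pr i) h6
  rw [LinearEquiv.mul_apply, hC.FixIso_pr hr, hC.FixIso_pr_ne hj.symm (FixIso.mono inf_le_left hf),
    reflE_apply, qP_refl, map_add, map_smul, map_smul] at h7
  have h8 := congrArg (polar Q · (hC.pr i v)) h7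
  have h9 : polar Q (hC.pr i w) (hC.pr i v) = 0 := hwi'.2
  simp only [polar_sub_left, polar_add_left, polar_smul_left, hav, h9, polar_self', smul_eq_mul,
    mul_zero, sub_zero, add_zero, zero_eq_mul, mul_ne_zero h2 hi, or_false] at h8
  refine ha' ((Submodule.smul_mem_iff _ (mul_ne_zero (inv_ne_zero ha0) ha1)).1
    (Submodule.mem_span_singleton.2 ⟨1 - β, ?_⟩))
  rw [h8] at h7
  linear_combination (norm := module) h7

theorem eq_zero_of_three (hk : k = 3) (hq : 3 < Fintype.card F) {v : V} (h : Orb Q D X v)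
    {i : κ} (hi : Q (hC.pr i v) ≠ 0) {u : V} (hu : u ∈ D i) (hus : Q u = 0)
    (huv : polar Q u v = 0) : u = 0 := by
  have h2 : (2 : F) ≠ 0 := (hC.ndOn i).two_ne_zero hQ (by rw [hC.dim, hk]; decide)
  obtain ⟨w, hw, hw', hwi⟩ := hC.exists_pr_eq_zero hk hq h hi
  by_contra h0
  have h3 : ∀ x ∈ D i, polar Q x w = 0 := fun x hx => by rw [← hC.pol_pr hx, hwi]; simp
  have h4 : polar Q (hC.pr i v) u = 0 := by rw [polar_comm, hC.pol_pr hu, huv]
  have h5 := Submodule.add_mem _ (hC.key h hw hu hus h0 huv (h3 u hu) (hC.pr_mem i v) h4)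
    (hC.key h (Submodule.neg_mem _ hw) hu hus h0 huv (by simp [h3 u hu]) (hC.pr_mem i v) h4)
  rw [polar_neg_right, h3 _ (hC.pr_mem i v), Q.map_neg, ← hC.pol_pr (hC.pr_mem i v) v,
    polar_self'] at h5
  refine hC.notMem_of_nonsing h hi i ((Submodule.smul_mem_iff _
    (neg_ne_zero.2 (mul_ne_zero h2 (mul_ne_zero hw' (mul_ne_zero h2 hi))))).1 ?_)
  convert h5 using 1
  module

theorem false_of_three (hk : k = 3) (hq : 3 < Fintype.card F) {v : V} (h : Orb Q D X v)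
    {i : κ} (hi : Q (hC.pr i v) ≠ 0) : False := by
  have h2 : (2 : F) ≠ 0 := (hC.ndOn i).two_ne_zero hQ (by rw [hC.dim, hk]; decide)
  obtain ⟨w, hw, hw', hwi⟩ := hC.exists_pr_eq_zero hk hq h hi
  obtain ⟨u, hu, hus, hu0, e, he, heu, hew⟩ : ∃ u ∈ D i, Q u = 0 ∧ u ≠ 0 ∧ ∃ e ∈ D i,
      polar Q u e = 0 ∧ Q e = Q w := by
    obtain ⟨g, hg, l, u, h1, h3, h4, -, h5⟩ := hC.AS_eq h
    obtain ⟨g', hg', h6⟩ := hC.iso l i
    obtain ⟨e, he, rfl⟩ := h5.le hw
    exact ⟨_, h6 u h1, by rw [Iso.Q_eq hg', h3], by simpa using h4, _, h6 e he.1, by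
      rw [Iso.polar_eq hg', polar_comm]; exact he.2, by rw [Iso.Q_eq hg']; exact (Iso.Q_eq hg _).symm⟩
  obtain ⟨f, hf, hh⟩ := ((hC.ndOn i).inf_pp hQ he (by
    rw [polar_self', hew]; exact mul_ne_zero h2 hw')).exists_hyp ⟨hu, heu⟩ hu0 hus
  have hfe : polar Q f e = 0 := hf.2
  have h3 : e ∉ (F ∙ u) ⊔ F ∙ f := fun h => by
    obtain ⟨a, b, h⟩ := mem_span_pair'.1 h
    have := congrArg (polar Q · e) h
    simp [heu, hfe, hew, hw', h2] at this
  obtain ⟨α, β, γ, hv⟩ : ∃ α β γ : F, hC.pr i v = α • u + β • f + γ • e := by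
    have := Submodule.eq_of_le_of_finrank_eq (sup_le (pair_le hu hf.1)
      ((Submodule.span_singleton_le_iff_mem _ _).2 he))
      (by rw [finrank_sup_span h3, hh.finrank_eq, hC.dim, hk])
    obtain ⟨y, hy, γ, h⟩ := mem_sup_span_singleton.1 (this.ge (hC.pr_mem i v))
    obtain ⟨α, β, rfl⟩ := mem_span_pair'.1 hy
    exact ⟨α, β, γ, h⟩
  have e1 := hh.pol
  have e2 := hh.pol'
  have e3 : polar Q e u = 0 := (polar_comm ..).trans heu
  have e4 : polar Q e f = 0 := (polar_comm ..).trans hfe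
  have hβ : polar Q u v = β := by rw [← hC.pol_pr hu, hv]; simp [hus, e1, heu]
  have hβ0 : β ≠ 0 := fun h' => hu0 (hC.eq_zero_of_three hk hq h hi hu hus (hβ.trans h'))
  have hm : ∀ x : F, f + x • e - (x * x * Q w) • u ∈ D i := fun x =>
    Submodule.sub_mem _ (Submodule.add_mem _ hf.1 (Submodule.smul_mem _ _ he))
      (Submodule.smul_mem _ _ hu)
  have hs : ∀ x : F, Q (f + x • e - (x * x * Q w) • u) = 0 := fun x => by
    simp [Q_sub, Q_add, Q_smul, hh.right, hus, hfe, hew, e2, e3]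
  have h0 : ∀ x : F, f + x • e - (x * x * Q w) • u ≠ 0 := fun x h => by
    simpa [hus, e2, e3] using congrArg (polar Q · u) h
  have h4 : ∀ y : F, ∃ x : F, Q w * β * polar Q (f + x • e - (x * x * Q w) • u) (hC.pr i v) =
      Q w * (α * β + γ * γ * Q w) - y * y := fun y => ⟨(y + γ * Q w) / (Q w * β), by
    simp only [hv, polar_add_left, polar_sub_left, polar_add_right, polar_smul_left,
      polar_smul_right, polar_self', hus, hh.right, e1, e2, e3, e4, heu, hfe, hew, smul_eq_mul]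
    field_simp
    ring⟩
  have h5 : ∀ y : F, Q w * (α * β + γ * γ * Q w) - y * y ≠ 0 := fun y hy => by
    obtain ⟨x, hx⟩ := h4 y
    rw [hy, mul_eq_zero, or_iff_right (mul_ne_zero hw' hβ0), hC.pol_pr (hm x)] at hx
    exact h0 x (hC.eq_zero_of_three hk hq h hi (hm x) (hs x) hx)
  obtain ⟨y, b, hyb⟩ := exists_quad_add_quad h2 one_ne_zero one_ne_zero
    (Q w * (α * β + γ * γ * Q w))
  have hb : b ≠ 0 := fun h => h5 y (by rw [← hyb, h]; ring)
  obtain ⟨x, hx⟩ := h4 y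
  obtain ⟨g, hg, hg'⟩ := AS.exists (Submodule.smul_mem _ b⁻¹ hw)
  have h6 : hC.pr i (g u) = u - (b⁻¹ * b⁻¹ * Q w * β) • hC.pr i v := by
    have : polar Q u w = 0 := by rw [← hC.pol_pr hu, hwi]; simp
    simp [hg', hC.pr_self hu, hwi, this, hβ, Q_smul]
  refine h0 x (hC.eq_zero_of_three hk hq ((Orb.of_mem X hu hus hu0).apply hg) (i := i)
    (fun h => h5 b ?_) (hm x) (hs x) ?_)
  · rw [h6, hv] at h
    simp only [Q_sub, Q_add, Q_smul, polar_add_left, polar_add_right, polar_smul_left,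
      polar_smul_right, polar_self', hus, hh.right, e1, heu, hfe, hew, smul_eq_mul] at h
    field_simp at h
    apply mul_left_cancel₀ (mul_ne_zero hw' (mul_ne_zero hβ0 hβ0))
    linear_combination h
  · have h7 : polar Q (f + x • e - (x * x * Q w) • u) u = 1 := by simp [hus, e2, e3]
    rw [← hC.pol_pr (hm x), h6, polar_sub_right, polar_smul_right, smul_eq_mul, h7]
    generalize polar Q (f + x • e - (x * x * Q w) • u) (hC.pr i v) = z at hx ⊢
    field_simp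
    linear_combination -hx + hyb

theorem exists_orb [Nonempty κ] {g : V ≃ₗ[F] V} (hg : g ∈ X) (hg' : g ∉ decStab D) :
    ∃ v, Orb Q D X v ∧ ∀ j, v ∉ D j := by
  obtain ⟨i, u, hu, hus, h⟩ := hC.exists_sing_out (fun i => by
    obtain ⟨u, h1, h2, h3⟩ := hC.exists_sing' i
    exact ⟨u, h1, qP_sing hQ h3, h2⟩) (hC.hX hg) hg'
  exact ⟨g u, (Orb.of_mem X hu ((qP_val hQ).1 hus).symm (by
    rintro rfl; exact h i (by simp))).apply hg, h⟩

end OCtx

/-- Orthogonal groups, summands of dimension at least three. -/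
theorem PDec.maximal_o {k : ℕ} {D : κ → Submodule F V} (hD : PDec (qP hQ) k D)
    (hn : 8 ≤ finrank F V) (ht : 2 ≤ Fintype.card κ) (h3 : 3 ≤ k)
    (h33 : k = 3 → 3 < Fintype.card F) (h42 : k = 4 → 2 < Fintype.card F) :
    Geo.IsMaximalIn (qP hQ).E (decStab D ⊓ (qP hQ).E) := by
  have : Nonempty κ := Fintype.card_pos_iff.1 (by omega)
  refine hD.maximal_of (qP_wild hQ) (by omega) (by omega) ht fun X hH hX g hg hg' => ?_
  by_contra h
  have hC : OCtx hQ k D X := ⟨hD, hH, hX.trans E_le_Iso, by omega, h3, h⟩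
  obtain ⟨v, hv, hv'⟩ := hC.exists_orb hg hg'
  by_cases h5 : 5 ≤ k
  · exact hC.false_of_five h5 hv hv'
  by_cases h4 : k = 4
  · obtain ⟨v, hv, i, hi⟩ := hC.exists_nonsing_pr (h42 h4) hv hv'
    exact hC.false_of_four h4 (h42 h4) hv hi
  · have h3 : k = 3 := by omega
    obtain ⟨v, hv, i, hi⟩ := hC.exists_nonsing_pr (by have := h33 h3; omega) hv hv'
    exact hC.false_of_three h3 (h33 h3) hv hi

theorem pDec_of_od {ι : Type} [Fintype ι] [DecidableEq ι] {Q : QuadraticForm F (ι → F)}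
    (hQ : ND Q) {t k : ℕ} {D : Fin t → Submodule F (ι → F)}
    (hD : Geo.IsOrthogonalMDecomposition Q k D) : PDec (qP hQ) k D :=
  { toDec := IsMDecomposition.dec hD.decomp.decomp
    nd := fun i => (ndOn_iff hQ).1 (ndOn_iff_geo.2 (hD.decomp.nondegenerate i))
    orth := fun hij _ _ hx hy => hD.decomp.orthogonal _ _ hij _ hx _ hy
    iso := fun i j => by
      obtain ⟨g, hg, h⟩ := Isom.exists_map hQ (hD.isometric i j)
      exact ⟨g, (mem_qP_Iso hQ).2 hg, fun x hx => h ▸ ⟨x, hx, rfl⟩⟩ }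

end Cfsg.Agent.H8
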