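import Cfsg.Agent.H8.OSub

/-!
Stabilisers of orthogonal decompositions over small fields.
-/

set_option autoImplicit false

namespace Cfsg.Agent.H8

open Module Cfsg.Agent.H7 Cfsg.Agent.H7.Polar QuadraticMap
open scoped MatrixGroups Matrix

variable {F : Type*} [Field F]

theorem cast_eq_zero_of_card [Fintype F] {q : ℕ} (hq : Fintype.card F = q) : (q : F) = 0 :=
  hq ▸ FiniteField.cast_card_eq_zero F

theorem sq_cases_three [Fintype F] (hq : Fintype.card F = 3) (x : F) : x = 0 ∨ x * x = 1 :=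
  (eq_or_ne x 0).imp id (mul_self_eq_one_of_card_le_three hq.le)

theorem two_ne_zero_of_card_three [Fintype F] (hq : Fintype.card F = 3) : (2 : F) ≠ 0 :=
  two_ne_zero_of_odd_card (by rw [hq]; decide)

theorem exists_fin_three [Fintype F] (hq : Fintype.card F = 3) {x : Fin 3 → F}
    (hx : ∑ a, x a * x a = 1) : ∃ a, ∀ a', a' ≠ a → x a' = 0 := by
  have h2 := two_ne_zero_of_card_three hq
  rw [Fin.sum_univ_three] at hx
  suffices h : (x 1 = 0 ∧ x 2 = 0) ∨ (x 0 = 0 ∧ x 2 = 0) ∨ (x 0 = 0 ∧ x 1 = 0) by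
    rcases h with ⟨h, h'⟩ | ⟨h, h'⟩ | ⟨h, h'⟩
    · exact ⟨0, fun a ha => by fin_cases a <;> first | exact absurd rfl ha | assumption⟩
    · exact ⟨1, fun a ha => by fin_cases a <;> first | exact absurd rfl ha | assumption⟩
    · exact ⟨2, fun a ha => by fin_cases a <;> first | exact absurd rfl ha | assumption⟩
  rcases sq_cases_three hq (x 0) with h0 | h0 <;> rcases sq_cases_three hq (x 1) with h1 | h1 <;>
    rcases sq_cases_three hq (x 2) with h2' | h2'
  · tauto
  · tauto
  · tauto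
  · simp [h0, h1, h2'] at hx
  · tauto
  · simp [h0, h1, h2'] at hx
  · simp [h0, h1, h2'] at hx
  · rw [h0, h1, h2'] at hx
    exact absurd (by linear_combination hx) h2

theorem eq_one_of_card_two [Fintype F] (hq : Fintype.card F = 2) {x : F} (hx : x ≠ 0) : x = 1 := by
  simpa [hq] using FiniteField.pow_card_sub_one_eq_one x hx

theorem exists_omega_of_card_four [Fintype F] (hq : Fintype.card F = 4) :
    ∃ ω : F, ω * ω + ω + 1 = 0 ∧ ∀ x : F, x ≠ 0 → x = 1 ∨ x = ω ∨ x = ω + 1 := by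
  classical
  have h2 : (2 : F) = 0 := two_eq_zero_of_not_odd_card (by rw [hq]; decide)
  have h3 : ∀ x : F, x ≠ 0 → x ^ 3 = 1 := fun x hx => by
    simpa [hq] using FiniteField.pow_card_sub_one_eq_one x hx
  obtain ⟨ω, -, hω⟩ := Finset.exists_mem_notMem_of_card_lt_card (s := ({0, 1} : Finset F))
    (t := Finset.univ) (by simp [hq])
  simp only [Finset.mem_insert, Finset.mem_singleton, not_or] at hω
  have h4 : ω * ω + ω + 1 = 0 :=
    mul_left_cancel₀ (sub_ne_zero.2 hω.2) (by linear_combination h3 ω hω.1)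
  refine ⟨ω, h4, fun x hx => ?_⟩
  have : (x - 1) * ((x - ω) * (x - (ω + 1))) = 0 := by
    linear_combination h3 x hx + (x - 1) * h4 + (x - x * x * ω - x * x + x * ω - x + 1) * h2
  simpa only [mul_eq_zero, sub_eq_zero] using this

section general

variable {V : Type*} [AddCommGroup V] [Module F V] {Q : QuadraticForm F V}

theorem polar_sum_left {κ : Type*} (s : Finset κ) (v : κ → V) (y : V) :
    polar Q (∑ a ∈ s, v a) y = ∑ a ∈ s, polar Q (v a) y := by
  classical
  induction s using Finset.induction_on with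
  | empty => simp
  | insert a s ha ih => simp [Finset.sum_insert ha, ih]

theorem polar_sum_right {κ : Type*} (s : Finset κ) (v : κ → V) (y : V) :
    polar Q y (∑ a ∈ s, v a) = ∑ a ∈ s, polar Q y (v a) := by
  simp only [polar_comm Q y, polar_sum_left]

theorem Q_sum_of_orth {κ : Type*} (s : Finset κ) {v : κ → V}
    (ho : ∀ a b, a ≠ b → polar Q (v a) (v b) = 0) : Q (∑ a ∈ s, v a) = ∑ a ∈ s, Q (v a) := by
  classical
  induction s using Finset.induction_on with
  | empty => simp
  | insert a s ha ih =>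
    rw [Finset.sum_insert ha, Finset.sum_insert ha, Q_add, ih, polar_sum_right,
      Finset.sum_eq_zero fun b hb => ho a b fun h => ha (h ▸ hb), add_zero]

theorem exists_sum_of_orth [FiniteDimensional F V] {κ : Type*} [Fintype κ] {W : Submodule F V}
    {b : κ → V} (hb : ∀ a, b a ∈ W) (h0 : ∀ a, polar Q (b a) (b a) ≠ 0)
    (ho : ∀ a a', a ≠ a' → polar Q (b a) (b a') = 0) (hd : finrank F W = Fintype.card κ)
    {v : V} (hv : v ∈ W) : ∃ x : κ → F, ∑ a, x a • b a = v := by
  have h1 := finrank_iSup_of_iSupIndep (iSupIndep_of_orth (fun a => NDOn.span (h0 a))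
    fun a a' h => orth_span_span (ho a a' h))
  rw [Finset.sum_congr rfl fun a _ => finrank_span_singleton (K := F) (v := b a) (fun h => by
    simpa [h] using h0 a)] at h1
  have h2 : (⨆ a, F ∙ b a) = W := Submodule.eq_of_le_of_finrank_eq
    (iSup_le fun a => (Submodule.span_singleton_le_iff_mem _ _).2 (hb a)) (by simpa [hd] using h1)
  rwa [← h2, ← Submodule.span_range_eq_iSup, Submodule.mem_span_range_iff_exists_fun] at hv

theorem refl_swap (hQ : ND Q) {κ : Type*} [DecidableEq κ] {b : κ → V} {δ : F}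
    (h2 : 2 * δ ≠ 0) (hb : ∀ a, Q (b a) = δ) (ho : ∀ a a', a ≠ a' → polar Q (b a) (b a') = 0)
    {p q : κ} (hpq : p ≠ q) (r : κ) :
    (qP hQ).refl (b p - b q) (2 * δ) (b r) = b (Equiv.swap p q r) := by
  rw [qP_refl, polar_sub_right]
  by_cases h1 : r = p
  · subst h1
    rw [polar_self', hb, ho _ _ hpq, sub_zero, inv_mul_cancel₀ h2]; simp
  by_cases h3 : r = q
  · subst h3
    rw [polar_self', hb, ho _ _ h1, zero_sub, mul_neg, inv_mul_cancel₀ h2]; simp
  · rw [ho _ _ h1, ho _ _ h3, Equiv.swap_apply_of_ne_of_ne h1 h3]; simp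

theorem exists_frame_of_core_three [Fintype F] [FiniteDimensional F V] (hQ : ND Q)
    (hq : Fintype.card F = 3) {W : Submodule F V} (hW : NDOn Q W) (hd : finrank F W = 3) {δ : F}
    (hδ : Core Q W δ) : ∃ b : Fin 3 → V, (∀ a, b a ∈ W) ∧ (∀ a, Q (b a) = -δ) ∧
      ∀ a a', a ≠ a' → polar Q (b a) (b a') = 0 := by
  have h3 : (3 : F) = 0 := by exact_mod_cast cast_eq_zero_of_card hq
  have h2 := two_ne_zero_of_card_three hq
  obtain ⟨v, hv, hQv, hp⟩ := hδ.exists_plus hQ hW
  have v0 : v ≠ 0 := fun h => hδ.ne_zero (by rw [← hQv, h]; simp)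
  obtain ⟨e, f, h, hef⟩ := hp.exists_hyp_plane (hW.inf_pp hQ hv (by
    rw [polar_self', hQv]; exact mul_ne_zero h2 hδ.ne_zero)) (by
      have := hW.finrank_inf_pp hQ hv v0
      omega)
  have he : e ∈ W ⊓ (qP hQ).pp v := hef ▸ left_mem_pair e f
  have hf : f ∈ W ⊓ (qP hQ).pp v := hef ▸ right_mem_pair e f
  have e1 : polar Q e v = 0 := he.2
  have e2 : polar Q f v = 0 := hf.2
  have e3 : polar Q v e = 0 := by rwa [polar_comm]
  have e4 : polar Q v f = 0 := by rwa [polar_comm]
  refine ⟨![v + (e + δ • f), v - (e + δ • f), e - δ • f], fun a => ?_, fun a => ?_,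
    fun a a' haa' => ?_⟩
  · fin_cases a
    · exact W.add_mem hv (W.add_mem he.1 (W.smul_mem _ hf.1))
    · exact W.sub_mem hv (W.add_mem he.1 (W.smul_mem _ hf.1))
    · exact W.sub_mem he.1 (W.smul_mem _ hf.1)
  · fin_cases a <;>
      simp [Q_add, Q_sub, Q_smul, hQv, h.left, h.right, h.pol, e3, e4] <;>
      linear_combination δ * h3
  · fin_cases a <;> fin_cases a' <;> first
      | exact absurd rfl haa'
      | simp [hQv, h.left, h.right, h.pol, h.pol', e1, e2, e3, e4, two_mul]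

theorem exists_basis_minus_two [Fintype F] [FiniteDimensional F V] (hq : Fintype.card F = 2)
    {A : Submodule F V} (hd : finrank F A = 2) (hm : ¬ Plus Q A) :
    ∃ a b, Q a = 1 ∧ Q b = 1 ∧ polar Q a b = 1 ∧ A = (F ∙ a) ⊔ (F ∙ b) := by
  have h2 : (2 : F) = 0 := by exact_mod_cast cast_eq_zero_of_card hq
  obtain ⟨a, ha, a0⟩ := (Submodule.ne_bot_iff A).1 fun h => by rw [h, finrank_bot] at hd; omega
  obtain ⟨b, hb, hba⟩ := exists_notMem_of_finrank_lt (U := F ∙ a) (W := A)
    (by have := finrank_span_singleton_le (F := F) a; omega)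
  have key : ∀ x ∈ A, x ≠ 0 → Q x = 1 := fun x hx x0 =>
    eq_one_of_card_two hq fun h => x0 (aniso_of_not_plus hd hm hx h)
  have h3 := key a ha a0
  have h4 := key b hb (by rintro rfl; simp at hba)
  have h5 := key _ (A.add_mem ha hb) fun h => hba (by
    rw [eq_neg_of_add_eq_zero_right h]; exact Submodule.neg_mem _ (Submodule.mem_span_singleton_self a))
  refine ⟨a, b, h3, h4, ?_, eq_pair_of_finrank hd ha hb a0 hba⟩
  rw [Q_add, h3, h4] at h5
  linear_combination h5 - h2

theorem exists_planes_of_plus_four [Fintype F] [FiniteDimensional F V] (hQ : ND Q)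
    (hq : Fintype.card F = 2) {W : Submodule F V} (hW : NDOn Q W) (hd : finrank F W = 4)
    (hp : Plus Q W) : ∃ A : Fin 2 → Submodule F V, (∀ a, NDOn Q (A a)) ∧
      (∀ a, finrank F (A a) = 2) ∧ (∀ a, ¬ Plus Q (A a)) ∧ Orth Q (A 0) (A 1) ∧ A 0 ⊔ A 1 = W := by
  have h2 : (2 : F) = 0 := by exact_mod_cast cast_eq_zero_of_card hq
  obtain ⟨e, he, e0, hQe⟩ := hp.exists_sing (by omega)
  obtain ⟨f, hf, h⟩ := hW.exists_hyp he e0 hQe
  obtain ⟨c, hc, hQc⟩ := (hW.inf_perp hQ h.ndOn (pair_le he hf)).exists_val (by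
    have := hW.finrank_inf_perp hQ (pair_le he hf)
    rw [h.finrank_eq] at this; omega) 1
  have e1 : polar Q c e = 0 := hc.2 e (left_mem_pair e f)
  have e2 : polar Q c f = 0 := hc.2 f (right_mem_pair e f)
  have e3 : polar Q e c = 0 := by rwa [polar_comm]
  have e4 : polar Q f c = 0 := by rwa [polar_comm]
  have q1 : Q (e + f) = 1 := by simp [Q_add, h.left, h.right, h.pol]
  have q2 : Q (f + c) = 1 := by simp [Q_add, h.right, hQc, e4]
  have q3 : polar Q (e + f) (f + c) = 1 := by simp [h.right, h.pol, e3, e4]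
  have q0 : ∀ x : V, polar Q x x = 0 := fun x => by rw [polar_self', h2, zero_mul]
  have n0 : e + f ≠ 0 := fun h0 => by simp [h0] at q1
  have n1 : f + c ∉ F ∙ (e + f) := fun hm => by
    obtain ⟨a, ha⟩ := Submodule.mem_span_singleton.1 hm
    rw [← ha, polar_smul_right, q0] at q3
    simp at q3
  set A := (F ∙ (e + f)) ⊔ (F ∙ (f + c)) with hA
  have hle : A ≤ W := pair_le (W.add_mem he hf) (W.add_mem hf hc.1)
  have dA : finrank F A = 2 := finrank_pair n0 n1
  have nA : NDOn Q A := fun w hw hw' => by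
    obtain ⟨a, b, rfl⟩ := mem_span_pair'.1 hw
    have h3 := hw' _ (left_mem_pair _ _)
    have h4 := hw' _ (right_mem_pair _ _)
    rw [polar_add_right, polar_smul_right, polar_smul_right, q0] at h3 h4
    rw [q3] at h3
    rw [polar_comm, q3] at h4
    simp at h3 h4
    simp [h3, h4]
  have mA : ¬ Plus Q A := fun hpA => by
    obtain ⟨x, hx, x0, hQx⟩ := hpA.exists_sing (by omega)
    obtain ⟨a, b, rfl⟩ := mem_span_pair'.1 hx
    rw [Q_comb, q1, q2, q3] at hQx
    by_cases ha : a = 0 <;> by_cases hb : b = 0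
    · simp [ha, hb] at x0
    · simp [ha, hb] at hQx
    · simp [ha, hb] at hQx
    · rw [eq_one_of_card_two hq ha, eq_one_of_card_two hq hb] at hQx
      exact one_ne_zero (α := F) (by linear_combination hQx - h2)
  have dB : finrank F ↥(W ⊓ (qP hQ).perp A) = 2 := by
    have := hW.finrank_inf_perp hQ hle; omega
  have nB := hW.inf_perp hQ nA hle
  have o := (orth_perp hQ A).mono le_rfl (inf_le_right (a := W))
  have s := nA.sup_inf_perp hQ hle
  have mB : ¬ Plus Q (W ⊓ (qP hQ).perp A) := fun hB => mA (by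
    have := plus_sup_iff hQ nA nB o (by simp [dA]) (by simp [dB])
    rw [s] at this
    exact (this.1 hp).2 hB)
  refine ⟨![A, W ⊓ (qP hQ).perp A], fun a => ?_, fun a => ?_, fun a => ?_, o, s⟩ <;>
    fin_cases a <;> assumption

theorem val_mem_of_span {F₀ : Subfield F} {S : Set V} {ζ : F}
    (h1 : ∀ x ∈ S, ζ * Q x ∈ F₀) (h2 : ∀ x ∈ S, ∀ y ∈ S, ζ * polar Q x y ∈ F₀) :
    (∀ x ∈ Submodule.span F₀ S, ∀ y ∈ Submodule.span F₀ S, ζ * polar Q x y ∈ F₀) ∧
      ∀ x ∈ Submodule.span F₀ S, ζ * Q x ∈ F₀ := by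
  have hs : ∀ (c : F₀) (x : V), c • x = (c : F) • x := fun c x => rfl
  have key : ∀ x ∈ Submodule.span F₀ S, ∀ y ∈ Submodule.span F₀ S, ζ * polar Q x y ∈ F₀ := by
    intro x hx y hy
    induction hx using Submodule.span_induction with
    | mem x hx =>
      induction hy using Submodule.span_induction with
      | mem y hy => exact h2 x hx y hy
      | zero => simp
      | add y z _ _ hy hz => rw [polar_add_right, mul_add]; exact add_mem hy hz
      | smul c y _ hy =>
        rw [hs, polar_smul_right, smul_eq_mul, mul_left_comm]; exact mul_mem c.2 hy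
    | zero => simp
    | add x z _ _ hx hz => rw [polar_add_left, mul_add]; exact add_mem hx hz
    | smul c x _ hx => rw [hs, polar_smul_left, smul_eq_mul, mul_left_comm]; exact mul_mem c.2 hx
  refine ⟨key, fun x hx => ?_⟩
  induction hx using Submodule.span_induction with
  | mem x hx => exact h1 x hx
  | zero => simp
  | add x y hx' hy' hx hy =>
    rw [Q_add, mul_add, mul_add]; exact add_mem (add_mem hx hy) (key x hx' y hy')
  | smul c x _ hx =>
    rw [hs, Q_smul, mul_left_comm]; exact mul_mem (mul_mem c.2 c.2) hx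

end general

variable {ι : Type} [Fintype ι] [DecidableEq ι] {Q : QuadraticForm F (ι → F)}

section
variable {t k : ℕ} {D : Fin t → Submodule F (ι → F)} (hD : Geo.IsOrthogonalMDecomposition Q k D)
include hD

theorem OD.md : Geo.IsMDecomposition k D := hD.decomp.decomp
theorem OD.nd (i : Fin t) : NDOn Q (D i) := ndOn_iff_geo.2 (hD.decomp.nondegenerate i)
theorem OD.orth (i j : Fin t) (h : i ≠ j) : Orth Q (D i) (D j) := hD.decomp.orthogonal i j h
theorem OD.isom (i j : Fin t) : Isom Q (D i) (D j) := hD.isometric i j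
theorem OD.dim (i : Fin t) : finrank F (D i) = k := hD.decomp.decomp.finrank_eq i
theorem OD.indep : iSupIndep D := hD.decomp.decomp.indep
theorem OD.mul_eq : t * k = Fintype.card ι := IsMDecomposition.mul_eq hD.decomp.decomp

end

theorem isMDecomposition_of_indep {κ : Type*} {D : κ → Submodule F (ι → F)} (h : iSupIndep D)
    {k N : ℕ} (hd : ∀ i, finrank F (D i) = k) (hk : 0 < k) (e : Fin N ≃ κ) (hN : 2 ≤ N)
    (hn : N * k = Fintype.card ι) : Geo.IsMDecomposition k (D ∘ e) where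
  two_le := hN
  pos := hk
  finrank_eq _ := hd _
  indep := h.comp e.injective
  iSup_eq_top := Submodule.eq_top_of_finrank_eq (by
    rw [finrank_iSup_of_iSupIndep (h.comp e.injective)]
    simp [hd, hn])

theorem isOrthogonalMDecomposition_of {κ : Type*} {D : κ → Submodule F (ι → F)}
    (h : ∀ i, NDOn Q (D i)) (ho : ∀ i j, i ≠ j → Orth Q (D i) (D j))
    (hi : ∀ i j, Isom Q (D i) (D j)) {k N : ℕ} (hd : ∀ i, finrank F (D i) = k) (hk : 0 < k)
    (e : Fin N ≃ κ) (hN : 2 ≤ N) (hn : N * k = Fintype.card ι) :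
    Geo.IsOrthogonalMDecomposition Q k (D ∘ e) where
  decomp :=
    { decomp := isMDecomposition_of_indep (iSupIndep_of_orth h ho) hd hk e hN hn
      nondegenerate := fun _ => ndOn_iff_geo.1 (h _)
      orthogonal := fun _ _ hij => ho _ _ (e.injective.ne hij) }
  isometric _ _ := hi _ _

theorem mem_decompositionStabilizer_comp {κ : Type*} {D : κ → Submodule F (ι → F)} {k N : ℕ}
    {e : Fin N ≃ κ} (hD : Geo.IsMDecomposition k (D ∘ e)) {g : GL ι F}
    (h : ∀ i, ∃ j, ∀ v ∈ D i, (g : Matrix ι ι F) *ᵥ v ∈ D j) :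
    g ∈ Geo.decompositionStabilizer (D ∘ e) :=
  mem_decompositionStabilizer_of_le hD fun i => by
    obtain ⟨j, hj⟩ := h (e i)
    exact ⟨e.symm j, by simpa using hj⟩

theorem mulVec_mem_span {g : GL ι F} {v : ι → F} {W : Submodule F (ι → F)}
    (h : (g : Matrix ι ι F) *ᵥ v ∈ W) : ∀ x ∈ F ∙ v, (g : Matrix ι ι F) *ᵥ x ∈ W := fun x hx => by
  obtain ⟨c, rfl⟩ := Submodule.mem_span_singleton.1 hx
  rw [Matrix.mulVec_smul]
  exact W.smul_mem _ h

theorem mulVec_mem_pair {g : GL ι F} {v w : ι → F} {W : Submodule F (ι → F)}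
    (h : (g : Matrix ι ι F) *ᵥ v ∈ W) (h' : (g : Matrix ι ι F) *ᵥ w ∈ W) :
    ∀ x ∈ (F ∙ v) ⊔ (F ∙ w), (g : Matrix ι ι F) *ᵥ x ∈ W := fun x hx => by
  obtain ⟨a, b, rfl⟩ := mem_span_pair'.1 hx
  rw [Matrix.mulVec_add, Matrix.mulVec_smul, Matrix.mulVec_smul]
  exact W.add_mem (W.smul_mem _ h) (W.smul_mem _ h')

theorem notMem_decompositionStabilizer {t : ℕ} {D : Fin t → Submodule F (ι → F)}
    (hD : iSupIndep D) {g : GL ι F} {i j l : Fin t} {x y : ι → F} (hx : x ∈ D i) (hy : y ∈ D i)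
    (hx0 : x ≠ 0) (hy0 : y ≠ 0) (hgx : (g : Matrix ι ι F) *ᵥ x ∈ D j)
    (hgy : (g : Matrix ι ι F) *ᵥ y ∈ D l) (hjl : j ≠ l) : g ∉ Geo.decompositionStabilizer D :=
  fun hg => by
    obtain ⟨m, hm⟩ := exists_of_mem_decompositionStabilizer hg i
    exact hjl ((eq_of_mem_of_mem hD hgx (hm x hx) (mulVec_ne_zero g hx0)).trans
      (eq_of_mem_of_mem hD (hm y hy) hgy (mulVec_ne_zero g hy0)))

/-- An orthogonal frame from pairwise orthogonal vectors of the same value. -/
theorem isOrthogonalMDecomposition_frame {κ : Type*} {b : κ → ι → F} {δ : F} (h2 : 2 * δ ≠ 0)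
    (hb : ∀ a, Q (b a) = δ) (ho : ∀ a a', a ≠ a' → polar Q (b a) (b a') = 0) {N : ℕ}
    (e : Fin N ≃ κ) (hN : 2 ≤ N) (hn : N = Fintype.card ι) :
    Geo.IsOrthogonalMDecomposition Q 1 ((fun a => F ∙ b a) ∘ e) := by
  have h0 : ∀ a, b a ≠ 0 := fun a h => h2 (by rw [← hb a, h]; simp)
  exact isOrthogonalMDecomposition_of (fun a => NDOn.span (by rwa [polar_self', hb]))
    (fun a a' h => orth_span_span (ho a a' h))
    (fun a a' => isom_span (h0 a) (h0 a') (by rw [hb, hb]))
    (fun a => finrank_span_singleton (h0 a)) one_pos e hN (by rw [mul_one, hn])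

/-- A subfield structure spanned by a given basis. -/
theorem exists_subfield_frame {κ : Type} [Fintype κ] [DecidableEq κ] (b : Basis κ F (ι → F))
    (F₀ : Subfield F) : ∃ P : GL ι F,
      (∀ g : GL ι F, (∀ p, (g : Matrix ι ι F) *ᵥ b p ∈ Submodule.span F₀ (Set.range b)) →
        g ∈ Geo.subfieldSubgroup F₀ P) ∧
      ∀ u : ι → F, (∀ i, u i ∈ F₀) → (P : Matrix ι ι F) *ᵥ u ∈ Submodule.span F₀ (Set.range b) := by
  obtain ⟨e, P, hP⟩ := Asch.exists_frame b.equivFun.symm
  have h1 : ∀ u : ι → F, (P : Matrix ι ι F) *ᵥ u = ∑ p, u (e.symm p) • b p := fun u => by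
    have := hP (u ∘ e.symm)
    rw [Asch.trv, Function.comp_assoc, Equiv.symm_comp_self, Function.comp_id] at this
    rw [this, Basis.equivFun_symm_apply]
    rfl
  refine ⟨P, fun g hg => ?_, fun u hu => ?_⟩
  · have h2 : ∀ i j, Asch.cj P⁻¹ (g : Matrix ι ι F) i j ∈ F₀ := fun i j => by
      obtain ⟨c, hc⟩ := (Submodule.mem_span_range_iff_exists_fun F₀).1 (hg (e j))
      have h3 : (P : Matrix ι ι F) *ᵥ Pi.single j 1 = b (e j) := by
        rw [h1, Finset.sum_eq_single (e j) (fun p _ hp => by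
          rw [Pi.single_eq_of_ne (fun h => hp (by rw [← h]; simp)), zero_smul]) (by simp)]
        simp
      have h4 : (P : Matrix ι ι F) *ᵥ (fun i => (c (e i) : F)) =
          (g : Matrix ι ι F) *ᵥ ((P : Matrix ι ι F) *ᵥ Pi.single j 1) := by
        rw [h3, ← hc, h1]
        simp only [Equiv.apply_symm_apply]
        rfl
      have h5 : Asch.cj P⁻¹ (g : Matrix ι ι F) *ᵥ Pi.single j 1 = fun i => (c (e i) : F) := by
        rw [Asch.cj_apply, inv_inv, ← Matrix.mulVec_mulVec, ← Matrix.mulVec_mulVec, ← h4,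
          Asch.inv_mulVec_mulVec]
      have h6 := congrFun h5 i
      rw [Matrix.mulVec_single_one] at h6
      exact (show Asch.cj P⁻¹ (g : Matrix ι ι F) i j = _ from h6) ▸ (c (e i)).2
    let y : Matrix ι ι F₀ := fun i j => ⟨_, h2 i j⟩
    have h3 : y.map F₀.subtype = Asch.cj P⁻¹ (g : Matrix ι ι F) := rfl
    have h4 : y.det ≠ 0 := fun h0 => by
      have := RingHom.map_det F₀.subtype y
      rw [h0, map_zero, RingHom.mapMatrix_apply, h3, Asch.cj_coe] at this
      exact (Matrix.GeneralLinearGroup.det_ne_zero _) this.symm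
    exact (Asch.mem_subfieldSubgroup_iff F₀ P g).2
      ⟨1, Matrix.GeneralLinearGroup.mkOfDetNeZero y h4, one_ne_zero, by rw [one_smul]; rfl⟩
  · rw [h1]
    exact Submodule.sum_mem _ fun p _ => Submodule.smul_mem _ (⟨_, hu (e.symm p)⟩ : F₀)
      (Submodule.subset_span ⟨p, rfl⟩)

theorem exists_basis_of_span {κ : Type} [Fintype κ] {b : κ → ι → F}
    (h : ⊤ ≤ Submodule.span F (Set.range b)) (hc : Fintype.card κ = Fintype.card ι) :
    ∃ B : Basis κ F (ι → F), ⇑B = b :=
  ⟨basisOfTopLeSpanOfCardEqFinrank b h (by simpa using hc), coe_basisOfTopLeSpanOfCardEqFinrank ..⟩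

/-- The stabiliser of an orthogonal frame lies in a subfield group for every subfield: here `δ` is
any value taken on the members of the frame. -/
theorem exists_subfield_of_frame {N : ℕ} {D : Fin N → Submodule F (ι → F)}
    (hD : Geo.IsOrthogonalMDecomposition Q 1 D) (F₀ : Subfield F) {i : Fin N} {v : ι → F}
    (hv : v ∈ D i) (hv0 : v ≠ 0) {ζ : F} (hζ : ζ * Q v ∈ F₀) :
    ∃ P : GL ι F, Geo.IsQuadFormRationalStructure (fun x => ζ * Q x) F₀ P ∧
      Geo.decompositionStabilizer D ⊓ isometryGroup F Q ≤ Geo.subfieldSubgroup F₀ P := by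
  have hsp : ∀ {j : Fin N} {x : ι → F}, x ∈ D j → x ≠ 0 → D j = F ∙ x := fun {j x} hx x0 =>
    (Submodule.eq_of_le_of_finrank_eq ((Submodule.span_singleton_le_iff_mem _ _).2 hx)
      (by rw [finrank_span_singleton x0, OD.dim hD])).symm
  have hQv : Q v ≠ 0 := fun h => hv0 (OD.nd hD i v hv fun x hx => by
    rw [hsp hv hv0] at hx
    exact (TS.span h).polar hx (Submodule.mem_span_singleton_self v))
  choose b hb hQb using fun j => (OD.isom hD i j).exists_val hv
  have hb0 : ∀ j, b j ≠ 0 := fun j h => hQv (by rw [← hQb j, h]; simp)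
  obtain ⟨B, rfl⟩ := exists_basis_of_span (b := b) (by
    rw [← (OD.md hD).iSup_eq_top, Submodule.span_range_eq_iSup]
    exact iSup_mono fun j => (hsp (hb j) (hb0 j)).le) (by simpa using OD.mul_eq hD)
  obtain ⟨P, h1, h2⟩ := exists_subfield_frame B F₀
  refine ⟨P, fun u hu => (val_mem_of_span (Q := Q) ?_ ?_).2 _ (h2 u hu), ?_⟩
  · rintro _ ⟨j, rfl⟩
    rwa [hQb]
  · rintro _ ⟨j, rfl⟩ _ ⟨l, rfl⟩
    by_cases hjl : j = l
    · rw [hjl, polar_self', hQb, mul_left_comm]
      exact mul_mem (ofNat_mem F₀ 2) hζ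
    · rw [OD.orth hD j l hjl _ (hb j) _ (hb l), mul_zero]
      exact zero_mem _
  · rintro g ⟨hg, hg'⟩
    refine h1 g fun j => ?_
    obtain ⟨l, hl⟩ := exists_of_mem_decompositionStabilizer hg j
    obtain ⟨c, hc⟩ := Submodule.mem_span_singleton.1 (hsp (hb l) (hb0 l) ▸ hl _ (hb j))
    have h3 := mem_isometryGroup.1 hg' (B j)
    rw [← hc, Q_smul, hQb, hQb] at h3
    rw [← hc]
    rcases mul_self_eq_one_iff.1 (mul_right_cancel₀ hQv (h3.trans (one_mul _).symm)) with h | h
    · rw [h, one_smul]; exact Submodule.subset_span ⟨l, rfl⟩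
    · rw [h, neg_smul, one_smul]; exact Submodule.neg_mem _ (Submodule.subset_span ⟨l, rfl⟩)

variable [Finite F] (hQ : ND Q)
include hQ

/-- If the members of an orthogonal decomposition have canonical orthogonal frames, then the
stabiliser of the decomposition preserves an orthogonal frame. -/
theorem exists_frame_of_local {t k : ℕ} {D : Fin t → Submodule F (ι → F)}
    (hD : Geo.IsOrthogonalMDecomposition Q k D) {δ : F} (h2 : 2 * δ ≠ 0)
    (hloc : ∀ i, ∃ b : Fin k → ι → F, (∀ a, b a ∈ D i) ∧ (∀ a, Q (b a) = δ) ∧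
      ∀ a a', a ≠ a' → polar Q (b a) (b a') = 0)
    (hx : ∀ x : Fin k → F, ∑ a, x a * x a = 1 → ∃ a, ∀ a', a' ≠ a → x a' = 0)
    {N : ℕ} (hN : N = Fintype.card ι) :
    ∃ D' : Fin N → Submodule F (ι → F), Geo.IsOrthogonalMDecomposition Q 1 D' ∧
      Geo.decompositionStabilizer D ⊓ isometryGroup F Q ≤ Geo.decompositionStabilizer D' ∧
      (2 ≤ k → 7 ≤ Fintype.card ι → ∃ g ∈ Geo.omegaGL Q, g ∈ Geo.decompositionStabilizer D' ∧
        g ∉ Geo.decompositionStabilizer D) := by
  choose b hb hQb hob using hloc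
  have hδ : δ ≠ 0 := right_ne_zero_of_mul h2
  let b' : Fin t × Fin k → ι → F := fun p => b p.1 p.2
  have hob' : ∀ p q, p ≠ q → polar Q (b' p) (b' q) = 0 := by
    rintro ⟨i, a⟩ ⟨j, a'⟩ h
    by_cases hij : i = j
    · subst hij
      exact hob i a a' fun h' => h (by rw [h'])
    · exact OD.orth hD i j hij _ (hb i a) _ (hb j a')
  have hmul := OD.mul_eq hD
  have ht := (OD.md hD).two_le
  have hk := (OD.md hD).pos
  let e : Fin N ≃ Fin t × Fin k := Fintype.equivOfCardEq (by simp [hN, hmul])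
  have hD' := isOrthogonalMDecomposition_frame (b := b') h2 (fun p => hQb p.1 p.2) hob' e
    (by nlinarith) hN
  refine ⟨_, hD', ?_, fun hk2 hn => ?_⟩
  · rintro g ⟨hg, hg'⟩
    refine mem_decompositionStabilizer_comp (OD.md hD') ?_
    rintro ⟨i, a⟩
    obtain ⟨j, hj⟩ := exists_of_mem_decompositionStabilizer hg i
    obtain ⟨x, hx'⟩ := exists_sum_of_orth (hb j) (fun a => by rwa [polar_self', hQb]) (hob j)
      (by simp [OD.dim hD]) (hj _ (hb i a))
    have h3 := mem_isometryGroup.1 hg' (b i a)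
    rw [← hx', Q_sum_of_orth _ fun a a' h => by simp [hob j a a' h]] at h3
    simp only [Q_smul, hQb, ← Finset.sum_mul] at h3
    obtain ⟨a', ha'⟩ := hx x (mul_right_cancel₀ hδ (by rw [h3, one_mul]))
    refine ⟨(j, a'), mulVec_mem_span ?_⟩
    change _ *ᵥ b i a ∈ F ∙ b j a'
    rw [← hx', Finset.sum_eq_single a' (fun c _ hc => by rw [ha' c hc, zero_smul]) (by simp)]
    exact Submodule.smul_mem _ _ (Submodule.mem_span_singleton_self _)
  · let i0 : Fin t := ⟨0, by omega⟩
    let i1 : Fin t := ⟨1, by omega⟩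
    let a0 : Fin k := ⟨0, by omega⟩
    let a1 : Fin k := ⟨1, by omega⟩
    have hi : i0 ≠ i1 := by simp [i0, i1, Fin.ext_iff]
    have ha : a0 ≠ a1 := by simp [a0, a1, Fin.ext_iff]
    have hv : ∀ p q, p ≠ q → Q (b' p - b' q) = 2 * δ := fun p q h => by
      rw [Q_sub, hob' p q h, hQb, hQb]; ring
    have h01 : (i0, a0) ≠ (i1, a0) := by simp [hi]
    have h02 : (i0, a0) ≠ (i0, a1) := by simp [ha]
    obtain ⟨g, hg, hg'⟩ := exists_refl_refl hQ hn (a := b' (i0, a0) - b' (i1, a0))
      (a' := b' (i0, a0) - b' (i0, a1)) (by rw [hv _ _ h01, hv _ _ h02]) (by rwa [hv _ _ h01])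
    have key : ∀ r, (g : Matrix ι ι F) *ᵥ b' r =
        b' (Equiv.swap (i0, a0) (i1, a0) (Equiv.swap (i0, a0) (i0, a1) r)) := fun r => by
      rw [hg', hv _ _ h01, refl_swap hQ h2 (fun p => hQb p.1 p.2) hob' h02,
        refl_swap hQ h2 (fun p => hQb p.1 p.2) hob' h01]
    have h0 : ∀ p, b' p ≠ 0 := fun p h => hδ (by rw [← hQb p.1 p.2]; change Q (b' p) = 0; simp [h])
    refine ⟨g, hg, mem_decompositionStabilizer_comp (OD.md hD') fun r =>
      ⟨_, mulVec_mem_span (by rw [key]; exact Submodule.mem_span_singleton_self _)⟩,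
      notMem_decompositionStabilizer (OD.indep hD) (hb i0 a0) (hb i0 a1) (h0 (i0, a0)) (h0 (i0, a1))
        ?_ ?_ hi⟩
    · rw [show b i0 a0 = b' (i0, a0) from rfl, key, Equiv.swap_apply_left,
        Equiv.swap_apply_of_ne_of_ne h02.symm (by simp [hi])]
      exact hb i0 a1
    · rw [show b i0 a1 = b' (i0, a1) from rfl, key, Equiv.swap_apply_right, Equiv.swap_apply_left]
      exact hb i1 a0

omit [Finite F] in
/-- `O₃(3) ≀ S_t` preserves a frame. -/
theorem exists_frame_three_three [Fintype F] (hq : Fintype.card F = 3) {t : ℕ}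
    {D : Fin t → Submodule F (ι → F)} (hD : Geo.IsOrthogonalMDecomposition Q 3 D)
    {N : ℕ} (hN : N = Fintype.card ι) :
    ∃ D' : Fin N → Submodule F (ι → F), Geo.IsOrthogonalMDecomposition Q 1 D' ∧
      Geo.decompositionStabilizer D ⊓ isometryGroup F Q ≤ Geo.decompositionStabilizer D' ∧
      (2 ≤ 3 → 7 ≤ Fintype.card ι → ∃ g ∈ Geo.omegaGL Q, g ∈ Geo.decompositionStabilizer D' ∧
        g ∉ Geo.decompositionStabilizer D) := by
  have h3 : (3 : F) = 0 := by exact_mod_cast cast_eq_zero_of_card hq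
  have h2 := two_ne_zero_of_card_three hq
  have ht := (OD.md hD).two_le
  obtain ⟨δ, hδ⟩ := (OD.nd hD ⟨0, by omega⟩).exists_core hQ (by rw [OD.dim hD]; decide)
  refine exists_frame_of_local hQ hD (δ := -δ) (by simpa [h2] using hδ.ne_zero) (fun i => ?_)
    (fun x hx => ?_) hN
  · exact exists_frame_of_core_three hQ hq (OD.nd hD i) (OD.dim hD i) ((OD.isom hD _ i).core hQ hδ)
  · exact exists_fin_three hq hx

omit [Finite F] hQ in
theorem exists_fin_two {x : Fin 2 → F} (h : x 0 = 0 ∨ x 1 = 0) : ∃ a, ∀ a', a' ≠ a → x a' = 0 := by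
  rcases h with h | h
  · exact ⟨1, fun a ha => by fin_cases a <;> first | exact absurd rfl ha | assumption⟩
  · exact ⟨0, fun a ha => by fin_cases a <;> first | exact absurd rfl ha | assumption⟩

omit [Finite F] in
/-- `O₂⁻(3) ≀ S_t` preserves a frame. -/
theorem exists_frame_minus_three [Fintype F] (hq : Fintype.card F = 3) {t : ℕ}
    {D : Fin t → Submodule F (ι → F)} (hD : Geo.IsOrthogonalMDecomposition Q 2 D)
    (hm : ∀ i, ¬ Plus Q (D i)) {N : ℕ} (hN : N = Fintype.card ι) :
    ∃ D' : Fin N → Submodule F (ι → F), Geo.IsOrthogonalMDecomposition Q 1 D' ∧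
      Geo.decompositionStabilizer D ⊓ isometryGroup F Q ≤ Geo.decompositionStabilizer D' ∧
      (2 ≤ 2 → 7 ≤ Fintype.card ι → ∃ g ∈ Geo.omegaGL Q, g ∈ Geo.decompositionStabilizer D' ∧
        g ∉ Geo.decompositionStabilizer D) := by
  have h2 := two_ne_zero_of_card_three hq
  refine exists_frame_of_local hQ hD (δ := 1) (by simpa using h2) (fun i => ?_)
    (fun x hx => exists_fin_two ?_) hN
  · obtain ⟨a, ha, hQa⟩ := (OD.nd hD i).exists_val (OD.dim hD i).ge 1
    have a0 : a ≠ 0 := fun h => by simp [h] at hQa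
    obtain ⟨b, hb, b0⟩ := (Submodule.ne_bot_iff (D i ⊓ (qP hQ).pp a)).1 fun h => by
      have := (OD.nd hD i).finrank_inf_pp hQ ha a0
      rw [OD.dim hD, h, finrank_bot] at this; omega
    have e1 : polar Q b a = 0 := hb.2
    have e2 : polar Q a b = 0 := by rwa [polar_comm]
    have hQb : Q b = 1 := by
      have h3 : Q b ≠ 0 := fun h => b0 (aniso_of_not_plus (OD.dim hD i) (hm i) hb.1 h)
      rcases mul_self_eq_one_iff.1 (mul_self_eq_one_of_card_le_three hq.le h3) with h | h
      · exact h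
      · have h4 := aniso_of_not_plus (OD.dim hD i) (hm i) ((D i).add_mem ha hb.1) (by
          simp [Q_add, hQa, h, e2])
        have h5 := congrArg (polar Q a) h4
        simp [e2, hQa, polar_self', h2, -polar_self] at h5
    refine ⟨![a, b], fun c => ?_, fun c => ?_, fun c c' h => ?_⟩
    · fin_cases c
      · exact ha
      · exact hb.1
    · fin_cases c <;> assumption
    · fin_cases c <;> fin_cases c' <;> first | exact absurd rfl h | assumption
  · rw [Fin.sum_univ_two] at hx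
    by_contra! h
    rw [mul_self_eq_one_of_card_le_three hq.le h.1, mul_self_eq_one_of_card_le_three hq.le h.2] at hx
    simp at hx

omit [Finite F] in
/-- `O₂⁺(5) ≀ S_t` preserves a frame. -/
theorem exists_frame_plus_five [Fintype F] (hq : Fintype.card F = 5) {t : ℕ}
    {D : Fin t → Submodule F (ι → F)} (hD : Geo.IsOrthogonalMDecomposition Q 2 D)
    (hp : ∀ i, Plus Q (D i)) {N : ℕ} (hN : N = Fintype.card ι) :
    ∃ D' : Fin N → Submodule F (ι → F), Geo.IsOrthogonalMDecomposition Q 1 D' ∧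
      Geo.decompositionStabilizer D ⊓ isometryGroup F Q ≤ Geo.decompositionStabilizer D' ∧
      (2 ≤ 2 → 7 ≤ Fintype.card ι → ∃ g ∈ Geo.omegaGL Q, g ∈ Geo.decompositionStabilizer D' ∧
        g ∉ Geo.decompositionStabilizer D) := by
  have h5 : (5 : F) = 0 := by exact_mod_cast cast_eq_zero_of_card hq
  have h2 : (2 : F) ≠ 0 := two_ne_zero_of_odd_card (by rw [hq]; decide)
  refine exists_frame_of_local hQ hD (δ := 1) (by simpa using h2) (fun i => ?_)
    (fun x hx => exists_fin_two ?_) hN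
  · obtain ⟨e, f, h, hef⟩ := (hp i).exists_hyp_plane (OD.nd hD i) (OD.dim hD i)
    refine ⟨![(1 : F) • e + (1 : F) • f, (2 : F) • e + (-2 : F) • f], fun c => ?_, fun c => ?_,
      fun c c' hc => ?_⟩
    · rw [hef]
      fin_cases c <;> exact mem_span_pair'.2 ⟨_, _, rfl⟩
    · fin_cases c
      · exact (h.val _ _).trans (mul_one _)
      · exact (h.val _ _).trans (by linear_combination -h5)
    · fin_cases c <;> fin_cases c' <;> first
        | exact absurd rfl hc
        | simp [h.left, h.right, h.pol, h.pol']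
  · rw [Fin.sum_univ_two] at hx
    by_contra! h
    have key : ∀ {y : F}, y ≠ 0 → y * y = 1 ∨ y * y = -1 := fun {y} hy => by
      have := FiniteField.pow_card_sub_one_eq_one y hy
      rw [hq] at this
      exact mul_self_eq_one_iff.1 (by linear_combination this)
    rcases key h.1 with h0 | h0 <;> rcases key h.2 with h1 | h1 <;> rw [h0, h1] at hx
    · simp at hx
    · simp at hx
    · simp at hx
    · exact h2 (by linear_combination hx + h5)

omit [Finite F] hQ in
/-- `O₂⁺(q) ≀ S_t` is reducible for `q ≤ 3`. -/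
theorem exists_subspace_plus_le_three [Fintype F] (hq : Fintype.card F ≤ 3) {t : ℕ}
    {D : Fin t → Submodule F (ι → F)} (hD : Geo.IsOrthogonalMDecomposition Q 2 D)
    (hp : ∀ i, Plus Q (D i)) :
    ∃ v : Fin t → ι → F, (∀ i, v i ∈ D i) ∧ (∀ i, Q (v i) = 1) ∧
      (∀ i, ∃ x ∈ D i, polar Q x (v i) = 1) ∧ finrank F ↥(⨆ i, F ∙ v i) = t ∧
      Geo.decompositionStabilizer D ⊓ isometryGroup F Q ≤ Geo.subspaceStabilizer (⨆ i, F ∙ v i) := by
  choose e f h hef using fun i => (hp i).exists_hyp_plane (OD.nd hD i) (OD.dim hD i)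
  have hv : ∀ i, Q (e i + f i) = 1 := fun i => by simpa using (h i).val 1 1
  have hm : ∀ i, e i + f i ∈ D i := fun i =>
    hef i ▸ Submodule.add_mem _ (left_mem_pair _ _) (right_mem_pair _ _)
  refine ⟨fun i => e i + f i, hm, hv, fun i => ⟨e i, hef i ▸ left_mem_pair _ _, by
    simp [(h i).left, (h i).pol]⟩, ?_, ?_⟩
  · rw [finrank_iSup_of_iSupIndep ((OD.indep hD).mono fun i =>
      (Submodule.span_singleton_le_iff_mem _ _).2 (hm i)),
      Finset.sum_congr rfl fun i _ => finrank_span_singleton (K := F) (v := e i + f i) fun h0 => by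
        simpa [h0] using hv i]
    simp
  · rintro g ⟨hg, hg'⟩
    refine mem_subspaceStabilizer_of_forall fun v hv' => ?_
    induction hv' using Submodule.iSup_induction' with
    | mem i x hx =>
      obtain ⟨j, hj⟩ := exists_of_mem_decompositionStabilizer hg i
      refine mulVec_mem_span (Submodule.mem_iSup_of_mem j ?_) x hx
      obtain ⟨a, b, hab⟩ := mem_span_pair'.1 (hef j ▸ hj _ (hm i))
      have h1 : a * b = 1 := by
        rw [← (h j).val, ← hab, ← hv i]
        exact mem_isometryGroup.1 hg' _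
      have h2 : a = b := mul_right_cancel₀ (right_ne_zero_of_mul_eq_one h1) (by
        rw [h1, mul_self_eq_one_of_card_le_three hq (right_ne_zero_of_mul_eq_one h1)])
      rw [hab, h2, ← smul_add]
      exact Submodule.smul_mem _ _ (Submodule.mem_span_singleton_self _)
    | zero => simp
    | add x y _ _ hx hy => rw [Matrix.mulVec_add]; exact Submodule.add_mem _ hx hy

theorem between_of_frame (hn : 7 ≤ Fintype.card ι) {t k N : ℕ} {D : Fin t → Submodule F (ι → F)}
    {p : Prop} (hp : p) (h : ∃ D' : Fin N → Submodule F (ι → F),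
      Geo.IsOrthogonalMDecomposition Q k D' ∧
      Geo.decompositionStabilizer D ⊓ isometryGroup F Q ≤ Geo.decompositionStabilizer D' ∧
      (p → 7 ≤ Fintype.card ι → ∃ g ∈ Geo.omegaGL Q, g ∈ Geo.decompositionStabilizer D' ∧
        g ∉ Geo.decompositionStabilizer D)) :
    ∃ K, Geo.decompositionStabilizer D ⊓ Geo.omegaGL Q < K ∧ K < Geo.omegaGL Q := by
  obtain ⟨D', h1, h2, h3⟩ := h
  exact exists_between_of ((inf_le_inf_left _ omegaGL_le_isometryGroup).trans h2) (h3 hp hn)
    ((hQ.hasE hn).not_le_decompositionStabilizer (OD.md h1))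

omit [Finite F] in
theorem plus_le_three_between [Fintype F] (hn : 7 ≤ Fintype.card ι) (hq : Fintype.card F ≤ 3)
    {t : ℕ} {D : Fin t → Submodule F (ι → F)} (hD : Geo.IsOrthogonalMDecomposition Q 2 D)
    (hp : ∀ i, Plus Q (D i)) :
    ∃ K, Geo.decompositionStabilizer D ⊓ Geo.omegaGL Q < K ∧ K < Geo.omegaGL Q := by
  obtain ⟨v, hv, hQv, hx, hd, hle⟩ := exists_subspace_plus_le_three hq hD hp
  have hmul := OD.mul_eq hD
  refine exists_between_of ((inf_le_inf_left _ omegaGL_le_isometryGroup).trans hle) ?_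
    ((hQ.hasE hn).not_le_subspaceStabilizer (fun h => by rw [h, finrank_bot] at hd; omega)
      (fun h => by rw [h] at hd; simp at hd; omega))
  let j : Fin t := ⟨0, by omega⟩
  obtain ⟨x, hxD, hxv⟩ := hx j
  obtain ⟨u, hu, hu0, hQu⟩ := exists_sing_ne_zero hQ (W := ⨆ i : {i // i ≠ j}, F ∙ v i) (by
    rw [finrank_iSup_of_iSupIndep (D := fun i : {i // i ≠ j} => F ∙ v i) (((OD.indep hD).mono fun i =>
      (Submodule.span_singleton_le_iff_mem _ _).2 (hv i)).comp Subtype.val_injective),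
      Finset.sum_congr rfl fun (i : {i // i ≠ j}) _ => finrank_span_singleton (K := F) (v := v i)
        fun h0 => by simpa [h0] using hQv i]
    simp; omega)
  have hu1 : u ∈ ⨆ i, F ∙ v i := (iSup_le fun i => le_iSup (fun i => F ∙ v i) i.1 :
    (⨆ i : {i // i ≠ j}, F ∙ v i) ≤ _) hu
  have hu2 : u ∈ ⨆ i, ⨆ (_ : i ≠ j), D i := (iSup_le fun i => le_iSup₂_of_le i.1 i.2
    ((Submodule.span_singleton_le_iff_mem _ _).2 (hv i)) : (⨆ i : {i // i ≠ j}, F ∙ v i) ≤ _) hu
  have ho : ∀ y ∈ D j, polar Q y u = 0 := fun y hy => orth_iSup_right (W := D j)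
    (fun i : {i // i ≠ j} => (OD.orth hD j i (Ne.symm i.2)).mono le_rfl
      ((Submodule.span_singleton_le_iff_mem _ _).2 (hv i))) y hy u hu
  obtain ⟨g, hg, hg'⟩ := exists_eich hQ hn hQu (ho _ (hv j))
  refine ⟨g, hg, mem_subspaceStabilizer_of_forall fun y hy => ?_, fun hgD => ?_⟩
  · rw [hg']
    exact Submodule.sub_mem _ (Submodule.add_mem _ hy (Submodule.smul_mem _ _
      (Submodule.mem_iSup_of_mem j (Submodule.mem_span_singleton_self _))))
      (Submodule.smul_mem _ _ hu1)
  · obtain ⟨l, hl⟩ := exists_of_mem_decompositionStabilizer hgD j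
    have h1 := hl x hxD
    rw [hg', ho x hxD, hxv] at h1
    exact add_notMem_of_indep (OD.indep hD) hxD (by rintro rfl; simp at hxv)
      (Submodule.neg_mem _ hu2) (neg_ne_zero.2 hu0) l (by simpa [sub_eq_add_neg] using h1)

omit [Finite F] in
/-- `O₄⁺(2) ≀ S_t` preserves a decomposition into planes of minus type. -/
theorem exists_planes_plus_four_two [Fintype F] (hq : Fintype.card F = 2) {t : ℕ}
    {D : Fin t → Submodule F (ι → F)} (hD : Geo.IsOrthogonalMDecomposition Q 4 D)
    (hp : ∀ i, Plus Q (D i)) {N : ℕ} (hN : N * 2 = Fintype.card ι) :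
    ∃ D' : Fin N → Submodule F (ι → F), (∀ j, ¬ Plus Q (D' j)) ∧
      Geo.IsOrthogonalMDecomposition Q 2 D' ∧
      Geo.decompositionStabilizer D ⊓ isometryGroup F Q ≤ Geo.decompositionStabilizer D' ∧
      (True → 7 ≤ Fintype.card ι → ∃ g ∈ Geo.omegaGL Q, g ∈ Geo.decompositionStabilizer D' ∧
        g ∉ Geo.decompositionStabilizer D) := by
  have h2 : (2 : F) = 0 := by exact_mod_cast cast_eq_zero_of_card hq
  choose A hA1 hA2 hA3 hA4 hA5 using fun i =>
    exists_planes_of_plus_four hQ hq (OD.nd hD i) (OD.dim hD i) (hp i)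
  have hle : ∀ i a, A i a ≤ D i := fun i a => by
    rw [← hA5 i]
    fin_cases a
    · exact le_sup_left
    · exact le_sup_right
  let A' : Fin t × Fin 2 → Submodule F (ι → F) := fun p => A p.1 p.2
  have ho : ∀ p q, p ≠ q → Orth Q (A' p) (A' q) := by
    rintro ⟨i, a⟩ ⟨j, a'⟩ h
    by_cases hij : i = j
    · subst hij
      fin_cases a <;> fin_cases a'
      · exact absurd rfl h
      · exact hA4 i
      · exact (hA4 i).symm
      · exact absurd rfl h
    · exact (OD.orth hD i j hij).mono (hle i a) (hle j a')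
  have hmul := OD.mul_eq hD
  have ht := (OD.md hD).two_le
  let e : Fin N ≃ Fin t × Fin 2 := Fintype.equivOfCardEq (by simp; omega)
  have hD' := isOrthogonalMDecomposition_of (D := A') (fun p => hA1 p.1 p.2) ho
    (fun p q => isom_of_even hQ (hA1 _ _) (hA1 _ _) (by simp [A', hA2]) (by simp [A', hA2])
      (iff_of_false (hA3 _ _) (hA3 _ _))) (fun p => hA2 p.1 p.2) two_pos e (by omega) hN
  choose a b ha hb hab hsp using fun p : Fin t × Fin 2 =>
    exists_basis_minus_two hq (hA2 p.1 p.2) (hA3 p.1 p.2)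
  have haA : ∀ p, a p ∈ A' p := fun p => by
    change _ ∈ A p.1 p.2; rw [hsp]; exact left_mem_pair _ _
  have hbA : ∀ p, b p ∈ A' p := fun p => by
    change _ ∈ A p.1 p.2; rw [hsp]; exact right_mem_pair _ _
  have hsp' : ∀ p, A' p = (F ∙ a p) ⊔ (F ∙ b p) := hsp
  refine ⟨_, fun j => hA3 _ _, hD', ?_, fun _ hn => ?_⟩
  · rintro g ⟨hg, hg'⟩
    refine mem_decompositionStabilizer_comp (OD.md hD') fun p => ?_
    obtain ⟨j, hj⟩ := exists_of_mem_decompositionStabilizer hg p.1
    have key : ∀ v ∈ D j, Q v = 1 → ∃ c, v ∈ A' (j, c) := fun v hv hQv => by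
      rw [← hA5 j] at hv
      obtain ⟨x, hx, y, hy, rfl⟩ := Submodule.mem_sup.1 hv
      by_cases x0 : x = 0
      · exact ⟨1, by simpa [x0] using hy⟩
      by_cases y0 : y = 0
      · exact ⟨0, by simpa [y0] using hx⟩
      rw [Q_add, hA4 j x hx y hy,
        eq_one_of_card_two hq fun h => x0 (aniso_of_not_plus (hA2 j 0) (hA3 j 0) hx h),
        eq_one_of_card_two hq fun h => y0 (aniso_of_not_plus (hA2 j 1) (hA3 j 1) hy h)] at hQv
      simp at hQv
    obtain ⟨c, hc⟩ := key _ (hj _ (hle _ _ (haA p))) (by rw [mem_isometryGroup.1 hg', ha])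
    obtain ⟨c', hc'⟩ := key _ (hj _ (hle _ _ (hbA p))) (by rw [mem_isometryGroup.1 hg', hb])
    have hcc : (j, c') = (j, c) := by
      by_contra h
      have := ho _ _ (Ne.symm h) _ hc _ hc'
      rw [polar_mulVec hg', hab] at this
      exact one_ne_zero this
    exact ⟨(j, c), by rw [hsp' p]; exact mulVec_mem_pair hc (hcc ▸ hc')⟩
  · let i0 : Fin t := ⟨0, by omega⟩
    let i1 : Fin t := ⟨1, by omega⟩
    have hi : i0 ≠ i1 := by simp [i0, i1, Fin.ext_iff]
    have hpq : ((i0, 0) : Fin t × Fin 2) ≠ (i1, 0) := by simp [hi]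
    generalize hp' : ((i0, 0) : Fin t × Fin 2) = p at hpq
    generalize hq' : ((i1, 0) : Fin t × Fin 2) = q at hpq
    have q0 : ∀ x : ι → F, polar Q x x = 0 := fun x => by rw [polar_self', h2, zero_mul]
    have o1 := ho p q hpq
    have o2 := ho q p hpq.symm
    have hba : ∀ p, polar Q (b p) (a p) = 1 := fun p => by rw [polar_comm, hab]
    have hneg : ∀ x : ι → F, -x = x := fun x => by
      rw [neg_eq_iff_add_eq_zero, ← two_smul F, h2, zero_smul]
    have hself : ∀ x : ι → F, x + x = 0 := fun x => by rw [← two_smul F, h2, zero_smul]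
    obtain ⟨g, hg, hg'⟩ := exists_eich hQ hn (u := a p + a q) (w := b p + b q)
      (by rw [Q_add, ha, ha, o1 _ (haA p) _ (haA q)]; linear_combination h2)
      (by simp only [polar_add_left, polar_add_right, hba, o1 _ (hbA p) _ (haA q),
            o2 _ (hbA q) _ (haA p)]; linear_combination h2)
    have hw : Q (b p + b q) = 0 := by
      rw [Q_add, hb, hb, o1 _ (hbA p) _ (hbA q)]; linear_combination h2
    simp only [hw, zero_mul, add_zero, polar_add_right] at hg'
    have g1 : (g : Matrix ι ι F) *ᵥ a p = a q := by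
      simp [hg', q0, hab, o1 _ (haA p) _ (haA q), o1 _ (haA p) _ (hbA q), hneg, -polar_self]
    have g2 : (g : Matrix ι ι F) *ᵥ b p = b q := by
      simp [hg', q0, hba, o1 _ (hbA p) _ (haA q), o1 _ (hbA p) _ (hbA q), ← add_assoc, hself,
        -polar_self]
    have g3 : (g : Matrix ι ι F) *ᵥ a q = a p := by
      simp [hg', q0, hab, o2 _ (haA q) _ (haA p), o2 _ (haA q) _ (hbA p), hneg, -polar_self]
    have g4 : (g : Matrix ι ι F) *ᵥ b q = b p := by
      simp [hg', q0, hba, o2 _ (hbA q) _ (haA p), o2 _ (hbA q) _ (hbA p), add_left_comm, hself,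
        -polar_self]
    have g5 : ∀ r, r ≠ p → r ≠ q → ∀ x ∈ A' r, (g : Matrix ι ι F) *ᵥ x = x := fun r h h' x hx => by
      simp [hg', ho r p h x hx _ (haA p), ho r p h x hx _ (hbA p), ho r q h' x hx _ (haA q),
        ho r q h' x hx _ (hbA q)]
    have a0 : ∀ r, a r ≠ 0 := fun r h => by simpa [h] using ha r
    refine ⟨g, hg, mem_decompositionStabilizer_comp (OD.md hD') fun r => ?_,
      notMem_decompositionStabilizer (OD.indep hD) (i := i0) (hle i0 0 (hp' ▸ haA p : _ ∈ A' (i0, 0)))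
        (hle i0 1 (haA (i0, 1))) (a0 p) (a0 _) ?_ ?_ hi.symm⟩
    · by_cases h : r = p
      · exact ⟨q, by rw [h, hsp' p]; exact mulVec_mem_pair (g1 ▸ haA q) (g2 ▸ hbA q)⟩
      by_cases h' : r = q
      · exact ⟨p, by rw [h', hsp' q]; exact mulVec_mem_pair (g3 ▸ haA p) (g4 ▸ hbA p)⟩
      · exact ⟨r, fun x hx => by rwa [g5 r h h' x hx]⟩
    · rw [g1]; exact hle i1 0 (hq' ▸ haA q : _ ∈ A' (i1, 0))
    · rw [g5 (i0, 1) (by simp [← hp']) (by simp [← hq']) _ (haA _)]
      exact hle i0 1 (haA (i0, 1))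

omit [Finite F] in
/-- `O₂⁺(4) ≀ S_t` lies in a subfield group. -/
theorem exists_subfield_plus_four [Fintype F] (hq : Fintype.card F = 4) {t : ℕ}
    {D : Fin t → Submodule F (ι → F)} (hD : Geo.IsOrthogonalMDecomposition Q 2 D)
    (hp : ∀ i, Plus Q (D i)) (F₀ : Subfield F) :
    ∃ P : GL ι F, Geo.IsQuadFormRationalStructure Q F₀ P ∧
      Geo.decompositionStabilizer D ⊓ isometryGroup F Q ≤ Geo.subfieldSubgroup F₀ P ∧
      (7 ≤ Fintype.card ι → ∃ g ∈ Geo.omegaGL Q, g ∈ Geo.subfieldSubgroup F₀ P ∧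
        g ∉ Geo.decompositionStabilizer D) := by
  have h2 : (2 : F) = 0 := two_eq_zero_of_not_odd_card (by rw [hq]; decide)
  obtain ⟨ω, hω, hF⟩ := exists_omega_of_card_four hq
  choose e f h hef using fun i => (hp i).exists_hyp_plane (OD.nd hD i) (OD.dim hD i)
  let b : Fin t × Fin 2 → ι → F := fun p =>
    ![(1 : F) • e p.1 + (1 : F) • f p.1, ω • e p.1 + (ω + 1) • f p.1] p.2
  have b0 : ∀ i, b (i, 0) = (1 : F) • e i + (1 : F) • f i := fun _ => rfl
  have b1 : ∀ i, b (i, 1) = ω • e i + (ω + 1) • f i := fun _ => rfl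
  have hbD : ∀ i a, b (i, a) ∈ D i := fun i a => by
    rw [hef]; fin_cases a <;> exact mem_span_pair'.2 ⟨_, _, rfl⟩
  have hQb : ∀ p, Q (b p) = 1 := by
    rintro ⟨i, a⟩
    fin_cases a
    · exact ((h i).val _ _).trans (mul_one _)
    · exact ((h i).val _ _).trans (by linear_combination hω - h2)
  have q0 : ∀ x : ι → F, polar Q x x = 0 := fun x => by rw [polar_self', h2, zero_mul]
  have hb01 : ∀ i, polar Q (b (i, 0)) (b (i, 1)) = 1 := fun i => by
    simp only [b0, b1, polar_add_left, polar_add_right, polar_smul_left, polar_smul_right, q0,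
      (h i).pol, (h i).pol', smul_eq_mul]
    linear_combination ω * h2
  have hmul := OD.mul_eq hD
  obtain ⟨B, hB⟩ := exists_basis_of_span (b := b) (by
    rw [← (OD.md hD).iSup_eq_top]
    refine iSup_le fun i => ?_
    rw [eq_pair_of_finrank (OD.dim hD i) (hbD i 0) (hbD i 1) (fun h0 => by
      simpa [h0] using hQb (i, 0)) (fun hm => by
        obtain ⟨c, hc⟩ := Submodule.mem_span_singleton.1 hm
        simpa [← hc, q0, -polar_self] using hb01 i)]
    exact pair_le (Submodule.subset_span ⟨_, rfl⟩) (Submodule.subset_span ⟨_, rfl⟩))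
    (by simpa using hmul)
  obtain ⟨P, h3, h4⟩ := exists_subfield_frame B F₀
  rw [hB] at h3 h4
  obtain ⟨h5, h6⟩ := val_mem_of_span (Q := Q) (F₀ := F₀) (S := Set.range b) (ζ := 1) (by
      rintro _ ⟨p, rfl⟩; simp [hQb]) (by
      rintro _ ⟨⟨i, a⟩, rfl⟩ _ ⟨⟨j, a'⟩, rfl⟩
      rw [one_mul]
      by_cases hij : i = j
      · subst hij
        fin_cases a <;> fin_cases a'
        · exact (q0 _).symm ▸ zero_mem _
        · exact (hb01 i).symm ▸ one_mem _
        · exact ((polar_comm Q _ _).trans (hb01 i)).symm ▸ one_mem _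
        · exact (q0 _).symm ▸ zero_mem _
      · rw [OD.orth hD i j hij _ (hbD i a) _ (hbD j a')]; exact zero_mem _)
  simp only [one_mul] at h5 h6
  have hbs : ∀ p, b p ∈ Submodule.span F₀ (Set.range b) := fun p => Submodule.subset_span ⟨p, rfl⟩
  refine ⟨P, fun u hu => h6 _ (h4 u hu), ?_, fun hn => ?_⟩
  · rintro g ⟨hg, hg'⟩
    refine h3 g ?_
    rintro ⟨i, a⟩
    obtain ⟨j, hj⟩ := exists_of_mem_decompositionStabilizer hg i
    obtain ⟨x, y, hxy⟩ := mem_span_pair'.1 (hef j ▸ hj _ (hbD i a))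
    have h7 : x * y = 1 := by rw [← (h j).val, ← hxy, mem_isometryGroup.1 hg', hQb]
    have hω0 : ω ≠ 0 := by rintro rfl; simp at hω
    have hω1 : ω + 1 ≠ 0 := fun h0 => hω0 (mul_self_eq_zero.1 (by linear_combination hω - h0))
    rw [hxy]
    rcases hF x (left_ne_zero_of_mul_eq_one h7) with rfl | rfl | rfl
    · rw [one_mul] at h7
      rw [h7]; exact hbs (j, 0)
    · rw [show y = x + 1 from mul_left_cancel₀ hω0 (by linear_combination h7 - hω + h2)]
      exact hbs (j, 1)
    · rw [show y = ω from mul_left_cancel₀ hω1 (by linear_combination h7 - hω + h2),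
        show (ω + 1) • e j + ω • f j = b (j, 0) + b (j, 1) by
          rw [b0, b1]; linear_combination (norm := module) (-h2) • f j]
      exact Submodule.add_mem _ (hbs _) (hbs _)
  · let i0 : Fin t := ⟨0, by omega⟩
    let i1 : Fin t := ⟨1, by omega⟩
    let i2 : Fin t := ⟨2, by omega⟩
    have h01 : i0 ≠ i1 := by simp [i0, i1, Fin.ext_iff]
    have h20 : i2 ≠ i0 := by simp [i0, i2, Fin.ext_iff]
    have h21 : i2 ≠ i1 := by simp [i1, i2, Fin.ext_iff]
    have ho : ∀ x ∈ D i2, polar Q x (b (i0, 0) + b (i1, 0)) = 0 := fun x hx => by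
      rw [polar_add_right, OD.orth hD _ _ h20 x hx _ (hbD _ _), OD.orth hD _ _ h21 x hx _ (hbD _ _),
        add_zero]
    obtain ⟨g, hg, hg'⟩ := exists_eich hQ hn (u := b (i0, 0) + b (i1, 0)) (w := b (i2, 0))
      (by rw [Q_add, hQb, hQb, OD.orth hD _ _ h01 _ (hbD _ _) _ (hbD _ _)]; linear_combination h2)
      (ho _ (hbD _ _))
    have hu := Submodule.add_mem _ (hbs (i0, 0)) (hbs (i1, 0))
    refine ⟨g, hg, h3 g fun p => ?_, fun hgD => ?_⟩
    · rw [hg', hQb, one_mul]
      exact Submodule.sub_mem _ (Submodule.add_mem _ (hbs p) (Submodule.smul_mem _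
        (⟨_, h5 _ (hbs p) _ hu⟩ : F₀) (hbs _))) (Submodule.smul_mem _
        (⟨_, add_mem (h5 _ (hbs p) _ (hbs _)) (h5 _ (hbs p) _ hu)⟩ : F₀) hu)
    · obtain ⟨l, hl⟩ := exists_of_mem_decompositionStabilizer hgD i2
      have h7 := hl _ (hbD i2 1)
      rw [hg', ho _ (hbD _ _), polar_comm, hb01] at h7
      refine add_notMem_of_indep (OD.indep hD) (hbD i2 1) (fun h0 => by
        simpa [h0] using hQb (i2, 1)) (u := -(b (i0, 0) + b (i1, 0))) (Submodule.neg_mem _
          (Submodule.add_mem _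
            (Submodule.mem_iSup_of_mem i0 (Submodule.mem_iSup_of_mem h20.symm (hbD _ _)))
            (Submodule.mem_iSup_of_mem i1 (Submodule.mem_iSup_of_mem h21.symm (hbD _ _)))))
        (neg_ne_zero.2 fun h0 => ?_) l (by simpa [sub_eq_add_neg] using h7)
      have h8 := congrArg (polar Q (b (i0, 1))) h0
      rw [polar_add_right, polar_comm, hb01, OD.orth hD _ _ h01 _ (hbD _ _) _ (hbD _ _)] at h8
      simp at h8

omit [Finite F] hQ in
theorem bot_ne_top_of_card_four [Fintype F] (hq : Fintype.card F = 4) : (⊥ : Subfield F) ≠ ⊤ := by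
  have h2 : (2 : F) = 0 := two_eq_zero_of_not_odd_card (by rw [hq]; decide)
  obtain ⟨ω, hω, -⟩ := exists_omega_of_card_four hq
  intro h
  let S : Subfield F :=
    { carrier := {x | x * x = x}
      mul_mem' := fun {a b} ha hb => by
        change a * b * (a * b) = a * b
        rw [mul_mul_mul_comm, ha, hb]
      one_mem' := mul_one 1
      add_mem' := fun {a b} (ha : a * a = a) (hb : b * b = b) => by
        change (a + b) * (a + b) = a + b
        linear_combination ha + hb + a * b * h2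
      zero_mem' := mul_zero 0
      neg_mem' := fun {a} (ha : a * a = a) => by
        change -a * -a = -a
        linear_combination ha + a * h2
      inv_mem' := fun a (ha : a * a = a) => by
        change a⁻¹ * a⁻¹ = a⁻¹
        rw [← mul_inv, ha] }
  have : ω * ω = ω := (bot_le : ⊥ ≤ S) (h ▸ Subfield.mem_top ω)
  exact one_ne_zero (α := F) (by linear_combination hω - this - ω * h2)

omit [Finite F] in
theorem plus_four_between [Fintype F] (hn : 7 ≤ Fintype.card ι) (hq : Fintype.card F = 4)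
    {t : ℕ} {D : Fin t → Submodule F (ι → F)} (hD : Geo.IsOrthogonalMDecomposition Q 2 D)
    (hp : ∀ i, Plus Q (D i)) :
    ∃ K, Geo.decompositionStabilizer D ⊓ Geo.omegaGL Q < K ∧ K < Geo.omegaGL Q := by
  obtain ⟨P, -, h1, h2⟩ := exists_subfield_plus_four hQ hq hD hp ⊥
  exact exists_between_of ((inf_le_inf_left _ omegaGL_le_isometryGroup).trans h1) (h2 hn)
    ((hQ.hasE hn).not_le_subfieldSubgroup (by omega) (bot_ne_top_of_card_four hq) P)

omit [Finite F] in
theorem plane_three_between [Fintype F] (hn : 7 ≤ Fintype.card ι) (hq : Fintype.card F = 3)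
    {t : ℕ} {D : Fin t → Submodule F (ι → F)} (hD : Geo.IsOrthogonalMDecomposition Q 2 D) :
    ∃ K, Geo.decompositionStabilizer D ⊓ Geo.omegaGL Q < K ∧ K < Geo.omegaGL Q := by
  by_cases hp : ∀ i, Plus Q (D i)
  · exact plus_le_three_between hQ hn hq.le hD hp
  · exact between_of_frame hQ hn le_rfl (exists_frame_minus_three hQ hq hD
      (fun i hi => hp fun j => (OD.isom hD i j).plus hQ hi) rfl)

end Cfsg.Agent.H8
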