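import Cfsg.Agent.H8.OTensor
import Cfsg.Agent.Asch.Final

/-!
Maximal subgroups of `Ω`: the generic steps, and the odd-dimensional case.
-/

set_option autoImplicit false
set_option linter.unusedSectionVars false

namespace Cfsg.Agent.H8

open Module H7 H7.Polar QuadraticMap Matrix
open scoped MatrixGroups

theorem eq_inf_of_isMaximalIn {G : Type*} [Group G] {K H X : Subgroup G} (hH : Geo.IsMaximalIn K H)
    (h : H ≤ X) (hX : ¬ K ≤ X) : H = X ⊓ K :=
  ((hH.2 _ (le_inf h hH.1.le) inf_le_right).resolve_right fun h' => hX (h' ▸ inf_le_left)).symm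

theorem false_of_between {G : Type*} [Group G] {K H X : Subgroup G} (hH : Geo.IsMaximalIn K H)
    (h : H ≤ X) (hb : ∃ M, X ⊓ K < M ∧ M < K) : False := by
  obtain ⟨M, h1, h2⟩ := hb
  have h3 := (le_inf h hH.1.le).trans_lt h1
  rcases hH.2 M h3.le h2.le with h4 | h4
  exacts [h3.ne' h4, h2.ne h4]

variable {F : Type*} [Field F] [Fintype F] {ι : Type} [Fintype ι] [DecidableEq ι]

theorem subfield_ne_top' {F₀ : Subfield F} {r : ℕ} (hr : r.Prime)
    (h : Fintype.card F = Nat.card F₀ ^ r) : F₀ ≠ ⊤ := by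
  rintro rfl
  have h1 : Nat.card (⊤ : Subfield F) = Fintype.card F := by
    rw [← Nat.card_eq_fintype_card]; exact Nat.card_congr Subfield.topEquiv.toEquiv
  rw [h1] at h
  exact hr.one_lt.ne' ((Nat.pow_eq_self_iff (Fintype.one_lt_card (α := F))).1 h.symm)

theorem five_le_card (h : Odd (Fintype.card F)) (h3 : Fintype.card F ≠ 3) :
    5 ≤ Fintype.card F := by
  have := Fintype.one_lt_card (α := F)
  obtain ⟨k, hk⟩ := h
  omega

variable {Q : QuadraticForm F (ι → F)} (hQ : ND Q) {H : Subgroup (GL ι F)}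
include hQ

theorem le_stab_perp (hH : H ≤ isometryGroup F Q) {W : Submodule F (ι → F)}
    (h : H ≤ Geo.subspaceStabilizer W) : H ≤ Geo.subspaceStabilizer ((qP hQ).perp W) :=
  fun g hg => mem_subspaceStabilizer_of_forall fun v hv u hu => by
    have := hv _ (mulVec_mem_of_mem_subspaceStabilizer (h (H.inv_mem hg)) hu)
    rw [qP_B, ← polar_mulVec (hH hg)] at this
    simpa using this

theorem odd_card_of_ndOn {W : Submodule F (ι → F)} (h : NDOn Q W) (ho : Odd (finrank F W)) :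
    Odd (Fintype.card F) := Asch.odd_card_iff.2 (h.two_ne_zero hQ ho)

theorem TS.ne_top [Nonempty ι] {W : Submodule F (ι → F)} (h : TS Q W) : W ≠ ⊤ := by
  rintro rfl
  have := h.two_mul_le hQ hQ.ndOn_top le_rfl
  have : 0 < finrank F (⊤ : Submodule F (ι → F)) := by simpa using Fintype.card_pos
  omega

variable (hn : 7 ≤ Fintype.card ι) (hH : Geo.IsMaximalIn (Geo.omegaGL Q) H)
include hn hH

theorem mx_sub {W : Submodule F (ι → F)} (h0 : W ≠ ⊥) (h1 : W ≠ ⊤)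
    (h : H ≤ Geo.subspaceStabilizer W) : H = Geo.subspaceStabilizer W ⊓ Geo.omegaGL Q :=
  eq_inf_of_isMaximalIn hH h ((hQ.hasE hn).not_le_subspaceStabilizer h0 h1)

theorem mx_sub' {W : Submodule F (ι → F)} (h0 : 0 < finrank F W)
    (h1 : finrank F W < Fintype.card ι)
    (h : H ≤ Geo.subspaceStabilizer W) : H = Geo.subspaceStabilizer W ⊓ Geo.omegaGL Q :=
  mx_sub hQ hn hH (by rintro rfl; simp at h0) (by rintro rfl; simp at h1) h

theorem mx_ts {W : Submodule F (ι → F)} (h0 : W ≠ ⊥) (h1 : TS Q W)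
    (h : H ≤ Geo.subspaceStabilizer W) : H = Geo.subspaceStabilizer W ⊓ Geo.omegaGL Q :=
  haveI : Nonempty ι := Fintype.card_pos_iff.1 (by omega)
  mx_sub hQ hn hH h0 (h1.ne_top hQ) h

theorem mx_point {v : ι → F} (h0 : Q v ≠ 0) (h : H ≤ Geo.subspaceStabilizer (F ∙ v)) :
    H = Geo.subspaceStabilizer (F ∙ v) ⊓ Geo.omegaGL Q := by
  have := finrank_span_singleton (K := F) (v := v) (by rintro rfl; simp at h0)
  exact mx_sub' hQ hn hH (by omega) (by omega) h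

theorem mx_dec {t m : ℕ} {D : Fin t → Submodule F (ι → F)} (hD : Geo.IsMDecomposition m D)
    (h : H ≤ Geo.decompositionStabilizer D) :
    H = Geo.decompositionStabilizer D ⊓ Geo.omegaGL Q :=
  eq_inf_of_isMaximalIn hH h ((hQ.hasE hn).not_le_decompositionStabilizer hD)

theorem mx_field {r : ℕ} (hr : 2 ≤ r) {K : Subalgebra F (Matrix ι ι F)}
    (hK : Geo.IsFieldSubalgebra r K) (h : H ≤ Geo.subalgebraNormalizer K) :
    H = Geo.subalgebraNormalizer K ⊓ Geo.omegaGL Q :=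
  eq_inf_of_isMaximalIn hH h ((hQ.hasE hn).not_le_subalgebraNormalizer hr hK)

theorem mx_tensor {a b : ℕ} (ha : 2 ≤ a) (hb : 2 ≤ b) {e : ι ≃ Fin a × Fin b} {P : GL ι F}
    (h : H ≤ Geo.tensorProductSubgroup a b e P) :
    H = Geo.tensorProductSubgroup a b e P ⊓ Geo.omegaGL Q :=
  eq_inf_of_isMaximalIn hH h ((hQ.hasE hn).not_le_tensorProductSubgroup ha hb e P)

theorem mx_subfield {F₀ : Subfield F} {r : ℕ} (hr : r.Prime)
    (hc : Fintype.card F = Nat.card F₀ ^ r) {P : GL ι F} (h : H ≤ Geo.subfieldSubgroup F₀ P) :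
    H = Geo.subfieldSubgroup F₀ P ⊓ Geo.omegaGL Q :=
  eq_inf_of_isMaximalIn hH h
    ((hQ.hasE hn).not_le_subfieldSubgroup (by omega) (subfield_ne_top' hr hc) P)

theorem mx_wreath {k t : ℕ} (hk : 2 ≤ k) (ht : 2 ≤ t) {e : ι ≃ (Fin t → Fin k)} {P : GL ι F}
    (h : H ≤ Geo.tensorWreathSubgroup k t e P) :
    H = Geo.tensorWreathSubgroup k t e P ⊓ Geo.omegaGL Q :=
  eq_inf_of_isMaximalIn hH h ((hQ.hasE hn).not_le_tensorWreathSubgroup hk ht e P)

theorem four_le_of_plus_plane {W : Submodule F (ι → F)} (hd : finrank F W = 2) (hW : NDOn Q W)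
    (hp : Plus Q W) (h : H ≤ Geo.subspaceStabilizer W) : 4 ≤ Fintype.card F := by
  by_contra h4
  exact false_of_between hH h (plus_plane_between hQ hn (by omega) hd hW hp)

/-- non-degenerate subspaces in odd dimension -/
theorem mx_nd_odd (ho : Odd (Fintype.card ι)) {W : Submodule F (ι → F)} (h0 : W ≠ ⊥) (h1 : W ≠ ⊤)
    (hW : NDOn Q W) (h : H ≤ Geo.subspaceStabilizer W) :
    ∃ W : Submodule F (ι → F), W ≠ ⊥ ∧ Even (finrank F W) ∧ Geo.IsNondegenerateOn (polar Q) W ∧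
      ¬ (Fintype.card F = 3 ∧ finrank F W = 2 ∧ Geo.IsPlusTypeOn Q W) ∧
      H = Geo.subspaceStabilizer W ⊓ Geo.omegaGL Q := by
  wlog he : Even (finrank F W) generalizing W
  · have h2 := hQ.ndOn_top.finrank_inf_perp hQ (U := W) le_top
    rw [top_inf_eq, finrank_top, finrank_fintype_fun_eq_card] at h2
    refine this (W := (qP hQ).perp W) (fun h3 => h1 ?_) (fun h3 => h0 ?_) (hW.perp hQ)
      (le_stab_perp hQ (hH.1.le.trans omegaGL_le_isometryGroup) h) ?_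
    · rw [← perp_perp (P := qP hQ) W, h3, perp_bot]
    · rw [← (ndOn_iff hQ).1 hW, h3, inf_top_eq]
    · rw [← h2, Nat.odd_add] at ho
      rw [← Nat.not_odd_iff_even, ho]
      exact he
  refine ⟨W, h0, he, ndOn_iff_geo.1 hW, fun h2 => ?_, mx_sub hQ hn hH h0 h1 h⟩
  have := four_le_of_plus_plane hQ hn hH h2.2.1 hW h2.2.2 h
  omega

omit hQ hn hH

/-- The classes of maximal subgroups of `Ω_{2m+1}(q)` with their arithmetic. -/
theorem oodd_max (hodd : Odd (Fintype.card F)) {m : ℕ} (hm : 3 ≤ m)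
    {H : Subgroup (GL (Unit ⊕ (Fin m ⊕ Fin m)) F)}
    (hH : Geo.IsMaximalIn (Geo.omegaGL (quadFormOdd m F)) H) :
    (∃ W, W ≠ ⊥ ∧ Geo.IsTotallySingularQuad (quadFormOdd m F) W ∧
      H = Geo.subspaceStabilizer W ⊓ Geo.omegaGL (quadFormOdd m F)) ∨
    (∃ W : Submodule F (Unit ⊕ (Fin m ⊕ Fin m) → F), W ≠ ⊥ ∧ Even (finrank F W) ∧
      Geo.IsNondegenerateOn (polar (quadFormOdd m F)) W ∧
      ¬ (Fintype.card F = 3 ∧ finrank F W = 2 ∧ Geo.IsPlusTypeOn (quadFormOdd m F) W) ∧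
      H = Geo.subspaceStabilizer W ⊓ Geo.omegaGL (quadFormOdd m F)) ∨
    (∃ t, t = 2 * m + 1 ∧ (Fintype.card F).Prime ∧ ∃ D : Fin t → _,
      Geo.IsOrthogonalMDecomposition (quadFormOdd m F) 1 D ∧
      H = Geo.decompositionStabilizer D ⊓ Geo.omegaGL (quadFormOdd m F)) ∨
    (∃ t k, t * k = 2 * m + 1 ∧ 2 ≤ t ∧ 2 ≤ k ∧ (k = 3 → 5 ≤ Fintype.card F) ∧ ∃ D : Fin t → _,
      Geo.IsOrthogonalMDecomposition (quadFormOdd m F) k D ∧
      H = Geo.decompositionStabilizer D ⊓ Geo.omegaGL (quadFormOdd m F)) ∨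
    (∃ r, r.Prime ∧ r ∣ 2 * m + 1 ∧ 2 * m + 1 ≠ r ∧ ∃ K, Geo.IsFieldSubalgebra r K ∧
      Geo.IsSelfAdjointFor (polar (quadFormOdd m F)) K ∧
      H = Geo.subalgebraNormalizer K ⊓ Geo.omegaGL (quadFormOdd m F)) ∨
    (∃ a b, 3 ≤ a ∧ a < b ∧ a * b = 2 * m + 1) ∨
    (∃ (F₀ : Subfield F) (r : ℕ) (P : GL _ F), r.Prime ∧ Fintype.card F = Nat.card F₀ ^ r ∧
      Geo.IsQuadFormRationalStructure (quadFormOdd m F) F₀ P ∧
      H = Geo.subfieldSubgroup F₀ P ⊓ Geo.omegaGL (quadFormOdd m F)) ∨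
    (∃ k t, k ^ t = 2 * m + 1 ∧ 3 ≤ k ∧ 2 ≤ t ∧ (k = 3 → 5 ≤ Fintype.card F) ∧
      ∃ (e : (Unit ⊕ (Fin m ⊕ Fin m)) ≃ (Fin t → Fin k)) (P : GL _ F)
      (f₁ : (Fin k → F) → (Fin k → F) → F), Geo.IsSymmetricForm f₁ ∧
      Geo.IsTensorPowerFormStructure id (polar (quadFormOdd m F)) f₁ e P ∧
      H = Geo.tensorWreathSubgroup k t e P ⊓ Geo.omegaGL (quadFormOdd m F)) ∨
    Geo.InOrthogonalResidualClass H := by
  have hQ := nd_toQF (isNondegenerateQuadraticForm_quadFormOdd (F := F) m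
    (two_ne_zero_of_odd_card hodd))
  have hc : Fintype.card (Unit ⊕ (Fin m ⊕ Fin m)) = 2 * m + 1 := by simp; omega
  have hn : 7 ≤ Fintype.card (Unit ⊕ (Fin m ⊕ Fin m)) := by omega
  rcases Asch.oodd_structure m (by omega) hodd H (hH.1.le.trans omegaGL_le_isometryGroup) with
    ⟨M, ⟨W, h1, h2, rfl⟩ | ⟨W, h1, h2, h3, rfl⟩ | ⟨t, k, D, h1, h2, rfl⟩ | ⟨t, D, h1, h2, rfl⟩ |
      ⟨r, K, h1, h2, h3, h4, rfl⟩ | ⟨a, b, e, P, f₁, f₂, h1, h2, -⟩ | ⟨F₀, r, P, h1, h2, h3, rfl⟩ |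
      ⟨k, t, e, P, f₁, h1, h2, h3, h4, h5, rfl⟩, h⟩ | h
  · exact Or.inl ⟨W, h1, h2, mx_ts hQ hn hH h1 h2 (h.trans inf_le_left)⟩
  · exact Or.inr (Or.inl (mx_nd_odd hQ hn hH (by rw [hc]; exact odd_two_mul_add_one m) h1 h2
      (ndOn_iff_geo.2 h3) (h.trans inf_le_left)))
  · iterate 3 right
    refine Or.inl ⟨t, k, hc ▸ IsMDecomposition.mul_eq h2.decomp.decomp, h2.decomp.decomp.two_le,
      h1, fun h3 => five_le_card hodd fun h4 => ?_, D, h2,
      mx_dec hQ hn hH h2.decomp.decomp (h.trans inf_le_left)⟩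
    subst h3
    exact false_of_between hH (h.trans inf_le_left)
      (between_of_frame hQ hn (by norm_num) (exists_frame_three_three hQ h4 h2 rfl))
  · iterate 2 right
    exact Or.inl ⟨t, by simpa [hc] using IsMDecomposition.mul_eq h2.decomp.decomp, h1, D, h2,
      mx_dec hQ hn hH h2.decomp.decomp (h.trans inf_le_left)⟩
  · iterate 4 right
    exact Or.inl ⟨r, h1, hc ▸ Asch.fieldSubalgebra_dvd h3, h2, K, h3, h4,
      mx_field hQ hn hH h1.two_le h3 (h.trans inf_le_left)⟩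
  · iterate 5 right
    exact Or.inl ⟨a, b, h1, h2, by rw [← hc, Asch.card_eq_of_equiv_prod e]⟩
  · iterate 6 right
    exact Or.inl ⟨F₀, r, P, h1, h2, h3, mx_subfield hQ hn hH h1 h2 (h.trans inf_le_left)⟩
  · iterate 7 right
    exact Or.inl ⟨k, t, by rw [← hc, Fintype.card_congr e]; simp, h1, h2,
      fun h6 => five_le_card hodd fun h7 => h3 ⟨h7, h6⟩, e, P, f₁, h4, h5,
      mx_wreath hQ hn hH (by omega) h2 (h.trans inf_le_left)⟩
  · iterate 8 right
    exact h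

omit [Fintype ι] [DecidableEq ι]

theorem pow_cases {k t n : ℕ} (h : k ^ t = n) (hn : n ≤ 12) (hk : 2 ≤ k) (ht : 2 ≤ t) :
    (k = 2 ∧ t = 2 ∧ n = 4) ∨ (k = 2 ∧ t = 3 ∧ n = 8) ∨ (k = 3 ∧ t = 2 ∧ n = 9) := by
  subst h
  have h1 : k ≤ 3 := by
    by_contra h1
    have := (Nat.pow_le_pow_left (show 4 ≤ k by omega) t).trans' (Nat.pow_le_pow_right (by norm_num) ht)
    omega
  have h2 : t ≤ 3 := by
    by_contra h2
    have := (Nat.pow_le_pow_left hk t).trans' (Nat.pow_le_pow_right (by norm_num) (show 4 ≤ t by omega))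
    omega
  interval_cases k <;> interval_cases t <;> simp_all

end Cfsg.Agent.H8
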