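import Cfsg.Agent.H8.OTab
import Cfsg.Agent.H7.SubInst
import Cfsg.Agent.H7.UInst

/-!
The type of a quadratic form carrying a geometric structure.
-/

set_option autoImplicit false
set_option linter.unusedSectionVars false

namespace Cfsg.Agent.H8

open Module H7 H7.Polar QuadraticMap Matrix
open scoped MatrixGroups

section general

variable {F : Type*} [Field F] {V : Type*} [AddCommGroup V] [Module F V] {Q : QuadraticForm F V}

theorem orth_span {S S' : Set V} (h : ∀ x ∈ S, ∀ y ∈ S', polar Q x y = 0) :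
    Orth Q (Submodule.span F S) (Submodule.span F S') := fun x hx y hy =>
  (Submodule.span_le (p := LinearMap.ker (Q.polarBilin.flip y))).2 (fun x hx =>
    (Submodule.span_le (p := LinearMap.ker (Q.polarBilin x))).2 (h x hx) hy) hx

theorem ts_span {S : Set V} (h1 : ∀ x ∈ S, Q x = 0) (h2 : ∀ x ∈ S, ∀ y ∈ S, polar Q x y = 0) :
    TS Q (Submodule.span F S) := fun x hx => by
  induction hx using Submodule.span_induction with
  | mem x hx => exact h1 x hx
  | zero => simp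
  | add x y hx hy h3 h4 => rw [Q_add, h3, h4, orth_span h2 x hx y hy]; simp
  | smul a x _ h => rw [Q_smul, h, mul_zero]

variable [Finite F] [FiniteDimensional F V]

theorem plus_top_of_le (hQ : ND Q) {U : Submodule F V} (hU : TS Q U)
    (hd : finrank F V ≤ 2 * finrank F U) : Plus Q ⊤ :=
  ⟨U, le_top, hU, le_antisymm (hU.two_mul_le hQ hQ.ndOn_top le_top) (by rwa [finrank_top])⟩

omit [Finite F] in
theorem plus_range_iff {V' : Type*} [AddCommGroup V'] [Module F V'] [FiniteDimensional F V']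
    {Q' : QuadraticForm F V'} {φ : V' →ₗ[F] V} (hφ : Function.Injective φ) {c : F} (hc : c ≠ 0)
    (h : ∀ y, Q (φ y) = c * Q' y) : Plus Q (LinearMap.range φ) ↔ Plus Q' ⊤ := by
  have hd : ∀ U : Submodule F V', finrank F (U.map φ) = finrank F U := fun U =>
    (Submodule.equivMapOfInjective φ hφ U).finrank_eq.symm
  rw [LinearMap.range_eq_map]
  constructor
  · rintro ⟨U, h1, h2, h3⟩
    have h4 : (U.comap φ).map φ = U := Submodule.map_comap_eq_self (by rwa [LinearMap.range_eq_map])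
    exact ⟨U.comap φ, le_top, fun y hy => (mul_eq_zero.1 ((h y).symm.trans (h2 _ hy))).resolve_left hc,
      by rw [← hd, h4, h3, hd]⟩
  · rintro ⟨U, h1, h2, h3⟩
    refine ⟨U.map φ, Submodule.map_mono h1, ?_, by rw [hd, hd, h3]⟩
    rintro _ ⟨y, hy, rfl⟩
    rw [h, h2 y hy, mul_zero]

/-- The type of a form of unitary kind. -/
theorem plus_iff_of_unitary (hQ : ND Q) {J : V →ₗ[F] V} {t n : F}
    (han : ∀ a b : F, a * a + t * a * b + n * b * b = 0 → a = 0 ∧ b = 0)
    (h1 : ∀ v, Q (J v) = n * Q v) (h2 : ∀ v, polar Q v (J v) = t * Q v) {W : Submodule F V}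
    (hW : NDOn Q W) (hJ : ∀ v ∈ W, J v ∈ W) :
    Even (finrank F W) ∧ (Plus Q W ↔ 4 ∣ finrank F W) := by
  have h3 : ∀ x y, polar Q (J x) y = t * polar Q x y - polar Q x (J y) := fun x y => by
    have := h2 (x + y)
    simp only [map_add, polar_add_left, polar_add_right, h2, Q_add, polar_comm Q y (J x)] at this
    linear_combination this
  have h4 : ∀ x y, polar Q (J x) (J y) = n * polar Q x y := fun x y => by
    have := h1 (x + y)
    simp only [map_add, Q_add, h1] at this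
    linear_combination this
  have h5 : ∀ x, J (J x) = t • J x - n • x := fun x => sub_eq_zero.1 (hQ _ fun y => by
    have := h3 y (J x)
    simp only [polar_sub_right, polar_smul_right, smul_eq_mul, h4] at this ⊢
    linear_combination this)
  induction hd : finrank F W using Nat.strong_induction_on generalizing W with | _ d ih
  by_cases h0 : W = ⊥
  · subst h0
    rw [finrank_bot] at hd
    subst hd
    exact ⟨by simp, by simp [plus_bot]⟩
  obtain ⟨v, hv, hv0⟩ : ∃ v ∈ W, Q v ≠ 0 := by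
    by_contra! h
    exact h0 (eq_bot_iff.2 fun w hw => hW w hw fun x hx => TS.polar h hx hw)
  have h6 : ∀ x ∈ (F ∙ v) ⊔ F ∙ J v, Q x = 0 → x = 0 := fun x hx h => by
    obtain ⟨a, b, rfl⟩ := mem_span_pair'.1 hx
    rw [Q_comb, h1, h2] at h
    obtain ⟨rfl, rfl⟩ := han a b (mul_right_cancel₀ hv0 (by linear_combination h))
    simp
  have h7 : ∀ x ∈ (F ∙ v) ⊔ F ∙ J v, J x ∈ (F ∙ v) ⊔ F ∙ J v := fun x hx => by
    obtain ⟨a, b, rfl⟩ := mem_span_pair'.1 hx
    exact mem_span_pair'.2 ⟨-(b * n), a + b * t, by rw [map_add, map_smul, map_smul, h5]; module⟩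
  have h8 : finrank F ↥((F ∙ v) ⊔ F ∙ J v) = 2 :=
    finrank_pair (by rintro rfl; simp at hv0) fun h => by
      obtain ⟨a, ha⟩ := Submodule.mem_span_singleton.1 h
      have := h1 v
      have := h2 v
      rw [← ha, polar_smul_right, polar_self', smul_eq_mul] at this
      rw [← ha, Q_smul] at *
      exact one_ne_zero (han (-a) 1 (mul_right_cancel₀ hv0 (by grind))).2
  have h9 : NDOn Q ((F ∙ v) ⊔ F ∙ J v) := fun w hw hw' => h6 w hw <| by
    by_contra h
    have e1 := hw' w hw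
    have e2 := hw' _ (h7 w hw)
    rw [polar_self', mul_eq_zero, or_iff_left h] at e1
    rw [polar_comm, h2, mul_eq_zero, or_iff_left h] at e2
    obtain ⟨a, ha⟩ := Asch.exists_sq_of_two_eq_zero e1 n
    exact one_ne_zero (han a 1 (by rw [e2]; linear_combination ha + n * e1)).2
  have hle := pair_le hv (hJ v hv)
  generalize (F ∙ v) ⊔ F ∙ J v = L at h6 h7 h8 h9 hle
  have h10 := hW.finrank_inf_perp hQ hle
  obtain ⟨k1, k2⟩ := ih _ (by omega) (hW.inf_perp hQ h9 hle) (fun x hx => ⟨hJ x hx.1, fun y hy => by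
    change polar Q _ _ = 0
    rw [h3, show polar Q x y = 0 from hx.2 y hy, show polar Q x (J y) = 0 from hx.2 _ (h7 y hy)]
    simp⟩) rfl
  have h11 := plus_sup_iff hQ h9 (hW.inf_perp hQ h9 hle) ((orth_perp hQ L).mono le_rfl inf_le_right)
    (by rw [h8]; decide) k1
  rw [h9.sup_inf_perp hQ hle, k2, plus_plane_iff h8] at h11
  have h12 : ¬ ∃ e ∈ L, e ≠ 0 ∧ Q e = 0 := fun ⟨e, a, b, c⟩ => b (h6 e a c)
  rw [h11, ← hd, ← h10, h8]
  obtain ⟨k, hk⟩ := k1
  exact ⟨⟨k + 1, by omega⟩, by simp only [h12, false_iff]; omega⟩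

end general

variable {F : Type*} [Field F] [Fintype F] {ι : Type} [Fintype ι] [DecidableEq ι]

theorem exists_root_of_card_sq {F₀ : Subfield F} (hc : Fintype.card F = Nat.card F₀ ^ 2)
    (β γ : F₀) : ∃ x : F, x * x + β * x + γ = 0 := by
  by_contra! h
  obtain ⟨z, hz⟩ := exists_notMem_subfield Nat.prime_two hc
  have h1 : subFrob F₀ (subFrob F₀ z) = z := by
    rw [subFrob_apply, subFrob_apply, ← pow_mul, ← pow_two, ← hc, FiniteField.pow_card]
  obtain ⟨l, μ, h2, h3⟩ := exists_subst_of_aniso (F := F₀)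
    (β := ⟨-(z + subFrob F₀ z), (subFrob_iff _ _).1 (by simp [h1, add_comm])⟩)
    (γ := ⟨z * subFrob F₀ z, (subFrob_iff _ _).1 (by simp [h1, mul_comm])⟩) (β' := β) (γ' := γ)
    (fun x hx => by
      have h2 : ((x : F) - z) * (x - subFrob F₀ z) = 0 := by
        have := congrArg Subtype.val hx
        push_cast at this
        linear_combination this
      rcases mul_eq_zero.1 h2 with h2 | h2 <;> rw [sub_eq_zero] at h2
      · exact hz (h2 ▸ x.2)
      · exact hz (by rw [← h1, ← h2, (subFrob_iff _ _).2 x.2]; exact x.2))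
    fun x hx => h x (by exact_mod_cast congrArg Subtype.val hx)
  refine h (l * z - μ) ?_
  rw [h2, h3]
  push_cast
  have : ((2 : F₀) : F) = 2 := rfl
  rw [this]
  ring

variable {Q : QuadraticForm F (ι → F)} (hQ : ND Q)
include hQ

/-- A form defined over a subfield of index two is of plus type. -/
theorem plus_of_subfield_two (he : Even (Fintype.card ι)) {F₀ : Subfield F}
    (hc : Fintype.card F = Nat.card F₀ ^ 2) {P : GL ι F} {ζ : F} (hζ : ζ ≠ 0)
    (h : Geo.IsQuadFormRationalStructure (fun v => ζ * Q v) F₀ P) : Plus Q ⊤ := by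
  let φ : (ι → F₀) →ₗ[F₀] (ι → F) := ((toLE P).toLinearMap.restrictScalars F₀) ∘ₗ
    (Algebra.linearMap F₀ F).compLeft ι
  let q : (ι → F₀) → F₀ := fun u => ⟨ζ * Q (φ u), h _ fun i => (u i).2⟩
  have h1 : ∀ x y, ((polar q x y : F₀) : F) = ζ * polar Q (φ x) (φ y) := fun x y => by
    simp only [polar, q, map_add]; push_cast; ring
  have hs : ∀ (a : F₀) x, φ (a • x) = (a : F) • φ x := fun a x => by rw [map_smul]; rfl
  let Q₀ : QuadraticForm F₀ (ι → F₀) := QuadraticMap.ofPolar q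
    (fun a x => Subtype.ext (by simp only [q, hs, Q_smul, smul_eq_mul]; push_cast; ring))
    (fun x x' y => Subtype.ext (by push_cast; simp only [h1, map_add, polar_add_left]; ring))
    fun a x y => Subtype.ext (by
      rw [smul_eq_mul]; push_cast; simp only [h1, hs, polar_smul_left, smul_eq_mul]; ring)
  have h2 : ∀ {x}, Q₀ x = 0 → Q (φ x) = 0 := fun hx =>
    (mul_eq_zero.1 (congrArg Subtype.val hx)).resolve_left hζ
  have h3 : ∀ {x y}, polar Q₀ x y = 0 → polar Q (φ x) (φ y) = 0 := fun {x y} hx =>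
    (mul_eq_zero.1 ((h1 x y).symm.trans (congrArg Subtype.val hx))).resolve_left hζ
  have h4 : ∀ U : Submodule F₀ (ι → F₀), finrank F₀ U ≤ finrank F (Submodule.span F (φ '' U)) :=
    fun U => by
      have := ((linearIndependent_algebraMap_comp_iff (S := F)).2
        ((finBasis F₀ U).linearIndependent.map' U.subtype U.ker_subtype)).map'
        (toLE P).toLinearMap (toLE P).ker
      have h4 := finrank_span_eq_card this
      rw [Fintype.card_fin] at h4
      rw [← h4]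
      exact Submodule.finrank_mono (Submodule.span_mono (by
        rintro _ ⟨i, rfl⟩
        exact ⟨_, (finBasis F₀ U i).2, rfl⟩))
  have hQ₀ : ND Q₀ := fun y hy => by
    have h5 : Submodule.span F (φ '' (⊤ : Submodule F₀ (ι → F₀))) = ⊤ :=
      Submodule.eq_top_of_finrank_eq (le_antisymm (Submodule.finrank_le _) (by simpa using h4 ⊤))
    have h6 := hQ (φ y) fun x => orth_span (S' := {φ y}) (by
      rintro _ ⟨x, -, rfl⟩ _ rfl; exact h3 (hy x)) x (h5.ge trivial) _
      (Submodule.mem_span_singleton_self _)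
    ext i
    simpa using congrFun ((toLE P).map_eq_zero_iff.1 h6) i
  obtain ⟨m, hm⟩ := he
  rcases m with _ | m
  · exact plus_top_of_le hQ TS.bot (by simp [hm])
  obtain ⟨U, -, -, hU, hd⟩ := TS.bot.exists_extend hQ₀ hQ₀.ndOn_top bot_le (k := m) (by simp)
    (by simp; omega)
  have h5 := (qP hQ₀).finrank_perp U
  rw [finrank_fintype_fun_eq_card] at h5
  obtain ⟨a, ha, ha'⟩ := exists_notMem_of_finrank_lt (U := U) (W := (qP hQ₀).perp U) (by omega)
  obtain ⟨b, hb, hb'⟩ := exists_notMem_of_finrank_lt (U := U ⊔ F₀ ∙ a) (W := (qP hQ₀).perp U)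
    (by rw [finrank_sup_span ha']; omega)
  have h6 : ∀ a ∈ (qP hQ₀).perp U, ∀ x ∈ Submodule.span F (φ '' U), polar Q (φ a) x = 0 :=
    fun a ha => orth_span (S := {φ a}) (by
      rintro _ rfl _ ⟨x, hx, rfl⟩; exact h3 (ha x hx)) _ (Submodule.mem_span_singleton_self _)
  obtain ⟨z, c, k1, k2, k3, k4⟩ : ∃ z c, Q z = 0 ∧ (∀ x ∈ Submodule.span F (φ '' U),
      polar Q z x = 0) ∧ φ a ∈ (F ∙ z) ⊔ F ∙ c ∧ φ b ∈ (F ∙ z) ⊔ F ∙ c := by
    by_cases h0 : Q₀ a = 0
    · exact ⟨φ a, φ b, h2 h0, h6 a ha, left_mem_pair _ _, right_mem_pair _ _⟩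
    obtain ⟨x, hx⟩ := exists_root_of_card_sq hc (polar Q₀ a b / Q₀ a) (Q₀ b / Q₀ a)
    refine ⟨x • φ a + φ b, φ a, ?_, fun y hy => by simp [h6 a ha y hy, h6 b hb y hy],
      right_mem_pair _ _, mem_span_pair'.2 ⟨1, -x, by module⟩⟩
    have e1 : ((Q₀ a : F₀) : F) = ζ * Q (φ a) := rfl
    have e2 : ((Q₀ b : F₀) : F) = ζ * Q (φ b) := rfl
    have e3 : ((polar Q₀ a b : F₀) : F) = _ := h1 a b
    have e4 : Q (φ a) ≠ 0 := fun h => h0 (Subtype.ext (by rw [e1, h, mul_zero]; rfl))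
    push_cast at hx
    rw [e1, e2, e3] at hx
    rw [Q_add, Q_smul, polar_smul_left, smul_eq_mul]
    field_simp at hx
    linear_combination hx
  refine plus_top_of_le hQ ((ts_span (S := φ '' U) (by rintro _ ⟨x, hx, rfl⟩; exact h2 (hU x hx))
    (by rintro _ ⟨x, hx, rfl⟩ _ ⟨y, hy, rfl⟩; exact h3 (hU.polar hx hy))).sup_span k1 k2) ?_
  have h7 := (h4 ((U ⊔ F₀ ∙ a) ⊔ F₀ ∙ b)).trans (Submodule.finrank_mono
    (t := (Submodule.span F (φ '' U) ⊔ F ∙ z) ⊔ F ∙ c) (Submodule.span_le.2 (by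
      rintro _ ⟨x, hx, rfl⟩
      obtain ⟨y, hy, β, rfl⟩ := mem_sup_span_singleton.1 hx
      obtain ⟨u, hu, α, rfl⟩ := mem_sup_span_singleton.1 hy
      rw [map_add, map_add, hs, hs, sup_assoc, add_assoc]
      exact Submodule.add_mem_sup (Submodule.subset_span ⟨u, hu, rfl⟩)
        (Submodule.add_mem _ (Submodule.smul_mem _ _ k3) (Submodule.smul_mem _ _ k4)))))
  have := finrank_sup_span_le (Submodule.span F (φ '' U) ⊔ F ∙ z) c
  rw [finrank_sup_span hb', finrank_sup_span ha'] at h7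
  rw [finrank_fintype_fun_eq_card]
  omega

theorem odd_of_subfield (he : Even (Fintype.card ι)) (hm : ¬ Plus Q ⊤) {F₀ : Subfield F} {r : ℕ}
    (hr : r.Prime) (hc : Fintype.card F = Nat.card F₀ ^ r) {P : GL ι F} {ζ : F} (hζ : ζ ≠ 0)
    (h : Geo.IsQuadFormRationalStructure (fun v => ζ * Q v) F₀ P) : Odd r :=
  hr.eq_two_or_odd'.resolve_left fun h2 => hm (plus_of_subfield_two hQ he (h2 ▸ hc) hζ h)

/-- generator of a field of unitary kind -/
theorem exists_unitary_data [Nonempty ι] {K : Subalgebra F (Matrix ι ι F)}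
    (hK : Geo.IsFieldSubalgebra 2 K) (hac : Geo.IsAdjointClosedFor (polar Q) K)
    (hnsa : ¬ Geo.IsSelfAdjointFor (polar Q) K) (hsc : ∀ k ∈ K, ∃ c : F, ∀ v, Q (k *ᵥ v) = c * Q v) :
    ∃ J ∈ K, ∃ t n : F, (∀ a b : F, a * a + t * a * b + n * b * b = 0 → a = 0 ∧ b = 0) ∧
      (∀ v, Q (J *ᵥ v) = n * Q v) ∧ ∀ v, polar Q v (J *ᵥ v) = t * Q v := by
  obtain ⟨J, hJ, -, t, n, hJJ, han, hadj⟩ := exists_unitary_gen hK (qP hQ) (fun _ => rfl) hac hnsa
  simp only [qP_B] at hadj
  have hJJ' : ∀ x, J *ᵥ (J *ᵥ x) = t • J *ᵥ x - n • x := fun x => by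
    rw [Matrix.mulVec_mulVec, hJJ, Matrix.sub_mulVec, Matrix.smul_mulVec, Matrix.smul_mulVec,
      Matrix.one_mulVec]
  obtain ⟨x₀, hx₀⟩ := exists_ne (0 : ι → F)
  obtain ⟨y₀, -, hy₀⟩ := hQ.ndOn_top.exists_ne trivial hx₀
  have hmul : ∀ (k : Matrix ι ι F) (c : F), (∀ v, Q (k *ᵥ v) = c * Q v) →
      polar Q (k *ᵥ y₀) (k *ᵥ x₀) = c * polar Q y₀ x₀ := fun k c h => by
    simp only [QuadraticMap.polar, ← Matrix.mulVec_add, h]; ring
  have h1 : ∀ v, Q (J *ᵥ v) = n * Q v := by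
    obtain ⟨c, hc⟩ := hsc J hJ
    have := hmul J c hc
    rw [hadj, hJJ', polar_sub_right, polar_smul_right, polar_smul_right, smul_eq_mul,
      smul_eq_mul] at this
    have : c = n := mul_right_cancel₀ hy₀ (by linear_combination -this)
    rw [← this]; exact hc
  refine ⟨J, hJ, t, n, fun a b h => by simpa using han a (-b) (by linear_combination h), h1, ?_⟩
  obtain ⟨c, hc⟩ := hsc (1 + J) (K.add_mem K.one_mem hJ)
  have := hmul _ c hc
  simp only [Matrix.add_mulVec, Matrix.one_mulVec, polar_add_left, polar_add_right, hadj, hJJ',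
    polar_sub_right, polar_smul_right, smul_eq_mul] at this
  have : c = 1 + t + n := mul_right_cancel₀ hy₀ (by linear_combination -this)
  intro v
  have h3 := hc v
  rw [Matrix.add_mulVec, Matrix.one_mulVec, this, Q_add, h1] at h3
  linear_combination h3

theorem plus_iff_of_unitary_field [Nonempty ι] {K : Subalgebra F (Matrix ι ι F)}
    (hK : Geo.IsFieldSubalgebra 2 K) (hac : Geo.IsAdjointClosedFor (polar Q) K)
    (hnsa : ¬ Geo.IsSelfAdjointFor (polar Q) K) (hsc : ∀ k ∈ K, ∃ c : F, ∀ v, Q (k *ᵥ v) = c * Q v) :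
    Plus Q ⊤ ↔ 4 ∣ Fintype.card ι := by
  obtain ⟨J, -, t, n, h1, h2, h3⟩ := exists_unitary_data hQ hK hac hnsa hsc
  simpa using (plus_iff_of_unitary hQ (J := Matrix.toLin' J) h1 h2 h3 hQ.ndOn_top
    fun _ _ => trivial).2

omit hQ in
theorem plus_of_tensor_two {b : ℕ} {e : ι ≃ Fin 2 × Fin b} {P : GL ι F}
    (h : ∀ x y, Q (Asch.trv e P (pv x y)) = 0) : Plus Q ⊤ :=
  ⟨slice e P 1, le_top, by rintro _ ⟨y, rfl⟩; exact h _ _, by
    rw [finrank_slice one_ne_zero]; simp [Asch.card_eq_of_equiv_prod e]⟩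

theorem plus_of_wreath {e : ι ≃ (Fin 3 → Fin 2)} {P : GL ι F} {f₁ : (Fin 2 → F) → (Fin 2 → F) → F}
    (hf : Geo.IsSymplecticForm f₁) (hT : Geo.IsTensorPowerFormStructure id (polar Q) f₁ e P)
    (h : ∀ x : Fin 3 → Fin 2 → F, Q (Asch.trv e P fun c => ∏ i, x i (c i)) = 0) : Plus Q ⊤ := by
  obtain ⟨c, -, hT⟩ := hT
  let v : {a : Fin 3 → Fin 2 // a 0 = 0} → ι → F := fun a => trvE e P (Pi.single a.1 1)
  have hv : LinearIndependent F v :=
    ((Pi.linearIndependent_single_one _ F).comp _ Subtype.val_injective).map' (trvE e P).toLinearMap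
      (trvE e P).ker
  refine plus_top_of_le hQ (ts_span (S := Set.range v) ?_ ?_) ?_
  · rintro _ ⟨a, rfl⟩
    rw [← h fun i => Pi.single (a.1 i) 1]
    refine congrArg (fun x => Q (Asch.trv e P x)) ?_
    ext c
    simp only [Pi.single_apply, Finset.prod_ite_zero, Finset.prod_const_one]
    simp [funext_iff]
  · rintro _ ⟨a, rfl⟩ _ ⟨b, rfl⟩
    refine (hT _ _).trans ?_
    simp [Pi.single_apply, Fin.prod_univ_three, a.2, b.2, Geo.gramMatrix, hf.alternating]
  · rw [finrank_span_eq_card hv, finrank_fintype_fun_eq_card, Fintype.card_congr e]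
    decide

theorem plus_iff_of_tensor_odd {a b : ℕ} (ha : Odd a) (ha2 : 2 ≤ a) (hb : Even b) (hb0 : 0 < b)
    (h2 : (2 : F) ≠ 0) {f₁ : (Fin a → F) → (Fin a → F) → F} {f₂ : (Fin b → F) → (Fin b → F) → F}
    {e : ι ≃ Fin a × Fin b} {P : GL ι F} (hf₁ : Geo.IsSymmetricForm f₁)
    (hf₂ : Geo.IsSymmetricForm f₂) (hT : Geo.IsTensorFormStructure id (polar Q) f₁ f₂ e P) :
    Plus Q ⊤ ↔ Geo.IsPlusTypeOn (fun v => f₂ v v) ⊤ := by
  obtain ⟨c, hc, h⟩ := tensorForm_pv hT hf₁.bilinear hf₂.bilinear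
  obtain ⟨G₁, rfl⟩ : ∃ G₁, f₁ = Asch.gf (RingEquiv.refl F) G₁ :=
    ⟨_, (Asch.sesq_of_bilinear hf₁.bilinear).eq_gf⟩
  obtain ⟨P₁, δ, hδ, h3⟩ := (Asch.herm_of_symm ((Asch.nondeg_gf_iff _ G₁).1 hf₁.nondegenerate)
    (Matrix.ext fun i j => by
      rw [Matrix.transpose_apply, ← Asch.gf_single (RingEquiv.refl F) G₁ j i, hf₁.symm,
        Asch.gf_single])).exists_pbG_smul_one h2 (by simpa using ha) (Equiv.refl _)
  have h4 := fun i j => (Asch.pbG_apply _ _ _ _ i j).symm.trans (congrFun (congrFun h3 i) j)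
  have h5 : ∀ i, Asch.trv (Equiv.refl _) P₁ (Pi.single i 1) ≠ 0 := fun i h0 => by
    simpa using (trvE _ _).map_eq_zero_iff.1 h0
  have hD := isOrthogonalMDecomposition_slice h2 ha2 hb0 hc h hf₂.nondegenerate hδ h5
    (fun i => by simp [h4]) fun i j hij => by simp [h4, hij]
  let i : Fin a := ⟨0, by omega⟩
  rw [← (OD.md hD).iSup_eq_top, plus_iSup_iff_of_even hQ (OD.nd hD) (OD.orth hD) (OD.isom hD) i
    (by rwa [OD.dim hD]), Fintype.card_fin, or_iff_left (Nat.not_even_iff_odd.2 ha)]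
  refine plus_range_iff (Q' := symQF hf₂.bilinear) (slice_injective (h5 i)) (c := c * δ / 2)
    (by simp [hc, hδ, h2]) fun y => mul_left_cancel₀ h2 ?_
  rw [← polar_self', symQF_apply]
  refine (h _ _ _ _).trans ?_
  rw [h4]
  simp only [Matrix.smul_apply, Matrix.one_apply_eq, smul_eq_mul]
  field_simp

end Cfsg.Agent.H8
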