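import Cfsg.Agent.H8.OTab2
import Cfsg.Agent.H9.SpO4

/-!
Maximal subgroups of `Ω` in even dimension at most twelve.
-/

set_option autoImplicit false
set_option linter.unusedSectionVars false

namespace Cfsg.Agent.H8

open Module H7 H7.Polar QuadraticMap Matrix
open scoped MatrixGroups

variable {F : Type*} [Field F] [Fintype F] {ι : Type} [Fintype ι] [DecidableEq ι]

theorem card_ne_six : Fintype.card F ≠ 6 := fun h => by
  have := FiniteField.isPrimePow_card F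
  rw [h] at this
  exact absurd this (by decide)

theorem isSquare_neg_one_iff_of_odd (h : Odd (Fintype.card F)) :
    IsSquare (-1 : F) ↔ Fintype.card F % 4 = 1 := by
  rw [FiniteField.isSquare_neg_one_iff]
  obtain ⟨k, hk⟩ := h
  omega

theorem iSup_fin_two' {α : Type*} [CompleteLattice α] (D : Fin 2 → α) : ⨆ i, D i = D 0 ⊔ D 1 :=
  le_antisymm (iSup_le fun i => by fin_cases i; exacts [le_sup_left, le_sup_right])
    (sup_le (le_iSup D 0) (le_iSup D 1))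

variable {Q : QuadraticForm F (ι → F)}

theorem od_of_isom {m : ℕ} {D : Fin 2 → Submodule F (ι → F)}
    (hD : Geo.IsNondegenerateMDecomposition (polar Q) m D) (h : Isom Q (D 0) (D 1)) :
    Geo.IsOrthogonalMDecomposition Q m D :=
  ⟨hD, fun i j => by
    fin_cases i <;> fin_cases j
    exacts [Isom.refl _, h, h.symm, Isom.refl _]⟩

/-- The classes of maximal subgroups of `Ω_n^±(q)`, `n ≤ 12`, with their arithmetic. -/
def OEven (Q : QuadraticForm F (ι → F)) (n : ℕ) (H : Subgroup (GL ι F)) : Prop :=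
  (∃ W, W ≠ ⊥ ∧ TS Q W ∧ (Plus Q ⊤ → 2 * (finrank F W + 1) ≠ n) ∧
    H = Geo.subspaceStabilizer W ⊓ Geo.omegaGL Q) ∨
  (Odd (Fintype.card F) ∧ ∃ W : Submodule F (ι → F), W ≠ ⊥ ∧ W ≠ ⊤ ∧ Odd (finrank F W) ∧
    2 * finrank F W ≠ n ∧ Geo.IsNondegenerateOn (polar Q) W ∧
    H = Geo.subspaceStabilizer W ⊓ Geo.omegaGL Q) ∨
  (∃ W : Submodule F (ι → F), finrank F W = 2 ∧ Geo.IsNondegenerateOn (polar Q) W ∧ ¬ Plus Q W ∧
    H = Geo.subspaceStabilizer W ⊓ Geo.omegaGL Q) ∨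
  (4 ≤ Fintype.card F ∧ ∃ W : Submodule F (ι → F), finrank F W = 2 ∧
    Geo.IsNondegenerateOn (polar Q) W ∧ Plus Q W ∧ H = Geo.subspaceStabilizer W ⊓ Geo.omegaGL Q) ∨
  (∃ W : Submodule F (ι → F), finrank F W = 4 ∧ Geo.IsNondegenerateOn (polar Q) W ∧
    H = Geo.subspaceStabilizer W ⊓ Geo.omegaGL Q) ∨
  (∃ m, 2 * m = n ∧ ∃ D : Fin 2 → Submodule F (ι → F),
    Geo.IsNondegenerateMDecomposition (polar Q) m D ∧
    (Even m → Plus Q ⊤ → Isom Q (D 0) (D 1)) ∧ (Odd m → Odd (Fintype.card F) ∧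
      (Plus Q ⊤ ↔ (Isom Q (D 0) (D 1) ↔ Fintype.card F % 4 = 1))) ∧
    H = Geo.subspaceStabilizer (D 0) ⊓ Geo.omegaGL Q ∧
    H = Geo.decompositionStabilizer D ⊓ Geo.omegaGL Q) ∨
  (¬ Odd (Fintype.card F) ∧ ∃ v, Q v ≠ 0 ∧ H = Geo.subspaceStabilizer (F ∙ v) ⊓ Geo.omegaGL Q) ∨
  (∃ t k, t * k = n ∧ 2 ≤ t ∧ ∃ D : Fin t → Submodule F (ι → F),
    Geo.IsOrthogonalMDecomposition Q k D ∧ (k = 1 → (Fintype.card F).Prime) ∧
    (Even k → (Plus Q ⊤ ↔ (∀ i, Plus Q (D i)) ∨ Even t)) ∧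
    ((∀ i, Plus Q (D i)) ∨ ∀ i, ¬ Plus Q (D i)) ∧
    (Odd k → Odd (Fintype.card F) ∧ (Plus Q ⊤ ↔ Fintype.card F % 4 = 1 ∨ 4 ∣ t)) ∧
    (k = 2 ∨ k = 3 → Fintype.card F ≠ 3) ∧ (k = 2 → (∀ i, Plus Q (D i)) → 7 ≤ Fintype.card F) ∧
    (k = 4 → (∀ i, Plus Q (D i)) → 3 ≤ Fintype.card F) ∧
    H = Geo.decompositionStabilizer D ⊓ Geo.omegaGL Q) ∨
  (Plus Q ⊤ ∧ ∃ m, 2 * m = n ∧ Even m ∧ ∃ D : Fin 2 → Submodule F (ι → F),
    Geo.IsMDecomposition m D ∧ (∀ i, TS Q (D i)) ∧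
    H = Geo.decompositionStabilizer D ⊓ Geo.omegaGL Q) ∨
  (∃ r, r.Prime ∧ r ∣ n ∧ (¬ Odd (Fintype.card F) → 2 * r ∣ n) ∧ Asch.Irred H ∧
    ∃ K, Geo.IsFieldSubalgebra r K ∧ Geo.IsSelfAdjointFor (polar Q) K ∧
    H = Geo.subalgebraNormalizer K ⊓ Geo.omegaGL Q) ∨
  ((Plus Q ⊤ ↔ 4 ∣ n) ∧ ∃ K, Geo.IsFieldSubalgebra 2 K ∧ Geo.IsAdjointClosedFor (polar Q) K ∧
    ¬ Geo.IsSelfAdjointFor (polar Q) K ∧ (∀ k ∈ K, ∃ c : F, ∀ v, Q (k *ᵥ v) = c * Q v) ∧
    H = Geo.subalgebraNormalizer K ⊓ Geo.omegaGL Q) ∨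
  (Plus Q ⊤ ∧ 3 ≤ Fintype.card F ∧ ∃ b, 2 * b = n ∧ Even b ∧ ∃ (e : ι ≃ Fin 2 × Fin b) (P : GL ι F)
    (f₁ : (Fin 2 → F) → (Fin 2 → F) → F) (f₂ : (Fin b → F) → (Fin b → F) → F),
    Geo.IsSymplecticForm f₁ ∧ Geo.IsSymplecticForm f₂ ∧
    Geo.IsTensorFormStructure id (polar Q) f₁ f₂ e P ∧ (∀ x y, Q (Asch.trv e P (pv x y)) = 0) ∧
    H = Geo.tensorProductSubgroup 2 b e P ⊓ Geo.omegaGL Q) ∨
  (n = 12 ∧ Odd (Fintype.card F) ∧ 5 ≤ Fintype.card F ∧ ∃ (e : ι ≃ Fin 3 × Fin 4) (P : GL ι F)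
    (f₁ : (Fin 3 → F) → (Fin 3 → F) → F) (f₂ : (Fin 4 → F) → (Fin 4 → F) → F),
    Geo.IsSymmetricForm f₁ ∧ Geo.IsSymmetricForm f₂ ∧
    (Plus Q ⊤ ↔ Geo.IsPlusTypeOn (fun v => f₂ v v) ⊤) ∧
    Geo.IsTensorFormStructure id (polar Q) f₁ f₂ e P ∧
    H = Geo.tensorProductSubgroup 3 4 e P ⊓ Geo.omegaGL Q) ∨
  (∃ (F₀ : Subfield F) (r : ℕ) (P : GL ι F) (ζ : F), r.Prime ∧ (¬ Plus Q ⊤ → Odd r) ∧
    Fintype.card F = Nat.card F₀ ^ r ∧ ζ ≠ 0 ∧
    Geo.IsQuadFormRationalStructure (fun v => ζ * Q v) F₀ P ∧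
    H = Geo.subfieldSubgroup F₀ P ⊓ Geo.omegaGL Q) ∨
  (n = 8 ∧ Plus Q ⊤) ∨ Geo.InOrthogonalResidualClass H

variable (hQ : ND Q) {H : Subgroup (GL ι F)}
include hQ

theorem two_mul_dvd_of_even [Nonempty ι] (h : ¬ Odd (Fintype.card F)) {r : ℕ}
    {K : Subalgebra F (Matrix ι ι F)} (hK : Geo.IsFieldSubalgebra r K)
    (hsa : Geo.IsSelfAdjointFor (polar Q) K) : 2 * r ∣ Fintype.card ι := by
  have h2 := Asch.two_eq_zero_of_not_odd h
  have h3 : ∀ v, polar Q v v = 0 := fun v => by rw [polar_self', h2, zero_mul]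
  refine H9.SpT.two_mul_dvd_of_sa (hf := ⟨hQ.geo.polar_bilinear, fun v w => by
    rw [polar_comm]; linear_combination polar Q w v * h2, h3, hQ.geo.nondegenerate⟩) hK hsa
    fun k hk v => ?_
  letI : Field K := (Asch.isField_of_inv hK.comm hK.inv).toField
  obtain ⟨a, ha⟩ := Asch.exists_sq_of_two_eq_zero (F := K) (by
    rw [← map_ofNat (algebraMap F K) 2, h2, map_zero]) ⟨k, hk⟩
  have : (a : Matrix ι ι F) * a = k := congrArg Subtype.val ha
  rw [← this, ← Matrix.mulVec_mulVec, hsa a a.2, h3]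

theorem oeven_dec {n : ℕ} (hn : Fintype.card ι = n) (he : Even n) (h8 : 8 ≤ n)
    (hH : Geo.IsMaximalIn (Geo.omegaGL Q) H) {t k : ℕ} {D : Fin t → Submodule F (ι → F)}
    (hD : Geo.IsOrthogonalMDecomposition Q k D) (h : H ≤ Geo.decompositionStabilizer D) :
    (Even k → (Plus Q ⊤ ↔ (∀ i, Plus Q (D i)) ∨ Even t)) ∧
    ((∀ i, Plus Q (D i)) ∨ ∀ i, ¬ Plus Q (D i)) ∧
    (Odd k → Odd (Fintype.card F) ∧ (Plus Q ⊤ ↔ Fintype.card F % 4 = 1 ∨ 4 ∣ t)) ∧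
    (k = 2 ∨ k = 3 → Fintype.card F ≠ 3) ∧ (k = 2 → (∀ i, Plus Q (D i)) → 7 ≤ Fintype.card F) ∧
    (k = 4 → (∀ i, Plus Q (D i)) → 3 ≤ Fintype.card F) := by
  have hn7 : 7 ≤ Fintype.card ι := by omega
  have ht := (OD.md hD).two_le
  have hm := OD.mul_eq hD
  let i : Fin t := ⟨0, by omega⟩
  have h1 : (∀ j, Plus Q (D j)) ↔ Plus Q (D i) :=
    ⟨fun h => h i, fun h j => (OD.isom hD i j).plus hQ h⟩
  refine ⟨fun hk => ?_, ?_, fun hk => ?_, ?_, ?_, ?_⟩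
  · rw [← (OD.md hD).iSup_eq_top, plus_iSup_iff_of_even hQ (OD.nd hD) (OD.orth hD) (OD.isom hD) i
      (by rwa [OD.dim hD]), Fintype.card_fin, h1]
  · by_cases h2 : Plus Q (D i)
    · exact Or.inl (h1.2 h2)
    · exact Or.inr fun j h3 => h2 ((OD.isom hD j i).plus hQ h3)
  · have h2 := odd_card_of_ndOn hQ (OD.nd hD i) (by rwa [OD.dim hD])
    obtain ⟨j, hj⟩ : Even t := by
      rw [← hn, ← hm, Nat.even_mul] at he
      exact he.resolve_right (Nat.not_even_iff_odd.2 hk)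
    rw [← (OD.md hD).iSup_eq_top, plus_iSup_iff_of_odd hQ (OD.nd hD) (OD.orth hD) (OD.isom hD) i
      (by rwa [OD.dim hD]) (j := j) (by simp [hj, two_mul]), isSquare_neg_one_iff_of_odd h2,
      Nat.even_iff]
    exact ⟨h2, by omega⟩
  · rintro (rfl | rfl) h3
    · exact false_of_between hH h (plane_three_between hQ hn7 h3 hD)
    · exact false_of_between hH h
        (between_of_frame hQ hn7 (by norm_num) (exists_frame_three_three hQ h3 hD rfl))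
  · rintro rfl hp
    by_contra h7
    have := card_ne_six (F := F)
    rcases (by omega : Fintype.card F ≤ 3 ∨ Fintype.card F = 4 ∨ Fintype.card F = 5) with
      h3 | h3 | h3
    · exact false_of_between hH h (plus_le_three_between hQ hn7 h3 hD hp)
    · exact false_of_between hH h (plus_four_between hQ hn7 h3 hD hp)
    · exact false_of_between hH h
        (between_of_frame hQ hn7 (by norm_num) (exists_frame_plus_five hQ h3 hD hp rfl))
  · rintro rfl hp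
    by_contra h3
    have := Fintype.one_lt_card (α := F)
    obtain ⟨D', -, h4⟩ := exists_planes_plus_four_two hQ (by omega) hD hp (N := 2 * t) (by omega)
    exact false_of_between hH h (between_of_frame hQ hn7 trivial ⟨D', h4⟩)

theorem oeven_max {n : ℕ} (hn : Fintype.card ι = n) (he : Even n) (h8 : 8 ≤ n) (h12 : n ≤ 12)
    (hH : Geo.IsMaximalIn (Geo.omegaGL Q) H) : OEven Q n H := by
  have hn7 : 7 ≤ Fintype.card ι := by omega
  haveI : Nonempty ι := Fintype.card_pos_iff.1 (by omega)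
  have hq := Fintype.one_lt_card (α := F)
  have hI := hH.1.le.trans omegaGL_le_isometryGroup
  have he' := Nat.even_iff.1 he
  unfold OEven
  rcases Asch.orth_structure hQ.geo (by omega) H hI with
    (⟨W, h1, h2, h⟩ | ⟨W, h1, h2, h3, h⟩ | ⟨m, D, h1, h⟩ | ⟨h1, v, h2, h⟩) |
    ⟨hirr, ⟨t, k, D, h1, h2, h⟩ | ⟨m, D, h1, h2, h⟩ | ⟨r, K, h1, -, h2, h3, h⟩ |
      ⟨K, h1, h2, h3, h4, h⟩ | ⟨a, b, e, P, f₁, f₂, h1, h2, h3, h4, h5, h6, h⟩ |
      ⟨a, b, e, P, f₁, f₂, h1, h2, h3, -, h4, h5, h6, h⟩ | ⟨F₀, r, P, ζ, h1, h2, h3, h4, h⟩ |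
      ⟨R, k, -, -, -, -, -, h1, -, -, h2, -⟩ | ⟨k, t, e, P, f₁, h1, h2, h3, h4, -⟩ |
      ⟨k, t, e, P, f₁, -, h1, h2, -⟩ | h⟩
  · exact Or.inl ⟨W, h1, h2, fun hp h3 => false_of_between hH h
      (submaximal_between hQ hn7 hp h2 (h3.trans hn.symm)), mx_ts hQ hn7 hH h1 h2 h⟩
  · have h4 : W ≠ ⊤ := by rintro rfl; simp at h3; omega
    have h5 := mx_sub hQ hn7 hH h1 h4 h
    have h6 : finrank F W ≠ 0 := mt Submodule.finrank_eq_zero.1 h1
    by_cases ho : Odd (finrank F W)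
    · exact Or.inr (Or.inl ⟨odd_card_of_ndOn hQ (ndOn_iff_geo.2 h2) ho, W, h1, h4, ho, by omega,
        h2, h5⟩)
    rw [Nat.odd_iff] at ho
    by_cases h7 : finrank F W = 2
    · by_cases hp : Plus Q W
      · iterate 3 right
        exact Or.inl ⟨four_le_of_plus_plane hQ hn7 hH h7 (ndOn_iff_geo.2 h2) hp h, W, h7, h2, hp, h5⟩
      · iterate 2 right
        exact Or.inl ⟨W, h7, h2, hp, h5⟩
    · iterate 4 right
      exact Or.inl ⟨W, by omega, h2, h5⟩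
  · iterate 5 right
    have h2 := IsMDecomposition.mul_eq h1.decomp
    have h3 := h1.decomp.finrank_eq
    have h4 := fun i => ndOn_iff_geo.2 (h1.nondegenerate i)
    have h5 : Orth Q (D 0) (D 1) := h1.orthogonal 0 1 (by decide)
    have h6 := h1.decomp.iSup_eq_top
    rw [iSup_fin_two'] at h6
    refine Or.inl ⟨m, h2.trans hn, D, h1, fun hm hp => ?_, fun hm => ?_,
      mx_sub' hQ hn7 hH (by rw [h3]; omega) (by rw [h3]; omega) (h 0),
      mx_dec hQ hn7 hH h1.decomp fun g hg => mem_decompositionStabilizer_of_le h1.decomp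
        fun i => ⟨i, fun v => mulVec_mem_of_mem_subspaceStabilizer (h i hg)⟩⟩
    · exact isom_of_even hQ (h4 0) (h4 1) (by rw [h3, h3]) (by rwa [h3])
        ((plus_sup_iff hQ (h4 0) (h4 1) h5 (by rwa [h3]) (by rwa [h3])).1 (h6 ▸ hp))
    · have h7 := odd_card_of_ndOn hQ (h4 0) (by rwa [h3])
      rw [← h6, plus_sup_iff_of_odd hQ (h4 0) (h4 1) h5 (by rw [h3, h3]) (by rwa [h3]),
        isSquare_neg_one_iff_of_odd h7]
      exact ⟨h7, Iff.rfl⟩
  · iterate 6 right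
    exact Or.inl ⟨h1, v, h2, mx_point hQ hn7 hH h2 h⟩
  · iterate 7 right
    obtain ⟨k1, k2, k3, k4, k5, k6⟩ := oeven_dec hQ hn he h8 hH h1 h
    exact Or.inl ⟨t, k, (OD.mul_eq h1).trans hn, (OD.md h1).two_le, D, h1, h2, k1, k2, k3, k4, k5,
      k6, mx_dec hQ hn7 hH (OD.md h1) h⟩
  · iterate 8 right
    have h3 := IsMDecomposition.mul_eq h1
    refine Or.inl ⟨⟨D 0, le_top, h2 0, by simpa [h1.finrank_eq] using h3⟩, m, h3.trans hn, ?_, D,
      h1, h2, mx_dec hQ hn7 hH h1 h⟩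
    by_contra hm
    exact false_of_between hH h (singular_pair_between hQ hn7 (Nat.not_even_iff_odd.1 hm) h1 h2)
  · iterate 9 right
    exact Or.inl ⟨r, h1, hn ▸ Asch.fieldSubalgebra_dvd h2, fun h4 =>
      hn ▸ two_mul_dvd_of_even hQ h4 h2 h3, hirr, K, h2, h3, mx_field hQ hn7 hH h1.two_le h2 h⟩
  · iterate 10 right
    exact Or.inl ⟨hn ▸ plus_iff_of_unitary_field hQ h1 h2 h3 h4, K, h1, h2, h3, h4,
      mx_field hQ hn7 hH le_rfl h1 h⟩
  · iterate 11 right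
    have h7 := Asch.card_eq_of_equiv_prod e
    have h9 : Even a := by simpa using Asch.even_card_of_symplectic h3
    obtain rfl : a = 2 := by
      obtain ⟨a, rfl⟩ := h9
      by_contra h10
      have : 4 ≤ a + a := by omega
      nlinarith
    refine Or.inl ⟨plus_of_tensor_two h6, ?_, b, by omega,
      by simpa using Asch.even_card_of_symplectic h4, e, P, f₁, f₂, h3, h4, h5, h6,
      mx_tensor hQ hn7 hH h1 h2 h⟩
    by_contra h10
    exact false_of_between hH h (tensor_two_between hQ (by omega) hn7 h3 h4 h5 h6)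
  · iterate 12 right
    have h7 := Asch.card_eq_of_equiv_prod e
    obtain rfl : a = 3 := by
      by_contra h10
      have : 4 ≤ a := by omega
      nlinarith
    obtain rfl : b = 4 := by omega
    exact Or.inl ⟨by omega, h1, five_le_card h1 fun h9 => false_of_between hH h
      (tensor_three_between hQ h9 h3 h4 h5 h6), e, P, f₁, f₂, h4, h5,
      plus_iff_of_tensor_odd hQ (by decide) (by norm_num) (by decide) (by norm_num)
        (Asch.odd_card_iff.1 h1) h4 h5 h6, h6, mx_tensor hQ hn7 hH (by norm_num) (by norm_num) h⟩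
  · iterate 13 right
    exact Or.inl ⟨F₀, r, P, ζ, h1, fun hm => odd_of_subfield hQ (hn ▸ he) hm h1 h2 h3 h4, h2, h3,
      h4, mx_subfield hQ hn7 hH h1 h2 h⟩
  · iterate 14 right
    refine Or.inl ⟨?_, h2⟩
    rcases k with _ | _ | k
    · omega
    · omega
    · have := pow_cases (h1.symm.trans hn) h12 le_rfl (by omega)
      omega
  · iterate 14 right
    have h5 : k ^ t = n := by rw [← hn, Fintype.card_congr e]; simp
    have h6 : 2 ≤ k := by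
      rcases k with _ | _ | k
      · rw [zero_pow (by omega)] at h5; omega
      · rw [zero_add, one_pow] at h5; omega
      · omega
    obtain ⟨rfl, rfl, h7⟩ : k = 2 ∧ t = 3 ∧ n = 8 := by
      have := pow_cases h5 h12 h6 h1
      omega
    exact Or.inl ⟨h7, plus_of_wreath hQ h2 h3 h4⟩
  · have h5 : k ^ t = n := by rw [← hn, Fintype.card_congr e]; simp
    have := pow_cases h5 h12 (by omega) h2
    omega
  · iterate 15 right
    exact h

end Cfsg.Agent.H8
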