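import Cfsg.Agent.H8.OTab3
import Cfsg.Agent.H3.ExtBasic

/-!
Normalisers of self-adjoint fields of degree `n / 2` in `Ω_n`.
-/

set_option autoImplicit false
set_option linter.unusedSectionVars false

namespace Cfsg.Agent.H8

open Module H7 H7.Polar QuadraticMap Matrix
open scoped MatrixGroups

theorem unitary_rel {F : Type*} [Field F] {V : Type*} [AddCommGroup V] [Module F V]
    {Q : QuadraticForm F V} (hQ : ND Q) {J : V →ₗ[F] V} {t n : F}
    (h1 : ∀ v, Q (J v) = n * Q v) (h2 : ∀ v, polar Q v (J v) = t * Q v) :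
    (∀ x y, polar Q (J x) y = t * polar Q x y - polar Q x (J y)) ∧
      ∀ x, J (J x) = t • J x - n • x := by
  have h3 : ∀ x y, polar Q (J x) y = t * polar Q x y - polar Q x (J y) := fun x y => by
    have := h2 (x + y)
    simp only [map_add, polar_add_left, polar_add_right, h2, Q_add, polar_comm Q y (J x)] at this
    linear_combination this
  have h4 : ∀ x y, polar Q (J x) (J y) = n * polar Q x y := fun x y => by
    have := h1 (x + y)
    simp only [map_add, Q_add, h1] at this
    linear_combination this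
  exact ⟨h3, fun x => sub_eq_zero.1 (hQ _ fun y => by
    have := h3 y (J x)
    simp only [polar_sub_right, polar_smul_right, smul_eq_mul, h4] at this ⊢
    linear_combination this)⟩

theorem exists_aniso (F : Type*) [Field F] [Finite F] : ∃ c : F, ∀ x, x * x + x + c ≠ 0 := by
  by_contra! h
  have : Function.Surjective fun x : F => x * x + x := fun c => by
    obtain ⟨x, hx⟩ := h (-c)
    exact ⟨x, by linear_combination hx⟩
  simpa using Finite.injective_iff_surjective.2 this (a₁ := 0) (a₂ := -1) (by simp)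

section lift

variable {F K V : Type*} [Field F] [Field K] [Algebra F K] [AddCommGroup V] [Module F V]
  [Module K V] [IsScalarTower F K V] [Finite K] {Q : QuadraticForm F V}

theorem eq_zero_of_sq {ψ : K →+ F} (h : ∀ k, ψ (k * k) = 0) (l : K) : ψ l = 0 := by
  by_cases h2 : (2 : K) = 0
  · obtain ⟨k, rfl⟩ := Asch.exists_sq_of_two_eq_zero h2 l
    exact h k
  · have := h (l / 2 + 1)
    rwa [show (l / 2 + 1) * (l / 2 + 1) = l / 2 * (l / 2) + l + 1 * 1 by field_simp; ring, map_add,
      map_add, h, h, zero_add, add_zero] at this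

theorem aniso_of_odd (hr : Odd (finrank F K)) {c : F} (hc : ∀ x, x * x + x + c ≠ 0) (x : K) :
    x * x + x + algebraMap F K c ≠ 0 := fun h => by
  have hx : IsIntegral F x := .of_finite F x
  have h1 := minpoly.degree_dvd hx
  have h2 : (minpoly F x).natDegree ≤ 2 := by
    have := minpoly.min F x (p := Polynomial.X ^ 2 + (Polynomial.X + Polynomial.C c))
      (by monicity!) (by simp; linear_combination h)
    rw [Polynomial.natDegree_le_iff_degree_le]
    exact this.trans (by compute_degree!)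
  have h3 := minpoly.natDegree_pos hx
  have h4 : (minpoly F x).natDegree ≠ 2 := fun h => by
    rw [h] at h1
    exact (Nat.not_even_iff_odd.2 hr) (even_iff_two_dvd.2 h1)
  obtain ⟨y, rfl⟩ := minpoly.natDegree_eq_one_iff.1 (show (minpoly F x).natDegree = 1 by omega)
  exact hc y ((algebraMap F K).injective (by simpa using h))

theorem exists_liftK (hsa : ∀ (k : K) x y, polar Q (k • x) y = polar Q x (k • y)) :
    ∃ (Q' : QuadraticForm K V) (θ : K →ₗ[F] F), (∀ d, (∀ k, θ (k * k * d) = 0) → d = 0) ∧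
      ∀ x, Q x = θ (Q' x) := by
  haveI : Finite F := Finite.of_injective _ (algebraMap F K).injective
  obtain ⟨θ, hθ⟩ := exists_dual_one' (F := F) (one_ne_zero : (1 : K) ≠ 0)
  have hU : ∀ d, (∀ k, θ (k * k * d) = 0) → d = 0 := fun d hd => by
    by_contra h0
    have := eq_zero_of_sq (ψ := θ.toAddMonoidHom.comp (AddMonoidHom.mulRight d)) hd d⁻¹
    simp [h0, hθ] at this
  have h1 : ∀ x, ∃ φ : K →ₗ[F] F, ∀ k, φ (k * k) = Q (k • x) := fun x => by
    by_cases h2 : (2 : F) = 0
    · have h2' : (2 : K) = 0 := by rw [← map_ofNat (algebraMap F K) 2, h2, map_zero]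
      choose s hs using Asch.exists_sq_of_two_eq_zero h2'
      have hu : ∀ {l k : K}, k * k = l → s l = k := fun {l k} h => by
        have : (s l - k) * (s l - k) = 0 := by linear_combination hs l - h + (k * k - s l * k) * h2'
        exact sub_eq_zero.1 (mul_self_eq_zero.1 this)
      refine ⟨⟨⟨fun l => Q (s l • x), fun a b => ?_⟩, fun a l => ?_⟩, fun k => by simp [hu rfl]⟩
      · rw [hu (k := s a + s b) (by linear_combination hs a + hs b + s a * s b * h2'), add_smul,
          Q_add, hsa, smul_smul, ← hs (s a * s b), mul_smul, ← hsa, polar_self', h2]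
        simp
      · obtain ⟨b, rfl⟩ := Asch.exists_sq_of_two_eq_zero h2 a
        simp only [RingHom.id_apply, smul_eq_mul]
        rw [hu (k := b • s l) (by rw [smul_mul_smul_comm, hs]), smul_assoc, Q_smul]
    · refine ⟨(2 : F)⁻¹ • (Q.polarBilin.flip x) ∘ₗ (LinearMap.toSpanSingleton K V x).restrictScalars F,
        fun k => ?_⟩
      change 2⁻¹ * polar Q ((k * k) • x) x = _
      rw [mul_smul, hsa, polar_self', inv_mul_cancel_left₀ h2]
  choose φ hφ using h1
  choose ψ hψ using fun x => H3.Ext.exists_dualK (K := K) (V := K) (θ := θ)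
    (fun e => by simp [e] at hθ) (φ x)
  have h3 : ∀ x k, θ (k * k * ψ x 1) = Q (k • x) := fun x k => by
    rw [← smul_eq_mul, ← map_smul, smul_eq_mul, mul_one, hψ, hφ]
  have h4 : ∀ x y l, θ (l * polar (fun x => ψ x 1) x y) = polar Q (l • x) y := fun x y l =>
    sub_eq_zero.1 (eq_zero_of_sq (ψ := θ.toAddMonoidHom.comp (AddMonoidHom.mulRight _) -
      ((Q.polarBilin.flip y).toAddMonoidHom.comp (LinearMap.toSpanSingleton K V x).toAddMonoidHom))
      (fun k => by
        change θ (k * k * _) - polar Q ((k * k) • x) y = 0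
        rw [mul_smul, hsa, polar, polar, mul_sub, mul_sub, map_sub, map_sub, h3, h3, h3, smul_add,
          sub_self]) l)
  refine ⟨QuadraticMap.ofPolar (fun x => ψ x 1) (fun a x => sub_eq_zero.1 (hU _ fun k => ?_))
    (fun x x' y => sub_eq_zero.1 (hU _ fun k => ?_)) fun a x y => sub_eq_zero.1 (hU _ fun k => ?_),
    θ, hU, fun x => by simpa using (h3 x 1).symm⟩
  · rw [mul_sub, map_sub, h3, smul_smul, ← h3, smul_eq_mul, sub_eq_zero]
    congr 1; ring
  · rw [mul_sub, mul_add, map_sub, map_add, h4, h4, h4, smul_add, polar_add_left, sub_self]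
  · rw [mul_sub, map_sub, smul_eq_mul, ← mul_assoc, h4, h4, smul_smul, sub_self]

theorem plane_cases [FiniteDimensional K V] (hQ : ND Q)
    (hsa : ∀ (k : K) x y, polar Q (k • x) y = polar Q x (k • y)) (hd : finrank K V = 2)
    (hr : Odd (finrank F K)) :
    (∃ e f : V, e ≠ 0 ∧ Disjoint (K ∙ e) (K ∙ f) ∧ (∀ k : K, Q (k • e) = 0) ∧
      ∀ x, (∀ k : K, Q (k • x) = 0) → x ∈ K ∙ e ∨ x ∈ K ∙ f) ∨
    ∃ (c : F) (J : V →ₗ[F] V), (∀ x, x * x + x + c ≠ 0) ∧ (∀ (k : K) x, J (k • x) = k • J x) ∧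
      (∀ x, Q (J x) = c * Q x) ∧ (∀ x, polar Q x (J x) = 1 * Q x) ∧
      ∀ J' : V →ₗ[F] V, (∀ (k : K) x, J' (k • x) = k • J' x) → (∀ x, Q (J' x) = c * Q x) →
        (∀ x, polar Q x (J' x) = 1 * Q x) → J' = J ∨ J' = 1 - J := by
  haveI : Finite F := Finite.of_injective _ (algebraMap F K).injective
  obtain ⟨Q', θ, hU, h1⟩ := exists_liftK hsa
  have h2 : ∀ x y, polar Q x y = θ (polar Q' x y) := fun x y => by simp [polar, h1]
  have hQ' : ND Q' := fun y hy => hQ y fun x => by rw [h2, hy, map_zero]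
  have hd' : finrank K (⊤ : Submodule K V) = 2 := by rwa [finrank_top]
  by_cases hp : Plus Q' ⊤
  · obtain ⟨e, f, h, hef⟩ := hp.exists_hyp_plane hQ'.ndOn_top hd'
    refine Or.inl ⟨e, f, h.ne_zero, Submodule.disjoint_span_singleton'
      h.symm.ne_zero |>.2 h.notMem, fun k => by simp [h1, Q_smul, h.left], fun x hx => ?_⟩
    obtain ⟨a, b, rfl⟩ := mem_span_pair'.1 (hef.le (Submodule.mem_top (x := x)))
    have := hU (Q' (a • e + b • f)) fun k => by rw [← Q_smul, ← h1, hx]
    rw [h.val, mul_eq_zero] at this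
    rcases this with rfl | rfl
    · exact Or.inr (Submodule.mem_span_singleton.2 ⟨b, by simp⟩)
    · exact Or.inl (Submodule.mem_span_singleton.2 ⟨a, by simp⟩)
  right
  obtain ⟨c, hc⟩ := exists_aniso F
  have hcK := aniso_of_odd hr hc
  obtain ⟨a, -, ha⟩ := hQ'.ndOn_top.exists_val hd'.ge 1
  have ha0 : a ≠ 0 := by rintro rfl; simp at ha
  obtain ⟨b₀, -, hb₀⟩ := exists_notMem_of_finrank_lt (U := K ∙ a) (W := ⊤)
    (by rw [finrank_span_singleton ha0]; omega)
  obtain ⟨l, μ, h3, h4⟩ := exists_subst_of_aniso (β := polar Q' a b₀) (γ := Q' b₀) (β' := 1)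
    (γ' := algebraMap F K c) (fun x hx => hb₀ (Submodule.mem_span_singleton.2 ⟨-x, by
      have := aniso_of_not_plus hd' hp (x := x • a + b₀) trivial (by
        rw [Q_add, Q_smul, polar_smul_left, ha, smul_eq_mul]; linear_combination hx)
      linear_combination (norm := module) -this⟩)) (by simpa using hcK)
  obtain ⟨b, hb1, hb2⟩ : ∃ b, polar Q' a b = 1 ∧ Q' b = algebraMap F K c := ⟨μ • a + l • b₀, by
    simp only [polar_add_right, polar_smul_right, polar_self', ha, smul_eq_mul]
    linear_combination -h3, by rw [Q_comb, ha]; linear_combination -h4⟩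
  have hb : b ∉ K ∙ a := fun h => by
    obtain ⟨x, rfl⟩ := Submodule.mem_span_singleton.1 h
    rw [polar_smul_right, polar_self', ha, smul_eq_mul] at hb1
    rw [Q_smul, ha] at hb2
    exact hcK (-x) (by linear_combination x * hb1 - hb2)
  have hs : ∀ x, ∃ α β : K, x = α • a + β • b := fun x =>
    mem_span_pair'.1 ((eq_pair_of_finrank hd' trivial trivial ha0 hb).le trivial)
  obtain ⟨J, hJa, hJb⟩ := exists_map_pair ha0 hb b (b - algebraMap F K c • a)
  have h5 : ∀ α β : K, J (α • a + β • b) = (-(algebraMap F K c * β)) • a + (α + β) • b :=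
    fun α β => by rw [map_add, map_smul, map_smul, hJa, hJb]; module
  refine ⟨c, J.restrictScalars F, hc, fun k x => map_smul J k x, fun x => ?_, fun x => ?_,
    fun J' k1 k2 k3 => ?_⟩
  · obtain ⟨α, β, rfl⟩ := hs x
    rw [LinearMap.restrictScalars_apply, h5, h1, h1, ← smul_eq_mul c, ← map_smul, Algebra.smul_def,
      Q_comb, Q_comb, ha, hb1, hb2]
    congr 1; ring
  · obtain ⟨α, β, rfl⟩ := hs x
    rw [LinearMap.restrictScalars_apply, h5, h2, h1, one_mul, Q_comb]
    simp only [polar_add_left, polar_add_right, polar_smul_left, polar_smul_right, polar_self',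
      polar_comm Q' b a, ha, hb1, hb2, smul_eq_mul]
    congr 1; ring
  obtain ⟨α, β, h6⟩ := hs (J' a)
  have h7 : polar Q' a (J' a) - 1 = 0 := hU _ fun k => by
    have := k3 (k • a)
    rw [k1, h2, h1, Q_smul, ha, polar_smul_left, polar_smul_right] at this
    rw [mul_sub, map_sub, sub_eq_zero, ← one_mul (θ (_ * 1)), ← this, smul_eq_mul, smul_eq_mul,
      mul_assoc]
  have h8 : Q' (J' a) - algebraMap F K c = 0 := hU _ fun k => by
    have := k2 (k • a)
    rw [k1, h1, h1, Q_smul, Q_smul, ha, ← smul_eq_mul c, ← map_smul, Algebra.smul_def] at this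
    rw [mul_sub, map_sub, this, mul_one, mul_comm, sub_self]
  rw [h6, Q_comb, ha, hb1, hb2] at h8
  rw [h6, polar_add_right, polar_smul_right, polar_smul_right, polar_self', ha, hb1, smul_eq_mul,
    smul_eq_mul] at h7
  have h9 : 1 - 4 * algebraMap F K c ≠ 0 := fun h => by
    by_cases h2 : (2 : K) = 0
    · exact one_ne_zero (α := K) (by linear_combination h + 2 * algebraMap F K c * h2)
    · exact hcK (-2⁻¹) (by field_simp; linear_combination -h)
  have h10 : (β - 1) * (β + 1) = 0 := mul_left_cancel₀ h9 (by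
    linear_combination (2 * α + β + 1) * h7 - 4 * h8)
  have h11 : (α = 0 ∧ β = 1) ∨ (α = 1 ∧ β = -1) := by
    rcases mul_eq_zero.1 h10 with h | h
    · obtain rfl : β = 1 := by linear_combination h
      by_cases h0 : α = 0
      · exact Or.inl ⟨h0, rfl⟩
      · have : α + 1 = 0 := mul_left_cancel₀ h0 (by linear_combination h8)
        exact Or.inr ⟨by linear_combination h7 - this, by linear_combination 2 * this - h7⟩
    · obtain rfl : β = -1 := by linear_combination h
      by_cases h0 : α = 0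
      · exact Or.inl ⟨h0, by linear_combination h7 - 2 * h0⟩
      · exact Or.inr ⟨mul_left_cancel₀ h0 (by linear_combination h8), rfl⟩
  have h12 := (unitary_rel hQ k2 k3).2 a
  rw [← algebraMap_smul K c] at h12
  refine h11.imp ?_ ?_ <;> rintro ⟨rfl, rfl⟩ <;> ext x <;> obtain ⟨α, β, rfl⟩ := hs x
  · rw [zero_smul, zero_add, one_smul] at h6
    rw [h6] at h12
    rw [LinearMap.restrictScalars_apply, h5, map_add, k1, k1, h6, h12]
    module
  · rw [h6, map_add, k1, k1, h6] at h12
    rw [LinearMap.sub_apply, LinearMap.restrictScalars_apply, h5, map_add, k1, k1, h6,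
      Module.End.one_apply]
    linear_combination (norm := module) (-β) • h12

end lift

variable {F : Type*} [Field F] [Fintype F] {ι : Type} [Fintype ι] [DecidableEq ι]
variable {Q : QuadraticForm F (ι → F)} (hQ : ND Q) {H : Subgroup (GL ι F)}
include hQ

/-- An irreducible subgroup of `Ω_{2r}` normalising a self-adjoint field of odd degree `r`
normalises a field of unitary kind. -/
theorem exists_unitary_of_sa [Nonempty ι] {r : ℕ} (hr : Odd r) (hn : Fintype.card ι = 2 * r)
    {K : Subalgebra F (Matrix ι ι F)} (hK : Geo.IsFieldSubalgebra r K)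
    (hsa : Geo.IsSelfAdjointFor (polar Q) K) (hI : Asch.Irred H) (hH : H ≤ Geo.omegaGL Q)
    (hN : H ≤ Geo.subalgebraNormalizer K) :
    ∃ K, Geo.IsFieldSubalgebra 2 K ∧ Geo.IsAdjointClosedFor (polar Q) K ∧
      ¬ Geo.IsSelfAdjointFor (polar Q) K ∧ (∀ k ∈ K, ∃ c : F, ∀ v, Q (k *ᵥ v) = c * Q v) ∧
      H ≤ Geo.subalgebraNormalizer K := by
  letI : Field K := (Asch.isField_of_inv hK.comm hK.inv).toField
  have e1 : ∀ (k : K) (w : ι → F), k • w = (k : Matrix ι ι F) *ᵥ w := fun _ _ => rfl
  have hr0 := hr.pos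
  have hd : finrank K (ι → F) = 2 := by
    have h := Module.finrank_mul_finrank F K (ι → F)
    rw [hK.finrank_eq, finrank_fintype_fun_eq_card, hn, mul_comm] at h
    exact Nat.eq_of_mul_eq_mul_right hr0 h
  haveI : FiniteDimensional K (ι → F) := Module.finite_of_finrank_pos (by omega)
  have h1 : ∀ g ∈ H, ∀ k : K, ∃ k' : K, ∀ x, (g : Matrix ι ι F) *ᵥ (k • x) =
      k' • (g : Matrix ι ι F) *ᵥ x := fun g hg k => ⟨⟨_, (hN hg k).1 k.2⟩, fun x => by
    simp [e1, mul_assoc]⟩
  have h2 : ∀ g ∈ H, ∀ k' : K, ∃ k : K, ∀ x, (g : Matrix ι ι F) *ᵥ (k • x) =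
      k' • (g : Matrix ι ι F) *ᵥ x := fun g hg k => ⟨⟨_, (hN (H.inv_mem hg) k).1 k.2⟩, fun x => by
    simp [e1, ← mul_assoc]⟩
  have hI' := fun g (hg : g ∈ H) => mem_isometryGroup.1 (omegaGL_le_isometryGroup (hH hg))
  rcases plane_cases (K := K) hQ (fun k => hsa k k.2) hd (by rwa [hK.finrank_eq]) with
    ⟨e, f, he, hef, hs, h⟩ | ⟨c, J, hc, k1, k2, k3, h⟩
  · have h3 : finrank F ((K ∙ e).restrictScalars F) = r := by
      have := Module.finrank_mul_finrank F K (K ∙ e)
      rw [hK.finrank_eq, finrank_span_singleton he, mul_one] at this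
      exact this.symm
    have h4 : ∀ g ∈ H, ∀ W : Submodule K (ι → F), (g : Matrix ι ι F) *ᵥ e ∈ W →
        ∀ v ∈ (K ∙ e).restrictScalars F, (g : Matrix ι ι F) *ᵥ v ∈ W := fun g hg W hW v hv => by
      obtain ⟨k, rfl⟩ := Submodule.mem_span_singleton.1 hv
      obtain ⟨k', hk'⟩ := h1 g hg k
      rw [hk']
      exact W.smul_mem _ hW
    rcases hI ((K ∙ e).restrictScalars F) (fun g hg => h4 g hg _ ((h _ fun k => by
      obtain ⟨k', hk'⟩ := h2 g hg k
      rw [← hk', hI' g hg, hs]).resolve_right fun h5 => by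
        have := even_finrank_inf_map hQ.geo (U := (K ∙ e).restrictScalars F) (fun v hv => by
          obtain ⟨k, rfl⟩ := Submodule.mem_span_singleton.1 hv
          exact hs k) (by omega) (hH hg)
        rw [h3, (eq_bot_iff (a := _ ⊓ _)).2 fun v hv => hef.le_bot ⟨hv.1, by
          obtain ⟨w, hw, rfl⟩ := hv.2
          exact h4 g hg _ h5 w hw⟩, finrank_bot] at this
        exact Nat.not_even_iff_odd.2 hr this)) with h5 | h5 <;> rw [h5] at h3 <;> simp at h3 <;> omega
  obtain ⟨k4, k5⟩ := unitary_rel hQ k2 k3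
  obtain ⟨θ, rfl⟩ := Matrix.toLin'.surjective J
  simp only [Matrix.toLin'_apply] at k1 k2 k3 k4 k5
  have hθ : θ * θ = (1 : F) • θ - c • 1 := Matrix.toLin'.injective (LinearMap.ext fun x => by
    simp [k5])
  refine ⟨quadAlg θ hθ, isFieldSubalgebra_quadAlg hθ fun x => by simpa [sub_eq_add_neg] using hc (-x), ?_,
    fun h5 => ?_, ?_, fun g hg => mem_subalgebraNormalizer_quadAlg hθ ?_⟩
  · rintro _ ⟨a, b, rfl⟩
    refine ⟨_, ⟨a + b, -b, rfl⟩, fun u v => ?_⟩
    simp only [add_mulVec, smul_mulVec, one_mulVec, polar_add_left, polar_add_right,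
      polar_smul_left, polar_smul_right, k4, smul_eq_mul]
    ring
  · obtain ⟨y, hy⟩ := exists_ne (0 : ι → F)
    have h6 : ∀ y, (2 : F) • θ *ᵥ y = y := fun y => sub_eq_zero.1 (hQ _ fun x => by
      have := h5 θ (self_mem_quadAlg hθ) x y
      rw [k4] at this
      rw [polar_sub_right, polar_smul_right, smul_eq_mul]
      linear_combination -this)
    have h7 : (2 : F) ≠ 0 := fun h => hy (by rw [← h6 y, h, zero_smul])
    have h8 : (1 - 4 * c) • y = 0 := by
      linear_combination (norm := module) (2 : F) • h6 (θ *ᵥ y) - h6 y - (4 : F) • k5 y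
    refine hc (-2⁻¹) ?_
    have := (smul_eq_zero.1 h8).resolve_right hy
    field_simp
    linear_combination -this
  · rintro _ ⟨a, b, rfl⟩
    refine ⟨a * a + a * b + b * b * c, fun v => ?_⟩
    rw [add_mulVec, smul_mulVec, smul_mulVec, one_mulVec, Q_comb, k2, k3]
    ring
  · have h3 : ∀ x, Asch.cj g θ *ᵥ ((g : Matrix ι ι F) *ᵥ x) = (g : Matrix ι ι F) *ᵥ (θ *ᵥ x) :=
      fun x => by simp [Asch.cj_apply, mul_assoc]
    have h4 := (toLE g).surjective
    rcases h (Matrix.toLin' (Asch.cj g θ)) (fun k x => by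
      obtain ⟨x, rfl⟩ := h4 x
      obtain ⟨k', hk'⟩ := h2 g hg k
      simp only [Matrix.toLin'_apply, toLE_apply, ← hk', h3, k1]) (fun x => by
      obtain ⟨x, rfl⟩ := h4 x
      simp only [Matrix.toLin'_apply, toLE_apply, h3, hI' g hg, k2]) (fun x => by
      obtain ⟨x, rfl⟩ := h4 x
      simp only [Matrix.toLin'_apply, toLE_apply, h3, hI' g hg, k3,
        polar_mulVec (omegaGL_le_isometryGroup (hH hg))]) with h5 | h5
    · rw [Matrix.toLin'.injective h5]
      exact self_mem_quadAlg hθ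
    · exact ⟨1, -1, Matrix.toLin'.injective (by rw [h5]; simp [sub_eq_add_neg]; rfl)⟩

/-- The field case in dimension ten. -/
theorem field_ten (hn : Fintype.card ι = 10) (hH : Geo.IsMaximalIn (Geo.omegaGL Q) H) {r : ℕ}
    (h1 : r.Prime) (h2 : r ∣ 10) (h3 : ¬ Odd (Fintype.card F) → 2 * r ∣ 10) (hI : Asch.Irred H)
    {K : Subalgebra F (Matrix ι ι F)} (hK : Geo.IsFieldSubalgebra r K)
    (hsa : Geo.IsSelfAdjointFor (polar Q) K) (h : H = Geo.subalgebraNormalizer K ⊓ Geo.omegaGL Q) :
    (Odd (Fintype.card F) ∧ r = 2) ∨ (¬ Plus Q ⊤ ∧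
      ∃ K, Geo.IsFieldSubalgebra 2 K ∧ Geo.IsAdjointClosedFor (polar Q) K ∧
      ¬ Geo.IsSelfAdjointFor (polar Q) K ∧ (∀ k ∈ K, ∃ c : F, ∀ v, Q (k *ᵥ v) = c * Q v) ∧
      H = Geo.subalgebraNormalizer K ⊓ Geo.omegaGL Q) := by
  haveI : Nonempty ι := Fintype.card_pos_iff.1 (by omega)
  obtain rfl | rfl : r = 2 ∨ r = 5 := by
    have := Nat.le_of_dvd (by norm_num) h2
    interval_cases r <;> simp_all (config := { decide := true })
  · exact Or.inl ⟨by_contra fun h4 => absurd (h3 h4) (by decide), rfl⟩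
  · obtain ⟨K', k1, k2, k3, k4, k5⟩ := exists_unitary_of_sa hQ (by decide) hn hK hsa hI hH.1.le
      (h.le.trans inf_le_left)
    exact Or.inr ⟨by rw [plus_iff_of_unitary_field hQ k1 k2 k3 k4, hn]; decide, K', k1, k2, k3, k4,
      mx_field hQ (by omega) hH le_rfl k1 k5⟩

end Cfsg.Agent.H8
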