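import Cfsg.Agent.H8.OTab3

/-!
`O₃ ⊗ O₄⁺ ∩ Ω₁₂⁺` lies in `Sp₂ ⊗ Sp₆`.
-/

set_option autoImplicit false
set_option linter.unusedSectionVars false

namespace Cfsg.Agent.H8

open Module H7 H7.Polar QuadraticMap Matrix Asch
open scoped MatrixGroups Kronecker

variable {F : Type*} [Field F] [Fintype F] {ι : Type} [Fintype ι] [DecidableEq ι]

/-- An element of `Ω` does not move the left factor of `Sp₂ ⊗ Sp_b`, `b ≡ 2 mod 4`, to the right. -/
theorem false_of_cj_lk_eq_rk {Q : QuadraticForm F (ι → F)} (hQ : ND Q) {b : ℕ} (hb : b % 4 = 2)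
    {e : ι ≃ Fin 2 × Fin b} {P : GL ι F} (hp : ∀ x y, Q (trv e P (pv x y)) = 0) {g : GL ι F}
    (hg : g ∈ Geo.omegaGL Q) {w : Matrix (Fin b) (Fin b) F}
    (h : cj g (tr e P (lk (Fin b) (Matrix.single 0 0 1))) = tr e P (rk (Fin 2) w)) : False := by
  let L : (Fin 2 → F) → (Fin b → F) →ₗ[F] ι → F := fun x => (trvE e P).toLinearMap ∘ₗ pvR x
  have hL : ∀ x y, L x y = trv e P (pv x y) := fun _ _ => rfl
  have hinj : ∀ {y₀ y₁ y₀' y₁'}, L (Pi.single 0 1) y₀ + L (Pi.single 1 1) y₁ =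
      L (Pi.single 0 1) y₀' + L (Pi.single 1 1) y₁' → y₀ = y₀' ∧ y₁ = y₁' := fun h => by
    simp only [hL, ← trv_add] at h
    have := trv_injective e P h
    constructor <;> ext c
    · simpa [pv] using congrFun this (0, c)
    · simpa [pv] using congrFun this (1, c)
  have hsurj : ∀ v, ∃ y₀ y₁, v = L (Pi.single 0 1) y₀ + L (Pi.single 1 1) y₁ := fun v => by
    obtain ⟨z, rfl⟩ := trv_surjective e P v
    obtain ⟨z₀, z₁, rfl⟩ := exists_pv_add_pv z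
    exact ⟨z₀, z₁, trv_add ..⟩
  have h1 : ∀ y₀ y₁, tr e P (lk (Fin b) (Matrix.single 0 0 1)) *ᵥ
      (L (Pi.single 0 1) y₀ + L (Pi.single 1 1) y₁) = L (Pi.single 0 1) y₀ := fun y₀ y₁ => by
    simp only [hL, ← trv_add, tr_mulVec, lk_apply, Matrix.mulVec_add, kronecker_mulVec_pv]
    congr 1
    ext ⟨a, c⟩
    fin_cases a <;> simp [pv]
  have h2 : ∀ y₀ y₁, tr e P (rk (Fin 2) w) *ᵥ (L (Pi.single 0 1) y₀ + L (Pi.single 1 1) y₁) =
      L (Pi.single 0 1) (w *ᵥ y₀) + L (Pi.single 1 1) (w *ᵥ y₁) := fun y₀ y₁ => by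
    simp only [hL, ← trv_add, tr_mulVec, rk_apply, Matrix.mulVec_add, kronecker_mulVec_pv,
      Matrix.one_mulVec]
  let R := LinearMap.range (Matrix.toLin' w)
  let U := slice e P (Pi.single 0 1)
  have h3 : U.map (Matrix.toLin' (g : Matrix ι ι F)) =
      R.map (L (Pi.single 0 1)) ⊔ R.map (L (Pi.single 1 1)) := by
    refine le_antisymm ?_ ?_
    · rintro _ ⟨_, ⟨y, rfl⟩, rfl⟩
      obtain ⟨y₀, y₁, hy⟩ := hsurj ((g : Matrix ι ι F) *ᵥ L (Pi.single 0 1) y)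
      have : (g : Matrix ι ι F) *ᵥ L (Pi.single 0 1) y =
          L (Pi.single 0 1) (w *ᵥ y₀) + L (Pi.single 1 1) (w *ᵥ y₁) := by
        rw [← h2, ← hy, ← h, cj_mulVec, ← add_zero (L _ y), ← map_zero (L (Pi.single 1 1)), h1]
        simp
      change (g : Matrix ι ι F) *ᵥ L (Pi.single 0 1) y ∈ _
      rw [this]
      exact Submodule.add_mem_sup ⟨_, ⟨y₀, rfl⟩, rfl⟩ ⟨_, ⟨y₁, rfl⟩, rfl⟩
    · have : ∀ y₀ y₁, L (Pi.single 0 1) (w *ᵥ y₀) + L (Pi.single 1 1) (w *ᵥ y₁) ∈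
          U.map (Matrix.toLin' (g : Matrix ι ι F)) := fun y₀ y₁ => by
        obtain ⟨z₀, z₁, hz⟩ := hsurj (((g⁻¹ : GL ι F) : Matrix ι ι F) *ᵥ
          (L (Pi.single 0 1) y₀ + L (Pi.single 1 1) y₁))
        refine ⟨L (Pi.single 0 1) z₀, ⟨z₀, rfl⟩, ?_⟩
        rw [← h2, ← h, ← mulVec_inv_mulVec g (_ + _), cj_mulVec, hz, h1]
        rfl
      refine sup_le ?_ ?_
      · rintro _ ⟨_, ⟨y, rfl⟩, rfl⟩
        simpa using this y 0
      · rintro _ ⟨_, ⟨y, rfl⟩, rfl⟩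
        simpa using this 0 y
  have h4 : U ⊓ U.map (Matrix.toLin' (g : Matrix ι ι F)) = R.map (L (Pi.single 0 1)) := by
    refine le_antisymm ?_ (le_inf (by rintro _ ⟨y, -, rfl⟩; exact ⟨y, rfl⟩) (h3 ▸ le_sup_left))
    rintro _ ⟨⟨y, rfl⟩, hy⟩
    rw [h3] at hy
    obtain ⟨_, ⟨y₀, k₀, rfl⟩, _, ⟨y₁, -, rfl⟩, hy⟩ := Submodule.mem_sup.1 hy
    exact ⟨y, (hinj (y₀' := y) (y₁' := 0) (by rw [hy, map_zero, add_zero])).1 ▸ k₀, rfl⟩
  have h5 : R.map (L (Pi.single 0 1)) ⊓ R.map (L (Pi.single 1 1)) = ⊥ := by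
    rw [eq_bot_iff]
    rintro _ ⟨⟨y₀, -, rfl⟩, y₁, -, hy⟩
    rw [(hinj (y₀ := y₀) (y₁ := 0) (y₀' := 0) (y₁' := y₁) (by simp [hy])).1]
    simp
  have h6 : ∀ i : Fin 2, finrank F (R.map (L (Pi.single i 1))) = finrank F R := fun i =>
    (Submodule.equivMapOfInjective _ (slice_injective (by simp)) R).finrank_eq.symm
  have h7 : finrank F U = b := finrank_slice (by simp)
  have h8 := Submodule.finrank_sup_add_finrank_inf_eq (R.map (L (Pi.single 0 1)))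
    (R.map (L (Pi.single 1 1)))
  have h9 : finrank F (U.map (Matrix.toLin' (g : Matrix ι ι F))) = b :=
    ((toLE g).finrank_map_eq U).trans h7
  rw [← h3, h5, h6, h6, h9, finrank_bot] at h8
  have h10 := even_finrank_inf_map hQ.geo (U := U) (by rintro _ ⟨y, rfl⟩; exact hp _ y)
    (by rw [h7, card_eq_of_equiv_prod e]) hg
  rw [h4, h6, h7, Nat.even_iff] at h10
  omega

/-- The reindexing `3 × (2 × 2) ≃ 2 × (3 × 2)`. -/
def rho346 : Fin 3 × Fin 4 ≃ Fin 2 × Fin 6 :=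
  ((Equiv.refl _).prodCongr (finProdFinEquiv (m := 2) (n := 2)).symm).trans
    ((Equiv.prodAssoc ..).symm.trans (((Equiv.prodComm ..).prodCongr (Equiv.refl _)).trans
      ((Equiv.prodAssoc ..).trans ((Equiv.refl _).prodCongr (finProdFinEquiv (m := 3) (n := 2))))))

theorem submatrix_rho346 (x : Matrix (Fin 3) (Fin 3) F) (y z : Matrix (Fin 2) (Fin 2) F) :
    (x ⊗ₖ (y ⊗ₖ z).submatrix (finProdFinEquiv (m := 2) (n := 2)).symm
      (finProdFinEquiv (m := 2) (n := 2)).symm).submatrix rho346.symm rho346.symm =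
    y ⊗ₖ (x ⊗ₖ z).submatrix (finProdFinEquiv (m := 3) (n := 2)).symm
      (finProdFinEquiv (m := 3) (n := 2)).symm := by
  ext ⟨i, j⟩ ⟨k, l⟩
  simp [rho346, mul_left_comm]

theorem exists_sp_two_six {Q : QuadraticForm F (ι → F)} (hQ : ND Q) (h2 : (2 : F) ≠ 0)
    {H : Subgroup (GL ι F)} (hH : H ≤ Geo.omegaGL Q) {e : ι ≃ Fin 3 × Fin 4} {P : GL ι F}
    {f₁ : (Fin 3 → F) → (Fin 3 → F) → F} {f₂ : (Fin 4 → F) → (Fin 4 → F) → F}
    (h₁ : Geo.IsSymmetricForm f₁) (h₂ : Geo.IsSymmetricForm f₂)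
    (hp : Geo.IsPlusTypeOn (fun v => f₂ v v) ⊤) (hT : Geo.IsTensorFormStructure id (polar Q) f₁ f₂ e P)
    (hle : H ≤ Geo.tensorProductSubgroup 3 4 e P) :
    ∃ (e : ι ≃ Fin 2 × Fin 6) (P : GL ι F)
      (f₁ : (Fin 2 → F) → (Fin 2 → F) → F) (f₂ : (Fin 6 → F) → (Fin 6 → F) → F),
      Geo.IsSymplecticForm f₁ ∧ Geo.IsSymplecticForm f₂ ∧
      Geo.IsTensorFormStructure id (polar Q) f₁ f₂ e P ∧ (∀ x y, Q (trv e P (pv x y)) = 0) ∧
      H ≤ Geo.tensorProductSubgroup 2 6 e P := by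
  obtain ⟨G₁, rfl⟩ : ∃ G₁, f₁ = gf (RingEquiv.refl F) G₁ := ⟨_, (sesq_of_bilinear h₁.bilinear).eq_gf⟩
  obtain ⟨G₂, rfl⟩ : ∃ G₂, f₂ = gf (RingEquiv.refl F) G₂ := ⟨_, (sesq_of_bilinear h₂.bilinear).eq_gf⟩
  have hs : ∀ {κ : Type} [Fintype κ] [DecidableEq κ] {G : Matrix κ κ F},
      Geo.IsSymmetricForm (gf (RingEquiv.refl F) G) → Herm (RingEquiv.refl F) 1 G := fun {κ _ _ G} h =>
    herm_of_symm ((nondeg_gf_iff _ G).1 h.nondegenerate) (Matrix.ext fun i j => by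
      rw [Matrix.transpose_apply, ← gf_single (RingEquiv.refl F) G j i, h.symm, gf_single])
  have hpol := polar_eq_gf hQ.geo
  have hG := herm_polar hQ.geo
  generalize Geo.gramMatrix (polar Q) = G at hpol hG
  rw [hpol] at hT
  obtain ⟨c, h⟩ := H9.SpT.tData_of_structure hG (by norm_num) (by norm_num) (hs h₁) (hs h₂)
    (mul_one _).symm hT hle
  generalize c • G₁ = G₀ at h
  let e₂ : Fin 4 ≃ Fin 2 × Fin 2 := (finProdFinEquiv (m := 2) (n := 2)).symm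
  let e₃ : Fin 6 ≃ Fin 3 × Fin 2 := (finProdFinEquiv (m := 3) (n := 2)).symm
  obtain ⟨P₂, hP₂⟩ := H9.SpT.exists_frame_plus h2 e₂ h.h₂.unit h.h₂.transpose_one hp
  let P' := fr e P (kronGL (1, P₂))
  have key : ∀ x y z, tr (e.trans rho346) P' (y ⊗ₖ (x ⊗ₖ z).submatrix e₃ e₃) =
      tr e P (x ⊗ₖ tr e₂ P₂ (y ⊗ₖ z)) := fun x y z => by
    rw [← submatrix_rho346, tr_apply e₂, ← cj_one x, ← cj_kronGL, ← tr_fr, tr_apply, tr_apply]
    congr 1
    ext i j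
    simp [e₂]
  have k1 : ∀ y, tr (e.trans rho346) P' (lk (Fin 6) y) = rkt e P (tr e₂ P₂ (lk (Fin 2) y)) :=
    fun y => by rw [rkt_apply, lk_apply, lk_apply, ← key]; simp
  have k2 : ∀ z, rkt e P (tr e₂ P₂ (rk (Fin 2) z)) =
      tr (e.trans rho346) P' (rk (Fin 2) (((1 : Matrix _ _ F) ⊗ₖ z).submatrix e₃ e₃)) :=
    fun z => by rw [rkt_apply, rk_apply, rk_apply, ← key]
  have hgram : pbG (RingEquiv.refl F) (e.trans rho346) P' G =
      J2 F ⊗ₖ (G₀ ⊗ₖ J2 F).submatrix e₃ e₃ := by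
    rw [pbG_trans, pbG_fr, h.gram, coe_kronGL, kronecker_transpose, kronecker_map,
      ← Matrix.mul_kronecker_mul, ← Matrix.mul_kronecker_mul, ← submatrix_rho346, ← hP₂]
    simp [pbG, e₂]
  have hu : IsUnit ((G₀ ⊗ₖ J2 F).submatrix e₃ e₃) :=
    (Matrix.isUnit_submatrix_equiv ..).2 (isUnit_kronecker h.h₁.unit isUnit_J2)
  have ht : ((G₀ ⊗ₖ J2 F).submatrix e₃ e₃)ᵀ = -(G₀ ⊗ₖ J2 F).submatrix e₃ e₃ := by
    rw [Matrix.transpose_submatrix, kronecker_transpose, h.h₁.transpose_one, J2_transpose]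
    ext i j
    simp
  have hpure : ∀ x y, Q (trv (e.trans rho346) P' (pv x y)) = 0 := fun x y =>
    eq_zero_of_polar h2 hQ.geo (by
      rw [hpol, gf_trv, hgram]
      exact (gf_kronecker_kvec ..).trans (by rw [alt_of_skew h2 J2_transpose, zero_mul]))
  have hsim : H ≤ Geo.similarityGroup (gf (RingEquiv.refl F) G) := fun g hg =>
    ⟨1, fun u v => by rw [← hpol, polar_mulVec (omegaGL_le_isometryGroup (hH hg))]; simp⟩
  have h' : TData (RingEquiv.refl F) 1 G H (e.trans rho346) P' (-1) (-1) (J2 F)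
      ((G₀ ⊗ₖ J2 F).submatrix e₃ e₃) := by
    refine ⟨le_rfl, by norm_num, hG, herm_of_skew isUnit_J2 J2_transpose, herm_of_skew hu ht,
      by simp, fun h => absurd rfl h, fun h => absurd rfl h, hgram, fun g hg => ?_⟩
    obtain ⟨x, y, hy, hxy⟩ := h.exists_eq hg
    have hy' := h.prj_sim hsim hy
    obtain ⟨B, rfl⟩ := (trGL e₂ P₂).surjective y
    rw [trGL_mem_similarityGroup, hP₂] at hy'
    have l1 : ∀ z, cj g (rkt e P (tr e₂ P₂ z)) = rkt e P (tr e₂ P₂ (cj B z)) := fun z => by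
      rw [hxy, cj_rkt, cj_trGL]
    rcases H9.SpT.go4_cases h2 hy' with ⟨m1, -⟩ | ⟨m1, -⟩
    · refine mem_tensorProductSubgroup_of_norm (by norm_num) (by norm_num) _ _ _ fun z => ?_
      obtain ⟨z', hz⟩ := m1 z
      exact ⟨z', by rw [k1, k1, l1, hz]⟩
    · obtain ⟨z', hz⟩ := m1 (Matrix.single 0 0 1)
      exact (false_of_cj_lk_eq_rk hQ rfl hpure (hH hg) (by rw [k1, l1, hz, k2])).elim
  exact ⟨_, P', _, _, isSymplecticForm_gf isUnit_J2 J2_transpose (alt_of_skew h2 J2_transpose),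
    isSymplecticForm_gf hu ht (alt_of_skew h2 ht), hpol ▸ h'.isTensorFormStructure, hpure, h'.le⟩

end Cfsg.Agent.H8
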