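import Cfsg.Agent.H8.Blk
import Cfsg.Agent.H8.Fld
import Cfsg.Agent.H7.LinRed

/-!
Stabilisers of direct sum decompositions in the special linear group: summands of dimension
at least two.
-/

set_option autoImplicit false
set_option linter.unusedSectionVars false

namespace Cfsg.Agent.H8

open Module H7

variable {F : Type*} [Field F] {V : Type*} [AddCommGroup V] [Module F V] [FiniteDimensional F V]
variable {κ : Type} [Fintype κ] [DecidableEq κ]

theorem exists_dual_zero_one {u v : V} (h : v ∉ F ∙ u) : ∃ φ : Dual F V, φ v = 1 ∧ φ u = 0 := by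
  obtain ⟨φ, h1, h2⟩ := exists_dual_one h
  exact ⟨φ, h1, h2 u (Submodule.mem_span_singleton_self u)⟩

theorem exists_notMem_of_card_lt {s : Finset κ} (h : s.card < Fintype.card κ) : ∃ m, m ∉ s := by
  obtain ⟨x, -, hx⟩ := Finset.exists_mem_notMem_of_card_lt_card (s := s) (t := Finset.univ) h
  exact ⟨x, hx⟩

theorem notMem_span_swap {u v : V} (hu : u ≠ 0) (h : v ∉ F ∙ u) : u ∉ F ∙ v := by
  simpa using notMem_sup_span_swap (U := ⊥) (v := u) (z := v) (by simpa using hu) (by simpa using h)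

namespace Dec

variable {k : ℕ} {D : κ → Submodule F V} (hD : Dec k D)
include hD

/-- a homology or transvection inside the `i`-th summand -/
theorem exists_hom {i : κ} {u : V} (hu : u ∈ D i) {χ : Dual F V} (h : 1 + χ u ≠ 0) :
    ∃ t ∈ decStab D, (∀ x, t x = x + χ (hD.pr i x) • u) ∧
      LinearMap.det (t : V →ₗ[F] V) = 1 + χ u := by
  have h1 : (χ ∘ₗ hD.pr i) u = χ u := by simp [hD.pr_self hu]
  refine ⟨LinearEquiv.dilatransvection (f := χ ∘ₗ hD.pr i) (v := u) (by rw [h1]; exact h.isUnit),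
    hD.mem_decStab' fun j x hx => ?_, fun x => rfl, by simp [hD.pr_self hu]⟩
  rw [LinearEquiv.dilatransvection.apply, LinearMap.comp_apply, hD.pr_of_mem hx]
  split_ifs with hj
  · subst hj; exact (D j).add_mem hx ((D j).smul_mem _ hu)
  · simpa using hx

/-- the determinant can be corrected inside the `l`-th summand -/
theorem exists_fix_det (l : κ) {g : V ≃ₗ[F] V} (hg : g ∈ decStab D) :
    ∃ t ∈ decStab D, t * g ∈ decStab D ⊓ SLV F V ∧ ∀ x, t x - x ∈ D l ∧ (hD.pr l x = 0 → t x = x) := by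
  obtain ⟨u, hu, u0⟩ := hD.exists_ne_zero l
  obtain ⟨χ, hχ⟩ := exists_dual_one' (F := F) u0
  have h0 : LinearMap.det (g : V →ₗ[F] V) ≠ 0 := (LinearEquiv.isUnit_det' g).ne_zero
  obtain ⟨t, ht, h1, h2⟩ := hD.exists_hom hu
    (χ := ((LinearMap.det (g : V →ₗ[F] V))⁻¹ - 1) • χ) (by simpa [hχ] using h0)
  refine ⟨t, ht, ⟨mul_mem ht hg, mem_SLV.2 ?_⟩, fun x => ⟨?_, fun hx => by simp [h1, hx]⟩⟩
  · rw [LinearEquiv.coe_toLinearMap_mul, map_mul, h2]
    simp [hχ, h0]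
  · rw [h1, add_sub_cancel_left]; exact (D l).smul_mem _ hu

theorem exists_swap' (i j : κ) : ∃ g ∈ decStab D, (∀ x ∈ D i, g x ∈ D j) ∧ (∀ x ∈ D j, g x ∈ D i) ∧
    ∀ l, l ≠ i → l ≠ j → ∀ x ∈ D l, g x = x := by
  let e : ∀ a b, D a ≃ₗ[F] D b := fun a b =>
    LinearEquiv.ofFinrankEq _ _ (by rw [hD.dim, hD.dim])
  let f : κ → κ → V →ₗ[F] V := fun a b =>
    (D b).subtype ∘ₗ (e a b).toLinearMap ∘ₗ (hD.pr a).codRestrict _ (hD.pr_mem a)
  have hf : ∀ a b, ∀ x ∈ D a, f a b x = 0 → x = 0 := fun a b x hx h => by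
    have : (hD.pr a).codRestrict _ (hD.pr_mem a) x = 0 := by simpa [f] using h
    rw [← hD.pr_self hx]; exact congrArg Subtype.val this
  obtain ⟨g, h1, h2⟩ := hD.exists_glue (Equiv.swap i j)
    (fun a => if a = i then f i j else if a = j then f j i else LinearMap.id)
    (fun a x hx => by
      split_ifs with h1 h2
      · subst h1; simp [f]
      · subst h2; simp [f]
      · simpa [Equiv.swap_apply_of_ne_of_ne h1 h2] using hx)
    (fun a x hx => by
      split_ifs with h1 h2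
      · exact hf _ _ x (h1 ▸ hx)
      · exact hf _ _ x (h2 ▸ hx)
      · exact id)
  refine ⟨g, h1, fun x hx => by simp [h2 i x hx, f], fun x hx => ?_,
    fun l h3 h4 x hx => by simp [h2 l x hx, h3, h4]⟩
  rw [h2 j x hx]
  by_cases h3 : j = i
  · subst h3; simp [f]
  · simp [f, h3]

theorem exists_swap_sl {i j : κ} (hij : i ≠ j) : ∃ g ∈ decStab D ⊓ SLV F V,
    (∀ x ∈ D i, g x ∈ D j) ∧ (∀ x ∈ D j, g x ∈ D i) ∧ ∀ l, l ≠ i → l ≠ j → ∀ x ∈ D l, g x = x := by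
  obtain ⟨g, h0, h1, h2, h3⟩ := hD.exists_swap' i j
  obtain ⟨t, -, h4, h5⟩ := hD.exists_fix_det j h0
  refine ⟨_, h4, fun x hx => ?_, fun x hx => ?_, fun l h6 h7 x hx => ?_⟩
  · simpa using (D j).add_mem (h5 (g x)).1 (h1 x hx)
  · rw [LinearEquiv.mul_apply, (h5 _).2 (hD.pr_ne hij (h2 x hx))]; exact h2 x hx
  · rw [LinearEquiv.mul_apply, h3 l h6 h7 x hx, (h5 _).2 (hD.pr_ne h7 hx)]

/-- a pair of homologies with inverse determinants -/
theorem exists_hom_pair {i j : κ} (hij : i ≠ j) {u u' : V} (hu : u ∈ D i) (hu' : u' ∈ D j)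
    {χ χ' : Dual F V} (h : χ u = 1) (h' : χ' u' = 1) {a : F} (ha : a ≠ 0) :
    ∃ t ∈ decStab D ⊓ SLV F V, ∀ x,
      t x = x + ((a - 1) * χ (hD.pr i x)) • u + ((a⁻¹ - 1) * χ' (hD.pr j x)) • u' := by
  obtain ⟨t, h1, h2, h3⟩ := hD.exists_hom hu (χ := (a - 1) • χ) (by simpa [h] using ha)
  obtain ⟨t', h1', h2', h3'⟩ := hD.exists_hom hu' (χ := (a⁻¹ - 1) • χ') (by simpa [h'] using ha)
  refine ⟨t * t', ⟨mul_mem h1 h1', mem_SLV.2 ?_⟩, fun x => ?_⟩
  · rw [LinearEquiv.coe_toLinearMap_mul, map_mul, h3, h3']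
    simp [h, h', ha]
  · simp [h2, h2', hD.pr_ne hij.symm hu', add_right_comm]

theorem exists_out {g : V ≃ₗ[F] V} (hg : g ∉ decStab D) : ∃ i, ∃ u ∈ D i, ∀ l, g u ∉ D l := by
  by_contra! h
  refine hg (hD.mem_decStab fun i => ?_)
  obtain ⟨u, hu, u0⟩ := hD.exists_ne_zero i
  obtain ⟨j, hj⟩ := h i u hu
  refine ⟨j, fun x hx => ?_⟩
  by_contra h1
  obtain ⟨j', hj'⟩ := h i x hx
  obtain ⟨l, hl⟩ := h i (u + x) (add_mem hu hx)
  have h2 : j ≠ j' := by rintro rfl; exact h1 hj'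
  refine hD.notMem_of_two h2 ?_ ?_ l hl
  · simpa [hD.pr_self hj, hD.pr_ne h2.symm hj'] using u0
  · simp only [map_add, hD.pr_self hj', hD.pr_ne h2 hj, zero_add]
    rintro h3; exact h1 (h3 ▸ zero_mem _)

theorem exists_notMem_decStab (ht : 2 ≤ Fintype.card κ) : ∃ g ∈ SLV F V, g ∉ decStab D := by
  obtain ⟨i, j, hij⟩ := Fintype.exists_pair_of_one_lt_card ht
  obtain ⟨u, hu, u0⟩ := hD.exists_ne_zero i
  obtain ⟨v, hv, v0⟩ := hD.exists_ne_zero j
  obtain ⟨χ, hχ⟩ := exists_dual_one' (F := F) u0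
  have h : (χ ∘ₗ hD.pr i) v = 0 := by simp [hD.pr_ne hij.symm hv]
  refine ⟨_, transvection_mem_SLV h, fun hg => ?_⟩
  obtain ⟨l, hl⟩ := exists_mem hg hu
  refine hD.notMem_of_two hij ?_ ?_ l hl <;>
    simp [LinearMap.transvection.apply, hD.pr_self hu, hχ, hD.pr_self hv, hD.pr_ne hij hu,
      hD.pr_ne hij.symm hv, u0, v0]

variable {X : Subgroup (V ≃ₗ[F] V)} (hX : decStab D ⊓ SLV F V ≤ X)
include hX

theorem tv_loc {i : κ} {v : V} (hv : v ∈ D i) {φ : Dual F V} (h : φ v = 0) :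
    TV X (φ ∘ₗ hD.pr i) v := by
  obtain ⟨t, h1, h2, h3⟩ := hD.exists_hom hv (χ := φ) (by simp [h])
  exact ⟨t, hX ⟨h1, mem_SLV.2 (by simp [h3, h])⟩, h2⟩

theorem full_of_loc {i j : κ} (hij : j ≠ i) {v : V} (hv : v ∈ D i)
    (h : ∀ χ : Dual F V, TV X (χ ∘ₗ hD.pr j) v) : Full X v := by
  have h1 : ∀ l, ∀ φ : Dual F V, φ v = 0 → TV X (φ ∘ₗ hD.pr l) v := fun l φ hφ => by
    by_cases hl : l = i
    · exact hl ▸ hD.tv_loc hX hv hφ
    by_cases hl' : l = j
    · exact hl' ▸ h φ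
    obtain ⟨g, hg, h2, h3, h4⟩ := hD.exists_swap_sl (Ne.symm hl')
    have := (h (φ ∘ₗ g)).conj (hX hg) (ψ := φ ∘ₗ hD.pr l) fun x => by
      induction x using hD.induction with
      | h m x hx =>
        by_cases h5 : m = j
        · subst h5; simp [hD.pr_self hx, hD.pr_self (h2 x hx)]
        by_cases h6 : m = l
        · subst h6; simp [hD.pr_ne hl' hx, hD.pr_ne (Ne.symm hl') (h3 x hx)]
        · simp [h4 m h5 h6 x hx, hD.pr_ne h5 hx, hD.pr_ne h6 hx]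
      | h0 => simp
      | hadd x y hx hy => simp only [map_add, hx, hy]
    rwa [h4 i hij.symm (Ne.symm hl) v hv] at this
  intro φ hφ
  have h2 : ∀ s : Finset κ, TV X (∑ l ∈ s, φ ∘ₗ hD.pr l) v := fun s => by
    induction s using Finset.induction with
    | empty => simpa using TV.zero_left v
    | insert l s hl ih =>
      rw [Finset.sum_insert hl]
      refine (h1 l φ hφ).add_left ih ?_
      simp only [LinearMap.comp_apply, hD.pr_of_mem hv]
      split_ifs <;> simp [hφ]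
  convert h2 Finset.univ
  ext x
  simp [← map_sum, hD.sum_pr]

theorem SLV_le_of_full {i : κ} {v : V} (hv : v ∈ D i) (v0 : v ≠ 0) (h : Full X v) :
    SLV F V ≤ X := by
  have key : ∀ i, ∀ v ∈ D i, v ≠ 0 → Full X v → D i ≤ fullSub X := fun i v hv v0 h u hu => by
    by_cases h1 : u ∈ F ∙ v
    · obtain ⟨c, rfl⟩ := Submodule.mem_span_singleton.1 h1
      exact h.smul c
    obtain ⟨χ, h2, h3⟩ := exists_dual_zero_one (notMem_span_swap v0 h1)
    obtain ⟨g, hg, h4⟩ := hD.tv_loc hX hu h3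
    have h5 : g v ∈ fullSub X := h.conj hg
    rw [h4, LinearMap.comp_apply, hD.pr_self hv, h2, one_smul] at h5
    exact ((fullSub X).add_mem_iff_right h).1 h5
  refine SLV_le_of_fullSub (hD.pr_mem_of_le fun l => ?_)
  by_cases hl : i = l
  · exact hl ▸ key i v hv v0 h
  obtain ⟨g, hg, h2, -⟩ := hD.exists_swap_sl hl
  exact key l _ (h2 v hv) (by simpa using v0) (h.conj (hX hg))

variable (hk : 2 ≤ k)
include hk

omit hX in
theorem exists_notMem_span (i : κ) (w : V) : ∃ v ∈ D i, v ∉ F ∙ w :=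
  exists_notMem_of_finrank_lt (by
    have := finrank_span_singleton_le (F := F) w
    have := hD.dim i
    omega)

theorem SLV_le_of_tv_mem {i j : κ} (hij : j ≠ i) {v u : V} (hv : v ∈ D i) (v0 : v ≠ 0)
    {ψ : Dual F V} (hψ : ψ v = 0) (h : TV X ψ v) (hu : u ∈ D j) (hψu : ψ u ≠ 0) : SLV F V ≤ X := by
  refine hD.SLV_le_of_full hX hv v0 (hD.full_of_loc hX hij hv fun χ => ?_)
  have key : ∀ u ∈ D j, ψ u = 1 → ∀ χ : Dual F V, χ u = 0 → TV X (χ ∘ₗ hD.pr j) v :=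
    fun u hu h1 χ h2 => by
      simpa [h1] using h.comm (hD.tv_loc hX hu h2) hψ (by simp [hD.pr_self hu, h2])
        (by simp [hD.pr_ne hij.symm hv])
  obtain ⟨u₀, hu₀, h0⟩ : ∃ u₀ ∈ D j, ψ u₀ = 1 := ⟨(ψ u)⁻¹ • u, (D j).smul_mem _ hu, by simp [hψu]⟩
  obtain ⟨u₁, hu₁, h1⟩ := hD.exists_notMem_span hk j u₀
  have h2 : u₀ ∉ F ∙ (u₁ + (1 - ψ u₁) • u₀) := notMem_span_swap (by rintro rfl; simp at h0)
    fun h2 => h1 (by
      simpa using sub_mem h2 (Submodule.smul_mem _ (1 - ψ u₁) (Submodule.mem_span_singleton_self u₀)))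
  obtain ⟨η, h3, h4⟩ := exists_dual_zero_one h2
  have := (key u₀ hu₀ h0 (χ - χ u₀ • η) (by simp [h3])).add_left
    (key _ (add_mem hu₁ ((D j).smul_mem (1 - ψ u₁) hu₀)) (by simp [h0]) (χ u₀ • η)
      (by rw [LinearMap.smul_apply, h4, smul_zero])) (by simp [hD.pr_ne hij.symm hv])
  rwa [← LinearMap.add_comp, sub_add_cancel] at this

theorem SLV_le_of_tv₁ {i j : κ} (hij : j ≠ i) {v u w : V} (hv : v ∈ D i) (v0 : v ≠ 0)
    {ψ : Dual F V} (hψ : ψ v = 0) (hw : ψ w = 0) (h : TV X ψ w) (hwv : hD.pr i w ∉ F ∙ v)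
    (hu : u ∈ D j) (hψu : ψ u ≠ 0) : SLV F V ≤ X := by
  obtain ⟨χ, h1, h2⟩ := exists_dual_zero_one hwv
  refine hD.SLV_le_of_tv_mem hX hk hij hv v0 hψ ?_ hu hψu
  simpa [h1] using (hD.tv_loc hX hv h2).comm h (by simp [hD.pr_self hv, h2]) hw hψ

theorem SLV_le_of_tv₂ {i j : κ} (hij : j ≠ i) {v w : V} (hv : v ∈ D j) {ψ : Dual F V}
    (hψ : ψ v ≠ 0) (hw : ψ w = 0) (h : TV X ψ w) (hwv : hD.pr j w ∈ F ∙ v)
    (hi : hD.pr i w ≠ 0) : SLV F V ≤ X := by
  obtain ⟨u, hu, h1⟩ := hD.exists_notMem_span hk j v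
  obtain ⟨χ, h2, h3⟩ := exists_dual_zero_one h1
  obtain ⟨c, hc⟩ := Submodule.mem_span_singleton.1 hwv
  have h4 : (χ ∘ₗ hD.pr j) w = 0 := by simp [← hc, h3]
  have h5 := h.comm (hD.tv_loc hX hv h3) hw (by simp [hD.pr_self hv, h3]) h4
  obtain ⟨v', hv', h6⟩ := hD.exists_notMem_span hk i (ψ v • hD.pr i w)
  refine hD.SLV_le_of_tv₁ hX hk hij hv' (by rintro rfl; simp at h6) (by simp [hD.pr_ne hij.symm hv'])
    (by rw [map_smul, h4, smul_zero]) h5 ?_ hu (by simp [hD.pr_self hu, h2])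
  rw [map_smul]
  exact notMem_span_swap (smul_ne_zero hψ hi) h6

theorem SLV_le_of_tv_out [Fintype F]
    (hk' : 3 ≤ k ∨ 3 ≤ Fintype.card F ∧ 3 ≤ Fintype.card κ ∨ 4 ≤ Fintype.card F)
    {w : V} {ψ : Dual F V} (hw : ψ w = 0) (h : TV X ψ w) (hψ : ψ ≠ 0) (hout : ∀ l, w ∉ D l) :
    SLV F V ≤ X := by
  by_contra hne
  obtain ⟨l, u, hu, hψu⟩ : ∃ l, ∃ u ∈ D l, ψ u ≠ 0 := by
    by_contra! h1
    exact hψ (hD.hom_ext h1)
  obtain ⟨i, hil, hi⟩ := hD.exists_of_notMem (hout l)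
  have hb : ∀ j, ψ (hD.pr j w) = 0 := fun j => by
    by_contra h1
    obtain ⟨i, hij, hi⟩ := hD.exists_of_notMem (hout j)
    exact hne (hD.SLV_le_of_tv₂ hX hk hij.symm (hD.pr_mem j w) h1 hw h
      (Submodule.mem_span_singleton_self _) hi)
  have hb' : ∀ {w' : V}, ψ w' = 0 → TV X ψ w' → hD.pr l w' = 0 → hD.pr i w' = 0 :=
    fun h1 h2 h3 => by
      by_contra h4
      exact hne (hD.SLV_le_of_tv₂ hX hk hil.symm hu hψu h1 h2 (by simp [h3]) h4)
  have hl : hD.pr l w ≠ 0 := fun h1 => hi (hb' hw h h1)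
  obtain ⟨χ, hχ⟩ := exists_dual_one' (F := F) hi
  by_cases h3 : 3 ≤ k
  · obtain ⟨v, ⟨hv, hv'⟩, h4⟩ := exists_notMem_of_finrank_lt (U := F ∙ hD.pr i w)
      (W := D i ⊓ LinearMap.ker ψ) (by
        have := finrank_span_singleton_le (F := F) (hD.pr i w)
        have := finrank_inf_ker_ge (D i) ψ
        have := hD.dim i
        omega)
    exact hne (hD.SLV_le_of_tv₁ hX hk hil.symm hv (by rintro rfl; simp at h4) hv' hw h
      (notMem_span_swap hi h4) hu hψu)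
  by_cases h4 : 3 ≤ Fintype.card κ
  · obtain ⟨m, hm⟩ : ∃ m, m ∉ ({i, l} : Finset κ) :=
      exists_notMem_of_card_lt (Finset.card_le_two.trans_lt h4)
    simp only [Finset.mem_insert, Finset.mem_singleton, not_or] at hm
    obtain ⟨u', hu', h5, h6⟩ : ∃ u' ∈ D m, u' ≠ 0 ∧ ψ u' = 0 := by
      obtain ⟨u', ⟨h5, h6⟩, h7⟩ := exists_notMem_of_finrank_lt (U := ⊥)
        (W := D m ⊓ LinearMap.ker ψ) (by
          have := finrank_inf_ker_ge (D m) ψ
          have := hD.dim m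
          rw [finrank_bot]; omega)
      exact ⟨u', h5, h7, h6⟩
    obtain ⟨χ', hχ'⟩ := exists_dual_one' (F := F) h5
    obtain ⟨a, a0, a1⟩ := exists_ne_zero_one (F := F) (by omega)
    obtain ⟨t, ht, h7⟩ := hD.exists_hom_pair (Ne.symm hm.1) (hD.pr_mem i w) hu' hχ hχ' a0
    have h8 := (h.conj (hX ht) (ψ := ψ) fun x => by simp [h7, hb, h6]).sub_right h hw
    have := hb' (by simp [h7, hb, h6]) h8 (by
      simp [h7, hD.pr_pr_ne hil, hD.pr_ne hm.2 hu'])
    simp [h7, hχ, hD.pr_ne hm.1 hu', hi, sub_eq_zero, a1] at this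
  by_cases h5 : 5 ≤ Fintype.card F
  · obtain ⟨χ', hχ'⟩ := exists_dual_one' (F := F) hl
    have key : ∀ a : F, a ≠ 0 → TV X ψ (w + (a - 1) • hD.pr l w + (a⁻¹ - 1) • hD.pr i w) :=
      fun a a0 => by
        obtain ⟨t, ht, h7⟩ := hD.exists_hom_pair hil.symm (hD.pr_mem l w) (hD.pr_mem i w) hχ' hχ a0
        simpa [h7, hχ, hχ'] using h.conj (hX ht) (ψ := ψ) fun x => by simp [h7, hb]
    obtain ⟨a, h6, h7⟩ := avoid22 (F := F) h5 (a := 1) (b := 1) (c := 0) (a' := 1) (b' := 1)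
      (c' := 1) (by simp) (by simp)
    have a0 : a ≠ 0 := by rintro rfl; simp at h6
    have a1 : 1 + a ≠ 0 := fun h8 => h6 (by linear_combination a * h8)
    have := hb' (by simp [hw, hb]) (((key a a0).add_right h hw).sub_right (key _ a1)
      (by simp [hw, hb])) (by simp [hD.pr_pr_ne hil]; module)
    simp only [map_add, map_sub, map_smul, hD.pr_pr_ne hil.symm, pr_pr] at this
    refine smul_ne_zero (r := a⁻¹ + 1 - (1 + a)⁻¹) (fun h8 => h7 ?_) hi (by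
      linear_combination (norm := module) this)
    field_simp at h8
    linear_combination h8
  · obtain ⟨a, a0, a1⟩ := exists_ne_zero_one (F := F) (by omega)
    have h6 : a ^ finrank F V = a := by
      have := Fintype.one_lt_card_iff_nontrivial.2 ⟨i, l, hil⟩
      rw [← hD.mul_eq, show Fintype.card κ * k = Fintype.card F by
        rw [show k = 2 by omega]; omega, FiniteField.pow_card]
    obtain ⟨t, h7, h8, h9⟩ := hD.exists_hom (hD.pr_mem i w) (χ := (a - 1) • χ)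
      (by simpa [hχ] using a0)
    let s := LinearEquiv.smulOfNeZero F V a⁻¹ (inv_ne_zero a0)
    have hs : (s : V →ₗ[F] V) = a⁻¹ • LinearMap.id := rfl
    have h10 := h.conj (g := t * s) (ψ := a • ψ) (hX ⟨mul_mem h7 (hD.mem_decStab' fun j x hx =>
      (D j).smul_mem _ hx), mem_SLV.2 (by
        rw [LinearEquiv.coe_toLinearMap_mul, map_mul, h9, hs, LinearMap.det_smul]
        simp [hχ, h6, a0])⟩) fun x => by simp [h8, s, hb, a0]
    have := hb' (by simp [h8, s, hb, hw]) ((TV.smul_swap a |>.1 h10).sub_right h hw)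
      (by simp [h8, s, hD.pr_pr_ne hil, a0])
    simp [h8, s, hχ, a0, hi, sub_eq_zero, a1] at this

omit hX

/-- The stabiliser of a decomposition into summands of dimension at least two is maximal. -/
theorem maximal_sl_two [Fintype F] (ht : 2 ≤ Fintype.card κ)
    (hk' : 3 ≤ k ∨ 3 ≤ Fintype.card F ∧ 3 ≤ Fintype.card κ ∨ 4 ≤ Fintype.card F) :
    Geo.IsMaximalIn (SLV F V) (decStab D ⊓ SLV F V) := by
  refine isMaximalIn_of inf_le_right ?_ fun X hX hX' g hg hgH => ?_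
  · obtain ⟨g, h1, h2⟩ := hD.exists_notMem_decStab ht
    exact ⟨g, h1, fun h => h2 h.1⟩
  obtain ⟨i, u, hu, h1⟩ := hD.exists_out fun h => hgH ⟨h, hX' hg⟩
  obtain ⟨v, hv, h2⟩ := hD.exists_notMem_span hk i u
  obtain ⟨χ, h3, h4⟩ := exists_dual_zero_one h2
  refine hD.SLV_le_of_tv_out hX hk hk' (by simp [hD.pr_self hu, h4])
    ((hD.tv_loc hX hu h4).conj' hg) (fun h5 => ?_) h1
  simpa [hD.pr_self hv, h3] using congrArg (· (g v)) h5

end Dec

end Cfsg.Agent.H8
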