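import Cfsg.Agent.H8.GLMon

/-!
Overgroups of the monomial group in `SL_n(q)`: the case of a new element fixing a coordinate line.
-/

set_option autoImplicit false
set_option linter.unusedSectionVars false

namespace Cfsg.Agent.H8

open Module H7

variable {F : Type*} [Field F] {V : Type*} [AddCommGroup V] [Module F V] [FiniteDimensional F V]
variable {κ : Type} [Fintype κ] [DecidableEq κ]

theorem TV_diff {X : Subgroup (V ≃ₗ[F] V)} {φ : Dual F V} {v : V} (h : TV X φ v) (hv : φ v = 0)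
    {t : V ≃ₗ[F] V} (ht : t ∈ X) (htv : t v = v) : TV X (φ ∘ₗ t - φ) v := by
  have h1 := h.conj (inv_mem ht) (ψ := φ ∘ₗ t) fun x => by simp
  rw [show t⁻¹ v = v from t.symm_apply_eq.2 htv.symm] at h1
  exact h1.sub_left h (by simp [htv, hv]) hv

theorem exists_sq_ne_one [Fintype F] (hq : 4 ≤ Fintype.card F) :
    ∃ a : F, a ≠ 0 ∧ a - 1 ≠ 0 ∧ a + 1 ≠ 0 := by
  obtain ⟨a, h1, h2⟩ := avoid21 (F := F) hq (a := 1) (b := -1) (c := 0) (d := 1) (e := 1)
    (by simp) (by simp)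
  exact ⟨a, by rintro rfl; simp at h1, fun h => h1 (by linear_combination a * h), by simpa using h2⟩

namespace Dec

variable {D : κ → Submodule F V} (hD : Dec 1 D)
include hD

theorem eq_span {i : κ} {u : V} (hu : u ∈ D i) (u0 : u ≠ 0) : D i = F ∙ u :=
  (Submodule.eq_of_le_of_finrank_eq (by simpa using hu)
    (by rw [finrank_span_singleton u0, hD.dim])).symm

theorem exists_smul {i : κ} {u x : V} (hu : u ∈ D i) (u0 : u ≠ 0) (hx : x ∈ D i) :
    ∃ c : F, x = c • u := by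
  rw [hD.eq_span hu u0] at hx
  exact (Submodule.mem_span_singleton.1 hx).imp fun _ => Eq.symm

theorem apply_mem {i j : κ} {u : V} (hu : u ∈ D i) (u0 : u ≠ 0) {g : V ≃ₗ[F] V} (h : g u ∈ D j) :
    ∀ x ∈ D i, g x ∈ D j := fun x hx => by
  obtain ⟨c, rfl⟩ := hD.exists_smul hu u0 hx
  simpa using (D j).smul_mem c h

theorem pr_eq {b : Basis κ F V} (hb : ∀ i, b i ∈ D i) (i : κ) (x : V) :
    hD.pr i x = b.repr x i • b i := by
  have : hD.pr i = (b.coord i).smulRight (b i) := b.ext fun j => by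
    rw [hD.pr_of_mem (hb j)]
    by_cases h : j = i <;> simp [h]
  simp [this]

theorem exists_basis (w : V) : ∃ b : Basis κ F V, (∀ i, b i ∈ D i) ∧
    ∀ i, hD.pr i w ≠ 0 → b.repr w i = 1 := by
  have : ∀ i, ∃ u ∈ D i, u ≠ 0 ∧ (hD.pr i w ≠ 0 → u = hD.pr i w) := fun i => by
    by_cases h : hD.pr i w = 0
    · obtain ⟨u, h1, h2⟩ := hD.exists_ne_zero i
      exact ⟨u, h1, h2, fun h3 => absurd h h3⟩
    · exact ⟨_, hD.pr_mem i w, h, fun _ => rfl⟩
  choose p h1 h2 h3 using this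
  let b := Basis.mk (hD.indep.linearIndependent D h1 h2) (hD.top ▸ iSup_le fun i => by
    rw [hD.eq_span (h1 i) (h2 i)]
    exact Submodule.span_mono (by simp))
  have hb : ∀ i, b i ∈ D i := fun i => by simpa [b] using h1 i
  refine ⟨b, hb, fun i hi => smul_left_injective F (h2 i) ?_⟩
  have := hD.pr_eq hb i w
  simp only [b, Basis.mk_apply] at this
  simp only [one_smul]
  exact this.symm.trans (h3 i hi).symm

theorem exists_diag {i j : κ} (hij : i ≠ j) {a : F} (ha : a ≠ 0) :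
    ∃ t ∈ decStab D ⊓ SLV F V, ∀ x, t x = x + (a - 1) • hD.pr i x + (a⁻¹ - 1) • hD.pr j x := by
  obtain ⟨u, hu, u0⟩ := hD.exists_ne_zero i
  obtain ⟨u', hu', u0'⟩ := hD.exists_ne_zero j
  obtain ⟨χ, hχ⟩ := exists_dual_one' (F := F) u0
  obtain ⟨χ', hχ'⟩ := exists_dual_one' (F := F) u0'
  obtain ⟨t, h1, h2⟩ := hD.exists_hom_pair hij hu hu' hχ hχ' ha
  refine ⟨t, h1, fun x => ?_⟩
  obtain ⟨c, hc⟩ := hD.exists_smul hu u0 (hD.pr_mem i x)
  obtain ⟨c', hc'⟩ := hD.exists_smul hu' u0' (hD.pr_mem j x)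
  simp [h2, hc, hc', hχ, hχ', smul_smul]

theorem equiv_mem {b : Basis κ F V} (hb : ∀ i, b i ∈ D i) (σ : Equiv.Perm κ) :
    b.equiv b σ ∈ decStab D :=
  hD.mem_decStab fun i => ⟨σ i, hD.apply_mem (hb i) (b.ne_zero i) (by simpa using hb _)⟩

variable [Fintype F] {X : Subgroup (V ≃ₗ[F] V)} (hX : decStab D ⊓ SLV F V ≤ X)
  (hq : 5 ≤ Fintype.card F) (hn : 4 ≤ Fintype.card κ)
include hX hq hn

theorem SLV_le_of_tv_one {i : κ} {v : V} (hv : v ∈ D i) (v0 : v ≠ 0) {φ : Dual F V} (h0 : φ ≠ 0)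
    (hφ : φ v = 0) (h : TV X φ v) : SLV F V ≤ X := by
  obtain ⟨j, u, hu, hφu⟩ : ∃ l, ∃ u ∈ D l, φ u ≠ 0 := by
    by_contra! h1
    exact h0 (hD.hom_ext h1)
  have hji : j ≠ i := by
    rintro rfl
    obtain ⟨c, rfl⟩ := hD.exists_smul hv v0 hu
    simp [hφ] at hφu
  obtain ⟨l, hl⟩ := exists_notMem_of_card_lt (s := {i, j}) (Finset.card_le_two.trans_lt (by omega))
  obtain ⟨m, hm⟩ := exists_notMem_of_card_lt (s := {i, j, l}) (Finset.card_le_three.trans_lt hn)
  simp only [Finset.mem_insert, Finset.mem_singleton, not_or] at hl hm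
  obtain ⟨a, a0, a1⟩ := exists_ne_zero_one (F := F) (by omega)
  obtain ⟨t, h1, h2⟩ := hD.exists_diag (Ne.symm hl.2) a0
  obtain ⟨t', h1', h2'⟩ := hD.exists_diag (Ne.symm hm.2.1) a0
  have h3 : t v = v := by simp [h2, hD.pr_ne hji.symm hv, hD.pr_ne (Ne.symm hl.1) hv]
  have h4 := TV_diff (TV_diff h hφ (hX h1) h3) (by simp [h3, hφ]) (hX h1')
    (by simp [h2', hD.pr_ne hji.symm hv, hD.pr_ne (Ne.symm hm.1) hv])
  have h5 : TV X (((a - 1) * (a - 1)) • φ ∘ₗ hD.pr j) v := by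
    convert h4 using 1
    ext x
    simp [h2, h2', hD.pr_pr_ne hl.2, hD.pr_pr_ne (Ne.symm hl.2), hD.pr_pr_ne hm.2.1,
      hD.pr_pr_ne hm.2.2]
    ring
  refine hD.SLV_le_of_full hX hv v0 (hD.full_of_loc hX hji hv fun χ => ?_)
  have a2 : a - 1 ≠ 0 := sub_ne_zero.2 a1
  have h6 : χ ∘ₗ hD.pr j =
      (χ u / (φ u * (a - 1) * (a - 1))) • ((a - 1) * (a - 1)) • φ ∘ₗ hD.pr j := by
    ext x
    obtain ⟨c, hc⟩ := hD.exists_smul hu (by rintro rfl; simp at hφu) (hD.pr_mem j x)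
    simp [hc]; field_simp
  rw [h6]
  generalize χ u / (φ u * (a - 1) * (a - 1)) = β
  by_cases β0 : β = 0
  · simpa [β0] using TV.zero_left v
  obtain ⟨s, h7, h8⟩ := hD.exists_diag (Ne.symm hl.1) β0
  have := h5.conj (hX h7) (ψ := ((a - 1) * (a - 1)) • φ ∘ₗ hD.pr j) fun x => by
    simp [h8, hD.pr_pr_ne hji.symm, hD.pr_pr_ne hl.2]
  rw [TV.smul_swap]
  simpa [h8, hD.pr_self hv, hD.pr_ne (Ne.symm hl.1) hv, sub_smul] using this

theorem SLV_le_of_pair {z : κ} {g₁ g₂ : V ≃ₗ[F] V} (h₁ : g₁ ∈ X) (h₂ : g₂ ∈ X)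
    (h : ∀ x, g₁ x - g₂ x ∈ D z) (h' : ∀ x ∈ D z, g₁ x = g₂ x) (hz : ∀ x ∈ D z, g₂ x ∈ D z)
    (hne : g₁ ≠ g₂) : SLV F V ≤ X := by
  obtain ⟨u, hu, u0⟩ := hD.exists_ne_zero z
  obtain ⟨χ, hχ⟩ := exists_dual_one' (F := F) (v := g₂ u) (by simpa using u0)
  let φ : Dual F V := χ ∘ₗ ((g₁ * g₂⁻¹ : V ≃ₗ[F] V).toLinearMap - LinearMap.id)
  have h1 : ∀ x, (g₁ * g₂⁻¹) x = x + φ x • g₂ u := fun x => by
    obtain ⟨x, rfl⟩ := g₂.surjective x
    obtain ⟨c, hc⟩ := hD.exists_smul (hz u hu) (by simpa using u0) (h x)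
    simp [φ, ← map_sub, hc, hχ, ← sub_eq_iff_eq_add']
  refine hD.SLV_le_of_tv_one hX hq hn (hz u hu) (by simpa using u0) (φ := φ) (fun h0 => hne ?_)
    (by simp [φ, h' u hu]) ⟨_, mul_mem h₁ (inv_mem h₂), h1⟩
  exact mul_inv_eq_one.1 (LinearEquiv.ext fun x => by simp [h1, h0])

theorem SLV_le_of_fix {z : κ} {g : V ≃ₗ[F] V} (hg : g ∈ X) (hz : ∀ x ∈ D z, g x ∈ D z)
    (hg' : g ∉ decStab D) : SLV F V ≤ X := by
  obtain ⟨b, hb, -⟩ := hD.exists_basis 0
  let π : V →ₗ[F] ({i // i ≠ z} → F) := LinearMap.pi fun i => b.coord i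
  let ι : ({i // i ≠ z} → F) →ₗ[F] V := Fintype.linearCombination F fun i => b i
  have hπ : ∀ x i, π x i = b.repr x i := fun _ _ => rfl
  have h1 : ∀ w, π (ι w) = w := fun w => by
    ext i
    simp [hπ, ι, Fintype.linearCombination_apply, Finsupp.single_apply, Subtype.val_inj]
  have h2 : ∀ x, π x = 0 ↔ x ∈ D z := fun x => by
    simp only [hD.mem_iff, hD.pr_eq hb, smul_eq_zero, b.ne_zero, or_false, funext_iff, hπ,
      Subtype.forall, Pi.zero_apply]
  have h3 : ∀ i : {i // i ≠ z}, π (b i) = Pi.basisFun F _ i := fun i => by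
    ext j; simp [hπ, Finsupp.single_apply, Subtype.val_inj, Pi.single_apply, eq_comm]
  have h4 : ∀ x, π (hD.pr z x) = 0 := fun x => (h2 _).2 (hD.pr_mem z x)
  let Y : Subgroup (({i // i ≠ z} → F) ≃ₗ[F] ({i // i ≠ z} → F)) :=
    { carrier := {y | ∃ g ∈ X, ∀ x, π (g x) = y (π x)}
      one_mem' := ⟨1, one_mem _, fun _ => rfl⟩
      mul_mem' := by
        rintro y y' ⟨g, hg, h⟩ ⟨g', hg', h'⟩
        exact ⟨g * g', mul_mem hg hg', fun x => by simp [h, h']⟩
      inv_mem' := by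
        rintro y ⟨g, hg, h⟩
        exact ⟨g⁻¹, inv_mem hg, fun x => y.injective (by simp [← h])⟩ }
  have lift : ∀ g ∈ X, (∀ x ∈ D z, g x ∈ D z) → ∃ y ∈ Y, ∀ x, π (g x) = y (π x) := fun g hg hz => by
    have h5 : ∀ x, π (g x) = π (g (ι (π x))) := fun x => by
      rw [← sub_eq_zero, ← map_sub, ← map_sub, h2]
      exact hz _ ((h2 _).1 (by simp [h1]))
    have h6 : Function.Injective (π ∘ₗ g ∘ₗ ι) := by
      rw [injective_iff_map_eq_zero]
      intro w hw
      have := (h2 _).1 hw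
      rw [← hD.map_eq_of_le hz] at this
      obtain ⟨x, hx, h7⟩ := this
      rw [← h1 w, ← g.injective h7, (h2 _).2 hx]
    exact ⟨LinearEquiv.ofInjectiveEndo _ h6, ⟨g, hg, h5⟩, h5⟩
  obtain ⟨β, β0, β1, β2⟩ := exists_sq_ne_one (F := F) (by omega)
  have β3 : β - β⁻¹ ≠ 0 := fun h => mul_ne_zero β1 β2 (by
    field_simp at h; linear_combination h)
  rcases mono_or_elem (Y := Y) (c := Pi.basisFun F _) hq (by simp; omega) (fun j β β0 => by
      obtain ⟨t, h5, h6⟩ := hD.exists_diag j.2 β0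
      obtain ⟨y, h7, h8⟩ := lift t (hX h5) fun x hx => by
        simpa [h6, hD.pr_ne j.2.symm hx, hD.pr_self hx] using (D z).add_mem hx ((D z).smul_mem _ hx)
      refine ⟨y, h7, fun w => ?_⟩
      rw [← h1 w, ← h8]
      simp [h6, h4, hD.pr_eq hb j, h3, ← hπ, smul_smul])
    (fun j l => by
      obtain ⟨t, -, h5, h6⟩ := hD.exists_fix_det z (hD.equiv_mem hb (Equiv.swap j l))
      obtain ⟨y, h7, h8⟩ := lift _ (hX h5) (hD.apply_mem (hb z) (b.ne_zero z) (by
        simpa [Equiv.swap_apply_of_ne_of_ne j.2.symm l.2.symm] using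
          (D z).add_mem (h6 (b z)).1 (hb z)))
      refine ⟨y, h7, fun m => ?_⟩
      rw [← h3, ← h3, ← h8, ← sub_eq_zero, ← map_sub, h2, Subtype.val_injective.map_swap]
      simpa using (h6 _).1) with h | ⟨i, j, a, hij, a0, y, ⟨x, hx, h5⟩, h6⟩
  · obtain ⟨y, h5, h6⟩ := lift g hg hz
    obtain ⟨m, u, hu, h7⟩ := hD.exists_out hg'
    have hm : m ≠ z := by rintro rfl; exact h7 _ (hz u hu)
    have h7' : ∀ l, g (b m) ∉ D l := fun l hl => h7 l (hD.apply_mem (hb m) (b.ne_zero m) hl u hu)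
    obtain ⟨j, hj⟩ := h y h5 ⟨m, hm⟩
    obtain ⟨c, hc⟩ := Submodule.mem_span_singleton.1 hj
    have h8 : g (b m) - hD.pr j (g (b m)) ∈ D z := by
      rw [← h2, map_sub, hD.pr_eq hb, map_smul, ← hπ, h6, h3 ⟨m, hm⟩, h3, ← hc]
      simp
    have h9 : ∀ l, l ≠ m → hD.pr j (g (b l)) = 0 := fun l hl => by
      by_cases hl' : l = z
      · exact hD.pr_ne j.2.symm (hz _ (hl' ▸ hb l))
      obtain ⟨j', hj'⟩ := h y h5 ⟨l, hl'⟩
      obtain ⟨c', hc'⟩ := Submodule.mem_span_singleton.1 hj'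
      rw [hD.pr_eq hb, ← hπ, h6, h3 ⟨l, hl'⟩, ← hc']
      by_cases h9 : j = j'
      · subst h9
        have : c • Pi.basisFun F _ ⟨l, hl'⟩ = c' • Pi.basisFun F {i // i ≠ z} ⟨m, hm⟩ :=
          y.injective (by rw [map_smul, map_smul, ← hc, ← hc', smul_comm])
        have h10 : c' = 0 := by simpa [hl.symm] using (congrFun this ⟨m, hm⟩).symm
        simp [h10]
      · simp [h9]
    obtain ⟨t, k1, k2⟩ := hD.exists_diag hm β0
    obtain ⟨t', k1', k2'⟩ := hD.exists_diag j.2 β0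
    refine hD.SLV_le_of_pair hX hq hn (z := z) (mul_mem hg (hX k1)) (mul_mem (hX k1') hg)
      (fun x => ?_) (fun x hx => ?_) (fun x hx => ?_) fun h10 => ?_
    · have : g (hD.pr m x) - hD.pr j (g x) ∈ D z := by
        induction x using hD.induction with
        | h l x hx =>
          obtain ⟨c, rfl⟩ := hD.exists_smul (hb l) (b.ne_zero l) hx
          by_cases hl : l = m
          · subst hl; simpa [hD.pr_self (hb l), smul_sub] using (D z).smul_mem c h8
          · simp [hD.pr_ne hl (hb l), h9 l hl]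
        | h0 => simp
        | hadd x y hx hy => simpa [add_sub_add_comm] using add_mem hx hy
      convert add_mem ((D z).smul_mem (β - 1) this) ((D z).smul_mem (β⁻¹ - 1)
        (sub_mem (hz _ (hD.pr_mem z x)) (hD.pr_mem z (g x)))) using 1
      simp [k2, k2']; module
    · simp [k2, k2', hD.pr_self hx, hD.pr_self (hz x hx), hD.pr_ne hm.symm hx,
        hD.pr_ne j.2.symm (hz x hx)]
    · simpa [k2', hD.pr_self (hz x hx), hD.pr_ne j.2.symm (hz x hx)] using
        (D z).add_mem (hz x hx) ((D z).smul_mem _ (hz x hx))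
    · have h11 := congrArg (fun s => hD.pr z (s (b m))) h10
      simp [k2, k2', hD.pr_self (hb m), hD.pr_ne hm (hb m), hD.pr_pr_ne j.2] at h11
      have h12 : hD.pr z (g (b m)) = 0 := (smul_eq_zero.1 (by
        linear_combination (norm := module) h11)).resolve_left β3
      have h13 := hD.pr_self h8
      rw [map_sub, h12, hD.pr_pr_ne j.2, sub_zero, eq_comm, sub_eq_zero] at h13
      exact h7' j (h13 ▸ hD.pr_mem _ _)
  · have h7 : ∀ v, π (x v) = π v + (a * b.repr v j) • π (b i) := fun v => by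
      simp [h5, h6, h3, hπ]
    have h8 : ∀ v ∈ D z, x v ∈ D z := fun v hv => by
      rw [← h2, h7, ← hπ, (h2 _).2 hv]; simp
    obtain ⟨l, hl⟩ := exists_notMem_of_card_lt (s := {z, i.1, j.1}) (Finset.card_le_three.trans_lt hn)
    simp only [Finset.mem_insert, Finset.mem_singleton, not_or] at hl
    have hij' : i.1 ≠ j.1 := Subtype.val_injective.ne hij
    obtain ⟨t, k1, k2⟩ := hD.exists_diag (Ne.symm hl.1) β0
    by_cases h9 : x * t = t * x
    swap
    · refine hD.SLV_le_of_pair hX hq hn (z := z) (mul_mem hx (hX k1)) (mul_mem (hX k1) hx)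
        (fun v => ?_) (fun v hv => ?_) (fun v hv => ?_) h9
      · rw [← h2]
        ext m
        have e1 := congrFun (h7 v) ⟨l, hl.1⟩
        simp [hπ, Ne.symm hl.2.1] at e1
        simp [k2, h7, h4, hD.pr_eq hb, j.2.symm, hl.2.2, e1, (h2 _).2 (hb z)]
      · simp [k2, hD.pr_self hv, hD.pr_self (h8 v hv), hD.pr_ne (Ne.symm hl.1) hv,
          hD.pr_ne (Ne.symm hl.1) (h8 v hv)]
      · simpa [k2, hD.pr_self (h8 v hv), hD.pr_ne (Ne.symm hl.1) (h8 v hv)] using
          (D z).add_mem (h8 v hv) ((D z).smul_mem _ (h8 v hv))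
    have h10 : ∀ m, m ≠ z → b.repr (x (b m)) z = 0 := fun m hm => by
      have h11 := congrArg (fun s => b.repr (s (b m)) z) h9
      by_cases hml : m = l
      · subst hml
        simp [k2, hD.pr_eq hb, hm, hm.symm] at h11
        exact h11.resolve_left fun h => β3 (by rw [h, sub_self])
      · simpa [k2, hD.pr_eq hb, hm, hm.symm, hml, hl.1, Ne.symm hl.1, β1] using h11
    have h11 : ∀ v, x v = v + (a * b.repr v j) • b i +
        ((b.repr (x (b z)) z - 1) * b.repr v z) • b z := fun v => b.ext_elem fun m => by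
      by_cases hm : m = z
      · subst hm
        have : b.coord m ∘ₗ x = b.repr (x (b m)) m • b.coord m := b.ext fun l => by
          by_cases hl : l = m
          · simp [hl]
          · simp [h10 l hl, hl]
        have := congrArg (· v) this
        simp at this
        simp [this, i.2]; ring
      · have := congrFun (h7 v) ⟨m, hm⟩
        by_cases hi : i.1 = m <;> simpa [hπ, hm, Ne.symm hm, hi] using this
    generalize b.repr (x (b z)) z - 1 = η at h11
    obtain ⟨s, k3, k4⟩ := hD.exists_diag (Ne.symm hl.2.1) β0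
    have h12 : Has X fun v => v + (a * b.repr v j) • b i + (η * b.repr v z) • b z := ⟨x, hx, h11⟩
    have h13 := h12.conj (hX k3)
      (T' := fun v => v + (a * β * b.repr v j) • b i + (η * b.repr v z) • b z) fun v => by
        simp [k4, hD.pr_eq hb, hij', hl.1, hl.2.1, hl.2.2, i.2, i.2.symm, Ne.symm hl.1,
          Ne.symm hl.2.1]
        module
    refine hD.SLV_le_of_tv_one hX hq hn (hb i) (b.ne_zero i) (φ := (a * (β - 1)) • b.coord j)
      (fun h14 => ?_) (by simp [hij']) (Has.of_comp_left h13 h12 fun v => ?_)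
    · simpa [a0, β1] using congrArg (· (b j)) h14
    · simp [hij', i.2]; module

end Dec

end Cfsg.Agent.H8
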