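import Cfsg.Agent.Tens.PowMat
import Cfsg.Agent.H1.Sp2D
import Cfsg.Agent.H8.OSub

/-!
In characteristic two the tensor wreath subgroups with symplectic factors of dimension two or four
normalise a space of Clifford type, whose normaliser is a proper overgroup.
-/

set_option autoImplicit false
set_option linter.unusedSectionVars false
set_option linter.unusedSimpArgs false

namespace Cfsg.Agent.H8.Spin2

open Module Cfsg.Agent.H7 Cfsg.Agent.H7.Polar Cfsg.Agent.Tens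
open scoped Matrix MatrixGroups

section Abstract

variable {F V : Type*} [Field F] [AddCommGroup V] [Module F V]

/-- Conjugation. -/
def cj (g : V ≃ₗ[F] V) (X : End F V) : End F V := (g : End F V) * X * (g.symm : End F V)

theorem cj_apply (g : V ≃ₗ[F] V) (X : End F V) (v : V) : cj g X v = g (X (g.symm v)) := rfl

theorem cj_mul (g : V ≃ₗ[F] V) (X Y : End F V) : cj g (X * Y) = cj g X * cj g Y :=
  LinearMap.ext fun v => by simp [cj_apply]

theorem cj_add (g : V ≃ₗ[F] V) (X Y : End F V) : cj g (X + Y) = cj g X + cj g Y :=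
  LinearMap.ext fun v => by simp [cj_apply]

theorem cj_zero (g : V ≃ₗ[F] V) : cj g 0 = 0 :=
  LinearMap.ext fun v => by simp [cj_apply]

theorem cj_smul_one (g : V ≃ₗ[F] V) (c : F) : cj g (c • 1) = c • 1 :=
  LinearMap.ext fun v => by simp [cj_apply]

theorem cj_cj (g g' : V ≃ₗ[F] V) (X : End F V) : cj g (cj g' X) = cj (g * g') X :=
  LinearMap.ext fun _ => rfl

theorem cj_one (X : End F V) : cj 1 X = X := LinearMap.ext fun _ => rfl

theorem cj_eq_of {g : V ≃ₗ[F] V} {X Y : End F V} (h : (g : End F V) * X = Y * g) : cj g X = Y :=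
  LinearMap.ext fun v => by
    simpa [cj_apply] using LinearMap.congr_fun h (g.symm v)

/-- The endomorphisms whose commutators with the elements of `S` are scalars. -/
def Cl (S : Set (End F V)) : Set (End F V) := {X | ∀ N ∈ S, ∃ c : F, N * X = X * N + c • 1}

theorem Cl.add {S : Set (End F V)} {X Y : End F V} (hX : X ∈ Cl S) (hY : Y ∈ Cl S) :
    X + Y ∈ Cl S := fun N hN => by
  obtain ⟨c, hc⟩ := hX N hN
  obtain ⟨d, hd⟩ := hY N hN
  exact ⟨c + d, by rw [mul_add, hc, hd, add_mul, add_smul]; abel⟩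

theorem Cl.smul {S : Set (End F V)} {X : End F V} (hX : X ∈ Cl S) (a : F) :
    a • X ∈ Cl S := fun N hN => by
  obtain ⟨c, hc⟩ := hX N hN
  exact ⟨a * c, by rw [mul_smul_comm, hc, smul_add, smul_mul_assoc, mul_smul]⟩

/-- The normaliser of a set of endomorphisms. -/
def Nm (L : Set (End F V)) : Subgroup (V ≃ₗ[F] V) where
  carrier := {g | (∀ X ∈ L, cj g X ∈ L) ∧ ∀ X ∈ L, cj g⁻¹ X ∈ L}
  mul_mem' {a b} ha hb := ⟨fun X hX => by rw [← cj_cj]; exact ha.1 _ (hb.1 _ hX),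
    fun X hX => by rw [mul_inv_rev, ← cj_cj]; exact hb.2 _ (ha.2 _ hX)⟩
  one_mem' := ⟨fun X hX => by rwa [cj_one], fun X hX => by rwa [inv_one, cj_one]⟩
  inv_mem' {a} ha := ⟨ha.2, by rw [inv_inv]; exact ha.1⟩

theorem cj_mem_Cl {S : Set (End F V)} {g : V ≃ₗ[F] V} (hg : ∀ N ∈ S, cj g⁻¹ N ∈ S)
    {X : End F V} (hX : X ∈ Cl S) : cj g X ∈ Cl S := fun N hN => by
  obtain ⟨c, hc⟩ := hX _ (hg N hN)
  have := congrArg (cj g) hc
  rw [cj_add, cj_mul, cj_mul, cj_cj, mul_inv_cancel, cj_one, cj_smul_one] at this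
  exact ⟨c, this⟩

/-- The unipotent automorphism `1 + M`. -/
def u1 (M : End F V) (h : M * M = 0) : V ≃ₗ[F] V :=
  LinearEquiv.ofLinearMap (1 + M) (1 - M)
    (by change (1 + M) * (1 - M) = 1; rw [add_mul, mul_sub, mul_sub, h]; simp)
    (by change (1 - M) * (1 + M) = 1; rw [sub_mul, mul_add, mul_add, h]; simp)

theorem u1_coe (M : End F V) (h : M * M = 0) : (u1 M h : End F V) = 1 + M := rfl

theorem u1_apply (M : End F V) (h : M * M = 0) (v : V) : u1 M h v = v + M v := rfl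

theorem sq_zero {X Y : End F V} (hX : X * X = 0) (h : Commute X Y) : X * Y * (X * Y) = 0 := by
  rw [mul_assoc, ← mul_assoc Y, ← h.eq, mul_assoc, ← mul_assoc, hX, zero_mul]

theorem sq_zero' {X Y : End F V} (hY : Y * Y = 0) (h : Commute X Y) : X * Y * (X * Y) = 0 := by
  rw [h.eq]; exact sq_zero hY h.symm

theorem u1_comm {X Y e f : End F V} (hX : X * X = 0) (hY : Y * Y = 0) (hXY : Commute X Y)
    (hXe : Commute X e) (hXf : Commute X f) (hYe : Commute Y e) (hYf : Commute Y f)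
    (hef : e * f = f * e + 1) :
    u1 (X * e) (sq_zero hX hXe) * u1 (f * Y) (sq_zero' hY hYf.symm) *
      (u1 (X * e) (sq_zero hX hXe))⁻¹ * (u1 (f * Y) (sq_zero' hY hYf.symm))⁻¹ =
      u1 (X * Y) (sq_zero hX hXY) := by
  rw [mul_inv_eq_iff_eq_mul, mul_inv_eq_iff_eq_mul]
  apply LinearEquiv.toLinearMap_injective
  change (1 + X * e) * (1 + f * Y) = (1 + X * Y) * (1 + f * Y) * (1 + X * e)
  have h1 : X * Y * (f * Y) = 0 := by
    rw [← hYf.eq, mul_assoc, ← mul_assoc Y, hY, zero_mul, mul_zero]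
  have h2 : X * Y * (X * e) = 0 := by
    rw [hXY.eq, mul_assoc, ← mul_assoc X, hX, zero_mul, mul_zero]
  have h3 : X * e * (f * Y) = f * Y * (X * e) + X * Y := by
    rw [mul_assoc, ← mul_assoc e, hef, add_mul, mul_add, one_mul, mul_assoc f Y, ← mul_assoc Y,
      ← hXY.eq, mul_assoc X Y, hYe.eq, ← mul_assoc f, ← hXf.eq]
    simp only [mul_assoc]
  simp only [add_mul, mul_add, one_mul, mul_one, h1, h2, h3, zero_mul]
  abel

theorem u1_mul_of {X Y Z : End F V} (hX : X * X = 0) (hY : Y * Y = 0) (hXY : Commute X Y)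
    {a b : F} (ha : X * Z = Z * X + a • 1) (hb : Y * Z = Z * Y + b • 1) :
    (1 + X * Y) * Z = (Z + (a • Y + b • X)) * (1 + X * Y) ∧
      Z * (1 + X * Y) = (1 + X * Y) * (Z + ((-a) • Y + (-b) • X)) := by
  have h1 : X * Y * Z = Z * (X * Y) + (a • Y + b • X) := by
    rw [mul_assoc, hb, mul_add, ← mul_assoc, ha, add_mul]
    simp [mul_assoc, add_assoc]
  have h2 : X * (X * Y) = 0 := by rw [← mul_assoc, hX, zero_mul]
  have h3 : Y * (X * Y) = 0 := by rw [hXY.eq, ← mul_assoc, hY, zero_mul]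
  have h4 : X * Y * X = 0 := by rw [mul_assoc, ← hXY.eq, h2]
  have h5 : X * Y * Y = 0 := by rw [mul_assoc, hY, mul_zero]
  constructor
  · simp only [add_mul, mul_add, one_mul, mul_one, h1, smul_mul_assoc, h2, h3, smul_zero]
    abel
  · simp only [add_mul, mul_add, one_mul, mul_one, h1, mul_smul_comm, h4, h5, smul_zero, neg_smul,
      mul_neg]
    abel

theorem u1_mem_Nm {S : Set (End F V)} {X Y : End F V} (hX : X * X = 0) (hY : Y * Y = 0)
    (hXY : Commute X Y) (h1 : X ∈ S) (h2 : Y ∈ S) (h3 : X ∈ Cl S) (h4 : Y ∈ Cl S) :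
    u1 (X * Y) (sq_zero hX hXY) ∈ Nm (Cl S) := by
  refine ⟨fun Z hZ => ?_, fun Z hZ => ?_⟩
  · obtain ⟨a, ha⟩ := hZ X h1
    obtain ⟨b, hb⟩ := hZ Y h2
    rw [cj_eq_of (u1_mul_of hX hY hXY ha hb).1]
    exact Cl.add hZ (Cl.add (Cl.smul h4 _) (Cl.smul h3 _))
  · obtain ⟨a, ha⟩ := hZ X h1
    obtain ⟨b, hb⟩ := hZ Y h2
    have : cj (u1 (X * Y) (sq_zero hX hXY)) (Z + ((-a) • Y + (-b) • X)) = Z :=
      cj_eq_of (u1_mul_of hX hY hXY ha hb).2.symm
    rw [← this, cj_cj, inv_mul_cancel, cj_one]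
    exact Cl.add hZ (Cl.add (Cl.smul h4 _) (Cl.smul h3 _))

theorem cj_u1 {X Y Z : End F V} (hX : X * X = 0) (hY : Y * Y = 0) (hXY : Commute X Y)
    (ha : X * Z = Z * X + 1) (hb : Commute Y Z) : cj (u1 (X * Y) (sq_zero hX hXY)) Z = Z + Y := by
  have := (u1_mul_of hX hY hXY (a := 1) (b := 0) (Z := Z) (by simpa using ha)
    (by simpa using hb.eq)).1
  rw [cj_eq_of this]
  simp

/-- Four commuting pairs of the Clifford type. -/
structure Four (E1 F1 E2 F2 E3 F3 E4 F4 : End F V) : Prop where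
  s1 : E1 * E1 = 0
  s2 : E2 * E2 = 0
  p1 : E1 * F1 = F1 * E1 + 1
  p2 : E2 * F2 = F2 * E2 + 1
  p3 : E3 * F3 = F3 * E3 + 1
  p4 : E4 * F4 = F4 * E4 + 1
  e1e2 : Commute E1 E2
  e1e3 : Commute E1 E3
  e1e4 : Commute E1 E4
  e1f3 : Commute E1 F3
  e1f4 : Commute E1 F4
  e2e3 : Commute E2 E3
  e2e4 : Commute E2 E4
  e2f1 : Commute E2 F1
  e2f3 : Commute E2 F3
  e2f4 : Commute E2 F4
  e3e4 : Commute E3 E4
  e3f1 : Commute E3 F1
  e3f2 : Commute E3 F2
  e3f4 : Commute E3 F4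
  f1f2 : Commute F1 F2

theorem between [Nontrivial V] {E1 F1 E2 F2 E3 F3 E4 F4 : End F V}
    (h : Four E1 F1 E2 F2 E3 F3 E4 F4) {S : Set (End F V)} {I Ω : Subgroup (V ≃ₗ[F] V)}
    (hΩ : ∀ g ∈ I, ∀ k ∈ I, g * k * g⁻¹ * k⁻¹ ∈ Ω)
    (i1 : ∀ hM, u1 (E1 * E3) hM ∈ I) (i2 : ∀ hM, u1 (F3 * E2) hM ∈ I)
    (i3 : ∀ hM, u1 (E1 * E4) hM ∈ I) (i4 : ∀ hM, u1 (F4 * (E2 * E3)) hM ∈ I)
    (hE1 : E1 ∈ S) (hE2 : E2 ∈ S) (hF2 : F2 ∈ S) (cE1 : E1 ∈ Cl S) (cE2 : E2 ∈ Cl S)
    (cF1 : F1 ∈ Cl S) :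
    (∃ g ∈ Ω, g ∈ Nm (Cl S) ∧ cj g F1 = F1 + E2) ∧ ¬ Ω ≤ Nm (Cl S) := by
  refine ⟨⟨u1 (E1 * E2) (sq_zero h.s1 h.e1e2), ?_, u1_mem_Nm h.s1 h.s2 h.e1e2 hE1 hE2 cE1 cE2,
    cj_u1 h.s1 h.s2 h.e1e2 h.p1 h.e2f1⟩, fun hle => ?_⟩
  · rw [← u1_comm h.s1 h.s2 h.e1e2 h.e1e3 h.e1f3 h.e2e3 h.e2f3 h.p3]
    exact hΩ _ (i1 _) _ (i2 _)
  have hY : E2 * E3 * (E2 * E3) = 0 := sq_zero h.s2 h.e2e3
  have hXY : Commute E1 (E2 * E3) := h.e1e2.mul_right h.e1e3
  have hg : u1 (E1 * (E2 * E3)) (sq_zero h.s1 hXY) ∈ Ω := by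
    rw [← u1_comm h.s1 hY hXY h.e1e4 h.e1f4 (h.e2e4.mul_left h.e3e4) (h.e2f4.mul_left h.e3f4) h.p4]
    exact hΩ _ (i3 _) _ (i4 _)
  have h1 := (hle hg).1 _ cF1
  rw [cj_u1 h.s1 hY hXY h.p1 (h.e2f1.mul_left h.e3f1)] at h1
  obtain ⟨c, hc⟩ := h1 _ hF2
  rw [mul_add, add_mul, h.f1f2.eq, mul_assoc, h.e3f2.eq, ← mul_assoc E2, h.p2, add_mul, one_mul,
    ← mul_assoc] at hc
  have h2 : E3 = (-c) • 1 := by
    rw [neg_smul, eq_neg_iff_add_eq_zero]
    simpa [add_assoc] using hc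
  have h3 := h.p3
  rw [h2] at h3
  simp at h3

end Abstract

section Slot

variable {F U : Type*} [Field F] [AddCommGroup U] [Module F U] {B : U →ₗ[F] U →ₗ[F] F}

/-- The symmetrised rank two map. -/
def θ (B : U →ₗ[F] U →ₗ[F] F) (x y : U) : End F U :=
  (B.flip x).smulRight y + (B.flip y).smulRight x

theorem θ_apply (x y v : U) : θ B x y v = B v x • y + B v y • x := rfl

/-- The rank one map. -/
def η (B : U →ₗ[F] U →ₗ[F] F) (x : U) : End F U := (B.flip x).smulRight x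

theorem η_apply (x v : U) : η B x v = B v x • x := rfl

variable (h : H1.Sp2.Ctx B)
include h

theorem comm_four {a b w w' : U} (hab : B a b = 1) (hwa : B w a = 0) (hwb : B w b = 0)
    (h1 : B w' a = 0) (h2 : B w' b = 0) (h3 : B w w' = 1)
    (hx : ∀ x, x = B x b • a + B x a • b + B x w' • w + B x w • w') {n : End F U}
    (hs : ∀ x y, B (n x) y = B (n y) x) (ha : ∀ x, B (n x) x = 0) (hn : n * n = 0) :
    ∃ c : F, n * θ B a w = θ B a w * n + c • 1 := by
  have t2 := h.two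
  have hB : ∀ x y, B x y = B x b * B a y + B x a * B b y + B x w' * B w y + B x w * B w' y :=
    fun x y => by
      conv_lhs => rw [hx x]
      simp
  have hn' : ∀ x y, B (n x) (n y) = 0 := fun x y => by
    rw [← hs, h.symm, ← End.mul_apply, hn]; simp
  have e1 := hB (n a) (n b)
  have e2 := hB (n w) (n w')
  rw [hn'] at e1 e2
  simp only [h.symm (n _), ha, hs b a, hs w a, hs w b, hs w' a, hs w' b, hs w' w] at e1 e2
  have e3 : B (n a) b = B (n w) w' := by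
    have : (B (n a) b - B (n w) w') ^ 2 = 0 := by
      linear_combination -e2 - e1 - (B (n a) b * B (n w) w' +
        B (n a) w' * B (n b) w + B (n a) w * B (n b) w') * t2
    exact sub_eq_zero.1 (pow_eq_zero_iff two_ne_zero |>.1 this)
  refine ⟨B (n a) w, LinearMap.ext fun x => ?_⟩
  rw [← sub_eq_zero]
  refine h.nd _ fun y => ?_
  rw [hx x, hx y]
  generalize B x a = x1, B x b = x2, B x w = x3, B x w' = x4, B y a = y1, B y b = y2, B y w = y3,
    B y w' = y4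
  simp only [θ_apply, End.mul_apply, LinearMap.add_apply, LinearMap.smul_apply, End.one_apply,
    map_add, map_smul, map_sub, smul_eq_mul, h.alt, hab, hwa, hwb, h1, h2, h3, h.symm a b,
    h.symm w a, h.symm w b, h.symm w' a, h.symm w' b, h.symm w w', h.symm (n _), ha, hs b a,
    hs w a, hs w b, hs w' a, hs w' b, hs w' w, e3]
  grind

theorem comm_two {a b : U} (hab : B a b = 1) (hx : ∀ x, x = B x b • a + B x a • b) {n : End F U}
    (hn : n * n = 0) : ∃ c : F, n * η B a = η B a * n + c • 1 := by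
  have t2 := h.two
  have hB : ∀ x y, B x y = B x b * B a y + B x a * B b y := fun x y => by
    conv_lhs => rw [hx x]
    simp
  have e1 : B (n (n a)) b = 0 := by rw [← End.mul_apply, hn]; simp
  have e2 : B (n (n b)) a = 0 := by rw [← End.mul_apply, hn]; simp
  rw [hx (n a)] at e1
  rw [hx (n b)] at e2
  simp only [map_add, map_smul, LinearMap.add_apply, LinearMap.smul_apply, smul_eq_mul] at e1 e2
  have e3 : B (n a) b = B (n b) a := by
    have : (B (n a) b - B (n b) a) ^ 2 = 0 := by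
      linear_combination e1 + e2 - (B (n a) b * B (n b) a + B (n a) a * B (n b) b) * t2
    exact sub_eq_zero.1 (pow_eq_zero_iff two_ne_zero |>.1 this)
  refine ⟨B (n a) a, LinearMap.ext fun x => ?_⟩
  rw [← sub_eq_zero]
  refine h.nd _ fun y => ?_
  rw [hx x, hx y]
  generalize B x a = x1, B x b = x2, B y a = y1, B y b = y2
  simp only [η_apply, End.mul_apply, LinearMap.add_apply, LinearMap.smul_apply, End.one_apply,
    map_add, map_smul, map_sub, smul_eq_mul, h.alt, hab, h.symm a b, h.symm (n _), e3]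
  grind

theorem exists_two (hn : finrank F U = 2) :
    ∃ a b : U, B a b = 1 ∧ ∀ x, x = B x b • a + B x a • b := by
  have : Nontrivial U := Module.nontrivial_of_finrank_pos (R := F) (by omega)
  have : FiniteDimensional F U := Module.finite_of_finrank_pos (by omega)
  obtain ⟨b, hb⟩ := exists_ne (0 : U)
  obtain ⟨a, ha⟩ : ∃ a, B a b ≠ 0 := by
    by_contra! hc
    exact hb (h.nd b hc)
  have hab : B ((B a b)⁻¹ • a) b = 1 := by simp [ha]
  generalize (B a b)⁻¹ • a = a at hab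
  refine ⟨a, b, hab, fun x => ?_⟩
  have hli : LinearIndependent F ![a, b] := by
    rw [LinearIndependent.pair_iff]
    intro s t hg
    have e1 := congrArg (fun z => B z a) hg
    have e2 := congrArg (fun z => B z b) hg
    simp [h.alt, hab, h.symm a b] at e1 e2
    exact ⟨e2, e1⟩
  have hsp := hli.span_eq_top_of_card_eq_finrank' (by simp [hn])
  obtain ⟨g, hg⟩ := (Submodule.mem_span_range_iff_exists_fun F).1
    (show x ∈ Submodule.span F (Set.range ![a, b]) by simp only [hsp, Submodule.mem_top])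
  rw [Fin.sum_univ_two] at hg
  rw [← hg]
  simp [h.alt, hab, h.symm a b]

theorem θ_sa (x y u v : U) : B (θ B x y u) v = B u (θ B x y v) := by
  simp only [θ_apply, map_add, map_smul, LinearMap.add_apply, LinearMap.smul_apply, smul_eq_mul,
    h.symm v]
  ring

theorem θ_alt (x y u : U) : B (θ B x y u) u = 0 := by
  simp only [θ_apply, map_add, map_smul, LinearMap.add_apply, LinearMap.smul_apply, smul_eq_mul,
    h.symm u]
  linear_combination (B u x * B u y) * h.two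

theorem θ_sq {x y : U} (hxy : B x y = 0) : θ B x y * θ B x y = 0 :=
  LinearMap.ext fun v => by simp [θ_apply, h.alt, hxy, h.symm x y]

theorem η_sa (x u v : U) : B (η B x u) v = B u (η B x v) := by
  simp only [η_apply, map_add, map_smul, LinearMap.add_apply, LinearMap.smul_apply, smul_eq_mul,
    h.symm v]
  ring

theorem η_sq (x : U) : η B x * η B x = 0 :=
  LinearMap.ext fun v => by simp [η_apply, h.alt]

theorem add_self (v : U) : v + v = 0 := by rw [← two_smul F, h.two, zero_smul]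

theorem η_pair {a b : U} (hab : B a b = 1) (hx : ∀ x, x = B x b • a + B x a • b) :
    η B a * η B b = η B b * η B a + 1 :=
  LinearMap.ext fun v => by
    simp only [η_apply, End.mul_apply, LinearMap.add_apply, End.one_apply, map_smul, h.symm a b,
      hab, one_smul]
    conv_rhs => rw [hx v, add_left_comm]
    simp [h.alt, hab, h.symm a b, add_self h]

theorem θ_pair {a b w w' : U} (hab : B a b = 1) (hwa : B w a = 0) (hwb : B w b = 0)
    (h1 : B w' a = 0) (h2 : B w' b = 0) (h3 : B w w' = 1)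
    (hx : ∀ x, x = B x b • a + B x a • b + B x w' • w + B x w • w') :
    θ B a w * θ B b w' = θ B b w' * θ B a w + 1 :=
  LinearMap.ext fun v => by
    have := hx v
    simp only [θ_apply, End.mul_apply, LinearMap.add_apply, End.one_apply, map_smul, map_add,
      h.symm a b, hab, one_smul, h.alt, hwa, hwb, h1, h2, h3, h.symm w a, h.symm w b, h.symm w' a,
      h.symm w' b, h.symm w w', zero_smul, add_zero, zero_add]
    linear_combination (norm := module) -this - add_self h (B v a • b) - add_self h (B v w • w')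

theorem θ_comm {x y y' : U} (hy : B x y = 0) (hy' : B x y' = 0) :
    Commute (θ B x y) (θ B x y') :=
  LinearMap.ext fun v => by simp [θ_apply, h.alt, hy, hy', h.symm x, h.symm y y']

omit h in
theorem θ_symm (x y : U) : θ B x y = θ B y x := add_comm _ _

omit h in
theorem θ_adj (x y : U) : θ B x y = (B.flip x).smulRight y + (B.flip y).smulRight x := rfl

theorem adj_pair (x y u v : U) :
    B ((B.flip x).smulRight y u) v = B u ((B.flip y).smulRight x v) := by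
  simp [h.symm v, mul_comm]

end Slot

section Model

variable {F : Type*} [Field F] {ι κ : Type} [Fintype ι] [DecidableEq ι] [Fintype κ] [DecidableEq κ]
  {V : Type*} [AddCommGroup V] [Module F V] [Finite F] (Φ : Pw F ι κ ≃ₗ[F] V)
  {PU : Polar F (κ → F)} (PV : Polar F V)

/-- An endomorphism acting in one slot. -/
noncomputable abbrev A (i : ι) (a : End F (κ → F)) : End F V := (τ1 Φ i).K a 1

theorem A_mul (i : ι) (a b : End F (κ → F)) : A Φ i a * A Φ i b = A Φ i (a * b) := by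
  rw [TS.K_mul, mul_one]

theorem A_comm {i j : ι} {a b : End F (κ → F)} (h : i ≠ j ∨ Commute a b) :
    Commute (A Φ i a) (A Φ j b) := by
  by_cases hij : i = j
  · subst hij
    change _ = _
    rw [A_mul, A_mul, (h.resolve_left fun h => h rfl).eq]
  · exact (multi Φ).comm i j hij a b

theorem A_sq (i : ι) {a : End F (κ → F)} (h : a * a = 0) : A Φ i a * A Φ i a = 0 := by
  rw [A_mul, h]; simp [A]

theorem A_pair (i : ι) {a b : End F (κ → F)} (h : a * b = b * a + 1) :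
    A Φ i a * A Φ i b = A Φ i b * A Φ i a + 1 := by
  rw [A_mul, A_mul, h]; simp [A]

/-- The nilpotent elements of the slots. -/
def NS (p : Prop) : Set (End F V) :=
  {N | ∃ i a a', N = A Φ i a + A Φ i a' ∧ N * N = 0 ∧
    (p → ∀ v w, PV.B (A Φ i a v) w = PV.B v (A Φ i a' w))}

/-- The automorphism permutes the slots. -/
def PermS (g : V ≃ₗ[F] V) : Prop := ∀ i, ∃ j, ∀ a, ∃ b, cj g (A Φ i a) = A Φ j b

theorem cj_mem_NS {p : Prop} {g : V ≃ₗ[F] V} (hg : PermS Φ g) (hI : g ∈ PV.Iso) {N : End F V}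
    (hN : N ∈ NS Φ PV p) : cj g N ∈ NS Φ PV p := by
  obtain ⟨i, a, a', rfl, h1, h2⟩ := hN
  obtain ⟨j, hj⟩ := hg i
  obtain ⟨b, hb⟩ := hj a
  obtain ⟨b', hb'⟩ := hj a'
  refine ⟨j, b, b', by rw [cj_add, hb, hb'], by rw [← cj_mul, h1, cj_zero], fun hp v w => ?_⟩
  rw [← hb, ← hb', cj_apply, cj_apply, ← g.apply_symm_apply w, hI.1, h2 hp,
    ← g.apply_symm_apply v, hI.1]
  simp

theorem mem_Cl [Nonempty κ] {p : Prop} {i : ι} {e : End F (κ → F)}
    (h : ∀ a a', (a + a') * (a + a') = 0 →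
      (p → ∀ v w, PV.B (A Φ i a v) w = PV.B v (A Φ i a' w)) →
      ∃ c : F, (a + a') * e = e * (a + a') + c • 1) : A Φ i e ∈ Cl (NS Φ PV p) := by
  rintro _ ⟨j, a, a', rfl, h1, h2⟩
  have h3 : A Φ j a + A Φ j a' = A Φ j (a + a') := by simp [A]
  rw [h3] at h1 ⊢
  by_cases hij : j = i
  · subst hij
    obtain ⟨c, hc⟩ := h a a' ((τ1 Φ j).K_one_inj ((A_mul Φ j _ _).symm.trans (by rw [h1]; simp))) h2
    exact ⟨c, by rw [A_mul, A_mul, hc]; simp [A]⟩
  · exact ⟨0, by rw [(A_comm Φ (Or.inl hij)).eq]; simp⟩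

theorem not_permS [Nontrivial V] {g : V ≃ₗ[F] V} {i j : ι} (hij : i ≠ j) {e f : End F (κ → F)}
    (hef : e * f = f * e + 1) (h : cj g (A Φ i f) = A Φ i f + A Φ j e) : ¬ PermS Φ g := fun hg => by
  obtain ⟨l, hl⟩ := hg i
  obtain ⟨b, hb⟩ := hl f
  rw [h] at hb
  by_cases hli : l = i
  · subst hli
    have := (A_comm Φ (a := b) (b := f) (Or.inl hij)).eq
    rw [← hb, add_mul, mul_add, A_pair Φ j hef, (A_comm Φ (Or.inl hij)).eq] at this
    simp at this
  · have := (A_comm Φ (a := b) (b := e) (Or.inl hli)).eq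
    rw [← hb, add_mul, mul_add, A_pair Φ i hef, (A_comm Φ (Or.inl hij)).eq] at this
    simp [add_assoc, add_comm] at this

variable {Φ PV} (hc : PCompat Φ PU PV) (hU : ∀ u, PU.Val u 0) (h2 : 2 ≤ Fintype.card ι)
include hc hU h2

theorem A_adj (i : ι) {a a' : End F (κ → F)} (h : ∀ x y, PU.B (a x) y = PU.B x (a' y)) (v w : V) :
    PV.B (A Φ i a v) w = PV.B v (A Φ i a' w) :=
  (hc.compat (i := i) (Or.inr (Or.inr ⟨hU, nonempty_ne h2 i⟩))).B_K (d := 1) (d' := 1) h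
    (fun _ _ => by simp) v w

theorem adj_of_A [Nonempty κ] {i : ι} {a a' : End F (κ → F)}
    (h : ∀ v w, PV.B (A Φ i a v) w = PV.B v (A Φ i a' w)) (x y : κ → F) :
    PU.B (a x) y = PU.B x (a' y) := by
  obtain ⟨u, hu⟩ := exists_ne (0 : κ → F)
  obtain ⟨u', hu'⟩ := PU.exists_B_ne hu
  have := h ((τ1 Φ i).tp x (pv0 fun _ => u)) ((τ1 Φ i).tp y (pv0 fun _ => u'))
  have hT : TrV PU {j // j ≠ i} := Or.inr (Or.inr ⟨hU, nonempty_ne h2 i⟩)
  rw [TS.K_tp, TS.K_tp, hc.B_tp hT, hc.B_tp hT, End.one_apply, End.one_apply, powPolar_B] at this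
  exact mul_right_cancel₀ (Finset.prod_ne_zero_iff.2 fun _ _ => hu') this

theorem u1_mem_Iso [Nonempty κ] (t2 : (2 : F) = 0) {M : End F V} (hM : M * M = 0)
    (hs : ∀ v w, PV.B (M v) w = PV.B v (M w))
    (hp : ∀ xs, ∃ ys i, M (Tens.pv Φ xs) = Tens.pv Φ ys ∧ PU.B (xs i) (ys i) = 0) : u1 M hM ∈ PV.Iso := by
  have : Nonempty ι := Fintype.card_pos_iff.1 (by omega)
  obtain ⟨u, hu⟩ := exists_ne (0 : κ → F)
  refine hc.mem_Iso_of ⟨u, hU u, hu⟩ (fun xs ys => ?_) fun xs i hi => ?_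
  · rw [← hc.B]
    simp only [u1_apply, map_add, LinearMap.add_apply, hs]
    rw [← End.mul_apply, hM]
    simp only [LinearMap.zero_apply, map_zero]
    linear_combination (PV.B (Tens.pv Φ xs) (M (Tens.pv Φ ys))) * t2
  · obtain ⟨ys, j, h3, h4⟩ := hp xs
    rw [u1_apply, h3]
    exact sing_add (hc.val _ i hi) (hc.val _ i (hU _))
      (by rw [hc.B]; exact Finset.prod_eq_zero (Finset.mem_univ j) h4)

theorem main [Nonempty κ] [Nontrivial V] (t2 : (2 : F) = 0)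
    (hΩ : ∀ g ∈ PV.Iso, ∀ k ∈ PV.Iso, g * k * g⁻¹ * k⁻¹ ∈ PV.E) {p : Prop}
    {e f e' f' : End F (κ → F)} {i1 i2 i3 i4 : ι} (h12 : i1 ≠ i2) (h34 : i3 ≠ i4)
    (he : e * e = 0) (hef : e * f = f * e + 1) (hef' : e' * f' = f' * e' + 1)
    (se : ∀ x y, PU.B (e x) y = PU.B x (e y)) (se' : ∀ x y, PU.B (e' x) y = PU.B x (e' y))
    (sf' : ∀ x y, PU.B (f' x) y = PU.B x (f' y))
    (ne : ∀ i, A Φ i e ∈ NS Φ PV p) (nf : ∀ i, A Φ i f ∈ NS Φ PV p)
    (ce : ∀ i, A Φ i e ∈ Cl (NS Φ PV p)) (cf : ∀ i, A Φ i f ∈ Cl (NS Φ PV p))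
    (hcase : (i1 ≠ i3 ∧ i1 ≠ i4 ∧ i2 ≠ i3 ∧ i2 ≠ i4) ∨ (i3 = i1 ∧ i4 = i2 ∧ Commute e e' ∧
      Commute e f' ∧ Commute f e' ∧ (∀ x, PU.B x (e x) = 0) ∧ (∀ x, PU.B x (e' x) = 0) ∧
      ∀ x, PU.B x (f' x) = 0)) :
    (∃ g ∈ PV.E, g ∈ Nm (Cl (NS Φ PV p)) ∧ ¬ PermS Φ g) ∧ ¬ PV.E ≤ Nm (Cl (NS Φ PV p)) := by
  have h4 : Four (A Φ i1 e) (A Φ i1 f) (A Φ i2 e) (A Φ i2 f) (A Φ i3 e') (A Φ i3 f') (A Φ i4 e')
      (A Φ i4 f') := by
    refine ⟨A_sq Φ _ he, A_sq Φ _ he, A_pair Φ _ hef, A_pair Φ _ hef, A_pair Φ _ hef',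
      A_pair Φ _ hef', ?_, ?_, ?_, ?_, ?_, ?_, ?_, ?_, ?_, ?_, ?_, ?_, ?_, ?_, ?_⟩ <;>
    refine A_comm Φ ?_ <;>
    rcases hcase with ⟨c1, c2, c3, c4⟩ | ⟨rfl, rfl, c1, c2, c3, -⟩ <;>
    first | assumption | exact Or.inl ‹_› | exact Or.inl (Ne.symm ‹_›) | exact Or.inr ‹_› |
      exact Or.inr (Commute.symm ‹_›)
  have hs : ∀ {X Y : End F V}, Commute X Y → (∀ v w, PV.B (X v) w = PV.B v (X w)) →
      (∀ v w, PV.B (Y v) w = PV.B v (Y w)) → ∀ v w, PV.B ((X * Y) v) w = PV.B v ((X * Y) w) :=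
    fun {X Y} hXY hX hY v w => by rw [End.mul_apply, hX, hY, hXY.eq, End.mul_apply]
  have a0 : ∀ x, PU.B x x = 0 := fun x => sing_B (hU x)
  have sE := fun i => A_adj hc hU h2 i se
  have sE' := fun i => A_adj hc hU h2 i se'
  have sF' := fun i => A_adj hc hU h2 i sf'
  obtain ⟨⟨g, g1, g2, g3⟩, g4⟩ := between h4 (S := NS Φ PV p) hΩ
    (fun hM => u1_mem_Iso hc hU h2 t2 hM (hs h4.e1e3 (sE _) (sE' _)) fun xs =>
      ⟨_, i2, by rw [End.mul_apply, K_pv, K_pv], by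
        rcases hcase with ⟨c1, c2, c3, c4⟩ | ⟨rfl, rfl, -⟩ <;> simp [*, h12.symm]⟩)
    (fun hM => u1_mem_Iso hc hU h2 t2 hM (hs h4.e2f3.symm (sF' _) (sE _)) fun xs =>
      ⟨_, i1, by rw [End.mul_apply, K_pv, K_pv], by
        rcases hcase with ⟨c1, c2, c3, c4⟩ | ⟨rfl, rfl, -, -, -, c1, c2, c3⟩ <;> simp [*]⟩)
    (fun hM => u1_mem_Iso hc hU h2 t2 hM (hs h4.e1e4 (sE _) (sE' _)) fun xs => by
      rcases hcase with ⟨c1, c2, c3, c4⟩ | ⟨rfl, rfl, -, -, -, c1, c2, c3⟩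
      · exact ⟨_, i2, by rw [End.mul_apply, K_pv, K_pv], by simp [*, h12.symm]⟩
      · exact ⟨_, i3, by rw [End.mul_apply, K_pv, K_pv], by simp [*]⟩)
    (fun hM => u1_mem_Iso hc hU h2 t2 hM (hs (h4.e2f4.mul_left h4.e3f4).symm (sF' _)
      (hs h4.e2e3 (sE _) (sE' _))) fun xs =>
      ⟨_, i1, by rw [End.mul_apply, End.mul_apply, K_pv, K_pv, K_pv], by
        rcases hcase with ⟨c1, c2, c3, c4⟩ | ⟨rfl, rfl, -, -, -, c1, c2, c3⟩ <;> simp [*]⟩)
    (ne _) (ne _) (nf _) (ce _) (ce _) (cf _)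
  exact ⟨⟨g, g1, g2, not_permS Φ h12 hef g3⟩, g4⟩

end Model

section Glue

variable {F : Type*} [Field F] {ι : Type} [Fintype ι] [DecidableEq ι] {k t : ℕ}
  (e : ι ≃ (Fin t → Fin k)) (P : GL ι F)

theorem permS_of_mem {g : GL ι F} (hg : g ∈ Geo.tensorWreathSubgroup k t e P) :
    PermS (frame e P) (toLE g) := by
  rw [Geo.tensorWreathSubgroup, Asch.mem_map_trGL] at hg
  obtain ⟨gs, σ, hgs⟩ := Asch.exists_of_mem_tensorWreathStandard hg
  rw [MulEquiv.symm_apply_eq] at hgs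
  subst hgs
  have key : ∀ xs, toLE (Asch.trGL e P (Asch.ptGL gs * Asch.fpGL σ)) (Tens.pv (frame e P) xs) =
      Tens.pv (frame e P) fun i => toLE (gs i) (xs (σ.symm i)) := fun xs => by
    have h0 : ∀ ys, Tens.pv (frame e P) ys = Asch.trv e P (H8.ptv ys) := fun _ => rfl
    rw [toLE_apply, h0, h0]
    simp only [Asch.coe_trGL, Asch.tr_mulVec, Units.val_mul, ← Matrix.mulVec_mulVec,
      Asch.coe_fpGL, Asch.coe_ptGL, fp_mulVec_ptv, pt_mulVec_ptv, Function.comp_apply, toLE_apply]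
  refine fun i => ⟨σ i, fun a => ⟨cj (toLE (gs (σ i))) a, cj_eq_of (pv_ext (frame e P) fun xs => ?_)⟩⟩
  simp only [End.mul_apply, LinearEquiv.coe_coe, K_pv, key]
  congr 1
  ext1 j
  by_cases h : j = σ i
  · subst h
    simp only [Equiv.symm_apply_apply, Function.update_self, cj_apply, LinearEquiv.symm_apply_apply]
  · have h' : σ.symm j ≠ i := fun e => h (by simp [← e])
    simp only [Function.update_of_ne h, Function.update_of_ne h']

variable [Fintype F] {Q : (ι → F) → F} (hQ : Geo.IsNondegenerateQuadraticForm Q)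
include hQ

theorem not_maximal (hn : 13 ≤ Fintype.card ι) (t2 : (2 : F) = 0) (ht : 2 ≤ t) (hk : k ≤ 4)
    {f₁ : (Fin k → F) → (Fin k → F) → F} (hf₁ : Geo.IsSymplecticForm f₁)
    (hT : Geo.IsTensorPowerFormStructure id (QuadraticMap.polar Q) f₁ e P)
    (hpure : ∀ xs : Fin t → Fin k → F,
      Q ((P : Matrix ι ι F) *ᵥ ((fun a : Fin t → Fin k => ∏ i, xs i (a i)) ∘ e)) = 0) :
    ∃ K, Geo.tensorWreathSubgroup k t e P ⊓ Geo.omegaGL Q < K ∧ K < Geo.omegaGL Q := by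
  have hk2 : 2 ≤ k := by
    by_contra h
    have : k ^ t ≤ 1 := pow_le_one₀ (by omega) (by omega)
    rw [← card_pow e] at this
    omega
  have hU := isSp_spPolar hf₁
  obtain ⟨j, hj⟩ : Even k := by simpa using hU.even
  have hε : (1 : F) = (-1) ^ t := by rw [show (-1 : F) = 1 by linear_combination -t2, one_pow]
  obtain ⟨c, hc, hσ, h⟩ := exists_pcompat e P (spPolar hf₁) (oPolar hQ) (by omega) (fun _ => rfl)
    hε hT (Or.inl ⟨fun _ => trivial, fun xs => (oPolar_sing hQ).2 (hpure xs)⟩)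
  have hV := isO_scale hc hσ (isO_oP hQ)
  have hG : ∀ g, g ∈ Geo.omegaGL Q ↔ toLE g ∈ ((oPolar hQ).scale hc (Or.inl rfl) hσ).E :=
    fun g => by rw [scale_E, mem_omegaGL_iff hQ (by omega)]
  generalize (oPolar hQ).scale hc (Or.inl rfl) hσ = PV at h hV hG
  have : Nonempty (Fin k) := ⟨⟨0, by omega⟩⟩
  have : Nontrivial (ι → F) := by
    have : Nonempty ι := Fintype.card_pos_iff.1 (by omega)
    infer_instance
  have hΩ : ∀ g ∈ PV.Iso, ∀ k ∈ PV.Iso, g * k * g⁻¹ * k⁻¹ ∈ PV.E := fun g hg k hk =>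
    comm_mem_E (wild_three_of_σ hV.σ) (by simp; omega) hg hk
  suffices H : ∃ p, (∃ g ∈ PV.E, g ∈ Nm (Cl (NS (frame e P) PV p)) ∧ ¬ PermS (frame e P) g) ∧
      ¬ PV.E ≤ Nm (Cl (NS (frame e P) PV p)) by
    obtain ⟨p, ⟨g, g1, g2, g3⟩, g4⟩ := H
    refine exists_between_of (M := (Nm (Cl (NS (frame e P) PV p))).comap toLE.toMonoidHom)
      (fun x hx => ⟨fun X hX => cj_mem_Cl (fun N hN => ?_) hX, fun X hX => cj_mem_Cl
        (fun N hN => ?_) hX⟩) ⟨toLE.symm g, (hG _).2 (by simpa using g1), by simpa using g2,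
        fun hh => g3 (by simpa using permS_of_mem e P hh)⟩ fun hle => g4 fun x hx => ?_
    · have := cj_mem_NS (frame e P) PV (permS_of_mem e P (Subgroup.inv_mem _ hx.1))
        (E_le_Iso ((hG _).1 (Subgroup.inv_mem _ hx.2))) hN
      rwa [map_inv] at this
    · rw [inv_inv]
      exact cj_mem_NS (frame e P) PV (permS_of_mem e P hx.1) (E_le_Iso ((hG _).1 hx.2)) hN
    · simpa using hle (x := toLE.symm x) ((hG _).2 (by simpa using hx))
  have hB : H1.Sp2.Ctx (bilinOf hf₁.bilinear) := ⟨t2, hf₁.alternating, (spPolar hf₁).nondeg⟩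
  have hU0 : ∀ u, (spPolar hf₁).Val u 0 := fun _ => trivial
  have ht' : 2 ≤ Fintype.card (Fin t) := by simpa using ht
  obtain rfl | rfl : k = 2 ∨ k = 4 := by omega
  · have ht4 : 4 ≤ t := by
      by_contra h4
      have : 2 ^ t ≤ 2 ^ 3 := Nat.pow_le_pow_right (by omega) (by omega)
      rw [← card_pow e] at this
      omega
    obtain ⟨a, b, hab, hx⟩ := exists_two hB (by simp)
    have hba : bilinOf hf₁.bilinear b a = 1 := by rw [hB.symm, hab]
    have hx' := fun x => (hx x).trans (add_comm _ _)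
    have hn : ∀ x i, A (frame e P) i (η (bilinOf hf₁.bilinear) x) ∈ NS (frame e P) PV False :=
      fun x i => ⟨i, η (bilinOf hf₁.bilinear) x, 0, by simp [A], A_sq _ _ (η_sq hB x), False.elim⟩
    exact ⟨False, main h hU0 ht' t2 hΩ (i1 := ⟨0, by omega⟩) (i2 := ⟨1, by omega⟩)
      (i3 := ⟨2, by omega⟩) (i4 := ⟨3, by omega⟩) (by simp) (by simp) (η_sq hB a)
      (η_pair hB hab hx) (η_pair hB hab hx) (η_sa hB a) (η_sa hB a) (η_sa hB b) (hn a) (hn b)
      (fun i => mem_Cl _ _ fun _ _ h1 _ => comm_two hB hab hx h1)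
      (fun i => mem_Cl _ _ fun _ _ h1 _ => comm_two hB hba hx' h1) (Or.inl (by simp))⟩
  · obtain ⟨a, b, w, w', hab, hwa, hwb, h1, h2, h3, hx⟩ := H1.Sp2.exists_symp_basis hB (by simp)
    set B := bilinOf hf₁.bilinear
    have hba : B b a = 1 := by rw [hB.symm, hab]
    have h3' : B w' w = 1 := by rw [hB.symm, h3]
    have hn : ∀ x y, B y x = 0 → ∀ i, A (frame e P) i (θ B x y) ∈ NS (frame e P) PV True :=
      fun x y hxy i => ⟨i, _, _, by rw [θ_adj]; simp [A], A_sq _ _ (θ_sq hB (hB.symm _ _ ▸ hxy)),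
        fun _ => A_adj h hU0 ht' i (adj_pair hB x y)⟩
    have hs : ∀ i (x x' : End F (Fin 4 → F)), (True → ∀ v w, PV.B (A (frame e P) i x v) w =
        PV.B v (A (frame e P) i x' w)) → (∀ u v, B ((x + x') u) v = B ((x + x') v) u) ∧
        ∀ u, B ((x + x') u) u = 0 := fun i x x' hx => by
      have h4 : ∀ u v, B (x u) v = B u (x' v) := adj_of_A h hU0 ht' (hx trivial)
      refine ⟨fun u v => ?_, fun u => ?_⟩
      · simp only [LinearMap.add_apply, map_add, h4, hB.symm (x' _)]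
        rw [add_comm]
      · simp only [LinearMap.add_apply, map_add, h4, hB.symm (x' _)]
        linear_combination (B (x' u) u) * t2
    have al : ∀ x y u, B u (θ B x y u) = 0 := fun x y u => by rw [hB.symm, θ_alt hB]
    exact ⟨True, main h hU0 ht' t2 hΩ (i1 := ⟨0, by omega⟩) (i2 := ⟨1, by omega⟩)
      (i3 := ⟨0, by omega⟩) (i4 := ⟨1, by omega⟩) (e := θ B a w) (f := θ B b w') (e' := θ B a w')
      (f' := θ B b w) (by simp) (by simp) (θ_sq hB (hB.symm _ _ ▸ hwa))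
      (θ_pair hB hab hwa hwb h1 h2 h3 hx)
      (θ_pair hB hab h1 h2 hwa hwb h3' fun x => (hx x).trans (add_right_comm _ _ _))
      (θ_sa hB _ _) (θ_sa hB _ _) (θ_sa hB _ _) (hn _ _ hwa) (hn _ _ h2)
      (fun i => mem_Cl _ _ fun x x' h4 h5 =>
        comm_four hB hab hwa hwb h1 h2 h3 hx (hs i x x' h5).1 (hs i x x' h5).2 h4)
      (fun i => mem_Cl _ _ fun x x' h4 h5 => comm_four hB hba h2 h1 hwb hwa h3'
        (fun x => (hx x).trans (by abel)) (hs i x x' h5).1 (hs i x x' h5).2 h4)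
      (Or.inr ⟨rfl, rfl, θ_comm hB (hB.symm _ _ ▸ hwa) (hB.symm _ _ ▸ h1),
        by rw [θ_symm a, θ_symm b]; exact θ_comm hB hwa hwb,
        by rw [θ_symm a, θ_symm b]; exact θ_comm hB h2 h1, al _ _, al _ _, al _ _⟩)⟩

end Glue

end Cfsg.Agent.H8.Spin2
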