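import Cfsg.Agent.H7.LinRed

/-!
A linear group that is doubly transitive on points and contains one transvection contains `SL`.
-/

set_option autoImplicit false

namespace Cfsg.Agent.H8.T2tv

open Module Cfsg.Agent.H7

variable {F : Type*} [Field F] {V : Type*} [AddCommGroup V] [Module F V]

/-- functionals of the transvections with centre `v` -/
def AA (X : Subgroup (V ≃ₗ[F] V)) (v : V) : AddSubgroup (Dual F V) where
  carrier := {φ | φ v = 0 ∧ TV X φ v}
  zero_mem' := ⟨rfl, TV.zero_left v⟩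
  add_mem' {a b} ha hb := ⟨by simp [ha.1, hb.1], ha.2.add_left hb.2 ha.1⟩
  neg_mem' {a} ha := ⟨by simp [ha.1], ha.2.neg_left ha.1⟩

/-- evaluation at a vector -/
def evA (A : AddSubgroup (Dual F V)) (w : V) : A →+ F where
  toFun φ := φ.1 w
  map_zero' := rfl
  map_add' _ _ := rfl

theorem card_ker_mul {A B : Type*} [AddGroup A] [AddGroup B] (f : A →+ B) :
    Nat.card f.ker * Nat.card f.range = Nat.card A := by
  rw [← AddSubgroup.index_ker, AddSubgroup.card_mul_index]

theorem arith {q P s k : ℕ} (hP : 2 ≤ P) (hs : s ≤ q) (hs1 : 1 ≤ s) (hk : 0 < k) (hq : 0 < q)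
    (hc : Nat.Coprime P (s - 1))
    (h : q * q * P + s * k * (q * P) + q * k = q * P + q * (s * k) + q * q * P * k) :
    s = q ∧ P ≤ k := by
  obtain ⟨t, rfl⟩ := Nat.exists_eq_add_of_le hs
  obtain ⟨s, rfl⟩ := Nat.exists_eq_add_of_le hs1
  have h1 : P * (s + t) = k * (s + P * t) := by
    apply Nat.eq_of_mul_eq_mul_left hq
    nlinarith
  have hd : P ∣ k := by
    have h2 : Nat.Coprime P (s + P * t) := by
      rw [Nat.coprime_add_mul_left_right]; simpa using hc
    exact h2.dvd_of_dvd_mul_right ⟨_, h1.symm⟩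
  have hle := Nat.le_of_dvd hk hd
  refine ⟨?_, hle⟩
  have h3 : k * (s + P * t) ≤ k * (s + t) := by
    rw [← h1]; exact Nat.mul_le_mul_right _ hle
  have h4 := Nat.le_of_mul_le_mul_left h3 hk
  have : t = 0 := by nlinarith
  omega

theorem card_ker_dual [Finite F] [Finite V] {φ : Dual F V} (h : φ ≠ 0) :
    Nat.card {w : V // φ w = 0} * Nat.card F = Nat.card V := by
  have h1 := card_ker_mul φ.toAddMonoidHom
  have h2 : φ.toAddMonoidHom.range = ⊤ := by
    rw [AddMonoidHom.range_eq_top]
    exact LinearMap.surjective_of_ne_zero h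
  rw [h2, AddSubgroup.card_top] at h1
  rw [← h1]; rfl

theorem full_of [Finite F] [FiniteDimensional F V] {X : Subgroup (V ≃ₗ[F] V)}
    (hn : 3 ≤ finrank F V) {v : V} (hv : v ≠ 0)
    (ht : ∀ w w' : V, w ∉ F ∙ v → w' ∉ F ∙ v →
      ∃ g ∈ X, ∃ a b c : F, g v = a • v ∧ g w = b • w' + c • v)
    {φ : Dual F V} (h0 : φ ≠ 0) (hφ : φ v = 0) (h : TV X φ v) : Full X v := by
  classical
  haveI : Finite V := Module.finite_of_finite F
  haveI : Finite (Dual F V) := Module.finite_of_finite F
  letI := Fintype.ofFinite V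
  letI := Fintype.ofFinite F
  set A := AA X v with hA
  letI := Fintype.ofFinite A
  have hle : ∀ w w' : V, w ∉ F ∙ v → w' ∉ F ∙ v →
      Nat.card (evA A w).range ≤ Nat.card (evA A w').range := by
    intro w w' hw hw'
    obtain ⟨g, hg, a, b, c, e1, e2⟩ := ht w w' hw hw'
    have ha : a ≠ 0 := by
      rintro rfl
      rw [zero_smul, g.map_eq_zero_iff] at e1
      exact hv e1
    have hb : b ≠ 0 := by
      rintro rfl
      apply hw
      rw [Submodule.mem_span_singleton]
      refine ⟨c * a⁻¹, g.injective ?_⟩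
      rw [map_smul, e1, e2, smul_smul]; simp [ha]
    have key : ∀ x ∈ (evA A w).range, a * b⁻¹ * x ∈ (evA A w').range := by
      rintro _ ⟨ψ, rfl⟩
      have h1 := ψ.2.2.conj' hg
      rw [e1, ← TV.smul_swap] at h1
      have e3 : g.symm v = a⁻¹ • v := by
        rw [LinearEquiv.symm_apply_eq, map_smul, e1, smul_smul]; simp [ha]
      have e4 : g.symm w' = b⁻¹ • w - (b⁻¹ * c * a⁻¹) • v := by
        rw [LinearEquiv.symm_apply_eq, map_sub, map_smul, map_smul, e1, e2, smul_add, smul_smul,
          smul_smul, smul_smul]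
        simp [ha, hb]
      refine ⟨⟨_, ?_, h1⟩, ?_⟩
      · simp [e3, ψ.2.1]
      · simp [evA, e4, ψ.2.1, mul_assoc]
    refine Nat.card_le_card_of_injective (fun x => ⟨_, key x.1 x.2⟩) ?_
    intro x y e
    exact Subtype.ext (mul_left_cancel₀ (mul_ne_zero ha (inv_ne_zero hb)) (congrArg Subtype.val e))
  obtain ⟨w0, hw0⟩ : ∃ w, φ w ≠ 0 := by
    by_contra hc
    push Not at hc
    exact h0 (LinearMap.ext hc)
  have hw0' : w0 ∉ F ∙ v := by
    intro hm
    obtain ⟨c, rfl⟩ := Submodule.mem_span_singleton.1 hm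
    simp [hφ] at hw0
  set s := Nat.card (evA A w0).range with hs
  set k := Nat.card (evA A w0).ker with hk
  set q := Nat.card F with hq
  have hsk : k * s = Nat.card A := card_ker_mul _
  have hspos : 0 < s := Nat.card_pos
  have hkpos : 0 < k := Nat.card_pos
  have hqpos : 0 < q := Nat.card_pos
  have hkw : ∀ w : V, w ∉ F ∙ v → Nat.card (evA A w).ker = k := by
    intro w hw
    have h1 := card_ker_mul (evA A w)
    rw [le_antisymm (hle w w0 hw hw0') (hle w0 w hw0' hw), ← hsk] at h1
    exact Nat.eq_of_mul_eq_mul_right hspos h1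
  obtain ⟨m, hm⟩ := Nat.exists_eq_add_of_le hn
  have hV : Nat.card V = q * q * q ^ (m + 1) := by
    rw [Module.natCard_eq_pow_finrank (K := F), hm]; ring
  set P := q ^ (m + 1) with hP
  have hq2 : 2 ≤ q := Finite.one_lt_card
  have hP2 : 2 ≤ P := le_trans hq2 (Nat.le_self_pow (by omega) q)
  -- double count
  have dc : ∑ w : V, Nat.card (evA A w).ker = ∑ ψ : A, Nat.card {w : V // ψ.1 w = 0} := by
    have e1 : ∀ w : V, Nat.card (evA A w).ker = ∑ ψ : A, if ψ.1 w = 0 then 1 else 0 := by
      intro w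
      rw [Finset.sum_boole, Nat.cast_id, ← Fintype.card_subtype, ← Nat.card_eq_fintype_card]
      rfl
    have e2 : ∀ ψ : A, Nat.card {w : V // ψ.1 w = 0} = ∑ w : V, if ψ.1 w = 0 then 1 else 0 := by
      intro w
      rw [Finset.sum_boole, Nat.cast_id, ← Fintype.card_subtype, ← Nat.card_eq_fintype_card]
    simp only [e1, e2]
    exact Finset.sum_comm
  have hL : ∑ w : V, Nat.card (evA A w).ker + q * k = q * (s * k) + q * q * P * k := by
    have e1 : ∀ w : V, Nat.card (evA A w).ker + (if w ∈ F ∙ v then k else 0) =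
        (if w ∈ F ∙ v then s * k else 0) + k := by
      intro w
      by_cases hw : w ∈ F ∙ v
      · rw [if_pos hw, if_pos hw]
        obtain ⟨c, rfl⟩ := Submodule.mem_span_singleton.1 hw
        have : (evA A (c • v)).ker = ⊤ := by
          rw [eq_top_iff]
          intro ψ _
          simp [evA, AddMonoidHom.mem_ker, ψ.2.1]
        rw [this, AddSubgroup.card_top, ← hsk, mul_comm]
      · rw [if_neg hw, if_neg hw, hkw w hw]; simp
    have e2 : (Finset.univ.filter (fun w : V => w ∈ F ∙ v)).card = q := by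
      rw [← Fintype.card_subtype, ← Nat.card_eq_fintype_card,
        Module.natCard_eq_pow_finrank (K := F), finrank_span_singleton hv, pow_one]
    have e3 := Finset.sum_congr rfl (fun w (_ : w ∈ Finset.univ) => e1 w)
    rw [Finset.sum_add_distrib, Finset.sum_add_distrib, ← Finset.sum_filter, ← Finset.sum_filter,
      Finset.sum_const, Finset.sum_const, Finset.sum_const, e2, Finset.card_univ,
      ← Nat.card_eq_fintype_card, hV] at e3
    simpa using e3
  have hR : ∑ ψ : A, Nat.card {w : V // ψ.1 w = 0} + q * P = q * q * P + s * k * (q * P) := by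
    have e1 : ∀ ψ : A, Nat.card {w : V // ψ.1 w = 0} + (if ψ = 0 then q * P else 0) =
        (if ψ = 0 then q * q * P else 0) + q * P := by
      intro ψ
      by_cases hw : ψ = 0
      · rw [if_pos hw, if_pos hw, hw, ← hV]
        congr 1
        exact Nat.card_congr (Equiv.subtypeUnivEquiv (fun _ => rfl))
      · rw [if_neg hw, if_neg hw]
        have h1 := card_ker_dual (φ := ψ.1) (fun e => hw (Subtype.ext e))
        rw [hV] at h1
        have : Nat.card {w : V // ψ.1 w = 0} = q * P := by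
          apply Nat.eq_of_mul_eq_mul_right hqpos
          rw [h1]; ring
        rw [this]; simp
    have e3 := Finset.sum_congr rfl (fun w (_ : w ∈ Finset.univ) => e1 w)
    rw [Finset.sum_add_distrib, Finset.sum_add_distrib, Finset.sum_ite_eq', Finset.sum_ite_eq',
      Finset.sum_const, Finset.card_univ, ← Nat.card_eq_fintype_card, ← hsk] at e3
    simpa [mul_comm s k] using e3
  have hsd : s ∣ q := AddSubgroup.card_addSubgroup_dvd_card _
  have hs1 : s ≠ 1 := by
    intro e
    have := AddSubgroup.eq_bot_of_card_eq _ e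
    have h2 : φ w0 ∈ (evA A w0).range := ⟨⟨φ, hφ, h⟩, rfl⟩
    rw [this] at h2
    exact hw0 h2
  have hcop : Nat.Coprime P (s - 1) := by
    obtain ⟨p, hp⟩ := CharP.exists F
    obtain ⟨f, hpp, hf⟩ := FiniteField.card F p
    rw [← Nat.card_eq_fintype_card, ← hq] at hf
    have hps : p ∣ s := by
      rw [hf] at hsd
      obtain ⟨i, -, hi⟩ := (Nat.dvd_prime_pow hpp).1 hsd
      rw [hi]
      exact dvd_pow_self p (by rintro rfl; exact hs1 (by simpa using hi))
    rw [hP, hf]
    refine Nat.Coprime.pow_left _ (Nat.Coprime.pow_left _ ?_)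
    rw [Nat.Prime.coprime_iff_not_dvd hpp]
    intro hd
    have := (Nat.dvd_sub hps hd)
    rw [show s - (s - 1) = 1 by omega] at this
    exact hpp.one_lt.ne' (Nat.dvd_one.1 this)
  obtain ⟨e1, e2⟩ := arith hP2 (Nat.le_of_dvd hqpos hsd) hspos hkpos hqpos hcop (by omega)
  -- conclusion
  let B : AddSubgroup (Dual F V) := (Dual.eval F V v).toAddMonoidHom.ker
  have hB : Nat.card B * q = q * q * P := by
    have hne : Dual.eval F V v ≠ 0 := by
      intro e
      obtain ⟨ψ, hψ⟩ := exists_dual_one' (F := F) hv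
      have := congrArg (fun f : Dual F (Dual F V) => f ψ) e
      simp [hψ] at this
    have h1 := card_ker_dual hne
    rw [Module.natCard_eq_pow_finrank (K := F) (V := Dual F V), Subspace.dual_finrank_eq,
      ← Module.natCard_eq_pow_finrank, hV] at h1
    exact h1
  have hAB : A ≤ B := fun ψ hψ => hψ.1
  have hBA : Nat.card B ≤ Nat.card A := by
    have : Nat.card B = q * P := by
      apply Nat.eq_of_mul_eq_mul_right hqpos
      rw [hB]; ring
    rw [this, ← hsk, e1, mul_comm]
    exact Nat.mul_le_mul_right _ e2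
  have hEq := AddSubgroup.eq_of_le_of_card_ge hAB hBA
  intro ψ hψ
  have : ψ ∈ A := by rw [hEq]; exact hψ
  exact this.2

/-- doubly transitive on points and one transvection. -/
theorem SLV_le [Finite F] [FiniteDimensional F V] {X : Subgroup (V ≃ₗ[F] V)}
    (hn : 3 ≤ finrank F V)
    (ht : ∀ u w u' w' : V, u ≠ 0 → w ∉ F ∙ u → u' ≠ 0 → w' ∉ F ∙ u' →
      ∃ g ∈ X, ∃ a b : F, g u = a • u' ∧ g w = b • w')
    {φ : Dual F V} {v : V} (hv : v ≠ 0) (h0 : φ ≠ 0) (hφ : φ v = 0) (h : TV X φ v) :
    SLV F V ≤ X := by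
  have hF : Full X v := full_of hn hv (fun w w' hw hw' => by
    obtain ⟨g, hg, a, b, e1, e2⟩ := ht v w v w' hv hw hv hw'
    exact ⟨g, hg, a, b, 0, e1, by simpa using e2⟩) h0 hφ h
  apply SLV_le_of_fullSub
  rw [eq_top_iff]
  intro u _
  by_cases hu : u = 0
  · rw [hu]; exact Submodule.zero_mem _
  have ex : ∀ x : V, ∃ y, y ∉ F ∙ x := fun x => by
    obtain ⟨y, -, hy⟩ := exists_notMem_of_finrank_lt (U := F ∙ x) (W := ⊤)
      (by rw [finrank_top]; have := finrank_span_singleton_le (F := F) x; omega)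
    exact ⟨y, hy⟩
  obtain ⟨w, hw⟩ := ex v
  obtain ⟨w', hw'⟩ := ex u
  obtain ⟨g, hg, a, b, e1, -⟩ := ht v w u w' hv hw hu hw'
  have ha : a ≠ 0 := by
    rintro rfl
    rw [zero_smul, g.map_eq_zero_iff] at e1
    exact hv e1
  have := (hF.conj hg).smul a⁻¹
  rw [e1, smul_smul, inv_mul_cancel₀ ha, one_smul] at this
  exact this

end Cfsg.Agent.H8.T2tv
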