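import Cfsg.Agent.Tens.OneO5

/-!
The tensor product subgroup `Sp_2 ⊗ O_4^-` of `Sp_8`.
-/

set_option autoImplicit false
set_option linter.unusedSectionVars false

namespace Cfsg.Agent.H8.T4

open Module Cfsg.Agent.H7 Cfsg.Agent.H7.Polar Cfsg.Agent.H1 Cfsg.Agent.Tens Cfsg.Agent.Tens.One
open scoped MatrixGroups Matrix

section abstract

variable {F U W V : Type*} [Field F] [AddCommGroup U] [Module F U] [AddCommGroup W] [Module F W]
  [AddCommGroup V] [Module F V]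
  [Finite F] [FiniteDimensional F U] [FiniteDimensional F W] [FiniteDimensional F V]
  {τ : TS F U W V} {PU : Polar F U} {PW : Polar F W} {PV : Polar F V}
  {X : Subgroup (V ≃ₗ[F] V)}

/-- Step C for `Sp_2 ⊗ O_k`, `k ≥ 4`. -/
theorem stepC_sp_o4 (S : Set0 τ PU PW PV X) (hU : IsSp PU) (hW : IsO PW) (hV : IsSp PV)
    (h2 : (2 : F) ≠ 0) (hk : finrank F U = 2) (hj : 4 ≤ finrank F W)
    (hR : ∀ d ∈ PW.E, τ.KE 1 d ∈ X) (h : ¬ τ.Hpt PU X) : PV.E ≤ X := by
  obtain ⟨e₀, he₀, h0⟩ := exists_sing_of_wild (wild_one_of_sp fun x => hU.val x 0) (by omega)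
  obtain ⟨x₀, hx₀, h0'⟩ := exists_sing_of_wild (wild_three_of_σ hW.σ) (by omega)
  let D : Submodule F (End F W) :=
    { τ.DD PU X with smul_mem' := fun c _ h => smul_mem_DD (nrm_of_two hU.σ h2) (hU.σ c) h }
  have h1 : ∀ e x, PW.Val x 0 → TV PV X (τ.tp e x) := fun e x hx t => by
    have h3 : PW.th x x ∈ D := Slot.th_mem_of_selfAdj hW h2 (Or.inl hj)
      (fun g hg c hc => conj_mem_DD (hR g hg) hc)
      (fun c hc => by simpa [hU.ε] using S.adj_of_DD he₀ h0 hc)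
      (S.exists_DD (IsSp.trans hU) (IsSp.rk hk) h) hx
    simpa [S.cp.th_tp] using (τ.mem_DD' PU X).1 (D.smul_mem t h3) e (hU.val _ _)
  refine E_le_of_TV S.iso hV h2 (h1 e₀ x₀ hx₀) (τ.tp_ne_zero h0 h0')
    (Q := {v | ∃ e x, PW.Val x 0 ∧ v = τ.tp e x}) (eq_top_iff.2 fun v _ => ?_) ?_
  · exact τ.induction v (Submodule.zero_mem _) (fun u x => sing_induction_top hx₀ h0'
      (p := fun x => τ.tp u x ∈ Submodule.span F {v | ∃ e x, PW.Val x 0 ∧ v = τ.tp e x})
      (fun y hy => Submodule.subset_span ⟨u, y, hy, rfl⟩)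
      (fun a b ha hb => by simpa using Submodule.add_mem _ ha hb) x) fun _ _ => Submodule.add_mem _
  · rintro _ ⟨e, x, hx, rfl⟩
    refine ⟨h1 e x hx, fun hne => ?_⟩
    obtain ⟨s, -, a1, a2⟩ := Slot.both_of_lam ⟨1, one_ne_zero, hU.val _ _⟩ e e₀ (hU.val _ _) he₀
      (fun e => hne (by simp [e])) h0
    obtain ⟨s', b0, b1, b2⟩ := Slot.both_o hW h2 (by omega) x x₀ hx hx₀
      (fun e => hne (by simp [e])) h0'
    exact ⟨_, h1 s s' b0, by simp [S.cp.B_tp, PU.B_ne_symm a2, PW.B_ne_symm b2],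
      by simp [S.cp.B_tp, a1, b1]⟩

theorem sp_comm (hW : IsSp PW) (x y : W) : PW.B x y = -PW.B y x := by
  rw [PW.herm y x, hW.σ, hW.ε]; ring

theorem scal_of_selfAdj (hW : IsSp PW) (h2 : (2 : F) ≠ 0) (hj : finrank F W = 2) {b : End F W}
    (hb : PW.adj b = b) : Scal b :=
  IsSp.scal hW hj fun x _ => mul_left_cancel₀ h2 (by
    have h1 := PW.adj_B b x x
    rw [hb] at h1
    linear_combination h1 + sp_comm hW x (b x))

/-- The failure of `Hpt` for the orthogonal factor yields the failure for the symplectic one. -/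
theorem not_hpt_flip (S : Set0 τ PU PW PV X) (hU : IsO PU) (hW : IsSp PW) (h2 : (2 : F) ≠ 0)
    (hj : finrank F W = 2) (hR : ∀ d ∈ PW.E, τ.KE 1 d ∈ X) (h : ¬ τ.Hpt PU X) :
    ¬ τ.flip.Hpt PW X := by
  obtain ⟨e, he, he0, ζ, hζ0, hζ⟩ : ∃ e, PU.Val e 0 ∧ e ≠ 0 ∧ ∃ ζ, ζ ≠ 0 ∧ Has X (τ.ZZ PU e ζ) := by
    obtain ⟨e, he, he0, h1 | ⟨L, y, h1, h3, h4⟩⟩ := OneO.exists_of_not_hpt S h
    · exact ⟨e, he, he0, h1⟩
    · refine ⟨e, he, he0, _, fun h5 => h4 (scal_of_selfAdj hW h2 hj ?_),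
        OneO.has_ZZ_of_lv S he h3 h1⟩
      rw [hU.ε, one_smul, sub_eq_zero] at h5
      exact h5
  have hs := OneO.adj_of_ZZ S he he0 hζ
  rw [hU.ε] at hs
  obtain ⟨x, hx⟩ : ∃ x, PW.B (ζ x) x ≠ 0 := by
    by_contra! hc
    obtain ⟨c, rfl⟩ := (IsSp.scal hW hj fun x _ => hc x).eq
    rw [adj_smul, adj_one, hW.σ] at hs
    refine hζ0 (smul_right_injective _ h2 ?_)
    simp only [smul_zero]
    linear_combination (norm := module) hs
  have hx0 : x ≠ 0 := fun e => hx (by simp [e])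
  let A : AddSubgroup (End F W) :=
    { carrier := {ζ | Has X (τ.ZZ PU e ζ)}
      zero_mem' := Has.id.congr fun v => by simp [TS.ZZ]
      add_mem' := fun {a b} h h' => (h.comp h').congr fun v => by
        simp only [TS.ZZ, map_add, TS.pB_tp, sing_B he, zero_smul, LinearMap.add_apply, map_zero]
        abel
      neg_mem' := fun {a} h => h.inv fun v => by simp [TS.ZZ, sing_B he] }
  have hA : ∀ t : F, (1 + t • PW.th x x) * ζ * (1 - t • PW.th x x) ∈ A := fun t => by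
    have := OneO.has_ZZ_KE hζ PU.Iso.one_mem (hR _ (unip_th_mem (hW.val x 0) (hW.val 0 t)))
    exact this
  have hζA : ζ ∈ A := hζ
  have h3 : (-(2 * PW.B (ζ x) x)) • PW.th x x ∈ A := by
    convert A.sub_mem (A.sub_mem (A.add_mem (hA 1) (hA (-1))) hζA) hζA using 1
    have : PW.th x x * ζ * PW.th x x = PW.B (ζ x) x • PW.th x x := by
      rw [mul_assoc, mul_th, th_mul_th]
    simp only [mul_sub, add_mul, one_mul, mul_one, smul_mul_assoc, mul_smul_comm, this]
    module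
  obtain ⟨c, hc, h4⟩ := h3
  intro H
  obtain ⟨d, hd⟩ := τ.flip_inA.1 (H x (hW.val _ _) hx0 c hc
    ⟨fun u => by simp [h4, TS.ZZ, sing_B (hW.val x 0)],
      fun y hy u => ⟨0, by simp [h4, TS.ZZ, hy]⟩⟩)
  have h5 : ∀ v, τ.ZZ PU e ((-(2 * PW.B (ζ x) x)) • PW.th x x) v = τ.K 1 d v := fun v =>
    (h4 v).symm.trans (LinearMap.congr_fun hd v)
  obtain ⟨e', -, he'⟩ := exists_partner he he0
  obtain ⟨y, -, hy⟩ := exists_partner (hW.val x 0) hx0
  have h6 := h5 (τ.tp e y)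
  have h7 := h5 (τ.tp e' y)
  simp only [TS.ZZ, TS.pB_tp, sing_B he, zero_smul, map_zero, add_zero, TS.K_tp,
    End.one_apply] at h6
  rw [TS.K_tp, End.one_apply, ← τ.tp_inj he0 h6] at h7
  simp [TS.ZZ, he', hy, h2, hx, τ.tp_ne_zero he0 hx0] at h7

theorem inQ_of_comm (cp : Compat τ PU PW PV) (r : Tens.R1 PU) {e : U} (he : PU.Val e 0)
    (he0 : e ≠ 0) {k : V ≃ₗ[F] V} (hk : k ∈ PV.Iso) (h1 : ∀ x, k (τ.tp e x) = τ.tp e x)
    (h2 : ∀ z (hz : PU.B z e = 0) v, k (τ.KL (r.eta he hz) v) = τ.KL (r.eta he hz) (k v)) :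
    τ.InQ PU e k := by
  refine ⟨h1, fun z hz x => ?_⟩
  obtain ⟨e', -, he'⟩ := exists_partner he he0
  obtain ⟨x', hx'⟩ := (TS.inQ_eich (τ := τ) he hz (r.val_half z)).apply
    (v := k (τ.tp e' x) - τ.tp e' x) (by rw [map_sub, cp.pB_apply hk h1, sub_self])
  refine ⟨x', ?_⟩
  have h3 := h2 z hz (τ.tp e' x)
  have h4 : τ.KL (r.eta he hz) (τ.tp e' x) =
      τ.tp e' x + τ.tp z x - τ.tp e ((PU.B e' z + PU.B z z / 2) • x) := by
    rw [TS.KL_tp, r.eta_apply, he']; simp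
  change τ.KL (r.eta he hz) _ = _ at hx'
  rw [map_sub, h4, ← h3, h4, map_sub, map_add, h1] at hx'
  linear_combination (norm := abel) hx'

theorem eq_one_of_sq (h2 : (2 : F) ≠ 0) {b : End F U} {x y : W} (hx : PW.B x x = 0)
    (hy : PW.B y x = 1)
    (h : (τ.K b (1 + PW.th x x) - 1) * (τ.K b (1 + PW.th x x) - 1) = 0) : b = 1 := by
  have hx0 : x ≠ 0 := fun e => by simp [e] at hy
  refine LinearMap.ext fun u => ?_
  have h3 : b (b u) = (2 : F) • b u - u := τ.flip.tp_inj hx0 (by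
    have := LinearMap.congr_fun h (τ.tp u x)
    simp only [End.mul_apply, LinearMap.sub_apply, TS.K_tp, End.one_apply, LinearMap.add_apply,
      th_apply, hx, zero_smul, add_zero, map_sub, LinearMap.zero_apply] at this
    simp only [TS.flip_tp, map_sub, map_smul, LinearMap.sub_apply, LinearMap.smul_apply]
    linear_combination (norm := module) this)
  refine τ.flip.tp_inj hx0 (smul_right_injective _ h2 ?_)
  have := LinearMap.congr_fun h (τ.tp u y)
  simp only [End.mul_apply, LinearMap.sub_apply, TS.K_tp, End.one_apply, LinearMap.add_apply,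
    th_apply, hx, hy, zero_smul, one_smul, add_zero, map_sub, map_add, LinearMap.zero_apply, h3,
    map_smul, LinearMap.smul_apply, map_zero, smul_zero] at this
  simp only [TS.flip_tp, End.one_apply]
  linear_combination (norm := module) this

theorem mem_NN_of_flip_same [Nontrivial U] {g : V ≃ₗ[F] V} (h : (τ.map g).flip.Same τ.flip) :
    g ∈ τ.NN := by
  rw [← TS.flip_NN]
  exact τ.flip.exists_eq_KE (TS.Same.symm_map' (τ := τ.flip) h)

theorem rp_o_sp (h : Good τ PU PW PV X) (r : Tens.R1 PU) (hW : IsSp PW) (hj : finrank F W = 2)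
    (hR : ∀ d ∈ PW.E, τ.KE 1 d ∈ X) : τ.RP X PU := by
  have : Nontrivial W := Module.nontrivial_of_finrank_pos (R := F) (by omega)
  have := r.nontrivial
  intro g hg e f he he0 hf0 hf
  have h' := h.map hg
  set τ' := τ.map g with hτ'
  have hR' : ∀ d ∈ PW.E, τ'.KE 1 d ∈ X := fun d hd => by
    convert X.mul_mem (X.mul_mem hg (hR d hd)) (X.inv_mem hg) using 1
    exact LinearEquiv.ext fun v => τ.map_K_apply' g _ _ v
  suffices key : ∀ x, x ≠ 0 → τ'.flip.InA (τ.flip.K (PW.th x x) 1) by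
    obtain ⟨a, d, had⟩ := mem_NN_of_flip_same (τ := τ) (g := g) (TS.same_of_cent
      (R := {n | ∃ x, x ≠ 0 ∧ n = PW.th x x}) (fun z hz => scal_of_eigen fun u =>
        eigen_of_comm_th (hW.val u 0) fun h0 => hz _ ⟨u, h0, rfl⟩) (by
          rintro _ ⟨x, hx, rfl⟩; exact key x hx))
    rw [hτ', had]
    exact (τ.same_map_KE a d).symm_map
  intro x hx
  obtain ⟨y, hy⟩ : τ.tp e x ∈ LinearMap.range (τ'.tp f) := hf ▸ ⟨x, rfl⟩
  have hy0 : y ≠ 0 := fun e => τ.tp_ne_zero he0 hx (by simp [← hy, e])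
  obtain ⟨x', -, hx'⟩ := exists_partner (hW.val x 0) hx
  obtain ⟨y', hy'⟩ : τ.tp e x' ∈ LinearMap.range (τ'.tp f) := hf ▸ ⟨x', rfl⟩
  have hyy : PW.B y' y ≠ 0 := fun h0 => by
    obtain ⟨a, rfl⟩ := Submodule.mem_span_singleton.1 (mem_span_of_two hj (hW.val y 0) hy0 h0)
    rw [map_smul, hy, ← map_smul] at hy'
    simp [← τ.tp_inj he0 hy', sing_B (hW.val x 0)] at hx'
  let c := τ.KE 1 (unip (th_sq (hW.val x 0)) 1)
  let c' := τ'.KE 1 (unip (th_sq (hW.val y 0)) (PW.B y' y)⁻¹)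
  have hc : c ∈ X := hR _ (unip_th_mem (hW.val x 0) (hW.val _ _))
  have hc' : c' ∈ X := hR' _ (unip_th_mem (hW.val y 0) (hW.val _ _))
  have h1 : ∀ w, c' (τ.tp e w) = c (τ.tp e w) := fun w => by
    obtain ⟨a, ha⟩ := Submodule.mem_span_singleton.1 (mem_span_of_two hj (hW.val x 0) hx
      (y := w - PW.B w x • x') (by simp [hx']))
    have hw : w = a • x + PW.B w x • x' := by rw [ha]; abel
    have e1 : c (τ.tp e x) = τ.tp e x := by simp [c, sing_B (hW.val x 0)]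
    have e2 : c (τ.tp e x') = τ.tp e x' + τ.tp e x := by simp [c, hx']
    have e3 : c' (τ.tp e x) = τ.tp e x := by simp [c', ← hy, sing_B (hW.val y 0)]
    have e4 : c' (τ.tp e x') = τ.tp e x' + τ.tp e x := by simp [c', ← hy, ← hy', smul_smul, hyy]
    rw [hw]
    simp only [map_add, map_smul, e1, e2, e3, e4]
  obtain ⟨b, hb⟩ := h.hpt e he he0 (c⁻¹ * c') (X.mul_mem (X.inv_mem hc) hc')
    (inQ_of_comm h.compat r he he0 (h.iso (X.mul_mem (X.inv_mem hc) hc'))
      (fun w => inv_mul_apply_eq.2 (h1 w)) fun z hz v => inv_mul_apply_eq.2 (by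
        obtain ⟨a, ha⟩ := h.inA_of_range_eq h' he hf0 hf (h.left _ (r.eta_mem he hz))
          (TS.inQ_eich he hz _)
        have e1 : ∀ v, c' (τ.KL (r.eta he hz) v) = τ.KL (r.eta he hz) (c' v) := fun v => by
          have e : ∀ v, τ.KL (r.eta he hz) v = τ'.K a 1 v := LinearMap.congr_fun ha
          simp [e, c', TS.K_K, -TS.KL_apply, ← End.one_eq_id]
        have e2 : ∀ v, c (τ.KL (r.eta he hz) v) = τ.KL (r.eta he hz) (c v) := fun v => by
          simp [c, TS.K_K, ← End.one_eq_id]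
        rw [e1, e2, LinearEquiv.mul_apply]
        exact congrArg _ (c.apply_symm_apply _).symm))
  have h3 : (c' : End F V) = τ.K b (1 + PW.th x x) := LinearMap.ext fun v => by
    have := inv_mul_apply_eq.1 (LinearMap.congr_fun hb v)
    simpa [c, TS.K_K, ← End.one_eq_id] using this
  have h4 : (c' : End F V) - 1 = (PW.B y' y)⁻¹ • τ'.K 1 (PW.th y y) := by
    simp [c', ← End.one_eq_id]
  have h5 := eq_one_of_sq (τ := τ) (b := b) r.two (sing_B (hW.val x 0)) hx' (by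
    rw [← h3, h4]; simp [TS.K_mul, th_sq (hW.val y 0)])
  rw [h3, h5] at h4
  refine τ'.flip_inA.2 ⟨(PW.B y' y)⁻¹ • PW.th y y, ?_⟩
  simpa using h4

theorem sum_Om_eq [Nontrivial W] (hs : ∀ g ∈ X, ¬ τ.flip.Same (τ.map g)) (y : End F V) :
    ∑ θ ∈ τ.Om X, θ y = τ.Θ y + τ.δ X y := by
  classical
  have hsub : τ.Bad X ⊆ τ.Om X := fun θ hθ => by
    obtain ⟨g, hg, h, -⟩ := TS.mem_Bad.1 hθ
    exact TS.mem_Om.2 ⟨g, hg, h⟩
  rw [← Finset.sum_sdiff hsub, TS.δ, LinearMap.sum_apply, Finset.sum_eq_single τ.Θ]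
  · intro θ hθ hne
    rw [Finset.mem_sdiff] at hθ
    obtain ⟨g, hg, rfl⟩ := TS.mem_Om.1 hθ.1
    by_cases h1 : τ.Same (τ.map g)
    · exact absurd h1.Θ_eq hne
    · exact absurd (TS.mem_Bad.2 ⟨g, hg, rfl, h1, hs g hg⟩) hθ.2
  · intro h
    refine absurd (Finset.mem_sdiff.2 ⟨TS.mem_Om.2 ⟨1, X.one_mem, rfl⟩, fun h1 => ?_⟩) h
    obtain ⟨g, -, h2, h3, -⟩ := TS.mem_Bad.1 h1
    exact h3 (TS.same_of_Θ_eq h2.symm)

theorem δ_one (h : Good τ PU PW PV X) [Nontrivial W] (r : Tens.R1 PU) (hR : τ.RP X PU)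
    (hF : Nat.card F = 3) (hk : finrank F U = 4) (d : End F W) : τ.δ X (τ.K 1 d) = 0 := by
  have key : ∀ e, PU.Val e 0 → e ≠ 0 → ∀ v,
      τ.δ X (τ.K 1 d) v ∈ LinearMap.range (τ.K (PU.th e e) 1) := fun e he he0 u => by
    obtain ⟨e', a1, a2⟩ := exists_partner he he0
    obtain ⟨w, b1, b2, b3⟩ := r.exists_aniso he a1 a2
    obtain ⟨v, c1, -, c2, c3, -⟩ := r.exists_plane hk he a1 a2 b1 b2 b3
    exact h.δ_mem_plane r hR he he0 b1 b3 hF hk c1 c2 c3 (by simp [TS.K_mul]) (by simp [TS.K_mul])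
      ((LinearMap.range (τ.K (PU.th e e) 1)).comap (LinearMap.applyₗ u)) fun z => ⟨_, rfl⟩
  obtain ⟨e, he, he0⟩ := r.exists_sing
  obtain ⟨e', a1, a2⟩ := exists_partner he he0
  exact LinearMap.ext fun v => TS.eq_zero_of_mem_range_th (key e he he0 v)
    (key e' a1 (fun e => by simp [e] at a2) v) (y := e') (by simp [a2]) (sing_B a1)

theorem trace_eq_zero (h : Good τ PU PW PV X) (r : Tens.R1 PU) (hR : τ.RP X PU)
    (hF : Nat.card F = 3) (hk : finrank F U = 4) (hj : finrank F W = 2) {g : V ≃ₗ[F] V}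
    (hg : g ∈ X) {d : End F W} (hd : LinearMap.trace F W d = 0) {e w : U} (he : PU.Val e 0)
    (he0 : e ≠ 0) (hw : PU.B w e = 0) (hww : PU.B w w ≠ 0) :
    LinearMap.trace F V ((τ.map g).K 1 d * τ.K (nn PU e w) 1) = 0 := by
  have : Nontrivial W := Module.nontrivial_of_finrank_pos (R := F) (by omega)
  have hs : ∀ g ∈ X, ¬ τ.flip.Same (τ.map g) := fun g _ => τ.not_swap_of_lt (by omega) g
  have h1 : ∑ θ ∈ τ.Om X, θ ((τ.map g).K 1 d) = 0 := by
    rw [TS.map_K_conj, TS.sum_Om_conj hg, sum_Om_eq hs, δ_one h r hR hF hk, TS.Θ_K, hd]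
    simp
  have h3 := sum_Om_eq hs (τ.K (nn PU e w) 1)
  rw [h.δ_nn r hR (Or.inr ⟨hF, hk⟩) he he0 hw hww, TS.Θ_K, add_zero, LinearMap.trace_one, hj] at h3
  refine mul_left_cancel₀ r.two ?_
  have h4 : (2 : F) • τ.K (nn PU e w) 1 = ∑ θ ∈ τ.Om X, θ (τ.K (nn PU e w) 1) := by
    rw [h3]; norm_cast
  rw [← smul_eq_mul, ← map_smul, ← mul_smul_comm, h4, Finset.mul_sum, map_sum,
    Finset.sum_congr rfl (g := fun θ =>
      LinearMap.trace F V (θ ((τ.map g).K 1 d) * τ.K (nn PU e w) 1)), ← map_sum, ← Finset.sum_mul,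
    h1]
  · simp
  · intro θ hθ
    obtain ⟨k, -, rfl⟩ := TS.mem_Om.1 hθ
    exact ((τ.map k).trace_Θ_mul _ _).symm

theorem trace_mul_K_th (z : End F V) (u v : U) (a : End F W) :
    LinearMap.trace F V (z * τ.K (PU.th u v) a) = LinearMap.trace F W (Slot.S τ PU z u v * a) := by
  induction z using τ.K_induction with
  | h0 => simp [Slot.S]
  | hadd a b ha hb => simp only [Slot.S, add_mul, map_add] at *; rw [ha, hb]
  | h p q => simp [Slot.S, TS.K_mul, TS.trace_K, TS.sl_K, trace_mul_th]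

theorem exists_th_one (hU : IsSp PU) (hk : finrank F U = 2) :
    ∃ x y : U, PU.B y x = 1 ∧ (1 : End F U) = PU.th y x - PU.th x y := by
  obtain ⟨x, -, hx⟩ := exists_sing_of_wild (wild_one_of_sp fun x => hU.val x 0) (by omega)
  obtain ⟨y, -, hy⟩ := exists_partner (hU.val x 0) hx
  refine ⟨x, y, hy, LinearMap.ext fun w => ?_⟩
  obtain ⟨a, ha⟩ := Submodule.mem_span_singleton.1 (mem_span_of_two hk (hU.val x 0) hx
    (y := w - PU.B w x • y) (by simp [hy]))
  have h1 := congrArg (fun v => PU.B v y) ha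
  simp only [map_smul, LinearMap.smul_apply, map_sub, LinearMap.sub_apply, sing_B (hU.val y 0),
    sp_comm hU x y, hy, smul_eq_mul] at h1
  simp only [End.one_apply, LinearMap.sub_apply, th_apply]
  rw [show PU.B w y = -a by linear_combination -h1, neg_smul, ha]
  abel

theorem adj_S (cp : Compat τ PU PW PV) (hW : IsO PW) (hV : IsSp PV) {z : End F V}
    (hz : PV.adj z = -z) (u y : U) : PW.adj (Slot.S τ PU z u y) = Slot.S τ PU z y u :=
  PW.adj_eq_of fun a b => by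
    rw [hW.comm a, Slot.S_apply, Slot.S_apply, ← cp.B_right, ← cp.B_right, ← PV.B_adj, hz,
      sp_comm hV (z (τ.tp u b))]
    simp

/-- The final step of the rigidity argument. -/
theorem same_of_orth (S : Set0 τ PU PW PV X) (hU : IsSp PU) (r : Tens.R1 PW) (hV : IsSp PV)
    (hk : finrank F U = 2) (hj : 4 ≤ finrank F W) (hR : ∀ d ∈ PW.E, τ.KE 1 d ∈ X)
    (horth : ∀ g ∈ X, ∀ x e w, PW.Val e 0 → e ≠ 0 → PW.B w e = 0 → PW.B w w ≠ 0 →
      LinearMap.trace F V ((τ.map g).K (PU.th x x) 1 * τ.K 1 (nn PW e w)) = 0)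
    {g : V ≃ₗ[F] V} (hg : g ∈ X) : τ.Same (τ.map g) := by
  have h2 := r.two
  let I : Submodule F (End F V) :=
    Submodule.span F {z | ∃ g ∈ X, ∃ x, z = (τ.map g).K (PU.th x x) 1}
  have hI : ∀ k ∈ X, ∀ z ∈ I, k.conj z ∈ I := fun k hk z hz => by
    refine (Submodule.span_le (p := I.comap k.conj.toLinearMap)).2 ?_ hz
    rintro _ ⟨g, hg, x, rfl⟩
    exact Submodule.subset_span ⟨k * g, X.mul_mem hk hg, x, by
      rw [TS.map_mul, TS.map_K_conj]; rfl⟩
  have hL : ∀ a ∈ PU.E, Slot.InvL τ (I : Set (End F V)) a := fun a ha z hz => hI _ (S.hL a ha) z hz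
  have hO : ∀ z ∈ I, ∀ e w, PW.Val e 0 → e ≠ 0 → PW.B w e = 0 → PW.B w w ≠ 0 →
      LinearMap.trace F V (z * τ.K 1 (nn PW e w)) = 0 := fun z hz e w a1 a2 a3 a4 => by
    refine (Submodule.span_le (p := LinearMap.ker (LinearMap.trace F V ∘ₗ
      LinearMap.mulRight F (τ.K 1 (nn PW e w))))).2 ?_ hz
    rintro _ ⟨g, hg, x, rfl⟩
    exact horth g hg x e w a1 a2 a3 a4
  have hB : ∀ z ∈ I, ∀ m ∈ I, z * m - m * z ∈ I := fun z hz m hm => by
    refine (Submodule.span_le (p := I.comap (LinearMap.mulRight F m - LinearMap.mulLeft F m))).2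
      ?_ hz
    rintro _ ⟨g, hg, x, rfl⟩
    have h3 := fun t => hI _ (TS.map_KL_mem hg (S.hL _ (unip_th_mem (hU.val x 0) (hU.val 0 t)))) m hm
    have h4 : ∀ t : F, ((τ.map g).KL (unip (th_sq (hU.val x 0)) t)).conj m =
        (1 + t • (τ.map g).K (PU.th x x) 1) * m * (1 - t • (τ.map g).K (PU.th x x) 1) := fun t => by
      change (τ.map g).K (1 + t • PU.th x x) 1 * m * (τ.map g).K (1 - t • PU.th x x) 1 = _
      simp
    refine (I.smul_mem_iff h2).1 ?_
    convert I.sub_mem (h3 1) (h3 (-1)) using 1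
    simp only [h4, LinearMap.sub_apply, LinearMap.mulRight_apply, LinearMap.mulLeft_apply,
      mul_sub, add_mul, one_mul, mul_one, smul_mul_assoc, mul_smul_comm]
    module
  obtain ⟨x₀, y₀, h1, hone⟩ := exists_th_one hU hk
  have hsc : ∀ z ∈ I, PV.adj z = -z → ∀ x, Scal (Slot.S τ PU z x x) := by
    intro z hz hz' x
    by_contra hc
    have hx : x ≠ 0 := fun e => hc (by rw [e, OneO.S_zero_left]; exact scal_zero)
    let D : Submodule F (End F W) :=
      { carrier := {s | PW.adj s = s ∧ ∀ x, τ.K (PU.th x x) s ∈ I}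
        add_mem' := fun ha hb => ⟨by rw [adj_add, ha.1, hb.1], fun x => by
          rw [map_add]; exact I.add_mem (ha.2 x) (hb.2 x)⟩
        zero_mem' := ⟨by simp, fun x => by simp⟩
        smul_mem' := fun c _ ha => ⟨by rw [adj_smul, ha.1, r.o.σ], fun x => by
          rw [map_smul]; exact I.smul_mem c (ha.2 x)⟩ }
    have hD : ∀ p, PW.Val p 0 → PW.th p p ∈ D := fun p hp =>
      Slot.th_mem_of_selfAdj r.o h2 (D := D) (Or.inl hj) (fun d hd c hc => ⟨by
        rw [adj_mul, adj_mul, hc.1, adj_of_iso (E_le_Iso hd),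
          show (d.symm : End F W) = (d⁻¹ : W ≃ₗ[F] W) from rfl,
          adj_of_iso (PW.Iso.inv_mem (E_le_Iso hd)), mul_assoc]; rfl, fun x => by
        have := hI _ (hR d hd) _ (hc.2 x)
        rw [← TS.map_K_conj, TS.map_KE_K] at this
        exact this⟩) (fun c hc => hc.1)
        ⟨_, ⟨adj_S S.cp r.o hV hz' x x, fun u => Slot.top_move hL
          (Slot.both_of_lam ⟨1, one_ne_zero, hU.val _ _⟩) (hU.val x 0) hx
          (Slot.top_lam hL (hU.val 0 1) (hU.val 0 (-1)) one_ne_zero (by simp)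
            (fun e => h2 (by linear_combination e)) (hU.val x 0) hz) (hU.val u 0)⟩, hc⟩ hp
    obtain ⟨p, hp, hp0⟩ := r.exists_sing
    obtain ⟨q, hq, hqp⟩ := exists_partner hp hp0
    have h3 := r.adj_eq_of_nn (z := PW.th p p * PW.th q q - PW.th q q * PW.th p p)
      fun e w a1 a2 a3 a4 => by
        have := hO _ (hB _ ((hD p hp).2 x₀) _ ((hD q hq).2 y₀)) e w a1 a2 a3 a4
        simp only [TS.K_mul, sub_mul, map_sub, TS.trace_K, mul_one, trace_mul_th, th_apply, h1,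
          one_smul, sp_comm hU x₀ y₀, map_smul, LinearMap.smul_apply] at this
        simp only [sub_mul, map_sub]
        simp only [smul_eq_mul] at this
        linear_combination -this
    rw [adj_sub, adj_mul, adj_mul, r.adj_th, r.adj_th] at h3
    have h4 := LinearMap.congr_fun h3 p
    simp only [LinearMap.sub_apply, End.mul_apply, th_apply, sing_B hp, zero_smul, map_zero,
      r.o.comm p q, hqp, one_smul] at h4
    exact hp0 (smul_right_injective _ h2 (by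
      simp only [smul_zero]; linear_combination (norm := module) -h4))
  have key : ∀ z ∈ I, PV.adj z = -z → τ.InA z := fun z hz hz' => by
    have h3 : Slot.S τ PU z y₀ x₀ = Slot.S τ PU z x₀ y₀ := by
      have h4 := r.adj_eq_of_nn (z := Slot.S τ PU z y₀ x₀ - Slot.S τ PU z x₀ y₀)
        fun e w a1 a2 a3 a4 => by
          have := hO z hz e w a1 a2 a3 a4
          rw [hone, map_sub, LinearMap.sub_apply, mul_sub, map_sub, trace_mul_K_th,
            trace_mul_K_th] at this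
          rw [sub_mul, map_sub, this]
      rw [adj_sub, adj_S S.cp r.o hV hz', adj_S S.cp r.o hV hz'] at h4
      exact smul_right_injective _ h2 (by simp only; linear_combination (norm := module) -h4)
    have h4 : Scal (Slot.S τ PU z x₀ y₀) := by
      have := ((hsc z hz hz' (x₀ + y₀)).sub (hsc z hz hz' x₀)).sub (hsc z hz hz' y₀)
      rw [Slot.S_add_left, Slot.S_add_right, Slot.S_add_right, h3] at this
      refine Scal.of_smul h2 ?_
      convert this using 1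
      module
    refine τ.inA_of_pB PU fun y u => ?_
    change Scal (Slot.S τ PU z u y)
    have e1 : u = PU.B u x₀ • y₀ - PU.B u y₀ • x₀ := LinearMap.congr_fun hone u
    have e2 : y = PU.B y x₀ • y₀ - PU.B y y₀ • x₀ := LinearMap.congr_fun hone y
    rw [e1, e2]
    simp only [sub_eq_add_neg, ← neg_smul, Slot.S_add_left, Slot.S_add_right, Slot.S_smul_left,
      Slot.S_smul_right, h3]
    exact ((((hsc z hz hz' y₀).smul _).add (h4.smul _)).smul _).add
      (((h4.smul _).add ((hsc z hz hz' x₀).smul _)).smul _)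
  refine TS.same_of_cent (R := {n | ∃ x, x ≠ 0 ∧ n = PU.th x x}) (fun z hz => scal_of_eigen fun u =>
    eigen_of_comm_th (hU.val u 0) fun h0 => hz _ ⟨u, h0, rfl⟩) ?_
  rintro _ ⟨x, -, rfl⟩
  refine key _ (Submodule.subset_span ⟨g, hg, x, rfl⟩) ?_
  rw [(S.cp.map (S.iso hg)).adj_K, adj_th, adj_one, hU.ε]
  simp

theorem flip_flip : τ.flip.flip = τ := by
  cases τ with
  | mk e =>
    simp only [TS.flip, TS.mk.injEq]
    exact LinearEquiv.ext fun x => by simp

theorem maximal_sp_two_four (h : Compat τ PU PW PV) (hU : IsSp PU) (r : Tens.R1 PW) (hV : IsSp PV)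
    (hk : finrank F U = 2) (hj : finrank F W = 4) (hF : Nat.card F = 3 ∨ 5 ≤ Nat.card F) :
    Geo.IsMaximalIn PV.E (τ.NN ⊓ PV.E) := by
  have : Nontrivial U := Module.nontrivial_of_finrank_pos (R := F) (by omega)
  have := r.nontrivial
  have a1 := exists_sing_of_wild (wild_one_of_sp fun x => hU.val x 0) (by omega)
  obtain ⟨g₀, h1, h2⟩ := exists_E_notMem h a1 r.exists_sing ⟨1, one_ne_zero, hV.val _ _⟩
  refine isMaximalIn_of inf_le_right ⟨g₀, h1, fun h => h2 h.1⟩ fun X hHX hXE g hg hgH => ?_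
  have S : Set0 τ PU PW PV X := ⟨h, hXE.trans E_le_Iso, fun a ha => hHX ⟨⟨a, 1, rfl⟩,
    h.KL_mem_E_sp (fun _ => hV.val _ _) a1 (E_le_Iso ha)⟩⟩
  have hR : ∀ d ∈ PW.E, τ.KE 1 d ∈ X := fun d hd => hHX ⟨⟨1, d, rfl⟩,
    τ.flip_KL d ▸ h.flip.KL_mem_E_sp (fun _ => hV.val _ _) r.exists_sing (E_le_Iso hd)⟩
  have S' : Set0 τ.flip PW PU PV X := ⟨h.flip, S.iso, fun d hd => τ.flip_KL d ▸ hR d hd⟩
  have hR' : ∀ a ∈ PU.E, τ.flip.KE 1 a ∈ X := fun a ha => by
    rw [TS.flip_KE]; exact S.hL a ha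
  by_cases H : τ.Hpt PU X
  swap
  · exact stepC_sp_o4 S hU r.o hV r.two hk hj.ge hR H
  have H' : τ.flip.Hpt PW X := by
    by_contra H'
    exact not_hpt_flip S' r.o hU r.two hk hR' H' (by rwa [flip_flip])
  have G : Good τ.flip PW PU PV X := ⟨h.flip, S.iso, S'.hL, H', fun _ => (r.o.sing_iff r.two).2⟩
  refine absurd ⟨?_, hXE hg⟩ hgH
  rcases hF with hF | hF
  · refine τ.exists_eq_KE (same_of_orth S hU r hV hk hj.ge hR (fun g hg x e w b1 b2 b3 b4 => ?_) hg)
    have := trace_eq_zero G r (rp_o_sp G r hU hk hR') hF hj hk hg (d := PU.th x x)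
      (by rw [trace_th, sing_B (hU.val x 0)]) b1 b2 b3 b4
    rwa [← TS.map_flip, TS.flip_K, TS.flip_K] at this
  · rw [← TS.flip_NN]
    exact τ.flip.exists_eq_KE ((G.same_or_comm_o_minus r hj hF hg).resolve_right
      (τ.flip.not_swap_of_lt (by omega) g))

end abstract

variable {F : Type*} [Field F] [Fintype F]

/-- `Sp_2 ⊗ O_4^-` in `Sp_8`. -/
theorem sp_tensor_two_four (hodd : Odd (Fintype.card F)) {m : ℕ}
    (e : (Fin m ⊕ Fin m) ≃ Fin 2 × Fin 4) (P : GL (Fin m ⊕ Fin m) F)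
    {f₁ : (Fin 2 → F) → (Fin 2 → F) → F} {f₂ : (Fin 4 → F) → (Fin 4 → F) → F}
    (hf₁ : Geo.IsSymplecticForm f₁) (hf₂ : Geo.IsSymmetricForm f₂)
    (hm₂ : ¬ Geo.IsPlusTypeOn (fun v => f₂ v v) ⊤)
    (hT : Geo.IsTensorFormStructure id (sympForm m F) f₁ f₂ e P) :
    Geo.IsMaximalIn (spGL m F) (Geo.tensorProductSubgroup 2 4 e P ⊓ spGL m F) := by
  have htwo := two_ne_zero_of_odd_card hodd
  obtain ⟨c, hc, hσ, h⟩ := exists_compat_std (spPolar hf₁) (symP hf₂ htwo) (spStd m F)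
    (by omega) (by omega) rfl (fun _ => rfl) (mul_one _).symm e P hT fun _ _ _ => trivial
  refine maximal_of_abs (mem_spGL_iff m) e P (maximal_sp_two_four h
    ((isSp_spPolar hf₁).scale hc hσ)
    ⟨isO_symP hf₂ htwo, htwo, by simp, fun hw => hm₂ (plus_of_W2 hf₂ htwo (by simp) hw)⟩
    (isSp_spPolar (isSymplecticForm_sympForm m F)) (by simp) (by simp) ?_)
  rw [Nat.card_eq_fintype_card]
  have := Fintype.one_lt_card (α := F)
  obtain ⟨k, hk⟩ := hodd
  omega

end Cfsg.Agent.H8.T4
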