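import Cfsg.Agent.H8.Anti
import Cfsg.Agent.H1.Basic
import Cfsg.Agent.H1.PermModule

/-!
The subspace `WW X l` attached to a subspace `l`: the stabiliser of `l` is transitive on the points
outside `WW X l`.
-/

set_option autoImplicit false

namespace Cfsg.Agent.H8.T2tv

open Module Cfsg.Agent.H7

variable {F : Type*} [Field F] {V : Type*} [AddCommGroup V] [Module F V]

/-- hyperplanes over `l` outside which the stabiliser of `l` is transitive on points -/
def GoodH (X : Subgroup (V ≃ₗ[F] V)) (l : Submodule F V) (φ : Dual F V) : Prop :=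
  φ ≠ 0 ∧ (∀ v ∈ l, φ v = 0) ∧
    ∀ z z', φ z ≠ 0 → φ z' ≠ 0 → ∃ g ∈ X, g ∈ stab l ∧ ∃ a : F, g z = a • z'

/-- the intersection of the good hyperplanes -/
def WW (X : Subgroup (V ≃ₗ[F] V)) (l : Submodule F V) : Submodule F V :=
  ⨅ φ : {φ : Dual F V // GoodH X l φ}, LinearMap.ker φ.1

variable {X : Subgroup (V ≃ₗ[F] V)} {l : Submodule F V}

theorem mem_WW {z : V} : z ∈ WW X l ↔ ∀ φ, GoodH X l φ → φ z = 0 := by
  simp [WW, Submodule.mem_iInf]

theorem le_WW : l ≤ WW X l := fun v hv => mem_WW.2 fun _ h => h.2.1 v hv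

theorem GoodH.conj {φ : Dual F V} (h : GoodH X l φ) {g : V ≃ₗ[F] V} (hg : g ∈ X) :
    GoodH X (l.map (g : V →ₗ[F] V)) (φ ∘ₗ (g.symm : V →ₗ[F] V)) := by
  refine ⟨fun e => h.1 ?_, ?_, ?_⟩
  · ext z
    simpa using congrArg (fun f : Dual F V => f (g z)) e
  · rintro _ ⟨v, hv, rfl⟩
    simpa using h.2.1 v hv
  · intro z z' hz hz'
    obtain ⟨k, hk, hkl, a, e⟩ := h.2.2 _ _ hz hz'
    refine ⟨g * k * g⁻¹, X.mul_mem (X.mul_mem hg hk) (X.inv_mem hg), ?_, a, ?_⟩
    · intro v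
      rw [Submodule.mem_map_equiv, Submodule.mem_map_equiv, hkl (g.symm v)]
      simp [LinearEquiv.mul_apply]
    · have e' : k (g.symm z) = a • g.symm z' := e
      simp [LinearEquiv.mul_apply, e']

theorem map_map_symm (g : V ≃ₗ[F] V) (l : Submodule F V) :
    (l.map (g : V →ₗ[F] V)).map (g.symm : V →ₗ[F] V) = l := by
  rw [← Submodule.map_comp]; simp

theorem apply_mem_WW {g : V ≃ₗ[F] V} (hg : g ∈ X) {z : V} (hz : z ∈ WW X l) :
    g z ∈ WW X (l.map (g : V →ₗ[F] V)) := by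
  rw [mem_WW] at hz ⊢
  intro φ hφ
  have := hφ.conj (g := g.symm) (X.inv_mem hg)
  rw [map_map_symm] at this
  simpa using hz _ this

theorem WW_map {g : V ≃ₗ[F] V} (hg : g ∈ X) :
    WW X (l.map (g : V →ₗ[F] V)) = (WW X l).map (g : V →ₗ[F] V) := by
  apply le_antisymm
  · intro z hz
    have := apply_mem_WW (g := g.symm) (X.inv_mem hg) hz
    rw [map_map_symm] at this
    exact ⟨_, this, by simp⟩
  · rintro _ ⟨z, hz, rfl⟩
    exact apply_mem_WW hg hz

theorem mem_stab_WW {g : V ≃ₗ[F] V} (hg : g ∈ X) (hl : g ∈ stab l) : g ∈ stab (WW X l) := by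
  rw [mem_stab_iff_map] at hl ⊢
  rw [← WW_map hg, hl]

/-- the stabiliser of `l` is transitive on the points outside `WW X l` -/
theorem WW_trans {z z' : V} (hz : z ∉ WW X l) (hz' : z' ∉ WW X l) :
    ∃ g ∈ X, g ∈ stab l ∧ ∃ a : F, g z = a • z' := by
  rw [mem_WW] at hz hz'
  push Not at hz hz'
  obtain ⟨φ, hφ, h1⟩ := hz
  obtain ⟨ψ, hψ, h2⟩ := hz'
  obtain ⟨w, -, hw1, hw2⟩ := exists_both_ne (⊤ : Submodule F V) φ.toAddMonoidHom ψ.toAddMonoidHom
    Submodule.mem_top Submodule.mem_top h1 h2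
  obtain ⟨g, hg, hgl, a, e⟩ := hφ.2.2 z w h1 hw1
  obtain ⟨k, hk, hkl, b, e'⟩ := hψ.2.2 w z' hw2 h2
  refine ⟨k * g, X.mul_mem hk hg, (stab l).mul_mem hkl hgl, a * b, ?_⟩
  rw [LinearEquiv.mul_apply, e, map_smul, e', smul_smul]

theorem GoodH.WW_ne_top {φ : Dual F V} (h : GoodH X l φ) : WW X l ≠ ⊤ := by
  intro e
  refine h.1 (LinearMap.ext fun z => ?_)
  exact mem_WW.1 (e ▸ Submodule.mem_top) φ h

/-- the stabiliser of a hyperplane -/
def hstab (X : Subgroup (V ≃ₗ[F] V)) (φ : Dual F V) : Subgroup X :=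
  (stab (LinearMap.ker φ)).subgroupOf X

theorem hstab_ne {φ : Dual F V} (g : hstab X φ) {z : V} (hz : φ z = 1) : φ (g.1.1 z) ≠ 0 := by
  intro e
  have := (g.2 z).2 e
  rw [LinearMap.mem_ker, hz] at this
  exact one_ne_zero this

/-- action of the stabiliser of a hyperplane on the points outside -/
@[reducible] noncomputable def hact (X : Subgroup (V ≃ₗ[F] V)) (φ : Dual F V) :
    MulAction (hstab X φ) {z : V // φ z = 1} where
  smul g z := ⟨(φ (g.1.1 z.1))⁻¹ • g.1.1 z.1, by simp [hstab_ne g z.2]⟩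
  one_smul z := Subtype.ext (by
    change (φ z.1)⁻¹ • z.1 = z.1
    simp [z.2])
  mul_smul g h z := Subtype.ext (by
    change (φ (g.1.1 (h.1.1 z.1)))⁻¹ • g.1.1 (h.1.1 z.1) =
      (φ (g.1.1 ((φ (h.1.1 z.1))⁻¹ • h.1.1 z.1)))⁻¹ • g.1.1 ((φ (h.1.1 z.1))⁻¹ • h.1.1 z.1)
    have := hstab_ne h z.2
    rw [map_smul, map_smul, smul_smul, smul_eq_mul, mul_inv, inv_inv]
    congr 1
    field_simp)

theorem card_affine [Finite F] [FiniteDimensional F V] {φ : Dual F V} (h : φ ≠ 0) :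
    Nat.card {z : V // φ z = 1} = Nat.card F ^ (finrank F V - 1) := by
  haveI : Finite V := Module.finite_of_finite F
  obtain ⟨w, hw⟩ := LinearMap.surjective_of_ne_zero h 1
  have e : {z : V // φ z = 1} ≃ {z : V // φ z = 0} :=
    { toFun := fun z => ⟨z.1 - w, by simp [z.2, hw]⟩
      invFun := fun z => ⟨z.1 + w, by simp [z.2, hw]⟩
      left_inv := fun z => by simp
      right_inv := fun z => by simp }
  have h1 := card_ker_dual h
  have hn : 0 < finrank F V := by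
    refine finrank_pos_iff_exists_ne_zero.2 ⟨w, ?_⟩
    rintro rfl; simp at hw
  rw [Module.natCard_eq_pow_finrank (K := F) (V := V), ← Nat.card_congr e,
    show finrank F V = finrank F V - 1 + 1 by omega, pow_succ] at h1
  exact Nat.eq_of_mul_eq_mul_right Nat.card_pos h1

/-- a Sylow `p`-subgroup is transitive on the points outside any hyperplane that it fixes -/
theorem T2.sylow_trans [Finite F] [FiniteDimensional F V] (ht : T2 X) (hn : 2 ≤ finrank F V)
    {p : ℕ} [Fact p.Prime] [CharP F p] (Q : Sylow p X) {φ : Dual F V}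
    (hQ : ∀ g ∈ Q, ∀ z, φ (g.1 z) = φ z) {z z' : V} (hz : φ z = 1) (hz' : φ z' = 1) :
    ∃ g ∈ Q, g.1 z = z' := by
  haveI : Finite V := Module.finite_of_finite F
  haveI : Finite (V ≃ₗ[F] V) := Finite.of_injective (fun g : V ≃ₗ[F] V => (g : V → V))
    DFunLike.coe_injective
  letI := hact X φ
  have h0 : φ ≠ 0 := by rintro rfl; simp at hz
  haveI : MulAction.IsPretransitive (hstab X φ) {z : V // φ z = 1} := ⟨fun x y => by
    obtain ⟨g, hg, a, b, e1, e2⟩ := ht.anti hn (x := x.1) (y := y.1) (φ := φ) (ψ := φ)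
      (by simp [x.2]) (by simp [y.2])
    have ha : a ≠ 0 := ne_zero_of_eq_smul (by intro e; have := x.2; simp [e] at this) e1
    have hb : b ≠ 0 := by
      have := e2 x.1
      rw [e1, map_smul, y.2, x.2] at this
      simpa [← show a = b by simpa using this] using ha
    refine ⟨⟨⟨g, hg⟩, fun v => by simp [e2, hb]⟩, Subtype.ext ?_⟩
    change (φ (g x.1))⁻¹ • g x.1 = y.1
    rw [e1, map_smul, y.2, smul_smul]; simp [ha]⟩
  have hle : (Q : Subgroup X) ≤ hstab X φ := fun g hg v => by simp [hQ g hg]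
  letI := Fintype.ofFinite F
  obtain ⟨f, -, hf⟩ := FiniteField.card F p
  have hc : Nat.card {z : V // φ z = 1} = p ^ (f * (finrank F V - 1)) := by
    rw [card_affine h0, Nat.card_eq_fintype_card, hf, ← pow_mul]
  obtain ⟨g, hg⟩ := (H1.Basic.sylow_isPretransitive hc (Q.subtype hle)).exists_smul_eq
    ⟨z, hz⟩ ⟨z', hz'⟩
  refine ⟨g.1.1, g.2, ?_⟩
  have e : (φ (g.1.1.1 z))⁻¹ • g.1.1.1 z = z' := congrArg Subtype.val hg
  have e0 : φ (g.1.1.1 z) = φ z := hQ g.1.1 g.2 z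
  rw [e0, hz] at e
  simpa using e

/-- the natural representation of a subgroup -/
def natRep (Q : Subgroup X) : Representation F Q V where
  toFun g := (g.1.1 : V →ₗ[F] V)
  map_one' := rfl
  map_mul' _ _ := rfl

theorem exists_fixed_dual [Finite F] [FiniteDimensional F V] {p : ℕ} [Fact p.Prime] [CharP F p]
    {Q : Subgroup X} (hQ : IsPGroup p Q) (hl : ∀ g ∈ Q, g.1 ∈ stab l) (h1 : l ≠ ⊤) :
    ∃ φ : Dual F V, φ ≠ 0 ∧ (∀ v ∈ l, φ v = 0) ∧ ∀ g ∈ Q, ∀ z, φ (g.1 z) = φ z := by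
  haveI : Finite V := Module.finite_of_finite F
  haveI : Finite (V ≃ₗ[F] V) := Finite.of_injective (fun g : V ≃ₗ[F] V => (g : V → V))
    DFunLike.coe_injective
  obtain ⟨φ, hφ, h0, hf⟩ := H1.PermModule.exists_fixed_ne_zero hQ (natRep Q).dual
    l.dualAnnihilator (fun g ψ hψ => by
      rw [Submodule.mem_dualAnnihilator] at hψ ⊢
      intro w hw
      exact hψ _ ((hl _ (g⁻¹).2 w).1 hw))
    (fun e => h1 (Submodule.dualAnnihilator_eq_bot_iff.1 e))
  refine ⟨φ, h0, (Submodule.mem_dualAnnihilator _).1 hφ, fun g hg z => ?_⟩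
  exact congrArg (fun f : Dual F V => f z) (hf (⟨g, hg⟩ : Q)⁻¹)

theorem T2.good_of_sylow [Finite F] [FiniteDimensional F V] (ht : T2 X) (hn : 2 ≤ finrank F V)
    {p : ℕ} [Fact p.Prime] [CharP F p] (Q : Sylow p X) (hl : ∀ g ∈ Q, g.1 ∈ stab l)
    (h1 : l ≠ ⊤) : ∃ φ, GoodH X l φ ∧ ∀ g ∈ Q, ∀ z, φ (g.1 z) = φ z := by
  obtain ⟨φ, h0, h2, h3⟩ := exists_fixed_dual Q.isPGroup' hl h1
  refine ⟨φ, ⟨h0, h2, fun z z' hz hz' => ?_⟩, h3⟩
  obtain ⟨g, hg, e⟩ := ht.sylow_trans hn Q h3 (z := (φ z)⁻¹ • z) (z' := (φ z')⁻¹ • z')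
    (by simp [hz]) (by simp [hz'])
  refine ⟨g.1, g.2, hl g hg, φ z * (φ z')⁻¹, ?_⟩
  rw [mul_smul, ← e, map_smul, smul_smul]; simp [hz]

/-- a `p`-group fixing a proper subspace `l` fixes a vector modulo `l` -/
theorem exists_fixed_mod [Finite F] [FiniteDimensional F V] {p : ℕ} [Fact p.Prime] [CharP F p]
    {Q : Subgroup X} (hQ : IsPGroup p Q) (hl : ∀ g ∈ Q, g.1 ∈ stab l) (h1 : l ≠ ⊤) :
    ∃ y, y ∉ l ∧ ∀ g ∈ Q, g.1 y - y ∈ l := by
  haveI : Finite V := Module.finite_of_finite F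
  haveI : Finite (V ≃ₗ[F] V) := Finite.of_injective (fun g : V ≃ₗ[F] V => (g : V → V))
    DFunLike.coe_injective
  haveI : Nontrivial (V ⧸ l) := Submodule.Quotient.nontrivial_iff.2 h1
  obtain ⟨y, -, h0, hf⟩ := H1.PermModule.exists_fixed_ne_zero hQ
    ((natRep Q).quotient l (fun g v hv => (hl _ g.2 v).1 hv)) ⊤ (fun _ _ _ => Submodule.mem_top)
    top_ne_bot
  obtain ⟨y, rfl⟩ := Submodule.Quotient.mk_surjective l y
  refine ⟨y, fun h => h0 ((Submodule.Quotient.mk_eq_zero l).2 h), fun g hg => ?_⟩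
  exact (Submodule.Quotient.eq l).1 (hf ⟨g, hg⟩)

theorem T2.exists_good [Finite F] [FiniteDimensional F V] (ht : T2 X) (hn : 3 ≤ finrank F V)
    {x y : V} (hx : x ≠ 0) (hy : y ∉ F ∙ x) : ∃ φ, GoodH X ((F ∙ x) ⊔ (F ∙ y)) φ := by
  obtain ⟨p, hp⟩ := CharP.exists F
  haveI : Fact p.Prime := ⟨CharP.char_is_prime F p⟩
  obtain ⟨Q⟩ : Nonempty (Sylow p X) := inferInstance
  have hb : (⊥ : Submodule F V) ≠ ⊤ := by
    intro e
    have := congrArg (fun U : Submodule F V => finrank F U) e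
    simp at this; omega
  obtain ⟨x0, hx0, fx⟩ := exists_fixed_mod (l := ⊥) Q.isPGroup' (fun g _ v => by simp) hb
  have fx' : ∀ g ∈ Q, g.1 x0 = x0 := fun g hg => by simpa [sub_eq_zero] using fx g hg
  have hx0' : x0 ≠ 0 := by simpa using hx0
  have s1 : ∀ g ∈ Q, g.1 ∈ stab (F ∙ x0) := fun g hg => mem_stab_of_forall fun v hv => by
    obtain ⟨c, rfl⟩ := Submodule.mem_span_singleton.1 hv
    rwa [map_smul, fx' g hg]
  obtain ⟨y0, hy0, fy⟩ := exists_fixed_mod Q.isPGroup' s1 (by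
    intro e
    have := finrank_span_singleton_le (F := F) x0
    rw [e, finrank_top] at this; omega)
  have s2 : ∀ g ∈ Q, g.1 ∈ stab ((F ∙ x0) ⊔ (F ∙ y0)) := fun g hg =>
    mem_stab_of_forall fun v hv => by
      obtain ⟨u, hu, c, rfl⟩ := mem_sup_span_singleton.1 hv
      rw [map_add, map_smul, show g.1 y0 = (g.1 y0 - y0) + y0 by simp, smul_add, ← add_assoc]
      exact mem_sup_span_singleton.2 ⟨_, Submodule.add_mem _ ((s1 g hg u).1 hu)
        (Submodule.smul_mem _ _ (fy g hg)), c, rfl⟩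
  obtain ⟨φ, hφ, -⟩ := ht.good_of_sylow (by omega) Q s2 (by
    intro e
    have h1 := finrank_sup_span_le (F ∙ x0) y0
    have := finrank_span_singleton_le (F := F) x0
    rw [e, finrank_top] at h1; omega)
  obtain ⟨g, hg, a, b, e1, e2⟩ := ht x0 y0 x y hx0' hy0 hx hy
  have ha := ne_zero_of_eq_smul hx0' e1
  have hb := ne_zero_of_eq_smul (by rintro rfl; exact hy0 (Submodule.zero_mem _)) e2
  have := hφ.conj hg
  rw [Submodule.map_sup, Submodule.map_span, Submodule.map_span, Set.image_singleton,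
    Set.image_singleton, LinearEquiv.coe_coe, e1, e2,
    Submodule.span_singleton_smul_eq (Ne.isUnit ha),
    Submodule.span_singleton_smul_eq (Ne.isUnit hb)] at this
  exact ⟨_, this⟩

theorem T2.WW_ne_top [Finite F] [FiniteDimensional F V] (ht : T2 X) (hn : 3 ≤ finrank F V)
    {x y : V} (hx : x ≠ 0) (hy : y ∉ F ∙ x) : WW X ((F ∙ x) ⊔ (F ∙ y)) ≠ ⊤ := by
  obtain ⟨φ, hφ⟩ := ht.exists_good hn hx hy
  exact hφ.WW_ne_top

end Cfsg.Agent.H8.T2tv
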