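import Cfsg.Agent.H8.WL

/-!
Symmetry of the relation `z ∈ WW X (x ⊔ y)`.
-/

set_option autoImplicit false

namespace Cfsg.Agent.H8.T2tv

open Module Cfsg.Agent.H7

variable {F : Type*} [Field F] {V : Type*} [AddCommGroup V] [Module F V]

open Classical in
theorem radon' [Fintype F] [FiniteDimensional F V] [Fintype V]
    (hn : 2 ≤ finrank F V) (d : V → ℤ) (h0 : d 0 = 0)
    (hs : ∀ (c : F) v, c ≠ 0 → d (c • v) = d v)
    (h : ∀ φ : Dual F V, φ ≠ 0 → ∑ v with φ v = 0, d v = 0) (v : V) : d v = 0 := by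
  haveI : Finite (Dual F V) := Module.finite_of_finite F
  haveI : Finite (Dual F (Dual F V)) := Module.finite_of_finite F
  letI := Fintype.ofFinite (Dual F V)
  letI := Fintype.ofFinite (Dual F (Dual F V))
  have := radon (V := Dual F V) (by rwa [Subspace.dual_finrank_eq])
    (fun w => d ((evalEquiv F V).symm w)) (by simpa using h0)
    (fun c w hc => by simp only [map_smul]; exact hs c _ hc) (fun φ hφ => by
      rw [← h φ hφ]
      symm
      refine Finset.sum_equiv (evalEquiv F V).toEquiv (fun v => by simp)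
        (fun v _ => (congrArg d ((evalEquiv F V).symm_apply_apply v)).symm))
    (evalEquiv F V v)
  rwa [LinearEquiv.symm_apply_apply] at this

/-- transitive on points implies transitive on hyperplanes -/
theorem hyp_of_pt [Finite F] [FiniteDimensional F V] {Y : Subgroup (V ≃ₗ[F] V)}
    (hn : 2 ≤ finrank F V) (ht : ∀ u u' : V, u ≠ 0 → u' ≠ 0 → ∃ g ∈ Y, ∃ a : F, g u = a • u')
    {φ ψ : Dual F V} (hφ : φ ≠ 0) (hψ : ψ ≠ 0) :
    ∃ g ∈ Y, ∃ b : F, ∀ z, ψ (g z) = b * φ z := by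
  classical
  haveI : Finite V := Module.finite_of_finite F
  haveI : Finite (Dual F V) := Module.finite_of_finite F
  letI := Fintype.ofFinite V
  letI := Fintype.ofFinite F
  letI := Fintype.ofFinite (Dual F V)
  let S : Dual F V → Prop := fun χ => ∃ g ∈ Y, ∃ b : F, b ≠ 0 ∧ ∀ z, χ (g z) = b * φ z
  let S' : Dual F V → Prop := fun χ => χ ≠ 0
  have hSS : ∀ χ, S χ → S' χ := by
    rintro χ ⟨g, -, b, hb, e2⟩ hc
    refine hφ (LinearMap.ext fun z => ?_)
    have := e2 z
    rw [hc] at this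
    exact (mul_eq_zero.1 this.symm).resolve_left hb
  have cst : ∀ R : Dual F V → Prop,
      (∀ χ, R χ → ∀ h ∈ Y, R (χ ∘ₗ (h.symm : V →ₗ[F] V))) →
      ∀ y y' : V, y ≠ 0 → y' ≠ 0 →
      (Finset.univ.filter fun χ : Dual F V => χ y = 0 ∧ R χ).card ≤
        (Finset.univ.filter fun χ : Dual F V => χ y' = 0 ∧ R χ).card := by
    intro R hR y y' hy hy'
    obtain ⟨h, hh, b, e2⟩ := ht y y' hy hy'
    have hb : b ≠ 0 := ne_zero_of_eq_smul hy e2
    refine Finset.card_le_card_of_injOn (fun χ => χ ∘ₗ (h.symm : V →ₗ[F] V)) ?_ ?_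
    · intro χ hχ
      simp only [Finset.coe_filter, Finset.mem_univ, true_and, Set.mem_setOf_eq] at hχ ⊢
      refine ⟨?_, hR χ hχ.2 h hh⟩
      have : h.symm y' = b⁻¹ • y := by
        rw [LinearEquiv.symm_apply_eq, map_smul, e2, smul_smul]; simp [hb]
      simp [this, hχ.1]
    · intro χ _ χ' _ e
      ext z
      simpa using congrArg (fun f : Dual F V => f (h z)) e
  have iS : ∀ χ, S χ → ∀ h ∈ Y, S (χ ∘ₗ (h.symm : V →ₗ[F] V)) := by
    rintro χ ⟨g, hg, b, hb, e2⟩ h hh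
    exact ⟨h * g, Y.mul_mem hh hg, b, hb, fun z => by simp [e2]⟩
  have iS' : ∀ χ, S' χ → ∀ h ∈ Y, S' (χ ∘ₗ (h.symm : V →ₗ[F] V)) := by
    intro χ hχ h _ e
    refine hχ (LinearMap.ext fun z => ?_)
    simpa using congrArg (fun f : Dual F V => f (h z)) e
  obtain ⟨y0, hy0⟩ := finrank_pos_iff_exists_ne_zero.1 (show 0 < finrank F V by omega)
  set β := (Finset.univ.filter fun χ : Dual F V => χ y0 = 0 ∧ S χ).card with hβ
  set M := (Finset.univ.filter fun χ : Dual F V => χ y0 = 0 ∧ S' χ).card with hM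
  have hMpos : 0 < M := by
    obtain ⟨x, -, hx0⟩ := exists_notMem_of_finrank_lt (U := F ∙ y0) (W := ⊤)
      (by rw [finrank_top]; have := finrank_span_singleton_le (F := F) y0; omega)
    obtain ⟨χ, h1, h2⟩ := exists_dual_one hx0
    exact Finset.card_pos.2 ⟨χ, by
      simp only [Finset.mem_filter, Finset.mem_univ, true_and, S']
      exact ⟨h2 _ (Submodule.mem_span_singleton_self _), by rintro rfl; simp at h1⟩⟩
  let d : Dual F V → ℤ := fun χ => (if S χ then (M : ℤ) else 0) - (if S' χ then (β : ℤ) else 0)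
  have hd : ∀ χ, d χ = 0 := by
    refine radon hn d ?_ ?_ ?_
    · have h1 : ¬ S' 0 := by simp [S']
      simp only [d, if_neg h1, if_neg (fun h => h1 (hSS _ h)), sub_zero]
    · intro c χ hc
      have h1 : S' (c • χ) ↔ S' χ := by simp [S', hc]
      have h2 : S (c • χ) ↔ S χ := by
        constructor
        · rintro ⟨g, hg, b, hb, e2⟩
          refine ⟨g, hg, c⁻¹ * b, mul_ne_zero (inv_ne_zero hc) hb, fun z => ?_⟩
          rw [mul_assoc, ← e2 z]; simp [hc]
        · rintro ⟨g, hg, b, hb, e2⟩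
          refine ⟨g, hg, c * b, mul_ne_zero hc hb, fun z => ?_⟩
          rw [mul_assoc, ← e2 z]; simp
      simp only [d, h1, h2]
    · intro y hy
      simp only [d]
      rw [Finset.sum_sub_distrib, ← Finset.sum_filter, ← Finset.sum_filter, Finset.filter_filter,
        Finset.filter_filter, Finset.sum_const, Finset.sum_const]
      have a1 : (Finset.univ.filter fun χ : Dual F V => χ y = 0 ∧ S χ).card = β := by
        convert le_antisymm (cst S iS y y0 hy hy0) (cst S iS y0 y hy0 hy)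
      have a2 : (Finset.univ.filter fun χ : Dual F V => χ y = 0 ∧ S' χ).card = M := by
        convert le_antisymm (cst S' iS' y y0 hy hy0) (cst S' iS' y0 y hy0 hy)
      rw [a1, a2]
      simp [mul_comm]
  have h1 := hd φ
  have hSφ : S φ := ⟨1, Y.one_mem, 1, one_ne_zero, by simp⟩
  simp only [d, if_pos hSφ, if_pos (hSS _ hSφ)] at h1
  have h2 := hd ψ
  have hS' : S' ψ := hψ
  simp only [d, if_pos hS'] at h2
  by_cases hS : S ψ
  · obtain ⟨g, hg, b, -, e2⟩ := hS
    exact ⟨g, hg, b, e2⟩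
  · rw [if_neg hS] at h2
    omega

/-- if the stabiliser of a point is transitive on the hyperplanes missing it, its orbits are unions
of punctured lines -/
theorem line_of_hyp [Finite F] [FiniteDimensional F V] {Y : Subgroup (V ≃ₗ[F] V)}
    (hn : 3 ≤ finrank F V) {u : V} (hu : u ≠ 0)
    (ht : ∀ φ ψ : Dual F V, φ u ≠ 0 → ψ u ≠ 0 →
      ∃ g ∈ Y, ∃ a b : F, g u = a • u ∧ ∀ z, ψ (g z) = b * φ z)
    {v : V} (hv : v ∉ F ∙ u) (c : F) :
    ∃ g ∈ Y, ∃ a b : F, g u = a • u ∧ g v = b • (v + c • u) := by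
  classical
  haveI : Finite V := Module.finite_of_finite F
  letI := Fintype.ofFinite V
  letI := Fintype.ofFinite F
  let O : V → Prop := fun w => ∃ g ∈ Y, ∃ a b : F, b ≠ 0 ∧ g u = a • u ∧ g v = b • w
  have hOu : ∀ w, O w → w ∉ F ∙ u := by
    rintro w ⟨g, -, a, b, hb, e1, e2⟩ hw
    obtain ⟨t, rfl⟩ := Submodule.mem_span_singleton.1 hw
    have ha := ne_zero_of_eq_smul hu e1
    refine hv (Submodule.mem_span_singleton.2 ⟨b * t * a⁻¹, g.injective ?_⟩)
    rw [map_smul, e1, e2, smul_smul, smul_smul]; simp [ha]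
  have hOs : ∀ (t : F) w, t ≠ 0 → (O (t • w) ↔ O w) := by
    intro t w ht0
    constructor
    · rintro ⟨g, hg, a, b, hb, e1, e2⟩
      exact ⟨g, hg, a, b * t, mul_ne_zero hb ht0, e1, by rw [e2, smul_smul]⟩
    · rintro ⟨g, hg, a, b, hb, e1, e2⟩
      exact ⟨g, hg, a, b * t⁻¹, mul_ne_zero hb (inv_ne_zero ht0), e1,
        by rw [e2, smul_smul]; simp [ht0]⟩
  let f : V → ℤ := fun w => if O w then 1 else 0
  -- the defect
  let e : V → ℤ := fun w => ∑ t : F, (f (w + t • u) - f w)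
  have e0 : ∀ t : F, e (t • u) = 0 := by
    intro t
    have h1 : ∀ s : F, f (s • u) = 0 := fun s =>
      if_neg fun h => hOu _ h (Submodule.mem_span_singleton.2 ⟨s, rfl⟩)
    simp only [e, ← add_smul, h1]; simp
  have es : ∀ (t : F) w, t ≠ 0 → e (t • w) = e w := by
    intro t w ht0
    simp only [e]
    refine (Finset.sum_equiv (Equiv.mulLeft₀ t ht0) (by simp) fun s _ => ?_).symm
    simp only [Equiv.mulLeft₀_apply, f]
    rw [mul_smul, ← smul_add, hOs t _ ht0, hOs t _ ht0]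
  have e1 : ∀ φ : Dual F V, φ u = 0 → ∑ w with φ w = 0, e w = 0 := by
    intro φ hφ
    simp only [e]
    rw [Finset.sum_comm]
    refine Finset.sum_eq_zero fun t _ => ?_
    rw [Finset.sum_sub_distrib, sub_eq_zero]
    exact Finset.sum_equiv (Equiv.addRight (t • u)) (fun w => by simp [hφ]) (fun w _ => rfl)
  have e2 : ∀ φ ψ : Dual F V, φ u ≠ 0 → ψ u ≠ 0 →
      ∑ w with φ w = 0, e w = ∑ w with ψ w = 0, e w := by
    intro φ ψ hφ hψ
    obtain ⟨g, hg, a, b, h1, h2⟩ := ht φ ψ hφ hψ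
    have ha := ne_zero_of_eq_smul hu h1
    have hb : b ≠ 0 := by
      rintro rfl
      have := h2 u
      rw [h1, map_smul, zero_mul, smul_eq_mul] at this
      exact mul_ne_zero ha hψ this
    have hf : ∀ w, f (g w) = f w := by
      intro w
      have : O (g w) ↔ O w := by
        constructor
        · rintro ⟨k, hk, a', b', hb', h3, h4⟩
          refine ⟨g⁻¹ * k, Y.mul_mem (Y.inv_mem hg) hk, a' * a⁻¹, b', hb', ?_, ?_⟩
          · apply g.injective
            rw [map_smul, h1, smul_smul]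
            simp [LinearEquiv.mul_apply, h3, ha]
          · apply g.injective
            simp [LinearEquiv.mul_apply, h4]
        · rintro ⟨k, hk, a', b', hb', h3, h4⟩
          refine ⟨g * k, Y.mul_mem hg hk, a' * a, b', hb', ?_, ?_⟩
          · rw [LinearEquiv.mul_apply, h3, map_smul, h1, smul_smul]
          · rw [LinearEquiv.mul_apply, h4, map_smul]
      simp only [f, this]
    refine Finset.sum_equiv g.toEquiv (fun w => by simp [h2, hb]) fun w _ => ?_
    simp only [e]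
    refine Finset.sum_equiv (Equiv.mulRight₀ a ha) (by simp) fun s _ => ?_
    simp only [Equiv.mulRight₀_apply, LinearEquiv.coe_toEquiv]
    rw [mul_smul, ← h1, ← map_smul, ← map_add, hf, hf]
  obtain ⟨φ0, hφ0⟩ := exists_dual_one' (F := F) hu
  set γ := ∑ w with φ0 w = 0, e w with hγ
  set q := Nat.card F with hq
  have hq2 : 2 ≤ q := Finite.one_lt_card
  obtain ⟨m, hm⟩ := Nat.exists_eq_add_of_le hn
  have hV : Nat.card V = q * (q * q * q ^ m) := by
    rw [Module.natCard_eq_pow_finrank (K := F), hm]; ring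
  set N := q * q * q ^ m with hN
  have hNq : q < N := by
    have : 0 < q ^ m := by positivity
    nlinarith
  have hk : ∀ φ : Dual F V, φ ≠ 0 → (Finset.univ.filter fun w => φ w = 0).card = N := by
    intro φ hφ
    have h1 := card_ker_dual hφ
    rw [Nat.card_eq_fintype_card, Fintype.card_subtype, hV] at h1
    apply Nat.eq_of_mul_eq_mul_right (show 0 < q by omega)
    rw [h1]; ring
  have hsp : (Finset.univ.filter (fun w : V => w ∈ F ∙ u)).card = q := by
    rw [← Fintype.card_subtype, ← Nat.card_eq_fintype_card,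
      Module.natCard_eq_pow_finrank (K := F), finrank_span_singleton hu, pow_one]
  -- the comparison function
  let k : V → ℤ := fun w => ((q : ℤ) - 1) - (if w ∈ F ∙ u then (N : ℤ) - 1 else 0) +
    (if w = 0 then (N : ℤ) - q else 0)
  let d : V → ℤ := fun w => ((q : ℤ) - 1) * ((N : ℤ) - 1) * e w - γ * k w
  have hd : ∀ w, d w = 0 := by
    refine radon' (F := F) (by omega) d ?_ ?_ ?_
    · have := e0 0
      rw [zero_smul] at this
      simp [d, k, this]
    · intro t w ht0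
      simp only [d, k, es t w ht0, Submodule.smul_mem_iff _ ht0, smul_eq_zero, ht0, false_or]
    · intro φ hφ
      simp only [d, k]
      rw [Finset.sum_sub_distrib, ← Finset.mul_sum, ← Finset.mul_sum, Finset.sum_add_distrib,
        Finset.sum_sub_distrib, Finset.sum_const, hk φ hφ, Finset.sum_ite_eq', ← Finset.sum_filter,
        Finset.filter_filter, Finset.sum_const]
      by_cases hφu : φ u = 0
      · have : (Finset.univ.filter fun w => φ w = 0 ∧ w ∈ F ∙ u).card = q := by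
          rw [← hsp]
          congr 1
          refine Finset.filter_congr fun w _ => ⟨fun h => h.2, fun h => ⟨?_, h⟩⟩
          obtain ⟨t, rfl⟩ := Submodule.mem_span_singleton.1 h
          simp [hφu]
        rw [e1 φ hφu, this]
        simp
        right; ring
      · have : (Finset.univ.filter fun w => φ w = 0 ∧ w ∈ F ∙ u).card = 1 := by
          rw [Finset.card_eq_one]
          refine ⟨0, Finset.ext fun w => ?_⟩
          simp only [Finset.mem_filter, Finset.mem_univ, true_and, Finset.mem_singleton]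
          constructor
          · rintro ⟨h1, h2⟩
            obtain ⟨t, rfl⟩ := Submodule.mem_span_singleton.1 h2
            rw [map_smul, smul_eq_mul, mul_eq_zero] at h1
            rw [h1.resolve_right hφu, zero_smul]
          · rintro rfl; simp
        rw [e2 φ φ0 hφu (by simp [hφ0]), this, ← hγ]
        simp
        ring
  have hγ0 : γ = 0 := by
    have h1 := hd u
    have h2 := e0 1
    rw [one_smul] at h2
    simp only [d, k, h2, if_pos (Submodule.mem_span_singleton_self u), if_neg hu] at h1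
    have : γ * ((N : ℤ) - q) = 0 := by linarith
    rcases mul_eq_zero.1 this with h | h
    · exact h
    · omega
  have hev : e v = 0 := by
    have h1 := hd v
    simp only [d, hγ0, zero_mul, sub_zero] at h1
    rcases mul_eq_zero.1 h1 with h | h
    · rcases mul_eq_zero.1 h with h | h <;> omega
    · exact h
  have hOv : O v := ⟨1, Y.one_mem, 1, 1, one_ne_zero, by simp, by simp⟩
  have hfv : f v = 1 := if_pos hOv
  have := (Finset.sum_eq_zero_iff_of_nonpos (fun t _ => by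
    rw [hfv]; simp only [f]; split_ifs <;> omega)).1 hev c (Finset.mem_univ _)
  by_cases hO : O (v + c • u)
  · obtain ⟨g, hg, a, b, -, h1, h2⟩ := hO
    exact ⟨g, hg, a, b, h1, h2⟩
  · rw [hfv] at this
    simp only [f, if_neg hO] at this
    omega

variable {X : Subgroup (V ≃ₗ[F] V)}

/-- the group induced on a quotient -/
def qgrp (X : Subgroup (V ≃ₗ[F] V)) (l : Submodule F V) : Subgroup ((V ⧸ l) ≃ₗ[F] (V ⧸ l)) where
  carrier := {h | ∃ g ∈ X, g ∈ stab l ∧ ∀ v, h (l.mkQ v) = l.mkQ (g v)}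
  one_mem' := ⟨1, X.one_mem, (stab l).one_mem, fun _ => rfl⟩
  mul_mem' := by
    rintro a b ⟨g, hg, hl, e⟩ ⟨k, hk, hl', e'⟩
    exact ⟨g * k, X.mul_mem hg hk, (stab l).mul_mem hl hl', fun v => by
      rw [LinearEquiv.mul_apply, LinearEquiv.mul_apply, e', e]⟩
  inv_mem' := by
    rintro a ⟨g, hg, hl, e⟩
    refine ⟨g⁻¹, X.inv_mem hg, (stab l).inv_mem hl, fun v => a.injective ?_⟩
    rw [e]; simp

theorem exists_qgrp {l : Submodule F V} {g : V ≃ₗ[F] V} (hg : g ∈ X) (hl : g ∈ stab l) :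
    ∃ h ∈ qgrp X l, ∀ v, h (l.mkQ v) = l.mkQ (g v) :=
  ⟨Submodule.Quotient.equiv l l g (mem_stab_iff_map.1 hl), ⟨g, hg, hl, fun _ => rfl⟩, fun _ => rfl⟩

theorem mem_stab_span [FiniteDimensional F V] {g : V ≃ₗ[F] V} {x : V} {a : F} (e : g x = a • x) :
    g ∈ stab (F ∙ x) := mem_stab_of_forall fun v hv => by
  obtain ⟨c, rfl⟩ := Submodule.mem_span_singleton.1 hv
  rw [map_smul, e, smul_smul]
  exact Submodule.mem_span_singleton.2 ⟨_, rfl⟩

theorem finrank_quot [FiniteDimensional F V] {x : V} (hx : x ≠ 0) :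
    finrank F (V ⧸ F ∙ x) + 1 = finrank F V := by
  rw [← Submodule.finrank_quotient_add_finrank (F ∙ x), finrank_span_singleton hx]

/-- transitivity on incident point-hyperplane pairs through a fixed point -/
theorem T2.flag [Finite F] [FiniteDimensional F V] (ht : T2 X) (hn : 3 ≤ finrank F V) {x : V}
    (hx : x ≠ 0) {φ ψ : Dual F V} (hφ : φ ≠ 0) (hψ : ψ ≠ 0) (h1 : φ x = 0) (h2 : ψ x = 0) :
    ∃ g ∈ X, ∃ a b : F, g x = a • x ∧ ∀ z, ψ (g z) = b * φ z := by
  have hq := finrank_quot (F := F) hx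
  have hk : ∀ χ : Dual F V, χ x = 0 → (F ∙ x) ≤ LinearMap.ker χ := fun χ h =>
    (Submodule.span_singleton_le_iff_mem _ _).2 h
  have hne : ∀ (χ : Dual F V) (h : χ x = 0), χ ≠ 0 → (F ∙ x).liftQ χ (hk χ h) ≠ 0 := by
    intro χ h h0 e
    refine h0 (LinearMap.ext fun z => ?_)
    exact congrArg (fun f : Dual F (V ⧸ F ∙ x) => f ((F ∙ x).mkQ z)) e
  obtain ⟨h, ⟨g, hg, hl, e⟩, b, e'⟩ := hyp_of_pt (Y := qgrp X (F ∙ x)) (by omega)
    (fun u u' hu hu' => by
      obtain ⟨u, rfl⟩ := (F ∙ x).mkQ_surjective u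
      obtain ⟨u', rfl⟩ := (F ∙ x).mkQ_surjective u'
      obtain ⟨g, hg, a, b, e1, e2⟩ := ht x u x u' hx
        (fun h => hu ((Submodule.Quotient.mk_eq_zero _).2 h)) hx
        (fun h => hu' ((Submodule.Quotient.mk_eq_zero _).2 h))
      obtain ⟨h, hh, e⟩ := exists_qgrp hg (mem_stab_span e1)
      exact ⟨h, hh, b, by rw [e, e2, map_smul]⟩) (hne φ h1 hφ) (hne ψ h2 hψ)
  obtain ⟨a, ha⟩ := Submodule.mem_span_singleton.1
    ((hl x).1 (Submodule.mem_span_singleton_self x))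
  refine ⟨g, hg, a, b, ha.symm, fun z => ?_⟩
  have := e' ((F ∙ x).mkQ z)
  rw [e] at this
  exact this

/-- the stabiliser of an incident point-hyperplane pair is transitive outside the hyperplane -/
theorem T2.flag_trans [Finite F] [FiniteDimensional F V] (ht : T2 X) (hn : 3 ≤ finrank F V)
    {x : V} (hx : x ≠ 0) {φ : Dual F V} (h1 : φ x = 0) {z z' : V} (hz : φ z ≠ 0)
    (hz' : φ z' ≠ 0) :
    ∃ g ∈ X, ∃ a b c : F, g x = a • x ∧ (∀ w, φ (g w) = b * φ w) ∧ g z = c • z' := by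
  obtain ⟨p, hp⟩ := CharP.exists F
  haveI : Fact p.Prime := ⟨CharP.char_is_prime F p⟩
  obtain ⟨Q⟩ : Nonempty (Sylow p X) := inferInstance
  have hb : (⊥ : Submodule F V) ≠ ⊤ := by
    intro e
    have := congrArg (fun U : Submodule F V => finrank F U) e
    simp at this; omega
  obtain ⟨x0, hx0, fx⟩ := exists_fixed_mod (l := ⊥) Q.isPGroup' (fun g _ v => by simp) hb
  have fx' : ∀ g ∈ Q, g.1 x0 = x0 := fun g hg => by simpa [sub_eq_zero] using fx g hg
  have hx0' : x0 ≠ 0 := by simpa using hx0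
  obtain ⟨φ0, h0, h2, h3⟩ := exists_fixed_dual (l := F ∙ x0) Q.isPGroup'
    (fun g hg => mem_stab_span (a := 1) (by rw [one_smul, fx' g hg])) (by
      intro e
      have := finrank_span_singleton_le (F := F) x0
      rw [e, finrank_top] at this; omega)
  have h4 : φ0 x0 = 0 := h2 _ (Submodule.mem_span_singleton_self _)
  have hφ : φ ≠ 0 := by rintro rfl; simp at hz
  obtain ⟨k1, hk1, a1, e1⟩ := ht.pt (by omega) hx hx0'
  have ha1 := ne_zero_of_eq_smul hx e1
  have e1' : k1.symm x0 = a1⁻¹ • x := by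
    rw [LinearEquiv.symm_apply_eq, map_smul, e1, smul_smul]; simp [ha1]
  obtain ⟨k2, hk2, a2, b2, e2, e3⟩ := ht.flag hn hx0' (φ := φ ∘ₗ (k1.symm : V →ₗ[F] V)) (ψ := φ0)
    (fun e => hz (by simpa using congrArg (fun f : Dual F V => f (k1 z)) e)) h0
    (by simp [e1', h1]) h4
  have ha2 := ne_zero_of_eq_smul hx0' e2
  have e4 : ∀ w, φ0 (k2 (k1 w)) = b2 * φ w := fun w => by simpa using e3 (k1 w)
  have hb2 : b2 ≠ 0 := by
    rintro rfl
    refine h0 (LinearMap.ext fun w => ?_)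
    simpa using e4 (k1.symm (k2.symm w))
  obtain ⟨g, hg, e⟩ := ht.sylow_trans (by omega) Q h3 (z := (b2 * φ z)⁻¹ • k2 (k1 z))
    (z' := (b2 * φ z')⁻¹ • k2 (k1 z')) (by rw [map_smul, e4, smul_eq_mul]; field_simp)
    (by rw [map_smul, e4, smul_eq_mul]; field_simp)
  have key : ∀ w, k2 (k1 (((k2 * k1)⁻¹ * g.1 * (k2 * k1)) w)) = g.1 (k2 (k1 w)) := fun w => by
    simp [LinearEquiv.mul_apply]
  refine ⟨(k2 * k1)⁻¹ * g.1 * (k2 * k1), X.mul_mem (X.mul_mem (X.inv_mem (X.mul_mem hk2 hk1)) g.2)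
    (X.mul_mem hk2 hk1), 1, 1, (b2 * φ z) * (b2 * φ z')⁻¹, ?_, fun w => ?_, ?_⟩
  · apply k1.injective
    apply k2.injective
    rw [key, one_smul, e1, map_smul, e2, map_smul, map_smul, fx' g hg]
  · apply mul_left_cancel₀ hb2
    rw [← e4, key, h3 g hg, e4, one_mul]
  · apply k1.injective
    apply k2.injective
    rw [key, map_smul, map_smul, mul_smul, ← e, map_smul, smul_smul,
      mul_inv_cancel₀ (mul_ne_zero hb2 hz), one_smul]

/-- the stabiliser of a point `x` of a plane moves the lines of the plane through `x` -/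
theorem T2.plane [Finite F] [FiniteDimensional F V] (ht : T2 X) (hn : 4 ≤ finrank F V) {x u v : V}
    (hx : x ≠ 0) (hu : u ∉ F ∙ x) (hv : v ∉ (F ∙ x) ⊔ (F ∙ u)) (c : F) :
    ∃ g ∈ X, ∃ a b d s t : F, g x = d • x ∧ g u = a • u + s • x ∧
      g v = b • (v + c • u) + t • x := by
  have hq := finrank_quot (F := F) hx
  obtain ⟨h, ⟨g, hg, hl, e⟩, a, b, e1, e2⟩ := line_of_hyp (Y := qgrp X (F ∙ x)) (by omega)
    (u := (F ∙ x).mkQ u) (fun h => hu ((Submodule.Quotient.mk_eq_zero _).1 h))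
    (fun φ ψ hφ hψ => by
      have z0 : (F ∙ x).mkQ x = 0 :=
        (Submodule.Quotient.mk_eq_zero _).2 (Submodule.mem_span_singleton_self x)
      obtain ⟨g1, hg1, a1, b1, e1, e2⟩ := ht.flag (by omega) hx (φ := φ ∘ₗ (F ∙ x).mkQ)
        (ψ := ψ ∘ₗ (F ∙ x).mkQ) (fun e => hφ (congrArg (fun f : Dual F V => f u) e))
        (fun e => hψ (congrArg (fun f : Dual F V => f u) e))
        (by rw [LinearMap.comp_apply, z0, map_zero]) (by rw [LinearMap.comp_apply, z0, map_zero])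
      have hb1 : b1 ≠ 0 := by
        rintro rfl
        have := e2 (g1.symm u)
        rw [zero_mul, LinearEquiv.apply_symm_apply] at this
        exact hψ this
      obtain ⟨g2, hg2, a2, b2, c2, e3, e4, e5⟩ := ht.flag_trans (by omega) hx
        (φ := ψ ∘ₗ (F ∙ x).mkQ) (by rw [LinearMap.comp_apply, z0, map_zero]) (z := g1 u) (z' := u)
        (by rw [e2]; exact mul_ne_zero hb1 hφ) hψ
      obtain ⟨h, hh, e⟩ := exists_qgrp (X.mul_mem hg2 hg1) (mem_stab_span (x := x) (a := a1 * a2)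
        (by rw [LinearEquiv.mul_apply, e1, map_smul, e3, smul_smul]))
      refine ⟨h, hh, c2, b2 * b1, by rw [e, LinearEquiv.mul_apply, e5, map_smul], fun z => ?_⟩
      obtain ⟨z, rfl⟩ := (F ∙ x).mkQ_surjective z
      have := e4 (g1 z)
      rw [e2] at this
      rw [e, mul_assoc]
      exact this)
    (v := (F ∙ x).mkQ v) (fun h => hv (by
      obtain ⟨t, ht⟩ := Submodule.mem_span_singleton.1 h
      rw [← map_smul] at ht
      exact mem_sup_span_singleton.2 ⟨v - t • u, (Submodule.Quotient.eq _).1 ht.symm, t, by simp⟩))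
    c
  obtain ⟨d, hd⟩ := Submodule.mem_span_singleton.1
    ((hl x).1 (Submodule.mem_span_singleton_self x))
  rw [e, ← map_smul] at e1
  rw [e, ← map_smul, ← map_add, ← map_smul] at e2
  obtain ⟨s, hs⟩ := Submodule.mem_span_singleton.1 ((Submodule.Quotient.eq _).1 e1)
  obtain ⟨t, ht'⟩ := Submodule.mem_span_singleton.1 ((Submodule.Quotient.eq _).1 e2)
  exact ⟨g, hg, a, b, d, s, t, hd.symm, by rw [hs]; simp, by rw [ht']; simp⟩

theorem T2.WW_symm [Finite F] [FiniteDimensional F V] (ht : T2 X) (hn : 4 ≤ finrank F V)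
    {x y z : V} (hx : x ≠ 0) (hy : y ∉ F ∙ x) (hz0 : z ∉ F ∙ x)
    (h : z ∈ WW X ((F ∙ x) ⊔ (F ∙ y))) : y ∈ WW X ((F ∙ x) ⊔ (F ∙ z)) := by
  by_cases hz : z ∈ (F ∙ x) ⊔ (F ∙ y)
  · apply le_WW
    by_contra hc
    exact notMem_sup_span_swap hz0 hc hz
  have m1 : ∀ a b : V, a ∈ (F ∙ a) ⊔ (F ∙ b) := fun a b =>
    Submodule.mem_sup_left (Submodule.mem_span_singleton_self a)
  have m2 : ∀ a b : V, b ∈ (F ∙ a) ⊔ (F ∙ b) := fun a b =>
    Submodule.mem_sup_right (Submodule.mem_span_singleton_self b)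
  have hu : y + z ∉ F ∙ x := fun hm => hz (by
    simpa using Submodule.sub_mem _ (Submodule.mem_sup_left hm) (m2 x y))
  have hv : y ∉ (F ∙ x) ⊔ (F ∙ (y + z)) := notMem_sup_span_swap hy fun hm => hz (by
    simpa using Submodule.sub_mem _ hm (m2 x y))
  obtain ⟨g, hg, a, b, d, s, t, e0, e1, e2⟩ := ht.plane hn hx hu hv (-1)
  have hd := ne_zero_of_eq_smul hx e0
  have back : ∀ (w : V) (r : F), g w = r • x → w ∈ F ∙ x := fun w r e =>
    Submodule.mem_span_singleton.2 ⟨r * d⁻¹, g.injective (by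
      rw [map_smul, e0, e, smul_smul]; simp [hd])⟩
  have ha : a ≠ 0 := by
    rintro rfl
    exact hu (back _ s (by simpa using e1))
  have hle : ((F ∙ x) ⊔ (F ∙ y)).map (g : V →ₗ[F] V) = (F ∙ x) ⊔ (F ∙ z) := by
    apply Submodule.eq_of_le_of_finrank_le
    · rw [Submodule.map_le_iff_le_comap, sup_le_iff, Submodule.span_singleton_le_iff_mem,
        Submodule.span_singleton_le_iff_mem]
      constructor
      · change g x ∈ (F ∙ x) ⊔ (F ∙ z)
        rw [e0]; exact Submodule.smul_mem _ _ (m1 x z)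
      · change g y ∈ (F ∙ x) ⊔ (F ∙ z)
        rw [e2, show y + (-1 : F) • (y + z) = -z by simp]
        exact Submodule.add_mem _ (Submodule.smul_mem _ _ (Submodule.neg_mem _ (m2 x z)))
          (Submodule.smul_mem _ _ (m1 x z))
    · rw [LinearEquiv.finrank_map_eq]
      have h1 := finrank_sup_span_le (F ∙ x) z
      have h2 : (F ∙ x) < (F ∙ x) ⊔ (F ∙ y) := lt_of_le_of_ne le_sup_left (fun e => hy (e ▸ m2 x y))
      have := Submodule.finrank_lt_finrank_of_lt h2
      omega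
  have h1 := apply_mem_WW hg (Submodule.add_mem _ (le_WW (m2 x y)) h)
  rw [hle, e1] at h1
  have h2 := Submodule.sub_mem _ (Submodule.sub_mem _ h1
    (Submodule.smul_mem _ s (le_WW (m1 x z)))) (Submodule.smul_mem _ a (le_WW (m2 x z)))
  rw [show a • (y + z) + s • x - s • x - a • z = a • y by rw [smul_add]; abel] at h2
  exact (Submodule.smul_mem_iff _ ha).1 h2

theorem indep_swap {a b : V} (ha : a ≠ 0) (hb : b ∉ F ∙ a) : b ≠ 0 ∧ a ∉ F ∙ b := by
  refine ⟨by rintro rfl; exact hb (Submodule.zero_mem _), fun hm => ?_⟩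
  obtain ⟨c, hc⟩ := Submodule.mem_span_singleton.1 hm
  have hc0 : c ≠ 0 := by rintro rfl; exact ha (by simpa using hc.symm)
  exact hb (Submodule.mem_span_singleton.2 ⟨c⁻¹, by rw [← hc, smul_smul]; simp [hc0]⟩)

open Classical in
/-- the subspace attached to a pair of vectors -/
noncomputable def W2 (X : Subgroup (V ≃ₗ[F] V)) (a b : V) : Submodule F V :=
  if a ≠ 0 ∧ b ∉ F ∙ a then WW X ((F ∙ a) ⊔ (F ∙ b)) else ⊤

theorem W2_eq {a b : V} (ha : a ≠ 0) (hb : b ∉ F ∙ a) : W2 X a b = WW X ((F ∙ a) ⊔ (F ∙ b)) :=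
  if_pos ⟨ha, hb⟩

theorem W2_top {a b : V} (h : ¬ (a ≠ 0 ∧ b ∉ F ∙ a)) : W2 X a b = ⊤ := if_neg h

theorem W2_comm (a b : V) : W2 X a b = W2 X b a := by
  by_cases h : a ≠ 0 ∧ b ∉ F ∙ a
  · rw [W2_eq h.1 h.2, W2_eq (indep_swap h.1 h.2).1 (indep_swap h.1 h.2).2, sup_comm]
  · rw [W2_top h, W2_top fun h' => h (indep_swap h'.1 h'.2)]

theorem sup_le_W2 (a b : V) : (F ∙ a) ⊔ (F ∙ b) ≤ W2 X a b := by
  by_cases h : a ≠ 0 ∧ b ∉ F ∙ a
  · rw [W2_eq h.1 h.2]; exact le_WW
  · rw [W2_top h]; exact le_top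

theorem T2.W2_sym'0 [Finite F] [FiniteDimensional F V] (ht : T2 X) (hn : 4 ≤ finrank F V)
    {a b x : V} (h : x ∈ W2 X a b) : b ∈ W2 X a x := by
  by_cases h1 : a ≠ 0 ∧ x ∉ F ∙ a
  · by_cases h2 : b ∈ F ∙ a
    · exact sup_le_W2 a x (Submodule.mem_sup_left h2)
    · rw [W2_eq h1.1 h2] at h
      rw [W2_eq h1.1 h1.2]
      exact ht.WW_symm hn h1.1 h2 h1.2 h
  · rw [W2_top h1]; trivial

theorem T2.W2_sym' [Finite F] [FiniteDimensional F V] (ht : T2 X) (hn : 4 ≤ finrank F V)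
    (a b x : V) : x ∈ W2 X a b ↔ b ∈ W2 X a x := ⟨ht.W2_sym'0 hn, ht.W2_sym'0 hn⟩

theorem T2.W2_sym [Finite F] [FiniteDimensional F V] (ht : T2 X) (hn : 4 ≤ finrank F V)
    (a b x : V) : x ∈ W2 X a b ↔ a ∈ W2 X x b := by
  rw [W2_comm a b, W2_comm x b]
  exact ht.W2_sym' hn b a x

theorem map_pair (g : V ≃ₗ[F] V) (a b : V) :
    ((F ∙ a) ⊔ (F ∙ b)).map (g : V →ₗ[F] V) = (F ∙ g a) ⊔ (F ∙ g b) := by
  rw [Submodule.map_sup, Submodule.map_span, Submodule.map_span, Set.image_singleton,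
    Set.image_singleton, LinearEquiv.coe_coe]

theorem indep_map (g : V ≃ₗ[F] V) {a b : V} :
    (g a ≠ 0 ∧ g b ∉ F ∙ g a) ↔ (a ≠ 0 ∧ b ∉ F ∙ a) := by
  rw [g.map_ne_zero_iff]
  refine and_congr_right fun _ => not_congr ?_
  rw [Submodule.mem_span_singleton, Submodule.mem_span_singleton]
  exact exists_congr fun c => by rw [← map_smul, g.injective.eq_iff]

theorem W2_map {g : V ≃ₗ[F] V} (hg : g ∈ X) (a b : V) :
    W2 X (g a) (g b) = (W2 X a b).map (g : V →ₗ[F] V) := by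
  by_cases h : a ≠ 0 ∧ b ∉ F ∙ a
  · have h' := (indep_map g).2 h
    rw [W2_eq h.1 h.2, W2_eq h'.1 h'.2, ← map_pair, WW_map hg]
  · rw [W2_top h, W2_top fun h' => h ((indep_map g).1 h'), Submodule.map_top, LinearEquiv.range]

theorem apply_mem_W2 {g : V ≃ₗ[F] V} (hg : g ∈ X) {a b x : V} (h : x ∈ W2 X a b) :
    g x ∈ W2 X (g a) (g b) := by
  rw [W2_map hg]; exact ⟨x, h, rfl⟩

theorem W2_smul {s t : F} (hs : s ≠ 0) (ht : t ≠ 0) (a b : V) :
    W2 X (s • a) (t • b) = W2 X a b := by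
  have e1 : (F ∙ s • a) = F ∙ a := Submodule.span_singleton_smul_eq (Ne.isUnit hs) a
  have e2 : (F ∙ t • b) = F ∙ b := Submodule.span_singleton_smul_eq (Ne.isUnit ht) b
  have h1 : (s • a ≠ 0 ∧ t • b ∉ F ∙ s • a) ↔ (a ≠ 0 ∧ b ∉ F ∙ a) := by
    rw [e1, Submodule.smul_mem_iff _ ht, smul_ne_zero_iff]
    simp [hs]
  by_cases h : a ≠ 0 ∧ b ∉ F ∙ a
  · rw [W2_eq h.1 h.2, W2_eq (h1.2 h).1 (h1.2 h).2, e1, e2]
  · rw [W2_top h, W2_top fun h' => h (h1.1 h')]

theorem T2.W2_ne_top [Finite F] [FiniteDimensional F V] (ht : T2 X) (hn : 3 ≤ finrank F V)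
    {a b : V} (ha : a ≠ 0) (hb : b ∉ F ∙ a) : W2 X a b ≠ ⊤ := by
  rw [W2_eq ha hb]; exact ht.WW_ne_top hn ha hb

theorem T2.finrank_W2 (ht : T2 X) {a b a' b' : V} (ha : a ≠ 0) (hb : b ∉ F ∙ a) (ha' : a' ≠ 0)
    (hb' : b' ∉ F ∙ a') : finrank F (W2 X a b) = finrank F (W2 X a' b') := by
  obtain ⟨g, hg, s, t, e1, e2⟩ := ht a b a' b' ha hb ha' hb'
  rw [← W2_smul (ne_zero_of_eq_smul ha e1) (ne_zero_of_eq_smul (indep_swap ha hb).1 e2) a' b',
    ← e1, ← e2, W2_map hg, LinearEquiv.finrank_map_eq]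

/-- the common codimension -/
theorem T2.exists_codim [Finite F] [FiniteDimensional F V] (ht : T2 X) (hn : 3 ≤ finrank F V) :
    ∃ c : ℕ, 1 ≤ c ∧ c + 2 ≤ finrank F V ∧ (∀ a b, finrank F V ≤ finrank F (W2 X a b) + c) ∧
      ∀ a b, a ≠ 0 → b ∉ F ∙ a → finrank F (W2 X a b) + c = finrank F V := by
  obtain ⟨a, ha⟩ := finrank_pos_iff_exists_ne_zero.1 (show 0 < finrank F V by omega)
  obtain ⟨b, -, hb⟩ := exists_notMem_of_finrank_lt (U := F ∙ a) (W := ⊤)
    (by rw [finrank_top]; have := finrank_span_singleton_le (F := F) a; omega)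
  have h1 := Submodule.finrank_lt (ht.W2_ne_top hn ha hb)
  have h2 : (F ∙ a) < (F ∙ a) ⊔ (F ∙ b) := lt_of_le_of_ne le_sup_left
    (fun e => hb (e ▸ Submodule.mem_sup_right (Submodule.mem_span_singleton_self b)))
  have h3 := Submodule.finrank_lt_finrank_of_lt h2
  rw [finrank_span_singleton ha] at h3
  have h4 := Submodule.finrank_mono (sup_le_W2 (X := X) a b)
  have h5 : ∀ a' b', a' ≠ 0 → b' ∉ F ∙ a' →
      finrank F (W2 X a' b') + (finrank F V - finrank F (W2 X a b)) = finrank F V := by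
    intro a' b' ha' hb'
    rw [ht.finrank_W2 ha' hb' ha hb]; omega
  refine ⟨_, by omega, by omega, fun a' b' => ?_, h5⟩
  by_cases h : a' ≠ 0 ∧ b' ∉ F ∙ a'
  · exact (h5 a' b' h.1 h.2).ge
  · rw [W2_top h, finrank_top]; omega

theorem W2_trans {a b z z' : V} (hz : z ∉ W2 X a b) (hz' : z' ∉ W2 X a b) :
    ∃ g ∈ X, g ∈ stab ((F ∙ a) ⊔ (F ∙ b)) ∧ ∃ c : F, g z = c • z' := by
  by_cases h : a ≠ 0 ∧ b ∉ F ∙ a
  · rw [W2_eq h.1 h.2] at hz hz'
    exact WW_trans hz hz'
  · rw [W2_top h] at hz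
    exact (hz trivial).elim

end Cfsg.Agent.H8.T2tv
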